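import Mathlib

set_option autoImplicit false

/-!
A homomorphism from its graph, given as a subgroup of the product.
-/

namespace H95.FischG

theorem graph_hom {A B : Type*} [Group A] [Group B] (R : Subgroup (A × B))
    (h1 : ∀ a, ∃ b, (a, b) ∈ R) (h2 : ∀ b, ∃ a, (a, b) ∈ R)
    (h3 : ∀ b, ((1 : A), b) ∈ R → b = 1) :
    ∃ f : A →* B, Function.Surjective f ∧ ∀ a b, (a, b) ∈ R ↔ f a = b := by
  classical
  have huniq : ∀ a b b', (a, b) ∈ R → (a, b') ∈ R → b = b' := by
    intro a b b' hb hb'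
    have h := R.mul_mem hb (R.inv_mem hb')
    have h' : ((1 : A), b * b'⁻¹) ∈ R := by
      have e : (a, b) * (a, b')⁻¹ = ((1 : A), b * b'⁻¹) := by
        ext <;> simp
      rwa [e] at h
    exact mul_inv_eq_one.1 (h3 _ h')
  choose f hf using h1
  refine ⟨⟨⟨f, ?_⟩, ?_⟩, ?_, ?_⟩
  · exact huniq _ _ _ (hf 1) R.one_mem
  · intro a a'
    exact huniq _ _ _ (hf _) (R.mul_mem (hf a) (hf a'))
  · intro b
    obtain ⟨a, ha⟩ := h2 b
    exact ⟨a, huniq _ _ _ (hf a) ha⟩
  · intro a b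
    refine ⟨fun h => huniq _ _ _ (hf a) h, fun h => ?_⟩
    rw [← h]
    exact hf a

/-- The isomorphism between the quotient by the centre and the other factor. -/
theorem graph_center {A B : Type*} [Group A] [Group B] (R : Subgroup (A × B))
    (h1 : ∀ a, ∃ b, (a, b) ∈ R) (h2 : ∀ b, ∃ a, (a, b) ∈ R)
    (h3 : ∀ b, ((1 : A), b) ∈ R → b = 1) (h4 : ∀ a, (a, (1 : B)) ∈ R → a ∈ Subgroup.center A)
    (hZ : Subgroup.center B = ⊥) :
    ∃ e : B ≃* (A ⧸ Subgroup.center A), ∀ a b, (a, b) ∈ R ↔ e b = QuotientGroup.mk a := by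
  obtain ⟨f, hf, hR⟩ := graph_hom R h1 h2 h3
  have hker : f.ker = Subgroup.center A := by
    apply le_antisymm
    · intro a ha
      exact h4 a ((hR a 1).2 ha)
    · intro a ha
      have h5 : f a ∈ Subgroup.center B := by
        rw [Subgroup.mem_center_iff] at ha ⊢
        intro g
        obtain ⟨g, rfl⟩ := hf g
        rw [← map_mul, ha, map_mul]
      rw [hZ, Subgroup.mem_bot] at h5
      exact h5
  let e1 : A ⧸ Subgroup.center A ≃* A ⧸ f.ker := QuotientGroup.quotientMulEquivOfEq hker.symm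
  let e2 : A ⧸ f.ker ≃* B := QuotientGroup.quotientKerEquivOfSurjective f hf
  refine ⟨(e1.trans e2).symm, ?_⟩
  intro a b
  rw [hR, MulEquiv.symm_apply_eq]
  have : (e1.trans e2) (QuotientGroup.mk a) = f a := rfl
  rw [this]
  exact eq_comm

end H95.FischG
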