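import Mathlib
import Cfsg.Prelude.Def_Classical
import Cfsg.Agent.Lib.H49.Unitary
import Cfsg.Agent.Lib.H16.Herm
import Cfsg.Agent.Lib.H92.Herm4

set_option autoImplicit false

/-!
Non-degenerate hermitian forms over the field with four elements: standard form, and the
description of the isotropic vectors by a generating set closed under transvections.
-/

namespace H95.FischSU

open Module Cfsg
open scoped Matrix

variable {F : Type*} [Field F] [Fintype F]

section Std

variable {V : Type*} [AddCommGroup V] [Module F V] [FiniteDimensional F V]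

/-- Hermitian spaces are standard. -/
theorem exists_std (hF : Fintype.card F = 4) (h : V → V → F)
    (hadd : ∀ u v w, h (u + v) w = h u w + h v w) (hsmul : ∀ (c : F) (u v), h (c • u) v = c * h u v)
    (hherm : ∀ u v, h v u = (h u v) ^ 2) (hnd : ∀ u, (∀ v, h u v = 0) → u = 0) :
    ∃ E : V ≃ₗ[F] (Fin (finrank F V) → F), ∀ u v, hermForm (finrank F V) F 2 (E u) (E v) = h u v := by
  classical
  have hK : Nat.card F = 2 ^ 2 := by rw [Nat.card_eq_fintype_card, hF]; norm_num
  have h0l : ∀ w, h 0 w = 0 := by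
    intro w
    have := hsmul 0 0 w
    rwa [zero_smul, zero_mul] at this
  have hsl : ∀ {ι : Type} (s : Finset ι) (f : ι → V) (w : V),
      h (∑ i ∈ s, f i) w = ∑ i ∈ s, h (f i) w := by
    intro ι s f w
    induction s using Finset.induction_on with
    | empty => simp [h0l]
    | insert i s hi ih => rw [Finset.sum_insert hi, Finset.sum_insert hi, hadd, ih]
  have hsr : ∀ {ι : Type} (s : Finset ι) (f : ι → V) (w : V),
      h w (∑ i ∈ s, f i) = ∑ i ∈ s, h w (f i) := by
    intro ι s f w
    rw [hherm, hsl, H92.Herm.sum_sq hF]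
    refine Finset.sum_congr rfl fun i _ => ?_
    rw [hherm (f i) w]
  have hcr : ∀ (c : F) (u v : V), h u (c • v) = c ^ 2 * h u v := by
    intro c u v
    rw [hherm, hsmul, mul_pow, ← hherm]
  set n := finrank F V with hn
  let b : Basis (Fin n) F V := finBasis F V
  let H : Matrix (Fin n) (Fin n) F := Matrix.of fun j i => h (b i) (b j)
  have hH : H49.Unitary.ct hK H = H := by
    ext i j
    rw [H49.Unitary.ct_apply]
    show (h (b i) (b j)) ^ 2 = h (b j) (b i)
    rw [← hherm]
  have hu : IsUnit H := by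
    rw [Matrix.isUnit_iff_isUnit_det, isUnit_iff_ne_zero]
    intro hdet
    obtain ⟨c, hc, hc0⟩ := Matrix.exists_mulVec_eq_zero_iff.2 hdet
    apply hc
    have h1 : ∑ i, c i • b i = 0 := by
      apply hnd
      intro v
      have h2 : ∀ j, h (∑ i, c i • b i) (b j) = 0 := by
        intro j
        rw [hsl]
        have h7 : ∑ i, H j i * c i = 0 := congrFun hc0 j
        rw [← h7]
        refine Finset.sum_congr rfl fun i _ => ?_
        rw [hsmul, mul_comm]
        rfl
      rw [← b.sum_repr v, hsr]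
      refine Finset.sum_eq_zero fun j _ => ?_
      rw [hcr, h2, mul_zero]
    have h3 := (Fintype.linearIndependent_iff.1 b.linearIndependent) c h1
    exact funext h3
  obtain ⟨Y, hY, hHY, -⟩ := H49.Unitary.herm_eq_ct_mul hK H hu hH
  have hinj : Function.Injective (Matrix.toLin' Y) := by
    rw [← LinearMap.ker_eq_bot, LinearMap.ker_eq_bot']
    intro m hm
    rw [Matrix.toLin'_apply] at hm
    exact Matrix.eq_zero_of_mulVec_eq_zero
      (by rwa [Matrix.isUnit_iff_isUnit_det, isUnit_iff_ne_zero] at hY) hm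
  refine ⟨b.equivFun.trans (LinearEquiv.ofInjectiveEndo _ hinj), ?_⟩
  intro u v
  have h4 : ∀ w : V, (b.equivFun.trans (LinearEquiv.ofInjectiveEndo _ hinj)) w =
      Y *ᵥ (b.equivFun w) := by
    intro w; rfl
  rw [h4, h4]
  have h5 : h u v = ∑ i, ∑ j, b.equivFun u i * (b.equivFun v j) ^ 2 * H j i := by
    conv_lhs => rw [← b.sum_equivFun u, ← b.sum_equivFun v]
    rw [hsl]
    refine Finset.sum_congr rfl fun i _ => ?_
    rw [hsr]
    refine Finset.sum_congr rfl fun j _ => ?_
    rw [hcr, hsmul]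
    show _ = _ * h (b i) (b j)
    ring
  rw [h5, hHY]
  generalize b.equivFun u = x
  generalize b.equivFun v = y
  unfold hermForm
  have h6 : ∀ k, (Y *ᵥ x) k * (Y *ᵥ y) k ^ 2 = ∑ i, ∑ j, x i * y j ^ 2 * (Y k i * Y k j ^ 2) := by
    intro k
    simp only [Matrix.mulVec, dotProduct]
    rw [H92.Herm.sum_sq hF, Finset.sum_mul_sum]
    refine Finset.sum_congr rfl fun i _ => Finset.sum_congr rfl fun j _ => ?_
    ring
  rw [Finset.sum_congr rfl fun k _ => h6 k, Finset.sum_comm]
  refine Finset.sum_congr rfl fun i _ => ?_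
  rw [Finset.sum_comm]
  refine Finset.sum_congr rfl fun j _ => ?_
  rw [← Finset.mul_sum]
  congr 1
  rw [Matrix.mul_apply]
  refine Finset.sum_congr rfl fun k _ => ?_
  rw [H49.Unitary.ct_apply]
  ring

end Std

section Iso

variable {n : ℕ}

local notation "B" => hermForm n F 2

/-- Closure conditions. -/
structure Closed (A : Set (Fin n → F)) : Prop where
  iso : ∀ a ∈ A, B a a = 0
  smul : ∀ a ∈ A, ∀ c : F, c ≠ 0 → c • a ∈ A
  add : ∀ a ∈ A, ∀ b ∈ A, B a b = 0 → a + b = 0 ∨ a + b ∈ A
  refl : ∀ a ∈ A, ∀ b ∈ A, b + B b a • a ∈ A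

lemma hF2 (hF : Fintype.card F = 4) : Fintype.card F = 2 ^ 2 := by rw [hF]; norm_num

lemma swap (hF : Fintype.card F = 4) (u v : Fin n → F) : B v u = (B u v) ^ 2 :=
  (H16.Herm.hermForm_swap (hF2 hF) u v).symm

lemma Closed.add_one (hF : Fintype.card F = 4) {A : Set (Fin n → F)} (hA : Closed A)
    {a b : Fin n → F} (ha : a ∈ A) (hb : b ∈ A) (hab : B b a = 1) : a + b ∈ A := by
  have := hA.refl a ha b hb
  rwa [hab, one_smul, add_comm] at this

lemma Closed.three (hF : Fintype.card F = 4) {A : Set (Fin n → F)} (hA : Closed A)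
    {x y z : Fin n → F} (hx : x ∈ A) (hy : y ∈ A) (hz : z ∈ A) {w : F} (hw : w ^ 2 + w + 1 = 0)
    (hxy : B x y = w) (hyz : B y z = w) : ∃ a ∈ A, ∃ b ∈ A, x + y + z = a + b := by
  have hw0 : w ≠ 0 := by
    rintro rfl
    norm_num at hw
  have hzy : B z y = w ^ 2 := by rw [swap hF y z, hyz]
  refine ⟨x + w • y, ?_, z + B z y • y, hA.refl y hy z hz, ?_⟩
  · apply hA.add_one hF hx (hA.smul y hy w hw0)
    rw [swap hF, H16.Herm.hermForm_smul_right, hxy]
    have h3 := H92.Herm.pow_three hF hw0
    linear_combination (w ^ 3 + 1) * h3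
  · rw [hzy]
    have h2 : w + w ^ 2 = 1 := by
      have := H92.Herm.add_self hF (1 : F)
      linear_combination hw - this
    have h3 : y = w • y + w ^ 2 • y := by rw [← add_smul, h2, one_smul]
    conv_lhs => rw [h3]
    abel

/-- The set of sums of at most two elements. -/
def Two (A : Set (Fin n → F)) : Set (Fin n → F) :=
  {v | v = 0 ∨ v ∈ A ∨ ∃ a ∈ A, ∃ b ∈ A, v = a + b}

lemma Closed.pair (hF : Fintype.card F = 4) {A : Set (Fin n → F)} (hA : Closed A)
    {a b : Fin n → F} (ha : a ∈ A) (hb : b ∈ A) :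
    a + b = 0 ∨ a + b ∈ A ∨ (B a b) ^ 2 + B a b + 1 = 0 := by
  by_cases h0 : B a b = 0
  · rcases hA.add a ha b hb h0 with h | h
    · exact Or.inl h
    · exact Or.inr (Or.inl h)
  by_cases h1 : B a b = 1
  · right; left
    rw [add_comm]
    exact hA.add_one hF hb ha h1
  · right; right
    have h2 := H92.Herm.pow_three hF h0
    have h3 : (B a b - 1) * ((B a b) ^ 2 + B a b + 1) = 0 := by linear_combination h2
    exact (mul_eq_zero.1 h3).resolve_left (sub_ne_zero.2 h1)

lemma Closed.two_of_two (hF : Fintype.card F = 4) {A : Set (Fin n → F)} (hA : Closed A)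
    {s c : Fin n → F} (hs : s = 0 ∨ s ∈ A) (hc : c ∈ A) : s + c ∈ Two A := by
  rcases hs with rfl | hs
  · rw [zero_add]; exact Or.inr (Or.inl hc)
  · exact Or.inr (Or.inr ⟨s, hs, c, hc, rfl⟩)

lemma roots_eq {s t w : F} (hs : s ^ 2 + s + 1 = 0) (ht : t ^ 2 + t + 1 = 0)
    (hw : w ^ 2 + w + 1 = 0) (h1 : s ≠ t) (h2 : t ≠ w) : s = w := by
  have h3 : (s - t) * (s + t + 1) = 0 := by linear_combination hs - ht
  have h4 : (t - w) * (t + w + 1) = 0 := by linear_combination ht - hw
  have h5 := (mul_eq_zero.1 h3).resolve_left (sub_ne_zero.2 h1)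
  have h6 := (mul_eq_zero.1 h4).resolve_left (sub_ne_zero.2 h2)
  linear_combination h5 - h6

lemma Closed.two_add (hF : Fintype.card F = 4) {A : Set (Fin n → F)} (hA : Closed A)
    {v c : Fin n → F} (hv : v ∈ Two A) (hc : c ∈ A) : v + c ∈ Two A := by
  rcases hv with rfl | hv | ⟨a, ha, b, hb, rfl⟩
  · rw [zero_add]; exact Or.inr (Or.inl hc)
  · exact Or.inr (Or.inr ⟨v, hv, c, hc, rfl⟩)
  · rcases hA.pair hF ha hb with h | h | hab
    · exact hA.two_of_two hF (Or.inl h) hc
    · exact hA.two_of_two hF (Or.inr h) hc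
    rcases hA.pair hF hb hc with h | h | hbc
    · rw [add_assoc, add_comm]
      exact hA.two_of_two hF (Or.inl h) ha
    · rw [add_assoc, add_comm]
      exact hA.two_of_two hF (Or.inr h) ha
    rcases hA.pair hF hc ha with h | h | hca
    · rw [show a + b + c = c + a + b by abel]
      exact hA.two_of_two hF (Or.inl h) hb
    · rw [show a + b + c = c + a + b by abel]
      exact hA.two_of_two hF (Or.inr h) hb
    right; right
    by_cases h1 : B a b = B b c
    · exact hA.three hF ha hb hc hab rfl h1.symm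
    by_cases h2 : B b c = B c a
    · obtain ⟨x, hx, y, hy, hxy⟩ := hA.three hF hb hc ha hbc rfl h2.symm
      exact ⟨x, hx, y, hy, by rw [← hxy]; abel⟩
    · have h3 := roots_eq hab hbc hca h1 h2
      obtain ⟨x, hx, y, hy, hxy⟩ := hA.three hF hc ha hb hca rfl h3
      exact ⟨x, hx, y, hy, by rw [← hxy]; abel⟩

/-- All isotropic vectors of the span. -/
theorem Closed.iso_mem (hF : Fintype.card F = 4) {A : Set (Fin n → F)} (hA : Closed A)
    (hspan : Submodule.span F A = ⊤) {v : Fin n → F} (hv : B v v = 0) (hv0 : v ≠ 0) : v ∈ A := by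
  have h1 : v ∈ Two A := by
    have h2 : ∀ u ∈ Submodule.span F A, ∀ t ∈ Two A, t + u ∈ Two A := by
      intro u hu
      induction hu using Submodule.span_induction with
      | mem x hx => intro t ht; exact hA.two_add hF ht hx
      | zero => intro t ht; rwa [add_zero]
      | add x y _ _ hx hy =>
        intro t ht
        rw [← add_assoc]
        exact hy _ (hx _ ht)
      | smul c x _ hx =>
        intro t ht
        by_cases hc : c = 0
        · rwa [hc, zero_smul, add_zero]
        · have h3 : ∀ (d : F), d ≠ 0 → ∀ s ∈ Two A, d • s ∈ Two A := by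
            rintro d hd s (rfl | hs | ⟨a, ha, b, hb, rfl⟩)
            · rw [smul_zero]; exact Or.inl rfl
            · exact Or.inr (Or.inl (hA.smul s hs d hd))
            · rw [smul_add]
              exact Or.inr (Or.inr ⟨_, hA.smul a ha d hd, _, hA.smul b hb d hd, rfl⟩)
          have h4 := h3 c hc _ (hx _ (h3 c⁻¹ (inv_ne_zero hc) t ht))
          rwa [smul_add, smul_smul, mul_inv_cancel₀ hc, one_smul] at h4
    have h5 := h2 v (by rw [hspan]; trivial) 0 (Or.inl rfl)
    rwa [zero_add] at h5
  rcases h1 with h | h | ⟨a, ha, b, hb, rfl⟩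
  · exact absurd h hv0
  · exact h
  · rw [H16.Herm.hermForm_add_left, H16.Herm.hermForm_add_right (hF2 hF),
      H16.Herm.hermForm_add_right (hF2 hF), hA.iso a ha, hA.iso b hb, zero_add, add_zero,
      swap hF a b] at hv
    have h3 : (B a b) ^ 2 = B a b := (H92.Herm.eq_of_add_eq_zero hF hv).symm
    rcases H92.Herm.eq_zero_or_one hF h3 with h | h
    · rcases hA.add a ha b hb h with h' | h'
      · exact absurd h' hv0
      · exact h'
    · rw [add_comm]
      exact hA.add_one hF hb ha h

end Iso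

end H95.FischSU
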