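import Mathlib
import Cfsg.Prelude.Def_Classical
import Cfsg.Prelude.Def_ClassicalGeometry
import Cfsg.Agent.Lib.H6.SUGenC
import Cfsg.Agent.Lib.H95.FischSU1

set_option autoImplicit false

/-!
Unitary transvections over the field with four elements: existence in `SU`, the elements of
`SU` with `rank (g - 1) = 1`, generation.
-/

namespace H95.FischSU

open Module Cfsg
open scoped Matrix

variable {F : Type*} [Field F] [Fintype F] {n : ℕ}

local notation "B" => hermForm n F 2

/-- The matrix of an element of `SU`. -/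
abbrev mt (g : Cfsg.SU n F 2) : Matrix (Fin n) (Fin n) F :=
  ((g : Matrix.SpecialLinearGroup (Fin n) F) : Matrix (Fin n) (Fin n) F)

lemma mt_mul (g g' : Cfsg.SU n F 2) : mt (g * g') = mt g * mt g' := rfl

lemma mt_one : mt (1 : Cfsg.SU n F 2) = 1 := rfl

lemma mt_inj {g g' : Cfsg.SU n F 2} (h : mt g = mt g') : g = g' := by
  apply Subtype.ext
  apply Subtype.ext
  exact h

lemma mt_iso (g : Cfsg.SU n F 2) (u v : Fin n → F) : B (mt g *ᵥ u) (mt g *ᵥ v) = B u v := g.2 u v

lemma mt_inv_mulVec (g : Cfsg.SU n F 2) {u v : Fin n → F} (h : mt g *ᵥ u = v) :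
    mt g⁻¹ *ᵥ v = u := by
  rw [← h, Matrix.mulVec_mulVec, ← mt_mul, inv_mul_cancel, mt_one, Matrix.one_mulVec]

/-- The transvection with centre `v`. -/
theorem exists_tr (hF : Fintype.card F = 4) {v : Fin n → F} (hv : B v v = 0) :
    ∃ g : Cfsg.SU n F 2, mt g = unitaryTransvection n 2 v 1 := by
  obtain ⟨D⟩ := H6.SUGenC.exists_data n (hF2 hF)
  have hc : D.σ (D.ζ⁻¹) = D.ζ⁻¹ := by
    rw [map_inv₀, D.σζ]
    congr 1
    have h := H92.Herm.add_self hF D.ζ
    linear_combination -h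
  obtain ⟨g, hg⟩ := H6.SUGenC.exists_emb D
    (H95.UBasic.tr_mem_SU D.skew ((H6.SUGenC.iso_iff D v).2 hv) hc)
  refine ⟨g, ?_⟩
  have := H6.SUGenC.coe_of_emb_rf D ((H6.SUGenC.iso_iff D v).2 hv) hc hg
  rw [inv_mul_cancel₀ D.ζ0] at this
  exact this

lemma tr_mulVec (v x : Fin n → F) :
    unitaryTransvection n 2 v 1 *ᵥ x = x + (B x v) • v := by
  rw [H16.Herm.unitaryTransvection_mulVec, one_mul]

lemma ut_smul (hF : Fintype.card F = 4) (v : Fin n → F) {a : F} (ha : a ≠ 0) :
    unitaryTransvection n 2 (a • v) 1 = unitaryTransvection n 2 v 1 := by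
  apply Matrix.toLin'.injective
  ext1 x
  ext1
  rw [LinearMap.comp_apply, LinearMap.comp_apply, Matrix.toLin'_apply, Matrix.toLin'_apply,
    tr_mulVec, tr_mulVec, H16.Herm.hermForm_smul_right, smul_smul]
  congr 2
  have := H92.Herm.pow_three hF ha
  linear_combination (B (LinearMap.single F (fun _ => F) x 1) v) * this

/-- Scalars of transvections. -/
theorem scalar_one (hF : Fintype.card F = 4) {g : Cfsg.SU n F 2} {v : Fin n → F} {c : F}
    (hv : B v v = 0) (hv0 : v ≠ 0) (hc : c ≠ 0) (hg : mt g = unitaryTransvection n 2 v c) :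
    c = 1 := by
  obtain ⟨D⟩ := H6.SUGenC.exists_data n (hF2 hF)
  obtain ⟨h1, -⟩ := H6.SUGenC.emb_rf_of_coe (hF2 hF) D hv hv0 hg
  rw [D.σ_eq] at h1
  have h2 := D.σζ
  rw [D.σ_eq] at h2
  have h3 : D.ζ ^ 2 = D.ζ := by
    have := H92.Herm.add_self hF D.ζ
    linear_combination h2 - this
  have h4 : D.ζ = 1 := (H92.Herm.eq_zero_or_one hF h3).resolve_left D.ζ0
  rw [h4, div_one] at h1
  exact (H92.Herm.eq_zero_or_one hF h1).resolve_left hc

/-- Generation. -/
theorem gen (hF : Fintype.card F = 4) (hn : 4 ≤ n) {K : Subgroup (Cfsg.SU n F 2)}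
    (hK : ∀ g : Cfsg.SU n F 2, ∀ v : Fin n → F, B v v = 0 → v ≠ 0 →
      mt g = unitaryTransvection n 2 v 1 → g ∈ K) : K = ⊤ := by
  rw [eq_top_iff, ← H6.SUGenC.closure_eq_top (hF2 hF) n (by omega) (by omega), Subgroup.closure_le]
  rintro A ⟨v, c, hv, hA⟩
  have htriv : v = 0 ∨ c = 0 → A ∈ K := by
    intro h
    have : A = 1 := by
      apply mt_inj
      change mt A = _ at hA
      rw [hA, mt_one, unitaryTransvection]
      rcases h with rfl | rfl
      · simp
      · simp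
    rw [this]
    exact K.one_mem
  by_cases hv0 : v = 0
  · exact htriv (Or.inl hv0)
  by_cases hc0 : c = 0
  · exact htriv (Or.inr hc0)
  have hc := scalar_one hF hv hv0 hc0 hA
  rw [hc] at hA
  exact hK A v hv hv0 hA

/-- Elements with `rank (g - 1) = 1`. -/
theorem rank_one (hF : Fintype.card F = 4) {g : Cfsg.SU n F 2} (hg : (mt g - 1).rank = 1) :
    ∃ v : Fin n → F, B v v = 0 ∧ v ≠ 0 ∧ mt g = unitaryTransvection n 2 v 1 := by
  rw [Matrix.rank, finrank_eq_one_iff'] at hg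
  obtain ⟨⟨v, hvr⟩, hv0, hv⟩ := hg
  replace hv0 : v ≠ 0 := fun h => hv0 (Subtype.ext h)
  have h1 : ∀ u, ∃ c : F, mt g *ᵥ u = u + c • v := by
    intro u
    obtain ⟨c, hc⟩ := hv ⟨(mt g - 1).mulVecLin u, ⟨u, rfl⟩⟩
    refine ⟨c, ?_⟩
    have h2 : c • v = (mt g - 1) *ᵥ u := congrArg Subtype.val hc
    rw [Matrix.sub_mulVec, Matrix.one_mulVec] at h2
    rw [h2]; abel
  obtain ⟨w0, hw0⟩ := hvr
  have hw1 : mt g *ᵥ w0 = w0 + v := by
    rw [Matrix.mulVecLin_apply, Matrix.sub_mulVec, Matrix.one_mulVec] at hw0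
    rw [← hw0]; abel
  set κ := B v w0 + B v v with hκ
  have h3 : ∀ u, ∀ c : F, mt g *ᵥ u = u + c • v → c * κ = B u v := by
    intro u c hc
    have h4 := mt_iso g u w0
    rw [hc, hw1, H16.Herm.hermForm_add_left, H16.Herm.hermForm_add_right (hF2 hF),
      H16.Herm.hermForm_add_right (hF2 hF), H16.Herm.hermForm_smul_left,
      H16.Herm.hermForm_smul_left] at h4
    have h5 := H92.Herm.add_self hF (B u v)
    rw [hκ]
    linear_combination h4 - h5
  have hκ0 : κ ≠ 0 := by
    intro hk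
    apply hv0
    apply H16.Herm.eq_zero_of_forall_left (hF2 hF)
    intro u
    obtain ⟨c, hc⟩ := h1 u
    rw [← h3 u c hc, hk, mul_zero]
  have h6 : ∀ u, mt g *ᵥ u = u + (κ⁻¹ * B u v) • v := by
    intro u
    obtain ⟨c, hc⟩ := h1 u
    rw [hc, ← h3 u c hc]
    congr 2
    field_simp
  have h7 : mt g = unitaryTransvection n 2 v κ⁻¹ := by
    apply Matrix.toLin'.injective
    ext1 x
    ext1
    rw [LinearMap.comp_apply, LinearMap.comp_apply, Matrix.toLin'_apply, Matrix.toLin'_apply,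
      H16.Herm.unitaryTransvection_mulVec, h6]
  have h8 : B v v = 0 := by
    have hdet : (mt g).det = 1 := g.1.2
    rw [h7, unitaryTransvection] at hdet
    have h9 : (1 + κ⁻¹ • Matrix.vecMulVec v (fun j => v j ^ 2) : Matrix (Fin n) (Fin n) F) =
        1 + Matrix.replicateCol Unit (κ⁻¹ • v) * Matrix.replicateRow Unit (fun j => v j ^ 2) := by
      ext i j
      simp [Matrix.vecMulVec_apply, Matrix.mul_apply, mul_assoc]
    rw [h9, Matrix.det_one_add_replicateCol_mul_replicateRow] at hdet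
    have h10 : (fun j => v j ^ 2) ⬝ᵥ (κ⁻¹ • v) = κ⁻¹ * B v v := by
      rw [dotProduct_smul, smul_eq_mul]
      congr 1
      unfold hermForm dotProduct
      exact Finset.sum_congr rfl fun i _ => mul_comm _ _
    rw [h10, add_eq_left] at hdet
    exact (mul_eq_zero.1 hdet).resolve_left (inv_ne_zero hκ0)
  have h11 := scalar_one hF h8 hv0 (inv_ne_zero hκ0) h7
  rw [h11] at h7
  exact ⟨v, h8, hv0, h7⟩

/-- Transvections have rank one. -/
theorem rank_tr (hF : Fintype.card F = 4) {g : Cfsg.SU n F 2} {v : Fin n → F} (hv0 : v ≠ 0)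
    (hg : mt g = unitaryTransvection n 2 v 1) : (mt g - 1).rank = 1 := by
  have h1 : mt g - 1 = Matrix.vecMulVec v (fun j => v j ^ 2) := by
    rw [hg, unitaryTransvection, one_smul]; abel
  apply le_antisymm
  · rw [h1]
    exact Matrix.rank_vecMulVec_le _ _
  · rw [Nat.one_le_iff_ne_zero]
    intro h2
    rw [Matrix.rank, Submodule.finrank_eq_zero, LinearMap.range_eq_bot, h1] at h2
    replace h2 : Matrix.vecMulVec v (fun j => v j ^ 2) = 0 := by
      apply Matrix.toLin'.injective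
      rw [map_zero]
      exact h2
    obtain ⟨i, hi⟩ := Function.ne_iff.1 hv0
    have h3 : Matrix.vecMulVec v (fun j => v j ^ 2) i i = 0 := by rw [h2]; rfl
    rw [Matrix.vecMulVec_apply] at h3
    apply hi
    have h4 : v i ^ 3 = 0 := by linear_combination h3
    exact pow_eq_zero_iff (by norm_num) |>.1 h4

/-- Conjugation of transvections. -/
lemma tr_conj {s t : Cfsg.SU n F 2} {v : Fin n → F}
    (ht : mt t = unitaryTransvection n 2 v 1) {a : F} (hF : Fintype.card F = 4) (ha : a ≠ 0)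
    (hs : mt s *ᵥ v = a • v) : s * t = t * s := by
  apply mt_inj
  rw [mt_mul, mt_mul]
  apply Matrix.toLin'.injective
  ext1 x
  ext1
  rw [LinearMap.comp_apply, LinearMap.comp_apply, Matrix.toLin'_apply, Matrix.toLin'_apply,
    ← Matrix.mulVec_mulVec, ← Matrix.mulVec_mulVec]
  set u := LinearMap.single F (fun _ => F) x 1
  have h1 : unitaryTransvection n 2 v 1 *ᵥ (mt s *ᵥ u) =
      mt s *ᵥ u + (B u v) • mt s *ᵥ v := by
    rw [← ut_smul hF v ha, ← hs, tr_mulVec, mt_iso]
  rw [ht, h1, tr_mulVec, Matrix.mulVec_add, Matrix.mulVec_smul]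

end H95.FischSU
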