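import Mathlib
import Cfsg.Prelude.Def_FischerSpaces
import Cfsg.Prelude.Def_Classical
import Cfsg.Agent.Lib.H95.FischG
import Cfsg.Agent.Lib.H95.FischSU2

set_option autoImplicit false

/-!
Identification of a group generated by 3-transpositions with `PSU_n(2)` from a hermitian Gram
space over the field with four elements.
-/

namespace H95.FischSU

open Module Cfsg
open scoped Matrix

section Basics

variable {G : Type*} [Group G] {D : Set G}

lemma sq_one (hD : IsThreeTranspositionClass D) {x : G} (hx : x ∈ D) : x * x = 1 := by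
  have h := hD.1.1 x hx
  rw [← pow_two, ← h, pow_orderOf_eq_one]

lemma inv_eq (hD : IsThreeTranspositionClass D) {x : G} (hx : x ∈ D) : x⁻¹ = x :=
  inv_eq_of_mul_eq_one_left (sq_one hD hx)

lemma conj_mem (hD : IsThreeTranspositionClass D) {x : G} (hx : x ∈ D) (g : G) :
    g * x * g⁻¹ ∈ D := by
  obtain ⟨d, -, hd⟩ := hD.2.1
  rw [hd] at hx ⊢
  have hx' : IsConj d x := hx
  exact hx'.trans (isConj_iff.2 ⟨g, rfl⟩)

lemma eq_one_of_comm (hD : IsThreeTranspositionClass D) (hZ : Subgroup.center G = ⊥) {g : G}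
    (hg : ∀ x ∈ D, Commute g x) : g = 1 := by
  have h1 : Subgroup.closure D ≤ Subgroup.centralizer {g} := by
    rw [Subgroup.closure_le]
    intro x hx
    rw [SetLike.mem_coe, Subgroup.mem_centralizer_iff]
    rintro _ rfl
    exact hg x hx
  rw [hD.2.2] at h1
  have h2 : g ∈ Subgroup.center G := by
    rw [Subgroup.mem_center_iff]
    intro y
    have := (Subgroup.mem_centralizer_iff.1 (h1 (Subgroup.mem_top y))) g rfl
    exact this.symm
  rwa [hZ, Subgroup.mem_bot] at h2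

lemma ne_one (hD : IsThreeTranspositionClass D) {x : G} (hx : x ∈ D) : x ≠ 1 := by
  rintro rfl
  have h := hD.1.1 1 hx
  rw [orderOf_one] at h
  norm_num at h

end Basics

/-- Standard coordinates version. -/
theorem core {G : Type*} [Group G] {D : Set G} (hD : IsThreeTranspositionClass D)
    (hZ : Subgroup.center G = ⊥)
    (hV : ∀ x ∈ D, ∀ y ∈ D, (∀ z ∈ D, Commute x z ↔ Commute y z) → x = y)
    {F : Type*} [Field F] [Fintype F] (hF : Fintype.card F = 4) {n : ℕ} (hn : 4 ≤ n)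
    (φ : G → (Fin n → F)) (hspan : Submodule.span F (φ '' D) = ⊤)
    (hiso : ∀ x ∈ D, hermForm n F 2 (φ x) (φ x) = 0)
    (hperp : ∀ x ∈ D, ∀ y ∈ D, hermForm n F 2 (φ x) (φ y) = 0 ↔ Commute x y)
    (h1 : ∀ x ∈ D, ∀ y ∈ D, x ≠ y → Commute x y → ∀ c : F, ∃ w ∈ D, ∃ a : F, a ≠ 0 ∧
      φ x + c • φ y = a • φ w)
    (h2 : ∀ x ∈ D, ∀ y ∈ D, ∃ a : F, a ≠ 0 ∧
      φ y + hermForm n F 2 (φ y) (φ x) • φ x = a • φ (x * y * x)) :
    ∃ e : G ≃* PSU n F 2, e '' D =
      (QuotientGroup.mk : ↥(Cfsg.SU n F 2) → Cfsg.PSU n F 2) '' {g : ↥(Cfsg.SU n F 2) |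
        (((g : Matrix.SpecialLinearGroup (Fin n) F) : Matrix (Fin n) (Fin n) F) - 1).rank = 1} := by
  classical
  have hφ0 : ∀ x ∈ D, φ x ≠ 0 := by
    intro x hx h0
    apply ne_one hD hx
    apply eq_one_of_comm hD hZ
    intro y hy
    rw [← hperp x hx y hy, h0, H16.Herm.hermForm_zero_left]
  have hinj : ∀ x ∈ D, ∀ y ∈ D, ∀ a : F, a ≠ 0 → φ x = a • φ y → x = y := by
    intro x hx y hy a ha hxy
    apply hV x hx y hy
    intro z hz
    rw [← hperp x hx z hz, ← hperp y hy z hz, hxy, H16.Herm.hermForm_smul_left, mul_eq_zero,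
      or_iff_right ha]
  set A : Set (Fin n → F) := {v | ∃ x ∈ D, ∃ a : F, a ≠ 0 ∧ v = a • φ x} with hA
  have hAc : Closed A := by
    constructor
    · rintro _ ⟨x, hx, a, ha, rfl⟩
      rw [H16.Herm.hermForm_smul_left, H16.Herm.hermForm_smul_right, hiso x hx, mul_zero, mul_zero]
    · rintro _ ⟨x, hx, a, ha, rfl⟩ c hc
      exact ⟨x, hx, c * a, mul_ne_zero hc ha, by rw [smul_smul]⟩
    · rintro _ ⟨x, hx, a, ha, rfl⟩ _ ⟨y, hy, b, hb, rfl⟩ hab
      by_cases hxy : x = y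
      · subst hxy
        rw [← add_smul]
        by_cases hc : a + b = 0
        · left; rw [hc, zero_smul]
        · right; exact ⟨x, hx, _, hc, rfl⟩
      · right
        rw [H16.Herm.hermForm_smul_left, H16.Herm.hermForm_smul_right, mul_eq_zero,
          or_iff_right ha, mul_eq_zero, or_iff_right (pow_ne_zero 2 hb), hperp x hx y hy] at hab
        obtain ⟨w, hw, d, hd, he⟩ := h1 x hx y hy hxy hab (a⁻¹ * b)
        refine ⟨w, hw, a * d, mul_ne_zero ha hd, ?_⟩
        rw [mul_smul, ← he, smul_add, smul_smul, ← mul_assoc, mul_inv_cancel₀ ha, one_mul]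
    · rintro _ ⟨x, hx, a, ha, rfl⟩ _ ⟨y, hy, b, hb, rfl⟩
      obtain ⟨d, hd, he⟩ := h2 x hx y hy
      refine ⟨x * y * x, ?_, b * d, mul_ne_zero hb hd, ?_⟩
      · have := conj_mem hD hy x
        rwa [inv_eq hD hx] at this
      · rw [mul_smul, ← he, smul_add, H16.Herm.hermForm_smul_left, H16.Herm.hermForm_smul_right,
          smul_smul, smul_smul]
        congr 2
        have h3 := H92.Herm.pow_three hF ha
        linear_combination (b * hermForm n F 2 (φ y) (φ x)) * h3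
  have hAspan : Submodule.span F A = ⊤ := by
    rw [eq_top_iff, ← hspan]
    apply Submodule.span_mono
    rintro _ ⟨x, hx, rfl⟩
    exact ⟨x, hx, 1, one_ne_zero, by rw [one_smul]⟩
  -- transvections
  have htr : ∀ x ∈ D, ∃ g : Cfsg.SU n F 2, mt g = unitaryTransvection n 2 (φ x) 1 :=
    fun x hx => exists_tr hF (hiso x hx)
  have hcent : ∀ v : Fin n → F, hermForm n F 2 v v = 0 → v ≠ 0 → ∃ x ∈ D,
      unitaryTransvection n 2 v 1 = unitaryTransvection n 2 (φ x) 1 := by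
    intro v hv hv0
    obtain ⟨x, hx, a, ha, rfl⟩ := hAc.iso_mem hF hAspan hv hv0
    exact ⟨x, hx, ut_smul hF _ ha⟩
  -- the relation
  let R : Subgroup (Cfsg.SU n F 2 × G) :=
    { carrier := {p | ∀ x ∈ D, ∃ a : F, a ≠ 0 ∧ mt p.1 *ᵥ φ x = a • φ (p.2 * x * p.2⁻¹)}
      mul_mem' := by
        rintro ⟨s, g⟩ ⟨s', g'⟩ hs hs' x hx
        obtain ⟨a, ha, h3⟩ := hs' x hx
        obtain ⟨b, hb, h4⟩ := hs _ (conj_mem hD hx g')
        refine ⟨a * b, mul_ne_zero ha hb, ?_⟩
        show mt (s * s') *ᵥ φ x = (a * b) • φ (g * g' * x * (g * g')⁻¹)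
        have h5 : g * g' * x * (g * g')⁻¹ = g * (g' * x * g'⁻¹) * g⁻¹ := by group
        rw [mt_mul, ← Matrix.mulVec_mulVec, h3, Matrix.mulVec_smul, h4, smul_smul, h5]
      one_mem' := by
        intro x hx
        refine ⟨1, one_ne_zero, ?_⟩
        show mt 1 *ᵥ φ x = (1 : F) • φ (1 * x * 1⁻¹)
        rw [mt_one, Matrix.one_mulVec, one_smul]
        simp
      inv_mem' := by
        rintro ⟨s, g⟩ hs x hx
        obtain ⟨a, ha, h3⟩ := hs _ (conj_mem hD hx g⁻¹)
        refine ⟨a⁻¹, inv_ne_zero ha, ?_⟩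
        show mt s⁻¹ *ᵥ φ x = a⁻¹ • φ (g⁻¹ * x * g⁻¹⁻¹)
        have h4 : g * (g⁻¹ * x * g⁻¹⁻¹) * g⁻¹ = x := by group
        change mt s *ᵥ φ (g⁻¹ * x * g⁻¹⁻¹) = a • φ (g * (g⁻¹ * x * g⁻¹⁻¹) * g⁻¹) at h3
        rw [h4] at h3
        have h5 := mt_inv_mulVec s h3
        rw [← h5, Matrix.mulVec_smul, smul_smul, inv_mul_cancel₀ ha, one_smul] }
  have hRmem : ∀ (s : Cfsg.SU n F 2) (g : G), (s, g) ∈ R ↔
      ∀ x ∈ D, ∃ a : F, a ≠ 0 ∧ mt s *ᵥ φ x = a • φ (g * x * g⁻¹) := fun s g => Iff.rfl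
  have hRtr : ∀ x ∈ D, ∀ s : Cfsg.SU n F 2, mt s = unitaryTransvection n 2 (φ x) 1 →
      (s, x) ∈ R := by
    intro x hx s hs
    rw [hRmem]
    intro y hy
    obtain ⟨a, ha, h3⟩ := h2 x hx y hy
    refine ⟨a, ha, ?_⟩
    rw [hs, tr_mulVec, h3, inv_eq hD hx]
  have hR1 : ∀ s : Cfsg.SU n F 2, ∃ g : G, (s, g) ∈ R := by
    have h3 : R.map (MonoidHom.fst _ _) = ⊤ := by
      apply gen hF hn
      intro g v hv hv0 hg
      obtain ⟨x, hx, h4⟩ := hcent v hv hv0
      exact ⟨(g, x), hRtr x hx g (hg.trans h4), rfl⟩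
    intro s
    have h4 : s ∈ R.map (MonoidHom.fst _ _) := by rw [h3]; trivial
    obtain ⟨⟨s', g⟩, hp, rfl⟩ := h4
    exact ⟨g, hp⟩
  have hR2 : ∀ g : G, ∃ s : Cfsg.SU n F 2, (s, g) ∈ R := by
    have h3 : R.map (MonoidHom.snd _ _) = ⊤ := by
      rw [eq_top_iff, ← hD.2.2, Subgroup.closure_le]
      intro x hx
      obtain ⟨s, hs⟩ := htr x hx
      exact ⟨(s, x), hRtr x hx s hs, rfl⟩
    intro g
    have h4 : g ∈ R.map (MonoidHom.snd _ _) := by rw [h3]; trivial
    obtain ⟨⟨s', g⟩, hp, rfl⟩ := h4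
    exact ⟨s', hp⟩
  have hR3 : ∀ g : G, ((1 : Cfsg.SU n F 2), g) ∈ R → g = 1 := by
    intro g hg
    rw [hRmem] at hg
    apply eq_one_of_comm hD hZ
    intro x hx
    obtain ⟨a, ha, h3⟩ := hg x hx
    rw [mt_one, Matrix.one_mulVec] at h3
    have h4 := hinj x hx _ (conj_mem hD hx g) a ha h3
    show g * x = x * g
    conv_rhs => rw [h4]
    group
  have hR4 : ∀ s : Cfsg.SU n F 2, (s, (1 : G)) ∈ R → s ∈ Subgroup.center (Cfsg.SU n F 2) := by
    intro s hs
    rw [hRmem] at hs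
    have h3 : Subgroup.centralizer {s} = (⊤ : Subgroup (Cfsg.SU n F 2)) := by
      apply gen hF hn
      intro t v hv hv0 ht
      obtain ⟨x, hx, h4⟩ := hcent v hv hv0
      rw [h4] at ht
      obtain ⟨a, ha, h5⟩ := hs x hx
      rw [Subgroup.mem_centralizer_iff]
      rintro _ rfl
      apply tr_conj ht hF ha
      rw [h5]
      simp
    rw [Subgroup.mem_center_iff]
    intro t
    have h4 : t ∈ Subgroup.centralizer {s} := by rw [h3]; trivial
    exact ((Subgroup.mem_centralizer_iff.1 h4) s rfl).symm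
  obtain ⟨e, he⟩ := H95.FischG.graph_center R hR1 hR2 hR3 hR4 hZ
  refine ⟨e, ?_⟩
  ext p
  constructor
  · rintro ⟨x, hx, rfl⟩
    obtain ⟨s, hs⟩ := htr x hx
    refine ⟨s, rank_tr hF (hφ0 x hx) hs, ?_⟩
    exact ((he s x).1 (hRtr x hx s hs)).symm
  · rintro ⟨g, hg, rfl⟩
    obtain ⟨v, hv, hv0, hgv⟩ := rank_one hF hg
    obtain ⟨x, hx, h4⟩ := hcent v hv hv0
    exact ⟨x, hx, (he g x).1 (hRtr x hx g (hgv.trans h4))⟩

/-- Two orthogonal isotropic points force dimension at least four. -/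
theorem four_le {F : Type*} [Field F] [Fintype F] (hF : Fintype.card F = 4) {n : ℕ}
    {x y : Fin n → F} (hx : hermForm n F 2 x x = 0) (hy : hermForm n F 2 y y = 0)
    (hxy : hermForm n F 2 x y = 0) (hli : LinearIndependent F ![x, y]) : 4 ≤ n := by
  classical
  obtain ⟨D⟩ := H6.SUGenC.exists_data n (hF2 hF)
  have h1 : 2 * finrank F (Submodule.span F (Set.range ![x, y])) ≤
      finrank F (⊤ : Submodule F (Fin n → F)) := by
    refine H95.UBasic.ti_finrank_le D.skew (U := ⊤)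
      (fun v _ hv => D.skew.nd v fun w => hv w trivial) le_top ?_
    intro u hu v hv
    induction hu using Submodule.span_induction with
    | mem u hu =>
      induction hv using Submodule.span_induction with
      | mem v hv =>
        rw [D.h_eq]
        have hyx : hermForm n F 2 y x = 0 := by rw [swap hF x y, hxy]; ring
        obtain ⟨i, rfl⟩ := hu
        obtain ⟨j, rfl⟩ := hv
        fin_cases i <;> fin_cases j <;> simp [hx, hy, hxy, hyx]
      | zero => simp
      | add a b _ _ ha hb => rw [map_add, ha, hb, add_zero]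
      | smul c a _ ha => rw [map_smulₛₗ, ha, smul_zero]
    | zero => simp
    | add a b _ _ ha hb => rw [map_add, LinearMap.add_apply, ha, hb, add_zero]
    | smul c a _ ha => rw [map_smul, LinearMap.smul_apply, ha, smul_zero]
  rw [finrank_span_eq_card hli, finrank_top, Module.finrank_fin_fun] at h1
  simpa using h1

end H95.FischSU

open Cfsg in
/-- module SU -/
theorem H95.FischSU.H33SU {G : Type*} [Group G] [Finite G] {D : Set G} (hD : IsThreeTranspositionClass D)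
    (hZ : Subgroup.center G = ⊥)
    (hV : ∀ x ∈ D, ∀ y ∈ D, (∀ z ∈ D, Commute x z ↔ Commute y z) → x = y)
    (hw : ∃ x ∈ D, ∃ y ∈ D, x ≠ y ∧ Commute x y)
    {F : Type} [Field F] [Fintype F] (hF : Fintype.card F = 4)
    {V : Type*} [AddCommGroup V] [Module F V] [FiniteDimensional F V] (h : V → V → F)
    (hadd : ∀ u v w, h (u + v) w = h u w + h v w) (hsmul : ∀ (c : F) (u v), h (c • u) v = c * h u v)
    (hherm : ∀ u v, h v u = (h u v) ^ 2) (hnd : ∀ u, (∀ v, h u v = 0) → u = 0)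
    (φ : G → V) (hspan : Submodule.span F (φ '' D) = ⊤)
    (hiso : ∀ x ∈ D, h (φ x) (φ x) = 0)
    (hperp : ∀ x ∈ D, ∀ y ∈ D, h (φ x) (φ y) = 0 ↔ Commute x y)
    (h1 : ∀ x ∈ D, ∀ y ∈ D, x ≠ y → Commute x y → ∀ c : F, ∃ w ∈ D, ∃ a : F, a ≠ 0 ∧ φ x + c • φ y = a • φ w)
    (h2 : ∀ x ∈ D, ∀ y ∈ D, ∃ a : F, a ≠ 0 ∧ φ y + h (φ y) (φ x) • φ x = a • φ (x * y * x)) :
    ∃ e : G ≃* PSU (Module.finrank F V) F 2, 4 ≤ Module.finrank F V ∧ e '' D = (QuotientGroup.mk : ↥(Cfsg.SU (Module.finrank F V) F 2) → Cfsg.PSU (Module.finrank F V) F 2) '' {g : ↥(Cfsg.SU (Module.finrank F V) F 2) | (((g : Matrix.SpecialLinearGroup (Fin (Module.finrank F V)) F) : Matrix (Fin (Module.finrank F V)) (Fin (Module.finrank F V)) F) - 1).rank = 1} := by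
  classical
  obtain ⟨E, hE⟩ := H95.FischSU.exists_std hF h hadd hsmul hherm hnd
  have hn : 4 ≤ Module.finrank F V := by
    obtain ⟨x, hx, y, hy, hxy, hc⟩ := hw
    have hperp' : ∀ x ∈ D, ∀ y ∈ D, ∀ c : F, c ≠ 0 → φ x = c • φ y → x = y := by
      intro x hx y hy c hc0 hc
      apply hV x hx y hy
      intro z hz
      rw [← hperp x hx z hz, ← hperp y hy z hz, hc, hsmul, mul_eq_zero, or_iff_right hc0]
    have h0 : ∀ x ∈ D, φ x ≠ 0 := by
      intro x hx h0
      apply H95.FischSU.ne_one hD hx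
      apply H95.FischSU.eq_one_of_comm hD hZ
      intro y hy
      rw [← hperp x hx y hy, h0]
      have := hsmul 0 0 (φ y)
      rwa [zero_smul, zero_mul] at this
    refine H95.FischSU.four_le hF (x := E (φ x)) (y := E (φ y)) (by rw [hE, hiso x hx])
      (by rw [hE, hiso y hy]) (by rw [hE]; exact (hperp x hx y hy).2 hc) ?_
    rw [LinearIndependent.pair_iff]
    intro s t hst
    rw [← map_smul, ← map_smul, ← map_add, LinearEquiv.map_eq_zero_iff] at hst
    by_cases hs : s = 0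
    · rw [hs, zero_smul, zero_add, smul_eq_zero] at hst
      exact ⟨hs, hst.resolve_right (h0 y hy)⟩
    · exfalso
      have ht : t ≠ 0 := by
        rintro rfl
        rw [zero_smul, add_zero, smul_eq_zero] at hst
        rcases hst with h | h
        · exact hs h
        · exact h0 x hx h
      apply hxy
      apply hperp' x hx y hy (-(s⁻¹ * t)) (neg_ne_zero.2 (mul_ne_zero (inv_ne_zero hs) ht))
      have h3 : s⁻¹ • (s • φ x + t • φ y) = 0 := by rw [hst, smul_zero]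
      rw [smul_add, smul_smul, smul_smul, inv_mul_cancel₀ hs, one_smul] at h3
      rw [neg_smul]
      exact eq_neg_of_add_eq_zero_left h3
  obtain ⟨e, he⟩ := H95.FischSU.core hD hZ hV hF hn (fun g => E (φ g))
    (by
      rw [show (fun g => E (φ g)) '' D = (E : V →ₗ[F] _) '' (φ '' D) from
        (Set.image_image _ _ _).symm, Submodule.span_image, hspan, Submodule.map_top,
        LinearMap.range_eq_top]
      exact E.surjective)
    (fun x hx => by rw [hE, hiso x hx])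
    (fun x hx y hy => by rw [hE]; exact hperp x hx y hy)
    (fun x hx y hy hxy hc c => by
      obtain ⟨w, hw, a, ha, h3⟩ := h1 x hx y hy hxy hc c
      exact ⟨w, hw, a, ha, by rw [← map_smul, ← map_smul, ← map_add, h3]⟩)
    (fun x hx y hy => by
      obtain ⟨a, ha, h3⟩ := h2 x hx y hy
      exact ⟨a, ha, by rw [hE, ← map_smul, ← map_smul, ← map_add, h3]⟩)
  exact ⟨e, hn, he⟩
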