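import Mathlib
import Cfsg.Prelude.Def_FischerSpaces
import Cfsg.Prelude.Def_ClassicalGeometry
import Cfsg.Agent.Lib.H41.AltForm
import Cfsg.Agent.Lib.H16.SympTransv
import Cfsg.Agent.Lib.H95.FischG
import Cfsg.Agent.Lib.H95.FischSU3

set_option autoImplicit false

/-!
Identification of a group generated by 3-transpositions with `Sp_2n(2)`.
-/

namespace H95.FischSP

open Module Cfsg H16.Symp
open scoped Matrix

/-- Symplectic spaces are standard. -/
theorem exists_std {K : Type*} [Field K] {V : Type*} [AddCommGroup V] [Module K V]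
    [FiniteDimensional K V] (β : V →ₗ[K] V →ₗ[K] K) (hB : ∀ x, β x x = 0)
    (hnd : ∀ x, (∀ y, β x y = 0) → x = 0) :
    ∃ (m : ℕ) (E : V ≃ₗ[K] (Fin m ⊕ Fin m → K)), ∀ u v, sympForm m K (E u) (E v) = β u v := by
  classical
  obtain ⟨m, hm, e, he⟩ := H41.AltForm.exists_symplectic (finrank K V) β hB hnd rfl
  have key : ∀ x y : Fin m ⊕ Fin m → K,
      β (∑ i, x i • e i) (∑ j, y j • e j) = sympForm m K x y := by
    intro x y
    rw [LinearMap.map_sum₂]
    unfold sympForm dotProduct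
    refine Finset.sum_congr rfl fun i _ => ?_
    rw [map_smul, LinearMap.smul_apply, map_sum, smul_eq_mul]
    congr 1
    unfold Matrix.mulVec dotProduct
    refine Finset.sum_congr rfl fun j _ => ?_
    rw [map_smul, he, smul_eq_mul, mul_comm]
  have hli : LinearIndependent K e := by
    rw [Fintype.linearIndependent_iff]
    intro g hg
    have h0 : g = 0 := by
      apply eq_zero_of_forall_sympForm_right
      intro v
      rw [← key, hg, map_zero, LinearMap.zero_apply]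
    intro i
    rw [h0]; rfl
  let b : Basis (Fin m ⊕ Fin m) K V := basisOfLinearIndependentOfCardEqFinrank' e hli (by
    rw [Fintype.card_sum, Fintype.card_fin, ← hm]; ring)
  have hb : ∀ i, b i = e i := by
    intro i
    simp [b]
  refine ⟨m, b.equivFun, fun u v => ?_⟩
  rw [← key]
  have h1 : ∀ w : V, ∑ i, b.equivFun w i • e i = w := by
    intro w
    conv_rhs => rw [← b.sum_equivFun w]
    exact Finset.sum_congr rfl fun i _ => by rw [hb]
  rw [h1, h1]

local notation "F2" => ZMod 2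

variable {m : ℕ}

/-- the matrix of an element -/
def mt (s : Matrix.symplecticGroup (Fin m) F2) : Matrix (Fin m ⊕ Fin m) (Fin m ⊕ Fin m) F2 := s.1

lemma mt_def (s : Matrix.symplecticGroup (Fin m) F2) : mt s = s.1 := rfl

lemma mt_mul (s s' : Matrix.symplecticGroup (Fin m) F2) (x : Fin m ⊕ Fin m → F2) :
    mt (s * s') *ᵥ x = mt s *ᵥ (mt s' *ᵥ x) := H16.SympTransv.mulVec_mul_coe s s' x

lemma mt_one (x : Fin m ⊕ Fin m → F2) :
    mt (1 : Matrix.symplecticGroup (Fin m) F2) *ᵥ x = x := H16.SympTransv.one_mulVec_coe x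

lemma mt_inv (s : Matrix.symplecticGroup (Fin m) F2) {x y : Fin m ⊕ Fin m → F2}
    (h : mt s *ᵥ x = y) : mt s⁻¹ *ᵥ y = x := H16.SympTransv.inv_mulVec_coe s h

lemma mt_tv (v x : Fin m ⊕ Fin m → F2) :
    mt (H16.SympTransv.tv v (1 : F2)) *ᵥ x = x + (sympForm m F2 x v) • v := by
  rw [mt_def, H16.SympTransv.coe_tv, sympTransvection_mulVec, one_mul]

lemma mt_ext {s s' : Matrix.symplecticGroup (Fin m) F2} (h : ∀ x, mt s *ᵥ x = mt s' *ᵥ x) :
    s = s' := Subtype.ext (mulVec_ext h)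

/-- Elements with `rank (g - 1) = 1`. -/
theorem rank_one {g : Matrix.symplecticGroup (Fin m) F2}
    (hg : ((g : Matrix (Fin m ⊕ Fin m) (Fin m ⊕ Fin m) F2) - 1).rank = 1) :
    ∃ v : Fin m ⊕ Fin m → F2, v ≠ 0 ∧ g = H16.SympTransv.tv v 1 := by
  set A : Matrix (Fin m ⊕ Fin m) (Fin m ⊕ Fin m) F2 := g.1 with hA
  have hiso := (mem_symplecticGroup_iff A).1 g.2
  rw [Matrix.rank, finrank_eq_one_iff'] at hg
  obtain ⟨⟨v, hvr⟩, hv0, hv⟩ := hg
  replace hv0 : v ≠ 0 := fun h => hv0 (Subtype.ext h)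
  have h1 : ∀ u, ∃ c : F2, A *ᵥ u = u + c • v := by
    intro u
    obtain ⟨c, hc⟩ := hv ⟨(A - 1).mulVecLin u, ⟨u, rfl⟩⟩
    refine ⟨c, ?_⟩
    have h2 : c • v = (A - 1) *ᵥ u := congrArg Subtype.val hc
    rw [Matrix.sub_mulVec, Matrix.one_mulVec] at h2
    rw [h2]; abel
  obtain ⟨w0, hw0⟩ := hvr
  have hw1 : A *ᵥ w0 = w0 + v := by
    rw [Matrix.mulVecLin_apply, Matrix.sub_mulVec, Matrix.one_mulVec] at hw0
    rw [← hw0]; abel
  have hdbl : ∀ c : F2, c + c = 0 := CharTwo.add_self_eq_zero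
  have h3 : ∀ u, ∀ c : F2, A *ᵥ u = u + c • v → c * sympForm m F2 v w0 = sympForm m F2 u v := by
    intro u c hc
    have h4 := hiso u w0
    rw [hc, hw1, sympForm_add_left, sympForm_add_right, sympForm_add_right, sympForm_smul_left,
      sympForm_smul_left, sympForm_self] at h4
    have h5 := hdbl (sympForm m F2 u v)
    linear_combination h4 - h5
  have hκ0 : sympForm m F2 v w0 ≠ 0 := by
    intro hk
    apply hv0
    apply eq_zero_of_forall_sympForm_left
    intro u
    obtain ⟨c, hc⟩ := h1 u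
    rw [← h3 u c hc, hk, mul_zero]
  have hκ1 : sympForm m F2 v w0 = 1 := by
    generalize sympForm m F2 v w0 = k at hκ0
    revert k
    decide
  refine ⟨v, hv0, ?_⟩
  apply Subtype.ext
  rw [H16.SympTransv.coe_tv]
  apply mulVec_ext
  intro u
  obtain ⟨c, hc⟩ := h1 u
  have h6 := h3 u c hc
  rw [hκ1, mul_one] at h6
  rw [sympTransvection_mulVec, one_mul, ← h6]
  exact hc

/-- Transvections have rank one. -/
theorem rank_tv {v : Fin m ⊕ Fin m → F2} (hv0 : v ≠ 0) :
    (((H16.SympTransv.tv v (1 : F2) : Matrix.symplecticGroup (Fin m) F2) :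
      Matrix (Fin m ⊕ Fin m) (Fin m ⊕ Fin m) F2) - 1).rank = 1 := by
  have h1 : ((H16.SympTransv.tv v (1 : F2) : Matrix.symplecticGroup (Fin m) F2) :
      Matrix (Fin m ⊕ Fin m) (Fin m ⊕ Fin m) F2) - 1 =
      Matrix.vecMulVec v (Matrix.J (Fin m) F2 *ᵥ v) := by
    rw [H16.SympTransv.coe_tv, sympTransvection, one_smul]; abel
  apply le_antisymm
  · rw [h1]
    exact Matrix.rank_vecMulVec_le _ _
  · rw [Nat.one_le_iff_ne_zero]
    intro h2
    rw [Matrix.rank, Submodule.finrank_eq_zero, LinearMap.range_eq_bot] at h2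
    apply hv0
    apply eq_zero_of_forall_sympForm_left
    intro u
    have h3 : (((H16.SympTransv.tv v (1 : F2) : Matrix.symplecticGroup (Fin m) F2) :
      Matrix (Fin m ⊕ Fin m) (Fin m ⊕ Fin m) F2) - 1).mulVecLin u = 0 := by rw [h2]; rfl
    rw [Matrix.mulVecLin_apply, Matrix.sub_mulVec, Matrix.one_mulVec, H16.SympTransv.coe_tv,
      sympTransvection_mulVec, one_mul, add_sub_cancel_left] at h3
    exact (smul_eq_zero.1 h3).resolve_right hv0

/-- Standard coordinates version. -/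
theorem core {G : Type*} [Group G] {D : Set G} (hD : IsThreeTranspositionClass D)
    (hZ : Subgroup.center G = ⊥) (ψ : G → (Fin m ⊕ Fin m → F2))
    (hne : ∀ x ∈ D, ψ x ≠ 0)
    (hinj : ∀ x ∈ D, ∀ y ∈ D, ψ x = ψ y → x = y)
    (hsurj : ∀ v, v ≠ 0 → ∃ x ∈ D, ψ x = v)
    (h2 : ∀ x ∈ D, ∀ y ∈ D, ψ y + sympForm m F2 (ψ y) (ψ x) • ψ x = ψ (x * y * x)) :
    ∃ (e : G ≃* Matrix.symplecticGroup (Fin m) F2), e '' D =
      {g : Matrix.symplecticGroup (Fin m) F2 |
        ((g : Matrix (Fin m ⊕ Fin m) (Fin m ⊕ Fin m) F2) - 1).rank = 1} := by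
  classical
  let R : Subgroup (Matrix.symplecticGroup (Fin m) F2 × G) :=
    { carrier := {p | ∀ x ∈ D, mt p.1 *ᵥ ψ x = ψ (p.2 * x * p.2⁻¹)}
      mul_mem' := by
        rintro ⟨s, g⟩ ⟨s', g'⟩ hs hs' x hx
        have h3 := hs' x hx
        have h4 := hs _ (H95.FischSU.conj_mem hD hx g')
        show mt (s * s') *ᵥ ψ x = ψ (g * g' * x * (g * g')⁻¹)
        have h5 : g * g' * x * (g * g')⁻¹ = g * (g' * x * g'⁻¹) * g⁻¹ := by group
        rw [h5, mt_mul]
        exact (congrArg _ h3).trans h4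
      one_mem' := by
        intro x hx
        show mt 1 *ᵥ ψ x = ψ (1 * x * 1⁻¹)
        rw [one_mul, inv_one, mul_one, mt_one]
      inv_mem' := by
        rintro ⟨s, g⟩ hs x hx
        have h3 := hs _ (H95.FischSU.conj_mem hD hx g⁻¹)
        show mt s⁻¹ *ᵥ ψ x = ψ (g⁻¹ * x * g⁻¹⁻¹)
        have h4 : g * (g⁻¹ * x * g⁻¹⁻¹) * g⁻¹ = x := by group
        change mt s *ᵥ ψ (g⁻¹ * x * g⁻¹⁻¹) = ψ (g * (g⁻¹ * x * g⁻¹⁻¹) * g⁻¹) at h3
        rw [h4] at h3
        exact mt_inv s h3 }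
  have hRmem : ∀ (s : Matrix.symplecticGroup (Fin m) F2) (g : G), (s, g) ∈ R ↔ ∀ x ∈ D, mt s *ᵥ ψ x = ψ (g * x * g⁻¹) :=
    fun s g => Iff.rfl
  have hRtr : ∀ x ∈ D, ((H16.SympTransv.tv (ψ x) 1 : Matrix.symplecticGroup (Fin m) F2), x) ∈ R := by
    intro x hx
    rw [hRmem]
    intro y hy
    rw [H95.FischSU.inv_eq hD hx, ← h2 x hx y hy, mt_tv]
  have hR1 : ∀ s : Matrix.symplecticGroup (Fin m) F2, ∃ g : G, (s, g) ∈ R := by
    have h3 : R.map (MonoidHom.fst _ _) = ⊤ := by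
      rw [eq_top_iff, ← H16.SympTransv.tvGroup_eq_top, H16.SympTransv.tvGroup,
        Subgroup.closure_le]
      rintro A ⟨w, -, c, rfl⟩
      by_cases hw : w = 0 ∨ c = 0
      · have h4 : (H16.SympTransv.tv w c : Matrix.symplecticGroup (Fin m) F2) = 1 := by
          apply mt_ext
          intro u
          rw [mt_one, mt_def, H16.SympTransv.coe_tv, sympTransvection_mulVec]
          rcases hw with rfl | rfl
          · rw [smul_zero, add_zero]
          · rw [zero_mul, zero_smul, add_zero]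
        rw [h4]
        exact Subgroup.one_mem _
      · push Not at hw
        have hc : c = 1 := by
          obtain ⟨-, h⟩ := hw
          revert c; decide
        rw [hc]
        obtain ⟨x, hx, rfl⟩ := hsurj w hw.1
        exact ⟨_, hRtr x hx, rfl⟩
    intro s
    have h4 : s ∈ R.map (MonoidHom.fst _ _) := by rw [h3]; trivial
    obtain ⟨⟨s', g⟩, hp, rfl⟩ := h4
    exact ⟨g, hp⟩
  have hR2 : ∀ g : G, ∃ s : Matrix.symplecticGroup (Fin m) F2, (s, g) ∈ R := by
    have h3 : R.map (MonoidHom.snd _ _) = ⊤ := by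
      rw [eq_top_iff, ← hD.2.2, Subgroup.closure_le]
      intro x hx
      exact ⟨_, hRtr x hx, rfl⟩
    intro g
    have h4 : g ∈ R.map (MonoidHom.snd _ _) := by rw [h3]; trivial
    obtain ⟨⟨s', g⟩, hp, rfl⟩ := h4
    exact ⟨s', hp⟩
  have hR3 : ∀ g : G, ((1 : Matrix.symplecticGroup (Fin m) F2), g) ∈ R → g = 1 := by
    intro g hg
    rw [hRmem] at hg
    apply H95.FischSU.eq_one_of_comm hD hZ
    intro x hx
    have h3 := hg x hx
    rw [mt_one] at h3
    have h4 := hinj x hx _ (H95.FischSU.conj_mem hD hx g) h3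
    show g * x = x * g
    conv_rhs => rw [h4]
    group
  have hR4 : ∀ s : Matrix.symplecticGroup (Fin m) F2, (s, (1 : G)) ∈ R → s = 1 := by
    intro s hs
    rw [hRmem] at hs
    apply mt_ext
    intro u
    rw [mt_one]
    by_cases hu : u = 0
    · rw [hu, Matrix.mulVec_zero]
    · obtain ⟨x, hx, rfl⟩ := hsurj u hu
      rw [hs x hx]
      simp
  obtain ⟨f, hf, hfR⟩ := H95.FischG.graph_hom R hR1 hR2 hR3
  have hfi : Function.Injective f := by
    rw [injective_iff_map_eq_one]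
    intro s hs
    exact hR4 s ((hfR s 1).2 hs)
  let e : Matrix.symplecticGroup (Fin m) F2 ≃* G := MulEquiv.ofBijective f ⟨hfi, hf⟩
  have he : ∀ x ∈ D, e.symm x = H16.SympTransv.tv (ψ x) 1 := by
    intro x hx
    rw [MulEquiv.symm_apply_eq]
    exact ((hfR _ x).1 (hRtr x hx)).symm
  refine ⟨e.symm, ?_⟩
  ext p
  constructor
  · rintro ⟨x, hx, rfl⟩
    rw [he x hx]
    exact rank_tv (hne x hx)
  · intro hp
    obtain ⟨v, hv0, rfl⟩ := rank_one hp
    obtain ⟨x, hx, rfl⟩ := hsurj v hv0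
    exact ⟨x, hx, he x hx⟩

end H95.FischSP

open Cfsg Module in
/-- module SP -/
theorem H95.FischSP.H33SP {G : Type*} [Group G] [Finite G] {D : Set G} (hD : IsThreeTranspositionClass D)
    (hZ : Subgroup.center G = ⊥)
    (hV : ∀ x ∈ D, ∀ y ∈ D, (∀ z ∈ D, Commute x z ↔ Commute y z) → x = y)
    (h1 : ∀ x ∈ D, ∀ y ∈ D, x ≠ y → Commute x y → ∃ w ∈ D, ∀ z ∈ D, (Commute w z ↔ (Commute x z ↔ Commute y z)))
    (h2 : ∀ x ∈ D, ∀ y ∈ D, ¬ Commute x y → ∀ z ∈ D, (Commute (x * y * x) z ↔ (Commute x z ↔ Commute y z))) :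
    ∃ (n : ℕ) (e : G ≃* Matrix.symplecticGroup (Fin n) (ZMod 2)), e '' D = {g : Matrix.symplecticGroup (Fin n) (ZMod 2) | ((g : Matrix (Fin n ⊕ Fin n) (Fin n ⊕ Fin n) (ZMod 2)) - 1).rank = 1} := by
  classical
  -- the functions
  let f : G → (D → ZMod 2) := fun x z => if Commute x z then 0 else 1
  have hf0 : ∀ x z, f x z = 0 ↔ Commute x z := by
    intro x z
    simp only [f]
    split_ifs with h
    · simp [h]
    · simp [h]
  have hf1 : ∀ x z, f x z = 1 ↔ ¬ Commute x z := by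
    intro x z
    simp only [f]
    split_ifs with h
    · simp [h]
    · simp [h]
  have hadd : ∀ x y w : G, (∀ z ∈ D, (Commute w z ↔ (Commute x z ↔ Commute y z))) →
      f x + f y = f w := by
    intro x y w hw
    funext z
    have h3 := hw z z.2
    have h4 : (1 : ZMod 2) + 1 = 0 := by decide
    by_cases hx : Commute x z <;> by_cases hy : Commute y z
    · rw [Pi.add_apply, (hf0 x z).2 hx, (hf0 y z).2 hy, (hf0 w z).2 (by tauto), add_zero]
    · rw [Pi.add_apply, (hf0 x z).2 hx, (hf1 y z).2 hy, (hf1 w z).2 (by tauto), zero_add]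
    · rw [Pi.add_apply, (hf1 x z).2 hx, (hf0 y z).2 hy, (hf1 w z).2 (by tauto), add_zero]
    · rw [Pi.add_apply, (hf1 x z).2 hx, (hf1 y z).2 hy, (hf0 w z).2 (by tauto), h4]
  have hconj : ∀ x ∈ D, ∀ y ∈ D, x * y * x ∈ D := by
    intro x hx y hy
    have := H95.FischSU.conj_mem hD hy x
    rwa [H95.FischSU.inv_eq hD hx] at this
  let W : Submodule (ZMod 2) (D → ZMod 2) :=
    { carrier := {u | u = 0 ∨ ∃ x ∈ D, u = f x}
      zero_mem' := Or.inl rfl
      add_mem' := by
        rintro u v (rfl | ⟨x, hx, rfl⟩) (rfl | ⟨y, hy, rfl⟩)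
        · left; rw [add_zero]
        · right; exact ⟨y, hy, by rw [zero_add]⟩
        · right; exact ⟨x, hx, by rw [add_zero]⟩
        · by_cases hxy : x = y
          · left
            subst hxy
            funext z
            exact CharTwo.add_self_eq_zero _
          · right
            by_cases hc : Commute x y
            · obtain ⟨w, hw, h3⟩ := h1 x hx y hy hxy hc
              exact ⟨w, hw, hadd x y w h3⟩
            · exact ⟨x * y * x, hconj x hx y hy, hadd x y _ (h2 x hx y hy hc)⟩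
      smul_mem' := by
        rintro c u hu
        have hc : c = 0 ∨ c = 1 := by revert c; decide
        rcases hc with rfl | rfl
        · left; rw [zero_smul]
        · rw [one_smul]; exact hu }
  have hfW : ∀ x ∈ D, f x ∈ W := fun x hx => Or.inr ⟨x, hx, rfl⟩
  have hfne : ∀ x ∈ D, f x ≠ 0 := by
    intro x hx h0
    apply H95.FischSU.ne_one hD hx
    apply H95.FischSU.eq_one_of_comm hD hZ
    intro y hy
    rw [← hf0 x ⟨y, hy⟩, h0]; rfl
  have hfinj : ∀ x ∈ D, ∀ y ∈ D, f x = f y → x = y := by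
    intro x hx y hy hxy
    apply hV x hx y hy
    intro z hz
    rw [← hf0 x ⟨z, hz⟩, ← hf0 y ⟨z, hz⟩, hxy]
  -- the form
  let b : W → W → ZMod 2 := fun u v =>
    if h : ∃ y : D, (v : D → ZMod 2) = f y then (u : D → ZMod 2) h.choose else 0
  have hb : ∀ (u : W) (v : W) (y : D), (v : D → ZMod 2) = f y → b u v = (u : D → ZMod 2) y := by
    intro u v y hy
    have h : ∃ y : D, (v : D → ZMod 2) = f y := ⟨y, hy⟩
    simp only [b, dif_pos h]
    have h3 := h.choose_spec
    have h4 : h.choose = y := Subtype.ext (hfinj _ h.choose.2 _ y.2 (h3.symm.trans hy))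
    rw [h4]
  have hb0 : ∀ (u : W), b u 0 = 0 := by
    intro u
    have h : ¬ ∃ y : D, ((0 : W) : D → ZMod 2) = f y := by
      rintro ⟨y, hy⟩
      exact hfne y y.2 hy.symm
    simp only [b, dif_neg h]
  have hcases : ∀ v : W, v = 0 ∨ ∃ y : D, (v : D → ZMod 2) = f y := by
    rintro ⟨v, rfl | ⟨y, hy, rfl⟩⟩
    · left; rfl
    · right; exact ⟨⟨y, hy⟩, rfl⟩
  have hfsymm : ∀ x y : D, f x y = f y x := by
    intro x y
    simp only [f]
    exact if_congr ⟨Commute.symm, Commute.symm⟩ rfl rfl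
  have hb0' : ∀ (v : W), b 0 v = 0 := by
    intro v
    rcases hcases v with rfl | ⟨y, hy⟩
    · exact hb0 0
    · rw [hb 0 v y hy]; rfl
  have hsymm : ∀ u v, b u v = b v u := by
    intro u v
    rcases hcases v with rfl | ⟨y, hy⟩
    · rw [hb0, hb0']
    rcases hcases u with rfl | ⟨x, hx⟩
    · rw [hb0, hb0']
    rw [hb u v y hy, hb v u x hx, hx, hy, hfsymm]
  have hbadd : ∀ u u' v, b (u + u') v = b u v + b u' v := by
    intro u u' v
    rcases hcases v with rfl | ⟨y, hy⟩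
    · rw [hb0, hb0, hb0, add_zero]
    · rw [hb _ v y hy, hb _ v y hy, hb _ v y hy]; rfl
  have hbsmul : ∀ (c : ZMod 2) (u v), b (c • u) v = c • b u v := by
    intro c u v
    rcases hcases v with rfl | ⟨y, hy⟩
    · rw [hb0, hb0, smul_zero]
    · rw [hb _ v y hy, hb _ v y hy]; rfl
  let β : W →ₗ[ZMod 2] W →ₗ[ZMod 2] ZMod 2 := LinearMap.mk₂ (ZMod 2) b hbadd hbsmul
    (fun u v v' => by rw [hsymm, hbadd, hsymm v, hsymm v'])
    (fun c u v => by rw [hsymm, hbsmul, hsymm v])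
  have hβ : ∀ u v, β u v = b u v := fun u v => rfl
  have halt : ∀ u, β u u = 0 := by
    intro u
    rw [hβ]
    rcases hcases u with rfl | ⟨y, hy⟩
    · exact hb0 0
    · rw [hb _ u y hy, hy, hf0]
  have hnd : ∀ u, (∀ v, β u v = 0) → u = 0 := by
    intro u hu
    apply Subtype.ext
    funext y
    have := hu ⟨f y, hfW y y.2⟩
    rw [hβ, hb u _ y rfl] at this
    exact this
  obtain ⟨m, E, hE⟩ := H95.FischSP.exists_std β halt hnd
  let ψ : G → (Fin m ⊕ Fin m → ZMod 2) := fun x => if hx : x ∈ D then E ⟨f x, hfW x hx⟩ else 0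
  have hψ : ∀ x (hx : x ∈ D), ψ x = E ⟨f x, hfW x hx⟩ := fun x hx => dif_pos hx
  obtain ⟨e, he⟩ := H95.FischSP.core hD hZ ψ
    (fun x hx => by
      rw [hψ x hx]
      intro h0
      rw [LinearEquiv.map_eq_zero_iff] at h0
      exact hfne x hx (congrArg Subtype.val h0))
    (fun x hx y hy hxy => by
      rw [hψ x hx, hψ y hy] at hxy
      exact hfinj x hx y hy (congrArg Subtype.val (E.injective hxy)))
    (fun v hv => by
      obtain ⟨u, rfl⟩ := E.surjective v
      rcases hcases u with rfl | ⟨y, hy⟩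
      · exact absurd (map_zero E) hv
      · refine ⟨y, y.2, ?_⟩
        rw [hψ y y.2]
        congr 1
        exact Subtype.ext hy.symm)
    (fun x hx y hy => by
      rw [hψ x hx, hψ y hy, hψ _ (hconj x hx y hy), hE, hβ, hb _ _ ⟨x, hx⟩ rfl, ← map_smul,
        ← map_add]
      congr 1
      apply Subtype.ext
      show f y + (f y ⟨x, hx⟩) • f x = f (x * y * x)
      by_cases hc : Commute x y
      · rw [(hf0 y ⟨x, hx⟩).2 hc.symm, zero_smul, add_zero]
        congr 1
        rw [hc.eq, mul_assoc, H95.FischSU.sq_one hD hx, mul_one]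
      · rw [(hf1 y ⟨x, hx⟩).2 (fun h => hc h.symm), one_smul, add_comm]
        exact hadd x y _ (h2 x hx y hy hc))
  exact ⟨m, e, he⟩
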