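import Mathlib
import Cfsg.Prelude.Def_FischerSpaces
import Cfsg.Prelude.Def_Classical
import Cfsg.Agent.Lib.H95.FischSP1
import Cfsg.Agent.Lib.H6.SmallIsoC

set_option autoImplicit false

/-!
Identification of a group generated by 3-transpositions with `Sp_4(2) = S_6`.
-/

namespace H95.FischSP

open Module Cfsg H16.Symp
open scoped Matrix

local notation "F2" => ZMod 2

variable {m : ℕ}

lemma F2_ne_zero {a : F2} (h : a ≠ 0) : a = 1 := by
  revert a; decide

/-- Commuting transvections. -/
theorem comm_iff {u v : Fin m ⊕ Fin m → F2} (hu : u ≠ 0) (hv : v ≠ 0) :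
    Commute (H16.SympTransv.tv u (1 : F2) : Matrix.symplecticGroup (Fin m) F2)
      (H16.SympTransv.tv v (1 : F2)) ↔ sympForm m F2 u v = 0 := by
  constructor
  · intro h
    by_contra h0
    have h1 : sympForm m F2 u v = 1 := F2_ne_zero h0
    have h1' : sympForm m F2 v u = 1 := by
      rw [sympForm_swap, h1]; decide
    have h2 : mt (H16.SympTransv.tv u (1 : F2) * H16.SympTransv.tv v (1 : F2)) *ᵥ v =
        mt (H16.SympTransv.tv v (1 : F2) * H16.SympTransv.tv u (1 : F2)) *ᵥ v := by
      rw [h.eq]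
    rw [mt_mul, mt_mul, mt_tv v v, sympForm_self, zero_smul, add_zero, mt_tv u v, h1', one_smul,
      mt_tv v (v + u), sympForm_add_left, sympForm_self, zero_add, h1, one_smul] at h2
    apply hv
    have h3 := congrArg (fun w => w - (v + u)) h2
    simpa using h3.symm
  · intro h
    have h' : sympForm m F2 v u = 0 := by
      rw [sympForm_swap, h, neg_zero]
    apply mt_ext
    intro x
    rw [mt_mul, mt_mul, mt_tv, mt_tv, mt_tv, mt_tv, sympForm_add_left, sympForm_add_left,
      sympForm_smul_left, sympForm_smul_left, h, h', mul_zero, mul_zero, add_zero, add_zero]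
    abel

end H95.FischSP

open Cfsg H16.Symp H95.FischSP
open scoped Matrix

/-- module SP6: rank two symplectic case -/
theorem H95.FischSP.H33SP6 {G : Type*} [Group G] [Finite G] {D : Set G} (hD : IsThreeTranspositionClass D)
    (hZ : Subgroup.center G = ⊥)
    (hV : ∀ x ∈ D, ∀ y ∈ D, (∀ z ∈ D, Commute x z ↔ Commute y z) → x = y)
    (h1 : ∀ x ∈ D, ∀ y ∈ D, x ≠ y → Commute x y → ∃ w ∈ D, ∀ z ∈ D, (Commute w z ↔ (Commute x z ↔ Commute y z)))
    (h2 : ∀ x ∈ D, ∀ y ∈ D, ¬ Commute x y → ∀ z ∈ D, (Commute (x * y * x) z ↔ (Commute x z ↔ Commute y z)))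
    (hw : ∃ x ∈ D, ∃ y ∈ D, x ≠ y ∧ Commute x y)
    (hr : ∀ x ∈ D, ∀ u ∈ D, ∀ v ∈ D, x ≠ u → x ≠ v → u ≠ v → Commute x u → Commute x v → Commute u v →
      ∀ e ∈ D, Commute e x → Commute e u → Commute e v) :
    Nonempty (G ≃* Equiv.Perm (Fin 6)) := by
  classical
  obtain ⟨n, e, he⟩ := H95.FischSP.H33SP hD hZ hV h1 h2
  have hmem : ∀ x ∈ D, ∃ v : Fin n ⊕ Fin n → ZMod 2, v ≠ 0 ∧ e x = H16.SympTransv.tv v 1 := by
    intro x hx
    have h3 : e x ∈ e '' D := ⟨x, hx, rfl⟩
    rw [he] at h3
    exact rank_one h3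
  have hsur : ∀ v : Fin n ⊕ Fin n → ZMod 2, v ≠ 0 → ∃ x ∈ D, e x = H16.SympTransv.tv v 1 := by
    intro v hv
    have h3 : H16.SympTransv.tv v 1 ∈ e '' D := by
      rw [he]
      exact rank_tv hv
    exact h3
  have hcomm : ∀ x y : G, Commute x y ↔ Commute (e x) (e y) := by
    intro x y
    constructor
    · intro h; exact h.map e
    · intro h
      have := h.map e.symm
      simpa using this
  obtain ⟨x, hx, y, hy, hxy, hc⟩ := hw
  obtain ⟨a, ha0, ha⟩ := hmem x hx
  obtain ⟨b, hb0, hb⟩ := hmem y hy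
  have hab : a ≠ b := by
    rintro rfl
    exact hxy (e.injective (ha.trans hb.symm))
  have hf : sympForm n (ZMod 2) a b = 0 := by
    rw [← comm_iff ha0 hb0, ← ha, ← hb]
    exact (hcomm x y).1 hc
  have hn2 : n = 2 := by
    by_contra hn
    have hn' : n = 0 ∨ n = 1 ∨ 3 ≤ n := by omega
    rcases hn' with rfl | rfl | hn3
    · apply ha0
      funext i
      rcases i with i | i <;> exact i.elim0
    · rw [sympForm_eq_sum, Fin.sum_univ_one] at hf
      have ha' : ¬ (a (Sum.inl 0) = 0 ∧ a (Sum.inr 0) = 0) := by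
        rintro ⟨h3, h4⟩
        apply ha0
        funext i
        rcases i with i | i
        · rw [Subsingleton.elim i 0, h3]; rfl
        · rw [Subsingleton.elim i 0, h4]; rfl
      have hb' : ¬ (b (Sum.inl 0) = 0 ∧ b (Sum.inr 0) = 0) := by
        rintro ⟨h3, h4⟩
        apply hb0
        funext i
        rcases i with i | i
        · rw [Subsingleton.elim i 0, h3]; rfl
        · rw [Subsingleton.elim i 0, h4]; rfl
      have hab' : ¬ (a (Sum.inl 0) = b (Sum.inl 0) ∧ a (Sum.inr 0) = b (Sum.inr 0)) := by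
        rintro ⟨h3, h4⟩
        apply hab
        funext i
        rcases i with i | i
        · rw [Subsingleton.elim i 0, h3]
        · rw [Subsingleton.elim i 0, h4]
      generalize a (Sum.inl 0) = a1 at *
      generalize a (Sum.inr 0) = a2 at *
      generalize b (Sum.inl 0) = b1 at *
      generalize b (Sum.inr 0) = b2 at *
      clear * - hf ha' hb' hab'
      revert a1 a2 b1 b2
      decide
    · let i0 : Fin n := ⟨0, by omega⟩
      let i1 : Fin n := ⟨1, by omega⟩
      let i2 : Fin n := ⟨2, by omega⟩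
      have h01 : i0 ≠ i1 := by simp [i0, i1]
      have h02 : i0 ≠ i2 := by simp [i0, i2]
      have h12 : i1 ≠ i2 := by simp [i1, i2]
      have hne : ∀ j : Fin n ⊕ Fin n, (Pi.single j 1 : Fin n ⊕ Fin n → ZMod 2) ≠ 0 := by
        intro j h
        have := congrFun h j
        rw [Pi.single_eq_same] at this
        exact one_ne_zero this
      have hinj : ∀ j k : Fin n ⊕ Fin n, j ≠ k →
          (Pi.single j 1 : Fin n ⊕ Fin n → ZMod 2) ≠ Pi.single k 1 := by
        intro j k hjk h
        have := congrFun h j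
        rw [Pi.single_eq_same, Pi.single_eq_of_ne hjk] at this
        exact one_ne_zero this
      obtain ⟨x0, hx0, h0⟩ := hsur (Pi.single (Sum.inl i0) 1) (hne _)
      obtain ⟨x1, hx1, h1'⟩ := hsur (Pi.single (Sum.inl i1) 1) (hne _)
      obtain ⟨x2, hx2, h2'⟩ := hsur (Pi.single (Sum.inl i2) 1) (hne _)
      obtain ⟨x3, hx3, h3'⟩ := hsur (Pi.single (Sum.inr i2) 1) (hne _)
      have hd : ∀ u ∈ D, ∀ v ∈ D, ∀ j k : Fin n ⊕ Fin n, j ≠ k →
          e u = H16.SympTransv.tv (Pi.single j 1) 1 → e v = H16.SympTransv.tv (Pi.single k 1) 1 →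
          (Commute u v ↔ sympForm n (ZMod 2) (Pi.single j 1) (Pi.single k 1) = 0) ∧ u ≠ v := by
        intro u hu v hv j k hjk hju hkv
        constructor
        · rw [hcomm, hju, hkv, comm_iff (hne _) (hne _)]
        · rintro rfl
          rw [hju] at hkv
          have h5 := congrArg (fun s => mt s) hkv
          have h6 : ∀ z, mt (H16.SympTransv.tv (Pi.single j 1) 1 : Matrix.symplecticGroup (Fin n) (ZMod 2)) *ᵥ z =
            mt (H16.SympTransv.tv (Pi.single k 1) 1 : Matrix.symplecticGroup (Fin n) (ZMod 2)) *ᵥ z := by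
            intro z
            rw [hkv]
          have h7 : ∃ z, sympForm n (ZMod 2) z (Pi.single j 1) ≠ 0 := by
            by_contra h8
            push Not at h8
            exact hne j (eq_zero_of_forall_sympForm_left h8)
          obtain ⟨z, hz⟩ := h7
          have h9 := h6 z
          rw [mt_tv, mt_tv, F2_ne_zero hz, one_smul] at h9
          have h10 := add_left_cancel h9
          by_cases h11 : sympForm n (ZMod 2) z (Pi.single k 1) = 0
          · rw [h11, zero_smul] at h10
            exact hne j h10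
          · rw [F2_ne_zero h11, one_smul] at h10
            exact hinj j k hjk h10
      have a1 := hd x0 hx0 x1 hx1 _ _ (by simpa using h01) h0 h1'
      have a2 := hd x0 hx0 x2 hx2 _ _ (by simpa using h02) h0 h2'
      have a3 := hd x1 hx1 x2 hx2 _ _ (by simpa using h12) h1' h2'
      have a4 := hd x3 hx3 x0 hx0 _ _ (by simp) h3' h0
      have a5 := hd x3 hx3 x1 hx1 _ _ (by simp) h3' h1'
      have a6 := hd x3 hx3 x2 hx2 _ _ (by simp) h3' h2'
      have h7 := hr x0 hx0 x1 hx1 x2 hx2 a1.2 a2.2 a3.2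
        (a1.1.2 (by rw [sympForm_single_inl]; simp))
        (a2.1.2 (by rw [sympForm_single_inl]; simp))
        (a3.1.2 (by rw [sympForm_single_inl]; simp)) x3 hx3
        (a4.1.2 (by rw [sympForm_single_inl]; simp [h02]))
        (a5.1.2 (by rw [sympForm_single_inl]; simp [h12]))
      have h8 := a6.1.1 h7
      rw [sympForm_single_inl] at h8
      simp at h8
  subst hn2
  obtain ⟨e'⟩ := H6.SmallIsoC.sp4_two (F := ZMod 2) (by rw [ZMod.card])
  exact ⟨e.trans e'⟩
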