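import Mathlib
import Cfsg.Prelude.Def_FischerSpaces
import Cfsg.Prelude.Def_Classical
import Cfsg.Agent.Lib.H95.FischSU3

set_option autoImplicit false

/-!
Bound for the dimension of a hermitian Gram space of a group generated by 3-transpositions
without planes.
-/

namespace H95.FischSU

open Module Cfsg
open scoped Matrix

/-- Closure. -/
theorem closed_of {G : Type*} [Group G] {D : Set G} (hD : IsThreeTranspositionClass D)
    {F : Type*} [Field F] [Fintype F] (hF : Fintype.card F = 4) {n : ℕ}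
    (φ : G → (Fin n → F))
    (hiso : ∀ x ∈ D, hermForm n F 2 (φ x) (φ x) = 0)
    (hperp : ∀ x ∈ D, ∀ y ∈ D, hermForm n F 2 (φ x) (φ y) = 0 ↔ Commute x y)
    (h1 : ∀ x ∈ D, ∀ y ∈ D, x ≠ y → Commute x y → ∀ c : F, ∃ w ∈ D, ∃ a : F, a ≠ 0 ∧
      φ x + c • φ y = a • φ w)
    (h2 : ∀ x ∈ D, ∀ y ∈ D, ∃ a : F, a ≠ 0 ∧
      φ y + hermForm n F 2 (φ y) (φ x) • φ x = a • φ (x * y * x)) :
    Closed {v : Fin n → F | ∃ x ∈ D, ∃ a : F, a ≠ 0 ∧ v = a • φ x} := by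
  constructor
  · rintro _ ⟨x, hx, a, ha, rfl⟩
    rw [H16.Herm.hermForm_smul_left, H16.Herm.hermForm_smul_right, hiso x hx, mul_zero, mul_zero]
  · rintro _ ⟨x, hx, a, ha, rfl⟩ c hc
    exact ⟨x, hx, c * a, mul_ne_zero hc ha, by rw [smul_smul]⟩
  · rintro _ ⟨x, hx, a, ha, rfl⟩ _ ⟨y, hy, b, hb, rfl⟩ hab
    by_cases hxy : x = y
    · subst hxy
      rw [← add_smul]
      by_cases hc : a + b = 0
      · left; rw [hc, zero_smul]
      · right; exact ⟨x, hx, _, hc, rfl⟩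
    · right
      rw [H16.Herm.hermForm_smul_left, H16.Herm.hermForm_smul_right, mul_eq_zero,
        or_iff_right ha, mul_eq_zero, or_iff_right (pow_ne_zero 2 hb), hperp x hx y hy] at hab
      obtain ⟨w, hw, d, hd, he⟩ := h1 x hx y hy hxy hab (a⁻¹ * b)
      refine ⟨w, hw, a * d, mul_ne_zero ha hd, ?_⟩
      rw [mul_smul, ← he, smul_add, smul_smul, ← mul_assoc, mul_inv_cancel₀ ha, one_mul]
  · rintro _ ⟨x, hx, a, ha, rfl⟩ _ ⟨y, hy, b, hb, rfl⟩
    obtain ⟨d, hd, he⟩ := h2 x hx y hy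
    refine ⟨x * y * x, ?_, b * d, mul_ne_zero hb hd, ?_⟩
    · have := conj_mem hD hy x
      rwa [inv_eq hD hx] at this
    · rw [mul_smul, ← he, smul_add, H16.Herm.hermForm_smul_left, H16.Herm.hermForm_smul_right,
        smul_smul, smul_smul]
      congr 2
      have h3 := H92.Herm.pow_three hF ha
      linear_combination (b * hermForm n F 2 (φ y) (φ x)) * h3

/-- A vector supported on two coordinates. -/
def two (n : ℕ) {F : Type*} [Field F] (i j : Fin n) (c : F) : Fin n → F :=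
  Pi.single i 1 + Pi.single j c

lemma herm_two {F : Type*} [Field F] [Fintype F] (hF : Fintype.card F = 4) {n : ℕ}
    {i j : Fin n} (hij : i ≠ j) (c : F) (v : Fin n → F) :
    hermForm n F 2 (two n i j c) v = v i ^ 2 + c * v j ^ 2 := by
  unfold two
  rw [H16.Herm.hermForm_add_left]
  unfold hermForm
  rw [Finset.sum_eq_single i, Finset.sum_eq_single j]
  · simp
  · intro k _ hk; simp [Pi.single_eq_of_ne hk]
  · simp
  · intro k _ hk; simp [Pi.single_eq_of_ne hk]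
  · simp

end H95.FischSU

open Cfsg H95.FischSU in
/-- module SU5: rank two unitary case -/
theorem H95.FischSU.H33SU5 {G : Type*} [Group G] [Finite G] {D : Set G} (hD : IsThreeTranspositionClass D)
    (hZ : Subgroup.center G = ⊥)
    (hV : ∀ x ∈ D, ∀ y ∈ D, (∀ z ∈ D, Commute x z ↔ Commute y z) → x = y)
    (hw : ∃ x ∈ D, ∃ y ∈ D, x ≠ y ∧ Commute x y)
    {F : Type} [Field F] [Fintype F] (hF : Fintype.card F = 4)
    {V : Type*} [AddCommGroup V] [Module F V] [FiniteDimensional F V] (h : V → V → F)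
    (hadd : ∀ u v w, h (u + v) w = h u w + h v w) (hsmul : ∀ (c : F) (u v), h (c • u) v = c * h u v)
    (hherm : ∀ u v, h v u = (h u v) ^ 2) (hnd : ∀ u, (∀ v, h u v = 0) → u = 0)
    (φ : G → V) (hspan : Submodule.span F (φ '' D) = ⊤)
    (hiso : ∀ x ∈ D, h (φ x) (φ x) = 0)
    (hperp : ∀ x ∈ D, ∀ y ∈ D, h (φ x) (φ y) = 0 ↔ Commute x y)
    (h1 : ∀ x ∈ D, ∀ y ∈ D, x ≠ y → Commute x y → ∀ c : F, ∃ w ∈ D, ∃ a : F, a ≠ 0 ∧ φ x + c • φ y = a • φ w)
    (h2 : ∀ x ∈ D, ∀ y ∈ D, ∃ a : F, a ≠ 0 ∧ φ y + h (φ y) (φ x) • φ x = a • φ (x * y * x))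
    (hr : ∀ x ∈ D, ∀ u ∈ D, ∀ v ∈ D, x ≠ u → x ≠ v → u ≠ v → Commute x u → Commute x v → Commute u v →
      ∀ e ∈ D, Commute e x → Commute e u → Commute e v) :
    Module.finrank F V ≤ 5 := by
  classical
  by_contra hcon
  obtain ⟨n, hn, E, hE⟩ : ∃ n, ¬ n ≤ 5 ∧ ∃ E : V ≃ₗ[F] (Fin n → F), ∀ u v,
      hermForm n F 2 (E u) (E v) = h u v :=
    ⟨_, hcon, H95.FischSU.exists_std hF h hadd hsmul hherm hnd⟩
  set ψ : G → (Fin n → F) := fun g => E (φ g) with hψ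
  have hperp' : ∀ x ∈ D, ∀ y ∈ D, hermForm n F 2 (ψ x) (ψ y) = 0 ↔ Commute x y := by
    intro x hx y hy
    show hermForm n F 2 (E (φ x)) (E (φ y)) = 0 ↔ _
    rw [hE]; exact hperp x hx y hy
  have hA := closed_of hD hF ψ (fun x hx => by show hermForm n F 2 (E (φ x)) (E (φ x)) = 0; rw [hE, hiso x hx])
    hperp'
    (fun x hx y hy hxy hc c => by
      obtain ⟨w, hw, a, ha, h3⟩ := h1 x hx y hy hxy hc c
      exact ⟨w, hw, a, ha, by show E (φ x) + c • E (φ y) = a • E (φ w); rw [← map_smul, ← map_smul, ← map_add, h3]⟩)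
    (fun x hx y hy => by
      obtain ⟨a, ha, h3⟩ := h2 x hx y hy
      exact ⟨a, ha, by
        show E (φ y) + hermForm n F 2 (E (φ y)) (E (φ x)) • E (φ x) = a • E (φ (x * y * x))
        rw [hE, ← map_smul, ← map_smul, ← map_add, h3]⟩)
  have hAspan : Submodule.span F {v : Fin n → F | ∃ x ∈ D, ∃ a : F, a ≠ 0 ∧ v = a • ψ x} = ⊤ := by
    rw [eq_top_iff]
    have h3 : Submodule.span F (ψ '' D) = ⊤ := by
      rw [show ψ '' D = (E : V →ₗ[F] _) '' (φ '' D) from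
        (Set.image_image _ _ _).symm, Submodule.span_image, hspan, Submodule.map_top,
        LinearMap.range_eq_top]
      exact E.surjective
    rw [← h3]
    apply Submodule.span_mono
    rintro _ ⟨x, hx, rfl⟩
    exact ⟨x, hx, 1, one_ne_zero, by rw [one_smul]⟩
  obtain ⟨w, hw0, hw1⟩ : ∃ w : F, w ≠ 0 ∧ w ≠ 1 := by
    by_contra h5
    push Not at h5
    have h6 : (Finset.univ : Finset F) ⊆ {0, 1} := by
      intro w _
      by_cases h7 : w = 0
      · simp [h7]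
      · simp [h5 w h7]
    have h7 := Finset.card_le_card h6
    rw [Finset.card_univ, hF] at h7
    have h8 : ({0, 1} : Finset F).card ≤ 2 := Finset.card_le_two
    omega
  have hw3 := H92.Herm.pow_three hF hw0
  have hc2 := H92.Herm.add_self hF (1 : F)
  have hget : ∀ i j : Fin n, i ≠ j → ∀ c : F, c ≠ 0 → ∃ x ∈ D, ∃ a : F, a ≠ 0 ∧ two n i j c = a • ψ x := by
    intro i j hij c hc
    have h5 : two n i j c ≠ 0 := by
      intro h6
      have := congrFun h6 i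
      simp [two, hij] at this
    have h6 : hermForm n F 2 (two n i j c) (two n i j c) = 0 := by
      rw [herm_two hF hij]
      have hc3 := H92.Herm.pow_three hF hc
      simp only [two, Pi.add_apply, Pi.single_eq_same, Pi.single_eq_of_ne hij, Pi.single_eq_of_ne hij.symm]
      linear_combination hc3 + hc2
    exact hA.iso_mem hF hAspan h6 h5
  have hcm : ∀ x ∈ D, ∀ y ∈ D, ∀ a b : F, a ≠ 0 → b ≠ 0 → ∀ u v : Fin n → F, u = a • ψ x → v = b • ψ y →
      (Commute x y ↔ hermForm n F 2 u v = 0) := by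
    rintro x hx y hy a b ha hb u v rfl rfl
    rw [H16.Herm.hermForm_smul_left, H16.Herm.hermForm_smul_right, mul_eq_zero,
          or_iff_right ha, mul_eq_zero, or_iff_right (pow_ne_zero 2 hb), hperp' x hx y hy]
  have hdist : ∀ x ∈ D, ∀ y ∈ D, ∀ a b : F, a ≠ 0 → b ≠ 0 → ∀ u v : Fin n → F, u = a • ψ x → v = b • ψ y →
      (∃ i, u i ≠ 0 ∧ v i = 0) → x ≠ y := by
    rintro x hx y hy a b ha hb u v rfl rfl ⟨i, hi, hi'⟩ rfl
    apply hi
    rw [Pi.smul_apply, smul_eq_mul, mul_eq_zero, or_iff_right hb] at hi'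
    rw [Pi.smul_apply, smul_eq_mul, hi', mul_zero]
  let i0 : Fin n := ⟨0, by omega⟩
  let i1 : Fin n := ⟨1, by omega⟩
  let i2 : Fin n := ⟨2, by omega⟩
  let i3 : Fin n := ⟨3, by omega⟩
  let i4 : Fin n := ⟨4, by omega⟩
  let i5 : Fin n := ⟨5, by omega⟩
  obtain ⟨x0, hx0, a0, ha0, h0⟩ := hget i0 i1 (by simp [i0, i1]) 1 one_ne_zero
  obtain ⟨x1, hx1, a1, ha1, h1'⟩ := hget i2 i3 (by simp [i2, i3]) 1 one_ne_zero
  obtain ⟨x2, hx2, a2, ha2, h2'⟩ := hget i4 i5 (by simp [i4, i5]) 1 one_ne_zero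
  obtain ⟨x3, hx3, a3, ha3, h3'⟩ := hget i4 i5 (by simp [i4, i5]) w hw0
  have hz : ∀ i j k l : Fin n, ∀ c d : F, i ≠ j → i ≠ k → i ≠ l → j ≠ k → j ≠ l → k ≠ l →
      hermForm n F 2 (two n i j c) (two n k l d) = 0 := by
    intro i j k l c d hij hik hil hjk hjl hkl
    rw [herm_two hF hij]
    simp [two, hik, hil, hjk, hjl]
  have h7 := hr x0 hx0 x1 hx1 x2 hx2
    (hdist x0 hx0 x1 hx1 a0 a1 ha0 ha1 _ _ h0 h1' ⟨i0, by simp [two, i0, i1], by simp [two, i0, i2, i3]⟩)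
    (hdist x0 hx0 x2 hx2 a0 a2 ha0 ha2 _ _ h0 h2' ⟨i0, by simp [two, i0, i1], by simp [two, i0, i4, i5]⟩)
    (hdist x1 hx1 x2 hx2 a1 a2 ha1 ha2 _ _ h1' h2' ⟨i2, by simp [two, i2, i3], by simp [two, i2, i4, i5]⟩)
    ((hcm x0 hx0 x1 hx1 a0 a1 ha0 ha1 _ _ h0 h1').2 (hz _ _ _ _ _ _ (by simp [i0, i1]) (by simp [i0, i2])
      (by simp [i0, i3]) (by simp [i1, i2]) (by simp [i1, i3]) (by simp [i2, i3])))
    ((hcm x0 hx0 x2 hx2 a0 a2 ha0 ha2 _ _ h0 h2').2 (hz _ _ _ _ _ _ (by simp [i0, i1]) (by simp [i0, i4])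
      (by simp [i0, i5]) (by simp [i1, i4]) (by simp [i1, i5]) (by simp [i4, i5])))
    ((hcm x1 hx1 x2 hx2 a1 a2 ha1 ha2 _ _ h1' h2').2 (hz _ _ _ _ _ _ (by simp [i2, i3]) (by simp [i2, i4])
      (by simp [i2, i5]) (by simp [i3, i4]) (by simp [i3, i5]) (by simp [i4, i5])))
    x3 hx3
    ((hcm x3 hx3 x0 hx0 a3 a0 ha3 ha0 _ _ h3' h0).2 (hz _ _ _ _ _ _ (by simp [i4, i5]) (by simp [i4, i0])
      (by simp [i4, i1]) (by simp [i5, i0]) (by simp [i5, i1]) (by simp [i0, i1])))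
    ((hcm x3 hx3 x1 hx1 a3 a1 ha3 ha1 _ _ h3' h1').2 (hz _ _ _ _ _ _ (by simp [i4, i5]) (by simp [i4, i2])
      (by simp [i4, i3]) (by simp [i5, i2]) (by simp [i5, i3]) (by simp [i2, i3])))
  have h8 := (hcm x3 hx3 x2 hx2 a3 a2 ha3 ha2 _ _ h3' h2').1 h7
  have h45 : i4 ≠ i5 := by simp [i4, i5]
  rw [herm_two hF h45] at h8
  simp only [two, Pi.add_apply, Pi.single_eq_same, Pi.single_eq_of_ne h45, Pi.single_eq_of_ne h45.symm] at h8
  apply hw1
  linear_combination h8 - hc2
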