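import Cfsg.Agent.Lib.H95.O12Nd

/-!
Maximality of the stabilisers of non-degenerate subspaces of the twelve-dimensional space of minus type.
-/
set_option autoImplicit false

namespace H95.O12NdB

open Module QuadraticMap H48.QuadSplit H48.QuadWitt H95.OGeo H48.QuadStd H7.OAPar

section
universe u
variable {F : Type*} {V : Type u} [Field F] [AddCommGroup V] [Module F V] {Q : QuadraticForm F V}

/-- a totally singular subspace from an isometry with the standard form -/
lemma ts_of_plus {m : ℕ} (h : Q.Equivalent (qPlus m F)) : ∃ T : Submodule F V, TS Q T ∧ finrank F T = m := by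
  obtain ⟨e⟩ := h
  let i : (Fin m → F) →ₗ[F] (Fin m ⊕ Fin m → F) :=
    { toFun := fun x => Sum.elim x 0
      map_add' := fun x y => by ext (i | i) <;> simp
      map_smul' := fun c x => by ext (i | i) <;> simp }
  let f : (Fin m → F) →ₗ[F] V := (e.symm.toLinearEquiv : (Fin m ⊕ Fin m → F) →ₗ[F] V) ∘ₗ i
  have hi : Function.Injective i := by
    intro x y hxy
    ext j
    have := congrFun hxy (Sum.inl j)
    exact this
  have hf : Function.Injective f := e.symm.toLinearEquiv.injective.comp hi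
  refine ⟨LinearMap.range f, ?_, ?_⟩
  · rintro _ ⟨x, rfl⟩
    have h1 : Q (f x) = qPlus m F (i x) := e.symm.map_app (i x)
    rw [h1, qPlus_apply]
    apply Finset.sum_eq_zero
    intro j _
    have : i x (Sum.inr j) = 0 := rfl
    rw [this, mul_zero]
  · rw [LinearMap.finrank_range_of_inj hf]
    simp

variable [FiniteDimensional F V] [Finite F]

/-- two halves that are both of minus type give plus type -/
lemma plus_of_minus (hQ : ND Q) {W : Submodule F V} (hW : ND (Q.restrict W)) {m : ℕ} (hm : 1 ≤ m)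
    (hk : finrank F W = 2 * m) (hk' : finrank F (orth Q W) = 2 * m) {z z' : F} (hz : ∀ t : F, t ^ 2 + t + z ≠ 0)
    (hz' : ∀ t : F, t ^ 2 + t + z' ≠ 0) (h1 : (Q.restrict W).Equivalent (qMinus (m - 1) F 1 z))
    (h2 : (Q.restrict (orth Q W)).Equivalent (qMinus (m - 1) F 1 z')) :
    ∃ T : Submodule F V, TS Q T ∧ finrank F T = 2 * m := by
  have hndU := nd_orth hQ hW
  have h3 : (qMinus (m - 1) F 1 z').Equivalent (qMinus (m - 1) F 1 z) :=
    (qMinus_equiv (m - 1) 1 z').trans (((Equivalent.refl _).prod (qBin_unique hz hz')).trans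
      (qMinus_equiv (m - 1) 1 z).symm)
  obtain ⟨ψ1⟩ := H48.QuadSim.smul_equivalent hndU (m := m) (by omega) (c := -1) (by simp)
  obtain ⟨ψ2⟩ := h2.trans (h3.trans h1.symm)
  have hψ1 : ∀ x : orth Q W, Q ((ψ1 x : orth Q W) : V) = - Q (x : V) := by
    intro x
    have h1 := ψ1.map_app x
    have h2 : ((-1 : F) • Q.restrict (orth Q W)) x = - Q (x : V) := by
      rw [_root_.smul_apply, restrict_apply]; simp
    rw [h2] at h1
    exact h1
  have hψ2 : ∀ x : orth Q W, Q ((ψ2 x : W) : V) = Q (x : V) := fun x => ψ2.map_app x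
  let f : orth Q W →ₗ[F] V := (orth Q W).subtype + W.subtype ∘ₗ (ψ2.toLinearEquiv : orth Q W →ₗ[F] W) ∘ₗ
    (ψ1.toLinearEquiv : orth Q W →ₗ[F] orth Q W)
  have hf : ∀ x, f x = (x : V) + ((ψ2 (ψ1 x) : W) : V) := fun x => rfl
  have hinj : Function.Injective f := by
    rw [injective_iff_map_eq_zero]
    intro x hx
    rw [hf] at hx
    have h2 : (x : V) ∈ W := by
      have : (x : V) = - ((ψ2 (ψ1 x) : W) : V) := eq_neg_of_add_eq_zero_left hx
      rw [this]; exact W.neg_mem (ψ2 (ψ1 x)).2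
    have h3 : (⟨(x : V), h2⟩ : W) = 0 := hW ⟨(x : V), h2⟩ fun y => by
      rw [polar_restrict, p_comm]; exact x.2 y y.2
    have h4 : (x : V) = 0 := congrArg Subtype.val h3
    exact Subtype.ext h4
  refine ⟨LinearMap.range f, ?_, ?_⟩
  · rintro _ ⟨x, rfl⟩
    rw [hf, Q_add, hψ2, hψ1, p_comm, x.2 _ (ψ2 (ψ1 x)).2]
    ring
  · rw [LinearMap.finrank_range_of_inj hinj]
    exact hk'

end

/-- non-degenerate subspaces, dimension twelve, minus type -/
theorem nd12 {F : Type*} [Field F] [Fintype F] {n : ℕ} (hn : n = 12) (Q : (Fin n → F) → F)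
    (hQ : Cfsg.Geo.IsNondegenerateQuadraticForm Q) (hminus : ¬ Cfsg.Geo.IsPlusTypeOn Q ⊤)
    (W : Submodule F (Fin n → F)) (hW0 : W ≠ ⊥) (hW1 : W ≠ ⊤)
    (hW : Cfsg.Geo.IsNondegenerateOn (QuadraticMap.polar Q) W)
    (hex : ¬ (Fintype.card F ≤ 3 ∧ (∃ U : Submodule F (Fin n → F), Module.finrank F U = 2 ∧
      Cfsg.Geo.IsNondegenerateOn (QuadraticMap.polar Q) U ∧ Cfsg.Geo.IsPlusTypeOn Q U ∧
      (U = W ∨ (Cfsg.Geo.AreOrthogonalFor (QuadraticMap.polar Q) U W ∧
      Module.finrank F U + Module.finrank F W = n))))) :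
    Cfsg.Geo.IsMaximalIn (Cfsg.Geo.omegaGL Q) (Cfsg.Geo.subspaceStabilizer W ⊓ Cfsg.Geo.omegaGL Q) := by
  have hfr : Module.finrank F (Fin n → F) = n := by simp
  have hcard : Nat.card F = Fintype.card F := Nat.card_eq_fintype_card
  obtain ⟨q, rfl⟩ : ∃ q : QuadraticForm F (Fin n → F), ⇑q = Q := ⟨H7.OABridge.ofFun hQ, rfl⟩
  have hnd : H48.QuadSplit.ND q := H7.OABridge.nd_of rfl hQ
  have hnd' : H48.QuadSplit.ND (q.restrict W) := H7.OANd.nd_of_on hW
  have hpar := H48.QuadSplit.finrank_orth hnd W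
  by_cases hhalf : 2 * finrank F W = finrank F (Fin n → F)
  · have hW6 : finrank F W = 6 := by omega
    have hU6 : finrank F (orth q W) = 6 := by omega
    have hndU := nd_orth hnd hnd'
    have hUU : orth q (orth q W) = W := orth_orth hnd W
    -- no totally singular six-space
    have hno6 : ∀ T : Submodule F (Fin n → F), TS q T → finrank F T = 6 → False := fun T hT hT' =>
      hminus ⟨T, le_top, hT, by rw [hT', finrank_top]; omega⟩
    have hhalves : ∀ W' : Submodule F (Fin n → F), ND (q.restrict W') → finrank F W' = 6 →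
        ∀ g ∈ H7.OA.O q, ¬ ∀ x ∈ orth q W', g x ∈ W' := by
      intro W' h1 h2 g hg hgU
      obtain ⟨T, hT, hT'⟩ := H7.OANd.plus_of_halves hnd h1 (k := 3) (by omega) (by omega) hg hgU
      exact hno6 T hT (by omega)
    rcases classify_even 3 _ (q.restrict (orth q W)) hndU (by omega) with hp | ⟨-, z', hz', hm'⟩
    · obtain ⟨T, hT, hT3⟩ := ts_of_plus hp
      have key := H95.O12Nd.max_half hnd (by omega) hnd' hW6 hT hT3 (hhalves W hnd' hW6)
      exact H7.OABridge.isMaximalIn_omegaGL rfl (H7.OABridge.mem_stab (W := W)) key.1 key.2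
    · rcases classify_even 3 _ (q.restrict W) hnd' (by omega) with hp | ⟨-, z, hz, hm⟩
      · have hp' : (q.restrict (orth q (orth q W))).Equivalent (qPlus 3 F) := by rw [hUU]; exact hp
        obtain ⟨T, hT, hT3⟩ := ts_of_plus hp'
        have key := H95.O12Nd.max_half hnd (by omega) hndU hU6 hT hT3 (hhalves _ hndU hU6)
        refine H7.OABridge.isMaximalIn_omegaGL rfl (H7.OABridge.mem_stab (W := W)) ?_ ?_
        · obtain ⟨g, hg, hgS⟩ := key.1
          exact ⟨g, hg, fun h => hgS ((H7.OANd.stab_orth_iff hnd (H7.OA.Om_le q hg)).2 h)⟩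
        · intro M h1 h2 h3
          refine key.2 M (fun g hg hgS => h1 g hg ((H7.OANd.stab_orth_iff hnd (H7.OA.Om_le q hg)).1 hgS)) h2 ?_
          obtain ⟨g, hg, hgS⟩ := h3
          exact ⟨g, hg, fun h => hgS ((H7.OANd.stab_orth_iff hnd (H7.OA.Om_le q (h2 hg))).1 h)⟩
      · exfalso
        obtain ⟨T, hT, hT'⟩ := plus_of_minus hnd hnd' (m := 3) (by norm_num) (by omega) (by omega) hz hz' hm hm'
        exact hno6 T hT (by omega)
  · have key := H95.O12Nd.max_nd12 hnd (by omega) hnd' hW0 hW1 ?_ ?_ hhalf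
    · exact H7.OABridge.isMaximalIn_omegaGL rfl (H7.OABridge.mem_stab (W := W)) key.1 key.2
    · rintro ⟨h3, x, hx, hx0, hxQ⟩
      by_contra hlt
      exact hex ⟨by omega, W, h3, hW, H7.OANd.plus_of_vec h3 hx hx0 hxQ, Or.inl rfl⟩
    · rintro ⟨h3, x, hx, hx0, hxQ⟩
      by_contra hlt
      refine hex ⟨by omega, H48.QuadSplit.orth q W, h3, H7.OANd.on_of_nd (H48.QuadSplit.nd_orth hnd hnd'),
        H7.OANd.plus_of_vec h3 hx hx0 hxQ, Or.inr ⟨?_, by omega⟩⟩
      intro u hu v hv
      have := hu v hv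
      rw [QuadraticMap.polar_comm] at this
      exact this

end H95.O12NdB
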