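import Mathlib
import Cfsg.Agent.Lib.H7.OANd2
import Cfsg.Agent.Lib.H48.QuadStd

/-!
Maximality of the stabilisers of non-degenerate subspaces in `Om Q`: dimension twelve.
-/
set_option autoImplicit false

namespace H95.O12Nd

open Module QuadraticMap H48.QuadSplit H48.QuadWitt H95.OGeo H7.OA H7.OABridge H7.OAPar H7.OANd

variable {F V : Type*} [Field F] [AddCommGroup V] [Module F V] {Q : QuadraticForm F V}

lemma span_sing [FiniteDimensional F V] [Finite F] (hQ : ND Q) (hn : 5 ≤ finrank F V) (S : Submodule F V)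
    (hS : ∀ z, Q z = 0 → z ∈ S) (y : V) : y ∈ S := by
  by_contra hyS
  obtain ⟨w, hw, hw'⟩ := sep hQ hyS
  obtain ⟨z, hz, hz'⟩ := corr_fam hQ (k := 1) (by omega) ![w] y 0
  have h2 : polar Q z w = polar Q y w := hz' 0
  apply hw'
  rw [← h2]
  exact hw z (hS z hz)

/-- hyperbolic pairs orthogonal to two vectors in a six-dimensional space of plus type -/
lemma hyp_plus [FiniteDimensional F V] [Finite F] (hQ : ND Q) (h6 : finrank F V = 6) {T : Submodule F V}
    (hT : TS Q T) (hT3 : finrank F T = 3) (a b : V) : ∃ e f, Q e = 0 ∧ Q f = 0 ∧ polar Q e f = 1 ∧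
      polar Q a e = 0 ∧ polar Q b e = 0 ∧ polar Q a f = 0 ∧ polar Q b f = 0 := by
  classical
  set L : Submodule F V := Submodule.span F {a, b} with hL
  have hLf : finrank F L ≤ 2 := by
    have h := finrank_span_finset_le_card (R := F) ({a, b} : Finset V)
    have h2 : ({a, b} : Finset V).card ≤ 2 := Finset.card_le_two
    have h3 : ((({a, b} : Finset V) : Set V)) = ({a, b} : Set V) := by simp
    rw [h3] at h
    exact h.trans h2
  set P := orth Q L with hP
  have hdP := finrank_orth hQ L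
  rw [← hP, h6] at hdP
  have haL : a ∈ L := Submodule.subset_span (by simp)
  have hbL : b ∈ L := Submodule.subset_span (by simp)
  suffices hcl : ∃ e ∈ P, Q e = 0 ∧ e ∉ L by
    obtain ⟨e, heP, heQ, heL⟩ := hcl
    have hex : ∃ f' ∈ P, polar Q e f' ≠ 0 := by
      by_contra hcon
      push Not at hcon
      apply heL
      rw [← orth_orth hQ L, mem_orth]
      intro u hu
      rw [p_comm]; exact hcon u hu
    obtain ⟨f', hf', hef⟩ := hex
    obtain ⟨f2, hf2⟩ : ∃ f2, f2 = (polar Q e f')⁻¹ • f' := ⟨_, rfl⟩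
    have hf2P : f2 ∈ P := by rw [hf2]; exact P.smul_mem _ hf'
    have e1 : polar Q e f2 = 1 := by rw [hf2, p_smul', inv_mul_cancel₀ hef]
    have hfP : f2 - Q f2 • e ∈ P := P.sub_mem hf2P (P.smul_mem _ heP)
    refine ⟨e, f2 - Q f2 • e, heQ, ?_, ?_, heP a haL, heP b hbL, hfP a haL, hfP b hbL⟩
    · rw [Q_sub, Q_smul, p_smul', p_comm Q f2, e1, heQ]; ring
    · rw [p_sub', p_smul', p_self, e1, heQ]; ring
  by_cases hcase : finrank F (L ⊓ P : Submodule F V) + 3 ≤ finrank F P
  · obtain ⟨C, hC⟩ := Submodule.exists_isCompl (Submodule.comap P.subtype L)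
    have hdC := Submodule.finrank_add_eq_of_isCompl hC
    have h1 : finrank F (Submodule.comap P.subtype L) = finrank F (L ⊓ P : Submodule F V) := by
      have h2 : (Submodule.comap P.subtype L).map P.subtype = L ⊓ P := by
        rw [Submodule.map_comap_subtype, inf_comm]
      rw [← h2, Submodule.finrank_map_subtype_eq]
    obtain ⟨e, heC, he0, heQ⟩ := exists_sing (Q.restrict P) (U := C) (by omega)
    refine ⟨e, e.2, heQ, fun heL => he0 ?_⟩
    have h3 : e ∈ (Submodule.comap P.subtype L) ⊓ C := ⟨heL, heC⟩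
    rw [hC.inf_eq_bot] at h3
    exact (Submodule.mem_bot F).1 h3
  · have hle1 := Submodule.finrank_mono (inf_le_left : L ⊓ P ≤ L)
    have hL2 : finrank F L = 2 := by omega
    have hLP : L ≤ P := by
      have h1 : L ⊓ P = L := Submodule.eq_of_le_of_finrank_le inf_le_left (by omega)
      rw [← h1]; exact inf_le_right
    have hnle : ¬ P ≤ L := by
      intro h
      have := Submodule.finrank_mono h
      omega
    by_cases hns : ∃ n ∈ L, Q n ≠ 0
    · obtain ⟨n, hn, hnQ⟩ := hns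
      have h2 : (2 : F) = 0 := by
        have h3 : polar Q n n = 0 := hLP hn n hn
        rw [p_self] at h3
        exact (mul_eq_zero.1 h3).resolve_right hnQ
      obtain ⟨h, hh, hhL⟩ := SetLike.not_le_iff_exists.1 hnle
      have : CharP F 2 := CharTwo.of_one_ne_zero_of_two_eq_zero one_ne_zero h2
      have hinj : Function.Injective (frobenius F 2) := frobenius_inj F 2
      obtain ⟨c, hc⟩ := Finite.surjective_of_injective hinj (Q h * (Q n)⁻¹)
      rw [frobenius_def] at hc
      refine ⟨h + c • n, P.add_mem hh (P.smul_mem _ (hLP hn)), ?_, fun h3 => hhL ?_⟩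
      · have h4 : polar Q h n = 0 := by rw [p_comm]; exact hh n hn
        have h5 : c * c * Q n = Q h := by
          rw [← pow_two, hc, inv_mul_cancel_right₀ hnQ]
        rw [Q_add, Q_smul, p_smul', h4, h5]
        linear_combination Q h * h2
      · exact (Submodule.add_mem_iff_left L (L.smul_mem _ hn)).1 h3
    · push Not at hns
      -- `T ∩ P` is not inside `L`
      have hnle2 : ¬ (T ⊓ P ≤ T ⊓ L) := by
        intro h
        have h1 := Submodule.finrank_mono h
        have h2 := Submodule.finrank_sup_add_finrank_inf_eq T P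
        have h3 := finrank_orth hQ (T ⊓ L)
        have h4 : T ⊔ P ≤ orth Q (T ⊓ L) := by
          refine sup_le ?_ ?_
          · intro x hx y hy
            have h6 := Q_add Q y x
            rw [hT y hy.1, hT x hx, hT _ (T.add_mem hy.1 hx)] at h6
            simpa using h6.symm
          · intro x hx y hy
            exact hx y hy.2
        have h5 := Submodule.finrank_mono h4
        omega
      obtain ⟨e, he, heL⟩ := SetLike.not_le_iff_exists.1 hnle2
      exact ⟨e, he.2, hT e he.1, fun h => heL ⟨he.1, h⟩⟩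

section main

variable [Finite F] [FiniteDimensional F V]

/-- the standing situation: `W` non-degenerate, `U = W^⊥` of dimension at least seven, `M` an overgroup of the stabiliser. -/
structure SitS (Q : QuadraticForm F V) (W : Submodule F V) (M : Subgroup (V ≃ₗ[F] V)) : Prop where
  nd : ND Q
  ndW : ND (Q.restrict W)
  six : 6 ≤ finrank F (orth Q W)
  hyp : ∀ a ∈ orth Q W, ∀ b ∈ orth Q W, ∃ e f, e ∈ orth Q W ∧ f ∈ orth Q W ∧ Q e = 0 ∧ Q f = 0 ∧
    polar Q e f = 1 ∧ polar Q a e = 0 ∧ polar Q b e = 0 ∧ polar Q a f = 0 ∧ polar Q b f = 0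
  stab : ∀ g ∈ Om Q, Stab W g → g ∈ M
  le : M ≤ Om Q

variable {W : Submodule F V} {M : Subgroup (V ≃ₗ[F] V)}

omit [Finite F] in
lemma SitS.ndU (S : SitS Q W M) : ND (Q.restrict (orth Q W)) := nd_orth S.nd S.ndW

omit [Finite F] in
lemma SitS.five (S : SitS Q W M) : 5 ≤ finrank F V := by
  have := Submodule.finrank_le (orth Q W)
  have := S.six
  omega

omit [Finite F] [FiniteDimensional F V] in
lemma SitS.leO (S : SitS Q W M) : M ≤ O Q := S.le.trans (Om_le Q)

lemma SitS.hasU (S : SitS Q W M) {u w : V} (hu : u ∈ orth Q W) (hw : w ∈ orth Q W) (hu0 : Q u = 0)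
    (huw : polar Q u w = 0) : Has Q M u w := by
  obtain ⟨g, hg, hgx⟩ := full_Om S.nd S.five hu0 w huw
  refine ⟨g, S.stab g hg (stab_of fun y hy => ?_), hgx⟩
  rw [hgx, sgF, hu y hy, hw y hy]
  simpa using hy

/-- a hyperbolic pair in `U` orthogonal to two given vectors of `U` -/
lemma SitS.exists_hyp (S : SitS Q W M) {a b : V} (ha : a ∈ orth Q W) (hb : b ∈ orth Q W) :
    ∃ e f, e ∈ orth Q W ∧ f ∈ orth Q W ∧ Q e = 0 ∧ Q f = 0 ∧ polar Q e f = 1 ∧
      polar Q a e = 0 ∧ polar Q b e = 0 ∧ polar Q a f = 0 ∧ polar Q b f = 0 := S.hyp a ha b hb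

/-- lifting an isometry: stabilise `W`, keep a given action on two vectors of `U` -/
lemma SitS.adj (S : SitS Q W M) {g : V ≃ₗ[F] V} (hg : g ∈ O Q) (hgW : ∀ x ∈ W, g x ∈ W) {a b : V}
    (ha : a ∈ orth Q W) (hb : b ∈ orth Q W) : ∃ h ∈ M, h a = g a ∧ h b = g b ∧ ∀ x ∈ W, h x = g x := by
  obtain ⟨e, f, he, hf, h1, h2, h3, h4, h5, h6, h7⟩ := S.exists_hyp ha hb
  obtain ⟨d, hd, hdx, hgd⟩ := H7.OA.adj S.nd S.five h1 h2 h3 hg
  have k : ∀ x ∈ W, (g * d) x = g x := by
    intro x hx
    rw [LinearEquiv.mul_apply, hdx x (by rw [p_comm]; exact he x hx) (by rw [p_comm]; exact hf x hx)]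
  refine ⟨g * d, S.stab _ hgd (stab_of fun x hx => ?_), ?_, ?_, k⟩
  · rw [k x hx]; exact hgW x hx
  · rw [LinearEquiv.mul_apply, hdx a (by rw [p_comm]; exact h4) (by rw [p_comm]; exact h6)]
  · rw [LinearEquiv.mul_apply, hdx b (by rw [p_comm]; exact h5) (by rw [p_comm]; exact h7)]

omit [Finite F] [FiniteDimensional F V] in
lemma SitS.notMem (S : SitS Q W M) {x : V} (hx : x ∈ W) (hx0 : x ≠ 0) : x ∉ orth Q W := by
  intro h
  exact hx0 (congrArg Subtype.val (S.ndW ⟨x, hx⟩ fun y => by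
    rw [polar_restrict, p_comm]; exact h y y.2))

omit [Finite F] [FiniteDimensional F V] in
lemma SitS.notMem' (S : SitS Q W M) {x : V} (hx : x ∈ orth Q W) (hx0 : x ≠ 0) : x ∉ W :=
  fun h => S.notMem h hx0 hx

/-- the vectors `w ∈ W` such that the Siegel element `(u, w)` is in `M` -/
lemma SitS.exists_R (S : SitS Q W M) {u : V} (hu : u ∈ orth Q W) (hu0 : Q u = 0) (hun : u ≠ 0) :
    ∃ R : Submodule F V, R ≤ W ∧ ∀ w, w ∈ R ↔ w ∈ W ∧ Has Q M u w := by
  have huw : ∀ w ∈ W, polar Q u w = 0 := fun w hw => by rw [p_comm]; exact hu w hw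
  refine ⟨{ carrier := {w | w ∈ W ∧ Has Q M u w}, add_mem' := ?_, zero_mem' := ?_, smul_mem' := ?_ },
    fun w hw => hw.1, fun w => Iff.rfl⟩
  · rintro a b ⟨ha, ha'⟩ ⟨hb, hb'⟩
    exact ⟨W.add_mem ha hb, ha'.mul hb' hu0 (huw a ha) (huw b hb)⟩
  · exact ⟨W.zero_mem, has_zero⟩
  · rintro c w ⟨hw, hw'⟩
    refine ⟨W.smul_mem c hw, ?_⟩
    by_cases hc : c = 0
    · rw [hc, zero_smul]; exact has_zero
    obtain ⟨⟨v, hvU⟩, hv, huv⟩ := exists_partner S.ndU (v := ⟨u, hu⟩)
      (fun h => hun (congrArg Subtype.val h)) hu0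
    have hv' : Q v = 0 := hv
    have huv' : polar Q u v = 1 := huv
    obtain ⟨t, ht, htx⟩ := exists_scaling (nd_iff.1 S.nd) u v hu0 hv' huv' c hc
    have htW : ∀ x ∈ W, t x = x := by
      intro x hx
      rw [htx, hu x hx, hvU x hx]; simp
    have htu : t u = c • u := by
      rw [htx, huv', p_self, hu0]
      module
    obtain ⟨h, hh, h1, -, h3⟩ := S.adj (g := t) ht (fun x hx => by rw [htW x hx]; exact hx) hu hu
    have h4 := hw'.conj hh (S.leO hh)
    rw [h1, htu, h3 w hw, htW w hw, has_scale] at h4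
    exact h4

/-- one non-zero vector gives everything -/
lemma SitS.full_of (S : SitS Q W M)
    (hpl : (finrank F W = 2 ∧ ∃ x ∈ W, x ≠ 0 ∧ Q x = 0) → 4 ≤ Nat.card F)
    {u r : V} (hu : u ∈ orth Q W) (hu0 : Q u = 0) (hun : u ≠ 0) (hr : r ∈ W) (hr0 : r ≠ 0)
    (h : Has Q M u r) : Full Q M u := by
  obtain ⟨R, hRW, hR⟩ := S.exists_R hu hu0 hun
  have hRW' : R = W := by
    refine irr S.ndW hRW ?_ ?_ hpl
    · intro hbot
      have : r ∈ R := (hR r).2 ⟨hr, h⟩
      rw [hbot] at this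
      exact hr0 ((Submodule.mem_bot F).1 this)
    · intro x hx y hy hx0 hy0 hxy
      have hxW := hRW hx
      rw [hR] at hx ⊢
      refine ⟨hy, ?_⟩
      obtain ⟨g, hg, hgU, hgx⟩ := witt_step (nd_iff.1 S.nd) (orth Q W) x y (S.notMem hxW hx0)
        (S.notMem hy hy0) hxy (fun w hw => by rw [hw x hxW, hw y hy])
      have hgW : ∀ z ∈ W, g z ∈ W := by
        intro z hz
        rw [← orth_orth S.nd W]
        intro w hw
        have hw' : w = g w := (hgU w hw).symm
        rw [hw', O_polar (mem_O.2 hg), p_comm]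
        exact hw z hz
      obtain ⟨h', hh', h1, -, h3⟩ := S.adj (g := g) hg hgW hu hu
      have h4 := hx.2.conj hh' (S.leO hh')
      rw [h1, hgU u hu, h3 x hxW, hgx] at h4
      exact h4
  intro w hw
  obtain ⟨e, he, -⟩ := ortho_split S.ndW
  obtain ⟨⟨w1, w2⟩, rfl⟩ := e.surjective w
  rw [he] at hw ⊢
  have huw1 : polar Q u (w1 : V) = 0 := by rw [p_comm]; exact hu w1 w1.2
  have huw2 : polar Q u (w2 : V) = 0 := by
    rw [p_add', huw1, zero_add] at hw; exact hw
  have h1 : Has Q M u (w1 : V) := by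
    have : (w1 : V) ∈ R := by rw [hRW']; exact w1.2
    exact ((hR _).1 this).2
  exact h1.mul (S.hasU hu w2.2 hu0 huw2) hu0 huw1 huw2

/-- one full centre in `U` suffices -/
lemma SitS.top_of_full (S : SitS Q W M) {u : V} (hu : u ∈ orth Q W) (hu0 : Q u = 0) (hun : u ≠ 0)
    (h : Full Q M u) : Om Q ≤ M := by
  obtain ⟨⟨v, hvU⟩, hv, huv⟩ := exists_partner S.ndU (v := ⟨u, hu⟩)
    (fun h => hun (congrArg Subtype.val h)) hu0
  have hv' : Q v = 0 := hv
  have huv' : polar Q u v = 1 := huv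
  have hv0 : v ≠ 0 := by
    rintro rfl
    rw [p_zero'] at huv'
    exact zero_ne_one huv'
  obtain ⟨g, hg, hgW, hgx⟩ := witt_step (nd_iff.1 S.nd) W u v (S.notMem' hu hun)
    (S.notMem' hvU hv0) (by rw [hu0, hv']) (fun w hw => by rw [p_comm, hu w hw, p_comm, hvU w hw])
  obtain ⟨h', hh', h1, -, -⟩ := S.adj (g := g) hg (fun x hx => by rw [hgW x hx]; exact hx) hu hu
  have h2 := h.conj hh' (S.leO hh')
  rw [h1, hgx] at h2
  exact le_of_full_one S.nd S.five hu0 hv' huv' h h2

/-- the key commutator -/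
lemma SitS.key (S : SitS Q W M)
    (hpl : (finrank F W = 2 ∧ ∃ x ∈ W, x ≠ 0 ∧ Q x = 0) → 4 ≤ Nat.card F)
    {a aU b bU : V} (h : Has Q M a b) (haU : aU ∈ orth Q W) (haW : a - aU ∈ W) (hbU : bU ∈ orth Q W)
    (hbW : b - bU ∈ W) (ha : a ∉ orth Q W) (hb : ∀ c : F, bU ≠ c • aU) : Om Q ≤ M := by
  obtain ⟨u, v, hu, hv, hu0, hv0, huv, hau, hbu, hav, hbv⟩ := S.exists_hyp haU hbU
  have hun : u ≠ 0 := by
    rintro rfl
    rw [p_zero] at huv
    exact zero_ne_one huv
  -- a vector of `U` orthogonal to `u`, `a`, but not to `b`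
  have hbn : (⟨bU, hbU⟩ : orth Q W) ∉ Submodule.span F {(⟨u, hu⟩ : orth Q W), ⟨aU, haU⟩} := by
    rw [Submodule.mem_span_pair]
    rintro ⟨α, β, hαβ⟩
    have h1 : α • u + β • aU = bU := congrArg Subtype.val hαβ
    have h2 : polar Q (α • u + β • aU) v = 0 := by rw [h1, hbv]
    rw [p_add, p_smul, p_smul, huv, hav] at h2
    simp at h2
    rw [h2, zero_smul, zero_add] at h1
    exact hb β h1.symm
  obtain ⟨⟨w, hw⟩, hw1, hw2⟩ := sep S.ndU hbn
  have hwu : polar Q u w = 0 := hw1 ⟨u, hu⟩ (Submodule.subset_span (by simp))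
  have hwa : polar Q aU w = 0 := hw1 ⟨aU, haU⟩ (Submodule.subset_span (by simp))
  have hwb : polar Q bU w ≠ 0 := hw2
  have toU : ∀ x xU y : V, x - xU ∈ W → y ∈ orth Q W → polar Q x y = polar Q xU y := by
    intro x xU y hx hy
    have : x = (x - xU) + xU := by abel
    rw [this, p_add, hy _ hx, zero_add]
  have h1 : Has Q M u w := S.hasU hu hw hu0 hwu
  have hua : polar Q u a = 0 := by rw [p_comm, toU a aU u haW hu, hau]
  have hub : polar Q u b = 0 := by rw [p_comm, toU b bU u hbW hu, hbu]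
  have h2 := h1.comm hu0 hwu h S.leO hua hub
  have e1 : polar Q w a = 0 := by rw [p_comm, toU a aU w haW hw, hwa]
  have e2 : polar Q w b = polar Q bU w := by rw [p_comm, toU b bU w hbW hw]
  rw [e1, e2] at h2
  have e3 : (0 : F) • b - (polar Q bU w + Q b * 0) • a = (-(polar Q bU w)) • a := by module
  rw [e3] at h2
  -- remove the component in `U`
  have h3 : Has Q M u ((-(polar Q bU w)) • aU) := by
    refine S.hasU hu ((orth Q W).smul_mem _ haU) hu0 ?_
    rw [p_smul', p_comm Q u aU, hau, mul_zero]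
  have h4 := h2.sub h3 hu0 (by rw [p_smul', hua, mul_zero]) (by rw [p_smul', p_comm Q u aU, hau, mul_zero])
  rw [← smul_sub] at h4
  refine S.top_of_full hu hu0 hun (S.full_of hpl hu hu0 hun (W.smul_mem _ haW) ?_ h4)
  intro h0
  rcases smul_eq_zero.1 h0 with h5 | h5
  · exact hwb (neg_eq_zero.1 h5)
  · rw [sub_eq_zero] at h5
    exact ha (h5 ▸ haU)

/-- **Maximality of the stabilisers of non-degenerate subspaces** -/
theorem maximal (S : SitS Q W M)
    (hpl : (finrank F W = 2 ∧ ∃ x ∈ W, x ≠ 0 ∧ Q x = 0) → 4 ≤ Nat.card F)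
    (hno : ∀ g ∈ O Q, ¬ ∀ x ∈ orth Q W, g x ∈ W)
    (hne : ∃ g ∈ M, ¬ Stab W g) : Om Q ≤ M := by
  classical
  obtain ⟨g, hg, hgS⟩ := hne
  have hgO := S.leO hg
  set U := orth Q W with hU
  have hdU : 6 ≤ finrank F U := S.six
  -- projection to `U`
  obtain ⟨T, hT1, hT2⟩ := exists_proj (isCompl_orth S.ndW).symm
  have hTW : ∀ x, T x = 0 → x ∈ W := by
    intro x hx
    have := hT2 x
    rwa [hx, sub_zero] at this
  -- it suffices to find `a`, `b`
  suffices hab : ∃ a ∈ U, ∃ b ∈ U, Q a = 0 ∧ polar Q a b = 0 ∧ g a ∉ U ∧ ∀ c : F, T (g b) ≠ c • T (g a) by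
    obtain ⟨a, ha, b, hb, ha0, hab, hga, hgb⟩ := hab
    exact S.key hpl ((S.hasU ha hb ha0 hab).conj hg hgO) (hT1 _) (hT2 _) (hT1 _) (hT2 _) hga hgb
  by_contra hcon
  push Not at hcon
  -- the part of `U` mapped into `W`
  set K : Submodule F V := U ⊓ W.comap (g : V →ₗ[F] V) with hK
  by_cases hdK : 4 ≤ finrank F K
  · obtain ⟨a1, ha1, ha10, ha1Q⟩ := exists_sing Q (U := K) (by omega)
    -- a second singular vector
    obtain ⟨C, hC⟩ := Submodule.exists_isCompl (Submodule.span F {(⟨a1, ha1⟩ : K)})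
    have hdC := Submodule.finrank_add_eq_of_isCompl hC
    have hs1 := finrank_span_le_card (R := F) ({(⟨a1, ha1⟩ : K)} : Set K)
    simp at hs1
    obtain ⟨a2', ha2C, ha20, ha2Q⟩ := exists_sing (Q.restrict K) (U := C) (by omega)
    obtain ⟨a2, ha2⟩ := a2'
    have ha2Q' : Q a2 = 0 := ha2Q
    have ha20' : a2 ≠ 0 := fun h => ha20 (Subtype.ext h)
    have hind : ∀ c : F, a2 ≠ c • a1 := by
      intro c hc
      apply ha20
      have h1 : (⟨a2, ha2⟩ : K) ∈ Submodule.span F {(⟨a1, ha1⟩ : K)} ⊓ C := by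
        refine ⟨?_, ha2C⟩
        rw [SetLike.mem_coe, Submodule.mem_span_singleton]
        exact ⟨c, Subtype.ext hc.symm⟩
      rw [hC.inf_eq_bot] at h1
      exact (Submodule.mem_bot F).1 h1
    have hperp : ∀ a ∈ K, a ≠ 0 → Q a = 0 → ∀ b ∈ U, polar Q a b = 0 → g b ∈ W := by
      intro a ha ha0 haQ b hb hab
      have hgaW : g a ∈ W := ha.2
      have hga0 : g a ≠ 0 := fun h => ha0 ((map_eq_zero_iff g g.injective).1 h)
      obtain ⟨c, hc⟩ := hcon a ha.1 b hb haQ hab (S.notMem hgaW hga0)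
      have hTga : T (g a) = 0 := by
        have h1 := hT1 (g a)
        by_contra h2
        apply S.notMem' h1 h2
        have h3 := W.sub_mem hgaW (hT2 (g a))
        rwa [sub_sub_cancel] at h3
      rw [hTga, smul_zero] at hc
      exact hTW _ hc
    -- so `g U ≤ W`
    apply hno g hgO
    intro x hx
    have ha1U : a1 ∈ U := ha1.1
    have ha2U : a2 ∈ U := ha2.1
    have hn1 : (⟨a1, ha1U⟩ : U) ∉ Submodule.span F {(⟨a2, ha2U⟩ : U)} := by
      rw [Submodule.mem_span_singleton]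
      rintro ⟨c, hc⟩
      have hc' : c • a2 = a1 := congrArg Subtype.val hc
      have hc0 : c ≠ 0 := by
        rintro rfl
        rw [zero_smul] at hc'
        exact ha10 hc'.symm
      exact hind c⁻¹ (by rw [← hc', smul_smul, inv_mul_cancel₀ hc0, one_smul])
    obtain ⟨⟨y, hyU⟩, hy1, hy2⟩ := sep S.ndU hn1
    have hy1' : polar Q a2 y = 0 := hy1 _ (Submodule.mem_span_singleton_self _)
    have hy2' : polar Q a1 y ≠ 0 := hy2
    have hgy : g y ∈ W := hperp a2 ha2 ha20' ha2Q' y hyU hy1'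
    have hgx : g (x - ((polar Q a1 y)⁻¹ * polar Q a1 x) • y) ∈ W := by
      refine hperp a1 ha1 ha10 ha1Q _ (U.sub_mem hx (U.smul_mem _ hyU)) ?_
      rw [p_sub', p_smul']
      field_simp
      ring
    rw [map_sub, map_smul] at hgx
    have := W.add_mem hgx (W.smul_mem ((polar Q a1 y)⁻¹ * polar Q a1 x) hgy)
    rwa [sub_add_cancel] at this
  · -- a singular vector of `U` not mapped into `U`
    have hgU : ∃ a ∈ U, Q a = 0 ∧ g a ∉ U := by
      by_contra h
      push Not at h
      apply hgS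
      have hgU : ∀ x ∈ U, g x ∈ U := by
        intro x hx
        have h1 := span_sing (Q := Q.restrict U) S.ndU (by omega) ((U.comap (g : V →ₗ[F] V)).comap U.subtype)
          (fun z hz => h z z.2 hz) ⟨x, hx⟩
        exact h1
      apply stab_of
      intro x hx
      rw [← orth_orth S.nd W]
      intro w hw
      have h2 : ∃ w' ∈ U, g w' = w := by
        have h3 : U.map (g : V →ₗ[F] V) = U := by
          apply Submodule.eq_of_le_of_finrank_eq
          · rintro _ ⟨y, hy, rfl⟩; exact hgU y hy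
          · exact LinearEquiv.finrank_map_eq g U
        have h4 : w ∈ U.map (g : V →ₗ[F] V) := by rw [h3]; exact hw
        obtain ⟨w', hw', h5⟩ := h4
        exact ⟨w', hw', h5⟩
      obtain ⟨w', hw', rfl⟩ := h2
      rw [O_polar hgO, p_comm]
      exact hw' x hx
    obtain ⟨a, ha, haQ, hga⟩ := hgU
    -- dimension count
    set P : Submodule F V := U ⊓ orth Q (Submodule.span F {a}) with hP
    have hPf : finrank F U ≤ finrank F P + 1 := by
      have h1 := finrank_orth S.nd (Submodule.span F {a})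
      have h2 := finrank_span_le_card (R := F) ({a} : Set V)
      simp at h2
      have h3 : finrank F (U ⊔ orth Q (Submodule.span F {a}) : Submodule F V) + finrank F P =
        finrank F U + finrank F (orth Q (Submodule.span F {a})) :=
        Submodule.finrank_sup_add_finrank_inf_eq U (orth Q (Submodule.span F {a}))
      have h4 := Submodule.finrank_le (U ⊔ orth Q (Submodule.span F {a}))
      omega
    set f : P →ₗ[F] V := (T ∘ₗ (g : V →ₗ[F] V)) ∘ₗ P.subtype with hf
    have h1 := LinearMap.finrank_range_add_finrank_ker f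
    have h2 : finrank F (LinearMap.range f) ≤ 1 := by
      have h3 : LinearMap.range f ≤ Submodule.span F {T (g a)} := by
        rintro _ ⟨b, rfl⟩
        obtain ⟨c, hc⟩ := hcon a ha b b.2.1 haQ (b.2.2 a (Submodule.mem_span_singleton_self a)) hga
        rw [Submodule.mem_span_singleton]
        exact ⟨c, hc.symm⟩
      have h4 := Submodule.finrank_mono h3
      have h5 := finrank_span_le_card (R := F) ({T (g a)} : Set V)
      simp at h5
      omega
    have h3 : finrank F (LinearMap.ker f) ≤ finrank F K := by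
      have h4 : (LinearMap.ker f).map P.subtype ≤ K := by
        rintro _ ⟨x, hx, rfl⟩
        exact ⟨x.2.1, hTW _ hx⟩
      have h5 := Submodule.finrank_mono h4
      rwa [Submodule.finrank_map_subtype_eq] at h5
    omega

end main

section final

variable [Finite F] [FiniteDimensional F V]

lemma hyp_of (hQ : ND Q) {W : Submodule F V} (hW : ND (Q.restrict W)) (h7 : 7 ≤ finrank F (orth Q W)) :
    ∀ a ∈ orth Q W, ∀ b ∈ orth Q W, ∃ e f, e ∈ orth Q W ∧ f ∈ orth Q W ∧ Q e = 0 ∧ Q f = 0 ∧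
    polar Q e f = 1 ∧ polar Q a e = 0 ∧ polar Q b e = 0 ∧ polar Q a f = 0 ∧ polar Q b f = 0 := by
  classical
  intro a ha b hb
  set L : Submodule F (orth Q W) := Submodule.span F (Set.range ![⟨a, ha⟩, ⟨b, hb⟩]) with hL
  have hLf : finrank F L ≤ 2 := by
    have := finrank_range_le_card (R := F) (![⟨a, ha⟩, ⟨b, hb⟩] : Fin 2 → orth Q W)
    rw [Fintype.card_fin] at this
    exact this
  obtain ⟨e, he, f, hf, h1, h2, h3⟩ := H95.OGeo.exists_hyp (nd_orth hQ hW) (L := L) (by omega)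
  have ha' : (⟨a, ha⟩ : orth Q W) ∈ L := Submodule.subset_span ⟨0, rfl⟩
  have hb' : (⟨b, hb⟩ : orth Q W) ∈ L := Submodule.subset_span ⟨1, rfl⟩
  exact ⟨e, f, e.2, f.2, h1, h2, h3, he _ ha', he _ hb', hf _ ha', hf _ hb'⟩

/-- **Maximality of the stabilisers of non-degenerate subspaces**, not halves -/
theorem max_nd12 (hQ : ND Q) (hn : 12 ≤ finrank F V) {W : Submodule F V} (hW : ND (Q.restrict W))
    (hW0 : W ≠ ⊥) (hW1 : W ≠ ⊤)
    (hpl : (finrank F W = 2 ∧ ∃ x ∈ W, x ≠ 0 ∧ Q x = 0) → 4 ≤ Nat.card F)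
    (hpl' : (finrank F (orth Q W) = 2 ∧ ∃ x ∈ orth Q W, x ≠ 0 ∧ Q x = 0) → 4 ≤ Nat.card F)
    (hno : 2 * finrank F W ≠ finrank F V) :
    (∃ g ∈ Om Q, ¬ Stab W g) ∧ ∀ M : Subgroup (V ≃ₗ[F] V), (∀ g ∈ Om Q, Stab W g → g ∈ M) →
      M ≤ Om Q → (∃ g ∈ M, ¬ Stab W g) → Om Q ≤ M := by
  have hd := finrank_orth hQ W
  by_cases hle : finrank F W ≤ finrank F (orth Q W)
  · refine ⟨exists_not_stab hQ hW hW0 (by omega), ?_⟩
    intro M h1 h2 h3
    have S : SitS Q W M := ⟨hQ, hW, by omega, hyp_of hQ hW (by omega), h1, h2⟩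
    refine maximal S hpl ?_ h3
    intro g hg hgU
    by_cases heq : finrank F W = finrank F (orth Q W)
    · exact absurd (by omega) hno
    · have h4 : (orth Q W).map (g : V →ₗ[F] V) ≤ W := by
        rintro _ ⟨x, hx, rfl⟩; exact hgU x hx
      have h5 := Submodule.finrank_mono h4
      have h6 : finrank F ((orth Q W).map (g : V →ₗ[F] V)) = finrank F (orth Q W) := LinearEquiv.finrank_map_eq g _
      omega
  · have hU0 : orth Q W ≠ ⊥ := by
      intro h
      apply hW1
      rw [h, finrank_bot, zero_add] at hd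
      exact Submodule.eq_top_of_finrank_eq hd
    have hUU : orth Q (orth Q W) = W := orth_orth hQ W
    have hndU := nd_orth hQ hW
    refine ⟨?_, ?_⟩
    · obtain ⟨g, hg, hgS⟩ := exists_not_stab hQ hndU hU0 (by rw [hUU]; omega)
      exact ⟨g, hg, fun h => hgS ((stab_orth_iff hQ (Om_le Q hg)).2 h)⟩
    · intro M h1 h2 h3
      have S : SitS Q (orth Q W) M := ⟨hQ, hndU, by rw [hUU]; omega, hyp_of hQ hndU (by rw [hUU]; omega),
        fun g hg hgS => h1 g hg ((stab_orth_iff hQ (Om_le Q hg)).1 hgS), h2⟩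
      refine maximal S hpl' ?_ ?_
      · intro g hg hgU
        rw [hUU] at hgU
        have h4 : W.map (g : V →ₗ[F] V) ≤ orth Q W := by
          rintro _ ⟨x, hx, rfl⟩; exact hgU x hx
        have h5 := Submodule.finrank_mono h4
        have h6 : finrank F (W.map (g : V →ₗ[F] V)) = finrank F W := LinearEquiv.finrank_map_eq g _
        omega
      · obtain ⟨g, hg, hgS⟩ := h3
        exact ⟨g, hg, fun h => hgS ((stab_orth_iff hQ (Om_le Q (h2 hg))).1 h)⟩


/-- **Maximality of the stabilisers of non-degenerate subspaces**, halves, the complement of plus type -/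
theorem max_half (hQ : ND Q) (hn : finrank F V = 12) {W : Submodule F V} (hW : ND (Q.restrict W))
    (h6 : finrank F W = 6) {T : Submodule F (orth Q W)} (hT : TS (Q.restrict (orth Q W)) T) (hT3 : finrank F T = 3)
    (hno : ∀ g ∈ O Q, ¬ ∀ x ∈ orth Q W, g x ∈ W) :
    (∃ g ∈ Om Q, ¬ Stab W g) ∧ ∀ M : Subgroup (V ≃ₗ[F] V), (∀ g ∈ Om Q, Stab W g → g ∈ M) →
      M ≤ Om Q → (∃ g ∈ M, ¬ Stab W g) → Om Q ≤ M := by
  have hd := finrank_orth hQ W
  have hW0 : W ≠ ⊥ := by
    rintro rfl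
    rw [finrank_bot] at h6
    omega
  have hndU := nd_orth hQ hW
  refine ⟨?_, ?_⟩
  · obtain ⟨u, hu, hu0, huQ⟩ := exists_sing Q (U := orth Q W) (by omega)
    obtain ⟨w, hw, hw0⟩ := (Submodule.ne_bot_iff W).1 hW0
    have : ∃ x ∈ W, polar Q x w ≠ 0 := by
      by_contra hcon
      push Not at hcon
      exact hw0 (congrArg Subtype.val (hW ⟨w, hw⟩ fun x => by
        rw [polar_restrict, p_comm]; exact hcon x x.2))
    obtain ⟨x, hx, hxw⟩ := this
    obtain ⟨g, hg, hgx⟩ := full_Om hQ (by omega) huQ w (by rw [p_comm]; exact hu w hw)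
    refine ⟨g, hg, fun hst => ?_⟩
    have h1 := (hst x).1 hx
    rw [hgx, sgF, hu x hx] at h1
    have h2 : (-(polar Q x w)) • u ∈ W := by
      have := W.sub_mem h1 hx
      have e : x + (0 : F) • w - (polar Q x w + Q w * 0) • u - x = (-(polar Q x w)) • u := by module
      rwa [e] at this
    have h3 : u ∈ W := by
      have := W.smul_mem (-(polar Q x w))⁻¹ h2
      rwa [smul_smul, inv_mul_cancel₀ (neg_ne_zero.2 hxw), one_smul] at this
    exact hu0 (congrArg Subtype.val (hW ⟨u, h3⟩ fun y => by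
      rw [polar_restrict, p_comm]; exact hu y y.2))
  · intro M h1 h2 h3
    have S : SitS Q W M := ⟨hQ, hW, by omega, fun a ha b hb => by
      obtain ⟨e, f, k1, k2, k3, k4, k5, k6, k7⟩ := hyp_plus hndU (by omega) hT hT3 ⟨a, ha⟩ ⟨b, hb⟩
      exact ⟨e, f, e.2, f.2, k1, k2, k3, k4, k5, k6, k7⟩, h1, h2⟩
    refine maximal S (fun h => ?_) hno h3
    omega

end final

end H95.O12Nd
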