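import Mathlib
import Cfsg.Agent.Lib.H7.OAPoint

/-!
Stabilisers of nonsingular points, dimension eight.
-/
set_option autoImplicit false

namespace H95.O8Pt

open Module QuadraticMap H48.QuadSplit H48.QuadWitt H95.OGeo H7.OA H7.OABridge H7.OAPar H7.OAPoint

variable {F V : Type*} [Field F] [AddCommGroup V] [Module F V] {Q : QuadraticForm F V}
variable [Finite F] [FiniteDimensional F V]

/-- a singular vector orthogonal to given vectors and outside a small subspace -/
lemma perpT (hQ : ND Q) {k : ℕ} (x : Fin k → V) (L : Submodule F V)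
    (h : k + finrank F L + 3 ≤ finrank F V) :
    ∃ z, Q z = 0 ∧ (∀ i, polar Q z (x i) = 0) ∧ z ∉ L := by
  have h1 : finrank F (Submodule.span F (Set.range x)) ≤ k := by
    have := finrank_range_le_card (R := F) x
    rw [Fintype.card_fin] at this
    exact this
  set P := orth Q (Submodule.span F (Set.range x)) with hP
  have hdP := finrank_orth hQ (Submodule.span F (Set.range x))
  rw [← hP] at hdP
  obtain ⟨C, hC⟩ := Submodule.exists_isCompl (Submodule.comap P.subtype L)
  have hdC := Submodule.finrank_add_eq_of_isCompl hC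
  have h2 : finrank F (Submodule.comap P.subtype L) ≤ finrank F L := by
    rw [← Submodule.finrank_map_subtype_eq P (Submodule.comap P.subtype L)]
    apply Submodule.finrank_mono
    rw [Submodule.map_comap_subtype]
    exact inf_le_right
  obtain ⟨e, heC, he0, heQ⟩ := exists_sing (Q.restrict P) (U := C) (by omega)
  refine ⟨e, heQ, fun i => ?_, fun heL => he0 ?_⟩
  · rw [p_comm]; exact e.2 _ (Submodule.subset_span ⟨i, rfl⟩)
  · have h3 : e ∈ (Submodule.comap P.subtype L) ⊓ C := ⟨heL, heC⟩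
    rw [hC.inf_eq_bot] at h3
    exact (Submodule.mem_bot F).1 h3

/-- the orthogonal of two vectors contains a hyperbolic pair -/
lemma exists_hyp2 (hQ : ND Q) (hn : 7 ≤ finrank F V) (a b : V) :
    ∃ e f, Q e = 0 ∧ Q f = 0 ∧ polar Q e f = 1 ∧ polar Q a e = 0 ∧ polar Q b e = 0 ∧
      polar Q a f = 0 ∧ polar Q b f = 0 := by
  set L : Submodule F V := Submodule.span F (Set.range ![a, b]) with hL
  have hLf : finrank F L ≤ 2 := by
    have := finrank_range_le_card (R := F) (![a, b] : Fin 2 → V)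
    rw [Fintype.card_fin] at this
    exact this
  obtain ⟨e, he, f, hf, h1, h2, h3⟩ := H95.OGeo.exists_hyp hQ (L := L) (by omega)
  have ha' : a ∈ L := Submodule.subset_span ⟨0, rfl⟩
  have hb' : b ∈ L := Submodule.subset_span ⟨1, rfl⟩
  exact ⟨e, f, h1, h2, h3, he _ ha', he _ hb', hf _ ha', hf _ hb'⟩

lemma exists_not_stab_point (hQ : ND Q) (hn : 8 ≤ finrank F V) {v : V} (hv : Q v ≠ 0) :
    ∃ g ∈ Om Q, ¬ Stab (Submodule.span F {v}) g := by
  have hv0 : v ≠ 0 := by rintro rfl; exact hv (QuadraticMap.map_zero Q)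
  obtain ⟨a, ha, hav⟩ := dual_val hQ (k := 1) (by omega) (x := ![v]) (by simpa [linearIndependent_unique_iff] using hv0)
    ![1] 0
  have hav' : polar Q a v = 1 := hav 0
  obtain ⟨w, -, hw, hwn⟩ := perp_val hQ (k := 1) (by omega) ![a] (T := Submodule.span F {v, a}) (by
    have := finrank_pair_le (F := F) v a
    omega) 0
  have hwa : polar Q w a = 0 := hw 0
  obtain ⟨g, hg, hgx⟩ := full_Om hQ (by omega) ha w (by rw [p_comm]; exact hwa)
  refine ⟨g, hg, fun hst => ?_⟩
  have h1 := (hst v).1 (Submodule.mem_span_singleton_self v)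
  rw [hgx, sgF, p_comm Q v a, hav', Submodule.mem_span_singleton] at h1
  obtain ⟨c, hc⟩ := h1
  apply hwn
  rw [Submodule.mem_span_pair]
  refine ⟨c - 1, polar Q v w + Q w * 1, ?_⟩
  have h2 : c • v - v + (polar Q v w + Q w * 1) • a = w := by rw [hc]; module
  rw [sub_smul, one_smul]
  exact h2

/-- **Maximality of the stabilisers of nonsingular points** -/
theorem max_point (hQ : ND Q) (hn : 8 ≤ finrank F V) {v : V} (hv : Q v ≠ 0)
    {M : Subgroup (V ≃ₗ[F] V)} (hM : ∀ g ∈ Om Q, Stab (Submodule.span F {v}) g → g ∈ M) (hMO : M ≤ Om Q)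
    (hne : ∃ g ∈ M, ¬ Stab (Submodule.span F {v}) g) : Om Q ≤ M := by
  have hv0 : v ≠ 0 := by rintro rfl; exact hv (QuadraticMap.map_zero Q)
  have hMO' : M ≤ O Q := hMO.trans (Om_le Q)
  have h5 : 5 ≤ finrank F V := by omega
  have fixM : ∀ g ∈ Om Q, g v = v → g ∈ M := fun g hg h => hM g hg (stab_span h)
  have hasv : ∀ u w, Q u = 0 → polar Q u w = 0 → polar Q v u = 0 → polar Q v w = 0 → Has Q M u w := by
    intro u w hu huw h1 h2
    obtain ⟨g, hg, hgx⟩ := full_Om hQ h5 hu w huw
    exact ⟨g, fixM g hg (by rw [hgx]; exact sg_fix h1 h2 rfl), hgx⟩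
  -- adjustment
  have adjv : ∀ g ∈ O Q, g v = v → ∀ u, ∃ h ∈ M, h u = g u ∧ h v = v := by
    intro g hg hgv u
    obtain ⟨e, f, h1, h2, h3, h4, h6, h8, h9⟩ := exists_hyp2 hQ (by omega) u v
    obtain ⟨d, hd, hdx, hgd⟩ := H7.OA.adj hQ h5 h1 h2 h3 hg
    have k1 : (g * d) u = g u := by
      rw [LinearEquiv.mul_apply, hdx u (by rw [p_comm]; exact h4) (by rw [p_comm]; exact h8)]
    have k2 : (g * d) v = v := by
      rw [LinearEquiv.mul_apply, hdx v (by rw [p_comm]; exact h6) (by rw [p_comm]; exact h9), hgv]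
    exact ⟨g * d, fixM _ hgd k2, k1, k2⟩
  have ne_of : ∀ u, Q u = 0 → u ≠ 0 → u ∉ Submodule.span F {v} := by
    intro u hu hu0 h
    rw [Submodule.mem_span_singleton] at h
    obtain ⟨c, rfl⟩ := h
    rw [Q_smul] at hu
    rcases mul_eq_zero.1 hu with h | h
    · rw [mul_self_eq_zero.1 h, zero_smul] at hu0
      exact hu0 rfl
    · exact hv h
  -- partners inside `v^⊥`
  have partner : ∀ u, Q u = 0 → u ≠ 0 → polar Q v u = 0 → ∃ u', Q u' = 0 ∧ polar Q u u' = 1 ∧ polar Q v u' = 0 := by
    intro u hu hu0 hvu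
    obtain ⟨p, hp1, hp2⟩ := sep hQ (ne_of u hu hu0)
    have hvp := hp1 v (Submodule.mem_span_singleton_self v)
    obtain ⟨p', e1, e2⟩ : ∃ p', polar Q u p' = 1 ∧ polar Q v p' = 0 :=
      ⟨(polar Q u p)⁻¹ • p, by rw [p_smul', inv_mul_cancel₀ hp2], by rw [p_smul', hvp, mul_zero]⟩
    refine ⟨p' - Q p' • u, ?_, ?_, ?_⟩
    · rw [Q_sub, Q_smul, p_smul', p_comm Q p', e1, hu]; ring
    · rw [p_sub', p_smul', p_self, hu, e1]; ring
    · rw [p_sub', p_smul', e2, hvu]; ring
  -- one vector outside `v^⊥` suffices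
  have full : ∀ u w, Q u = 0 → u ≠ 0 → polar Q v u = 0 → polar Q u w = 0 → polar Q v w ≠ 0 → Has Q M u w → Full Q M u := by
    intro u w hu hu0 hvu huw hvw hw y hy
    -- scale
    have hsc : ∀ c : F, c ≠ 0 → ∃ z, polar Q u z = 0 ∧ polar Q v z = c * polar Q v w ∧ Has Q M u z := by
      intro c hc
      obtain ⟨u', hu', huu', hvu'⟩ := partner u hu hu0 hvu
      obtain ⟨t, ht, htx⟩ := exists_scaling (nd_iff.1 hQ) u u' hu hu' huu' c hc
      have htv : t v = v := by rw [htx, hvu, hvu']; simp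
      have htu : t u = c • u := by rw [htx, huu', p_self, hu]; module
      obtain ⟨h, hh, h1, h2⟩ := adjv t ht htv u
      have h3 := hw.conj hh (hMO' hh)
      rw [h1, htu, has_scale] at h3
      refine ⟨c • h w, ?_, ?_, h3⟩
      · have h4 : polar Q (h u) (h w) = 0 := by rw [O_polar (hMO' hh), huw]
        rw [h1, htu, p_smul] at h4
        rw [p_smul', (mul_eq_zero.1 h4).resolve_left hc, mul_zero]
      · have h4 := O_polar (hMO' hh) v w
        rw [h2] at h4
        rw [p_smul', h4]
    by_cases hvy : polar Q v y = 0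
    · exact hasv u y hu hy hvu hvy
    · obtain ⟨z, hz1, hz2, hz3⟩ := hsc (polar Q v y * (polar Q v w)⁻¹) (mul_ne_zero hvy (inv_ne_zero hvw))
      rw [mul_assoc, inv_mul_cancel₀ hvw, mul_one] at hz2
      have h1 : Has Q M u (y - z) := hasv u _ hu (by rw [p_sub', hy, hz1, sub_zero]) hvu (by rw [p_sub', hz2, sub_self])
      have h2 := h1.mul hz3 hu (by rw [p_sub', hy, hz1, sub_zero]) hz1
      rwa [sub_add_cancel] at h2
  have top : ∀ u, Q u = 0 → u ≠ 0 → polar Q v u = 0 → Full Q M u → Om Q ≤ M := by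
    intro u hu hu0 hvu hfull
    obtain ⟨u', hu', huu', hvu'⟩ := partner u hu hu0 hvu
    have hu'0 : u' ≠ 0 := by
      rintro rfl
      rw [p_zero'] at huu'
      exact zero_ne_one huu'
    obtain ⟨g, hg, hgW, hgx⟩ := witt_step (nd_iff.1 hQ) (Submodule.span F {v}) u u' (ne_of u hu hu0)
      (ne_of u' hu' hu'0) (by rw [hu, hu']) (fun w hw => by
        rw [Submodule.mem_span_singleton] at hw
        obtain ⟨c, rfl⟩ := hw
        rw [p_smul', p_smul', p_comm Q u v, p_comm Q u' v, hvu, hvu'])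
    obtain ⟨h, hh, h1, -⟩ := adjv g hg (hgW v (Submodule.mem_span_singleton_self v)) u
    have h2 := hfull.conj hh (hMO' hh)
    rw [h1, hgx] at h2
    exact le_of_full_one hQ h5 hu hu' huu' hfull h2
  -- the element outside
  obtain ⟨g, hg, hgS⟩ := hne
  have hgv : ∀ c : F, g v ≠ c • v := fun c h => hgS (stab_span' h)
  set v' := g v with hv'
  have hind : LinearIndependent F ![v', v] := by
    rw [LinearIndependent.pair_iff]
    intro s t hst
    have hs : s = 0 := by
      by_contra hs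
      apply hgv (-(s⁻¹ * t))
      have : v' = s⁻¹ • (s • v') := by rw [smul_smul, inv_mul_cancel₀ hs, one_smul]
      rw [this, eq_neg_of_add_eq_zero_left hst]
      module
    rw [hs, zero_smul, zero_add] at hst
    exact ⟨hs, (smul_eq_zero.1 hst).resolve_right hv0⟩
  obtain ⟨a, ha, hax⟩ := dual_val hQ (k := 2) (by omega) hind ![0, 1] 0
  have hav' : polar Q a v' = 0 := hax 0
  have hav : polar Q a v = 1 := hax 1
  obtain ⟨b, hbv', hba, hbn⟩ : ∃ b, polar Q b v' = 0 ∧ polar Q b a = 0 ∧ b ∉ Submodule.span F {v, a} := by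
    have h1 := finrank_pair_le (F := F) v a
    have h2 := finrank_pair_le (F := F) v' a
    have h3 := finrank_orth hQ (Submodule.span F {v', a})
    have h4 : ¬ orth Q (Submodule.span F {v', a}) ≤ Submodule.span F {v, a} := by
      intro h
      have := Submodule.finrank_mono h
      omega
    obtain ⟨b, hb, hbn⟩ := SetLike.not_le_iff_exists.1 h4
    exact ⟨b, by rw [p_comm]; exact hb v' (Submodule.subset_span (by simp)),
      by rw [p_comm]; exact hb a (Submodule.subset_span (by simp)), hbn⟩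
  have hab : Has Q M a b := by
    have h1 : polar Q v (g⁻¹ a) = 0 := by
      rw [← O_polar (hMO' hg), apply_inv_apply, p_comm, ← hv', hav']
    have h2 : polar Q v (g⁻¹ b) = 0 := by
      rw [← O_polar (hMO' hg), apply_inv_apply, p_comm, ← hv', hbv']
    have h3 : Has Q M (g⁻¹ a) (g⁻¹ b) := by
      refine hasv _ _ ?_ ?_ h1 h2
      · rw [mem_O.1 ((O Q).inv_mem (hMO' hg)), ha]
      · rw [O_polar ((O Q).inv_mem (hMO' hg)), p_comm, hba]
    have h4 := h3.conj hg (hMO' hg)
    rwa [apply_inv_apply, apply_inv_apply] at h4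
  obtain ⟨r, hr⟩ : ∃ r, r = b - polar Q b v • a := ⟨_, rfl⟩
  have hfr : finrank F (Submodule.span F ({r} : Set V)) ≤ 1 := by
    have h := finrank_span_le_card (R := F) ({r} : Set V)
    simpa using h
  obtain ⟨u, hu, hux, huT⟩ := perpT hQ ![v, a, b] (Submodule.span F {r}) (by omega)
  have hvu : polar Q v u = 0 := by rw [p_comm]; exact hux 0
  have hau : polar Q a u = 0 := by rw [p_comm]; exact hux 1
  have hbu : polar Q b u = 0 := by rw [p_comm]; exact hux 2
  have hu0 : u ≠ 0 := by
    rintro rfl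
    exact huT (Submodule.zero_mem _)
  have hva1 : polar Q v a = 1 := by rw [p_comm, hav]
  have haa : polar Q a a = 0 := by rw [p_self, ha, mul_zero]
  have hbn' : b ∉ Submodule.span F (Set.range ![u, v, a]) := by
    intro h
    have hr' : Set.range ![u, v, a] = {u, v, a} := by
      rw [Matrix.range_cons, Matrix.range_cons, Matrix.range_cons, Matrix.range_empty, Set.union_empty]
      rfl
    rw [hr', Submodule.mem_span_insert] at h
    obtain ⟨α, z, hz, hbz⟩ := h
    obtain ⟨β, γ, hz'⟩ := Submodule.mem_span_pair.1 hz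
    have hβ : β = 0 := by
      have h1 := hba
      rw [hbz, ← hz', p_add, p_add, p_smul, p_smul, p_smul, p_comm Q u, hau, hva1, haa] at h1
      linear_combination h1
    have hγ : γ = polar Q b v := by
      have h1 : polar Q b v = polar Q (α • u + z) v := by rw [← hbz]
      rw [← hz', hβ, p_add, p_add, p_smul, p_smul, p_smul, p_comm Q u, hvu, hav] at h1
      linear_combination -h1
    by_cases hα : α = 0
    · apply hbn
      rw [hbz, hα, zero_smul, zero_add]
      exact hz
    · apply huT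
      rw [Submodule.mem_span_singleton]
      refine ⟨α⁻¹, ?_⟩
      have h1 : r = α • u := by
        have h2 : b = α • u + γ • a := by
          rw [hbz, ← hz', hβ]; module
        rw [hr, ← hγ]
        nth_rewrite 1 [h2]
        abel
      rw [h1, smul_smul, inv_mul_cancel₀ hα, one_smul]
  obtain ⟨w, hw1, hw2⟩ := sep hQ hbn'
  have huw : polar Q u w = 0 := hw1 u (Submodule.subset_span ⟨0, rfl⟩)
  have hvw : polar Q v w = 0 := hw1 v (Submodule.subset_span ⟨1, rfl⟩)
  have haw : polar Q a w = 0 := hw1 a (Submodule.subset_span ⟨2, rfl⟩)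
  have h1 := (hasv u w hu huw hvu hvw).comm hu huw hab hMO' (by rw [p_comm, hau]) (by rw [p_comm, hbu])
  rw [p_comm Q w a, haw, p_comm Q w b] at h1
  have e3 : (0 : F) • b - (polar Q b w + Q b * 0) • a = (-(polar Q b w)) • a := by module
  rw [e3] at h1
  refine top u hu hu0 hvu (full u _ hu hu0 hvu ?_ ?_ h1)
  · rw [p_smul', p_comm Q u a, hau, mul_zero]
  · rw [p_smul', p_comm Q v a, hav, mul_one]
    exact neg_ne_zero.2 hw2


end H95.O8Pt
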