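import Mathlib
import Cfsg.Agent.Lib.H95.O12Nd
import Cfsg.Agent.Lib.H95.O8Pt

/-!
Maximality of the stabilisers of non-degenerate subspaces in `Om Q`: dimension eight.
-/
set_option autoImplicit false

namespace H95.O8Nd

open Module QuadraticMap H48.QuadSplit H48.QuadWitt H95.OGeo H7.OA H7.OABridge H7.OAPar H7.OANd
open H95.O8Pt (perpT)

variable {F V : Type*} [Field F] [AddCommGroup V] [Module F V] {Q : QuadraticForm F V}

section main

variable [Finite F] [FiniteDimensional F V]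

/-- the standing situation: `W` non-degenerate, `U = W^⊥`, `M` an overgroup of the stabiliser. -/
structure Sit8 (Q : QuadraticForm F V) (W : Submodule F V) (M : Subgroup (V ≃ₗ[F] V)) : Prop where
  nd : ND Q
  ndW : ND (Q.restrict W)
  five : 5 ≤ finrank F V
  hyp : ∀ a ∈ orth Q W, Q a = 0 → ∃ e f, e ∈ orth Q W ∧ f ∈ orth Q W ∧ Q e = 0 ∧ Q f = 0 ∧
    polar Q e f = 1 ∧ polar Q a e = 0 ∧ polar Q a f = 0
  stab : ∀ g ∈ Om Q, Stab W g → g ∈ M
  le : M ≤ Om Q

variable {W : Submodule F V} {M : Subgroup (V ≃ₗ[F] V)}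

omit [Finite F] in
lemma Sit8.ndU (S : Sit8 Q W M) : ND (Q.restrict (orth Q W)) := nd_orth S.nd S.ndW

omit [Finite F] [FiniteDimensional F V] in
lemma Sit8.leO (S : Sit8 Q W M) : M ≤ O Q := S.le.trans (Om_le Q)

lemma Sit8.hasU (S : Sit8 Q W M) {u w : V} (hu : u ∈ orth Q W) (hw : w ∈ orth Q W) (hu0 : Q u = 0)
    (huw : polar Q u w = 0) : Has Q M u w := by
  obtain ⟨g, hg, hgx⟩ := full_Om S.nd S.five hu0 w huw
  refine ⟨g, S.stab g hg (stab_of fun y hy => ?_), hgx⟩
  rw [hgx, sgF, hu y hy, hw y hy]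
  simpa using hy

lemma Sit8.hasW (S : Sit8 Q W M) {u w : V} (hu : u ∈ W) (hw : w ∈ W) (hu0 : Q u = 0)
    (huw : polar Q u w = 0) : Has Q M u w := by
  obtain ⟨g, hg, hgx⟩ := full_Om S.nd S.five hu0 w huw
  refine ⟨g, S.stab g hg (stab_of fun y hy => ?_), hgx⟩
  rw [hgx, sgF]
  exact W.sub_mem (W.add_mem hy (W.smul_mem _ hw)) (W.smul_mem _ hu)

/-- lifting an isometry: stabilise `W`, keep a given action on a singular vector of `U` -/
lemma Sit8.adj (S : Sit8 Q W M) {g : V ≃ₗ[F] V} (hg : g ∈ O Q) (hgW : ∀ x ∈ W, g x ∈ W) {a : V}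
    (ha : a ∈ orth Q W) (ha0 : Q a = 0) : ∃ h ∈ M, h a = g a ∧ ∀ x ∈ W, h x = g x := by
  obtain ⟨e, f, he, hf, h1, h2, h3, h4, h6⟩ := S.hyp a ha ha0
  obtain ⟨d, hd, hdx, hgd⟩ := H7.OA.adj S.nd S.five h1 h2 h3 hg
  have k : ∀ x ∈ W, (g * d) x = g x := by
    intro x hx
    rw [LinearEquiv.mul_apply, hdx x (by rw [p_comm]; exact he x hx) (by rw [p_comm]; exact hf x hx)]
  refine ⟨g * d, S.stab _ hgd (stab_of fun x hx => ?_), ?_, k⟩
  · rw [k x hx]; exact hgW x hx
  · rw [LinearEquiv.mul_apply, hdx a (by rw [p_comm]; exact h4) (by rw [p_comm]; exact h6)]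

omit [Finite F] [FiniteDimensional F V] in
lemma Sit8.notMem (S : Sit8 Q W M) {x : V} (hx : x ∈ W) (hx0 : x ≠ 0) : x ∉ orth Q W := by
  intro h
  exact hx0 (congrArg Subtype.val (S.ndW ⟨x, hx⟩ fun y => by
    rw [polar_restrict, p_comm]; exact h y y.2))

omit [Finite F] [FiniteDimensional F V] in
lemma Sit8.notMem' (S : Sit8 Q W M) {x : V} (hx : x ∈ orth Q W) (hx0 : x ≠ 0) : x ∉ W :=
  fun h => S.notMem h hx0 hx

/-- the vectors `w ∈ W` such that the Siegel element `(u, w)` is in `M` -/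
lemma Sit8.exists_R (S : Sit8 Q W M) {u : V} (hu : u ∈ orth Q W) (hu0 : Q u = 0) (hun : u ≠ 0) :
    ∃ R : Submodule F V, R ≤ W ∧ ∀ w, w ∈ R ↔ w ∈ W ∧ Has Q M u w := by
  have huw : ∀ w ∈ W, polar Q u w = 0 := fun w hw => by rw [p_comm]; exact hu w hw
  refine ⟨{ carrier := {w | w ∈ W ∧ Has Q M u w}, add_mem' := ?_, zero_mem' := ?_, smul_mem' := ?_ },
    fun w hw => hw.1, fun w => Iff.rfl⟩
  · rintro a b ⟨ha, ha'⟩ ⟨hb, hb'⟩
    exact ⟨W.add_mem ha hb, ha'.mul hb' hu0 (huw a ha) (huw b hb)⟩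
  · exact ⟨W.zero_mem, has_zero⟩
  · rintro c w ⟨hw, hw'⟩
    refine ⟨W.smul_mem c hw, ?_⟩
    by_cases hc : c = 0
    · rw [hc, zero_smul]; exact has_zero
    obtain ⟨⟨v, hvU⟩, hv, huv⟩ := exists_partner S.ndU (v := ⟨u, hu⟩)
      (fun h => hun (congrArg Subtype.val h)) hu0
    have hv' : Q v = 0 := hv
    have huv' : polar Q u v = 1 := huv
    obtain ⟨t, ht, htx⟩ := exists_scaling (nd_iff.1 S.nd) u v hu0 hv' huv' c hc
    have htW : ∀ x ∈ W, t x = x := by
      intro x hx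
      rw [htx, hu x hx, hvU x hx]; simp
    have htu : t u = c • u := by
      rw [htx, huv', p_self, hu0]
      module
    obtain ⟨h, hh, h1, h3⟩ := S.adj (g := t) ht (fun x hx => by rw [htW x hx]; exact hx) hu hu0
    have h4 := hw'.conj hh (S.leO hh)
    rw [h1, htu, h3 w hw, htW w hw, has_scale] at h4
    exact h4

/-- one non-zero vector gives everything -/
lemma Sit8.full_of (S : Sit8 Q W M)
    (hpl : (finrank F W = 2 ∧ ∃ x ∈ W, x ≠ 0 ∧ Q x = 0) → 4 ≤ Nat.card F)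
    {u r : V} (hu : u ∈ orth Q W) (hu0 : Q u = 0) (hun : u ≠ 0) (hr : r ∈ W) (hr0 : r ≠ 0)
    (h : Has Q M u r) : Full Q M u := by
  obtain ⟨R, hRW, hR⟩ := S.exists_R hu hu0 hun
  have hRW' : R = W := by
    refine irr S.ndW hRW ?_ ?_ hpl
    · intro hbot
      have : r ∈ R := (hR r).2 ⟨hr, h⟩
      rw [hbot] at this
      exact hr0 ((Submodule.mem_bot F).1 this)
    · intro x hx y hy hx0 hy0 hxy
      have hxW := hRW hx
      rw [hR] at hx ⊢
      refine ⟨hy, ?_⟩
      obtain ⟨g, hg, hgU, hgx⟩ := witt_step (nd_iff.1 S.nd) (orth Q W) x y (S.notMem hxW hx0)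
        (S.notMem hy hy0) hxy (fun w hw => by rw [hw x hxW, hw y hy])
      have hgW : ∀ z ∈ W, g z ∈ W := by
        intro z hz
        rw [← orth_orth S.nd W]
        intro w hw
        have hw' : w = g w := (hgU w hw).symm
        rw [hw', O_polar (mem_O.2 hg), p_comm]
        exact hw z hz
      obtain ⟨h', hh', h1, h3⟩ := S.adj (g := g) hg hgW hu hu0
      have h4 := hx.2.conj hh' (S.leO hh')
      rw [h1, hgU u hu, h3 x hxW, hgx] at h4
      exact h4
  intro w hw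
  obtain ⟨e, he, -⟩ := ortho_split S.ndW
  obtain ⟨⟨w1, w2⟩, rfl⟩ := e.surjective w
  rw [he] at hw ⊢
  have huw1 : polar Q u (w1 : V) = 0 := by rw [p_comm]; exact hu w1 w1.2
  have huw2 : polar Q u (w2 : V) = 0 := by
    rw [p_add', huw1, zero_add] at hw; exact hw
  have h1 : Has Q M u (w1 : V) := by
    have : (w1 : V) ∈ R := by rw [hRW']; exact w1.2
    exact ((hR _).1 this).2
  exact h1.mul (S.hasU hu w2.2 hu0 huw2) hu0 huw1 huw2

/-- one full centre in `U` suffices -/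
lemma Sit8.top_of_full (S : Sit8 Q W M) {u : V} (hu : u ∈ orth Q W) (hu0 : Q u = 0) (hun : u ≠ 0)
    (h : Full Q M u) : Om Q ≤ M := by
  obtain ⟨⟨v, hvU⟩, hv, huv⟩ := exists_partner S.ndU (v := ⟨u, hu⟩)
    (fun h => hun (congrArg Subtype.val h)) hu0
  have hv' : Q v = 0 := hv
  have huv' : polar Q u v = 1 := huv
  have hv0 : v ≠ 0 := by
    rintro rfl
    rw [p_zero'] at huv'
    exact zero_ne_one huv'
  obtain ⟨g, hg, hgW, hgx⟩ := witt_step (nd_iff.1 S.nd) W u v (S.notMem' hu hun)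
    (S.notMem' hvU hv0) (by rw [hu0, hv']) (fun w hw => by rw [p_comm, hu w hw, p_comm, hvU w hw])
  obtain ⟨h', hh', h1, -⟩ := S.adj (g := g) hg (fun x hx => by rw [hgW x hx]; exact hx) hu hu0
  have h2 := h.conj hh' (S.leO hh')
  rw [h1, hgx] at h2
  exact le_of_full_one S.nd S.five hu0 hv' huv' h h2

/-- a Siegel element with centre in `U` and a component in `W` suffices -/
lemma Sit8.top_of (S : Sit8 Q W M)
    (hpl : (finrank F W = 2 ∧ ∃ x ∈ W, x ≠ 0 ∧ Q x = 0) → 4 ≤ Nat.card F)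
    {u y r : V} (hu : u ∈ orth Q W) (hu0 : Q u = 0) (hun : u ≠ 0) (hy : y ∈ orth Q W) (huy : polar Q u y = 0)
    (hr : r ∈ W) (hr0 : r ≠ 0) (h : Has Q M u (y + r)) : Om Q ≤ M := by
  have hur : polar Q u r = 0 := by rw [p_comm]; exact hu r hr
  have h1 := h.sub (S.hasU hu hy hu0 huy) hu0 (by rw [p_add', huy, hur, add_zero]) huy
  rw [add_sub_cancel_left] at h1
  exact S.top_of_full hu hu0 hun (S.full_of hpl hu hu0 hun hr hr0 h1)

omit [Finite F] [FiniteDimensional F V] in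
lemma toU {x xU y : V} (hx : x - xU ∈ W) (hy : y ∈ orth Q W) : polar Q x y = polar Q xU y := by
  have : x = (x - xU) + xU := by abel
  rw [this, p_add, hy _ hx, zero_add]

/-- the key commutator -/
lemma Sit8.key (S : Sit8 Q W M)
    (hpl : (finrank F W = 2 ∧ ∃ x ∈ W, x ≠ 0 ∧ Q x = 0) → 4 ≤ Nat.card F)
    {a aU b bU : V} (h : Has Q M a b) (haU : aU ∈ orth Q W) (haW : a - aU ∈ W) (hbU : bU ∈ orth Q W)
    (hbW : b - bU ∈ W) (ha : a ∉ orth Q W) {u : V} (hu : u ∈ orth Q W) (hu0 : Q u = 0) (hun : u ≠ 0)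
    (hau : polar Q aU u = 0) (hbu : polar Q bU u = 0) (hb : ∀ α β : F, bU ≠ α • u + β • aU) : Om Q ≤ M := by
  -- a vector of `U` orthogonal to `u`, `a`, but not to `b`
  have hbn : (⟨bU, hbU⟩ : orth Q W) ∉ Submodule.span F {(⟨u, hu⟩ : orth Q W), ⟨aU, haU⟩} := by
    rw [Submodule.mem_span_pair]
    rintro ⟨α, β, hαβ⟩
    have h1 : α • u + β • aU = bU := congrArg Subtype.val hαβ
    exact hb α β h1.symm
  obtain ⟨⟨w, hw⟩, hw1, hw2⟩ := sep S.ndU hbn
  have hwu : polar Q u w = 0 := hw1 ⟨u, hu⟩ (Submodule.subset_span (by simp))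
  have hwa : polar Q aU w = 0 := hw1 ⟨aU, haU⟩ (Submodule.subset_span (by simp))
  have hwb : polar Q bU w ≠ 0 := hw2
  have h1 : Has Q M u w := S.hasU hu hw hu0 hwu
  have hua : polar Q u a = 0 := by rw [p_comm, toU haW hu, hau]
  have hub : polar Q u b = 0 := by rw [p_comm, toU hbW hu, hbu]
  have h2 := h1.comm hu0 hwu h S.leO hua hub
  have e1 : polar Q w a = 0 := by rw [p_comm, toU haW hw, hwa]
  have e2 : polar Q w b = polar Q bU w := by rw [p_comm, toU hbW hw]
  rw [e1, e2] at h2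
  have e3 : (0 : F) • b - (polar Q bU w + Q b * 0) • a = (-(polar Q bU w)) • aU + (-(polar Q bU w)) • (a - aU) := by
    module
  rw [e3] at h2
  refine S.top_of hpl hu hu0 hun ((orth Q W).smul_mem _ haU) (by rw [p_smul', p_comm Q u aU, hau, mul_zero])
    (W.smul_mem _ haW) ?_ h2
  intro h0
  rcases smul_eq_zero.1 h0 with h5 | h5
  · exact hwb (neg_eq_zero.1 h5)
  · rw [sub_eq_zero] at h5
    exact ha (h5 ▸ haU)

/-- **Maximality of the stabilisers of non-degenerate subspaces** -/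
theorem Sit8.maximal6 (S : Sit8 Q W M) (hsix : 6 ≤ finrank F (orth Q W))
    (hyp' : ∀ a ∈ orth Q W, ∀ b ∈ orth Q W, (∀ c : F, b ≠ c • a) → ∃ u ∈ orth Q W, Q u = 0 ∧ u ≠ 0 ∧
      polar Q a u = 0 ∧ polar Q b u = 0 ∧ ∀ α β : F, b ≠ α • u + β • a)
    (hpl : (finrank F W = 2 ∧ ∃ x ∈ W, x ≠ 0 ∧ Q x = 0) → 4 ≤ Nat.card F)
    (hno : ∀ g ∈ O Q, ¬ ∀ x ∈ orth Q W, g x ∈ W)
    (hne : ∃ g ∈ M, ¬ Stab W g) : Om Q ≤ M := by
  classical
  obtain ⟨g, hg, hgS⟩ := hne
  have hgO := S.leO hg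
  set U := orth Q W with hU
  have hdU : 6 ≤ finrank F U := hsix
  -- projection to `U`
  obtain ⟨T, hT1, hT2⟩ := exists_proj (isCompl_orth S.ndW).symm
  have hTW : ∀ x, T x = 0 → x ∈ W := by
    intro x hx
    have := hT2 x
    rwa [hx, sub_zero] at this
  -- it suffices to find `a`, `b`
  suffices hab : ∃ a ∈ U, ∃ b ∈ U, Q a = 0 ∧ polar Q a b = 0 ∧ g a ∉ U ∧ ∀ c : F, T (g b) ≠ c • T (g a) by
    obtain ⟨a, ha, b, hb, ha0, hab, hga, hgb⟩ := hab
    obtain ⟨u, hu, hu0, hun, hau, hbu, hbs⟩ := hyp' _ (hT1 (g a)) _ (hT1 (g b)) hgb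
    exact S.key hpl ((S.hasU ha hb ha0 hab).conj hg hgO) (hT1 _) (hT2 _) (hT1 _) (hT2 _) hga hu hu0 hun hau hbu hbs
  by_contra hcon
  push Not at hcon
  -- the part of `U` mapped into `W`
  set K : Submodule F V := U ⊓ W.comap (g : V →ₗ[F] V) with hK
  by_cases hdK : 4 ≤ finrank F K
  · obtain ⟨a1, ha1, ha10, ha1Q⟩ := exists_sing Q (U := K) (by omega)
    -- a second singular vector
    obtain ⟨C, hC⟩ := Submodule.exists_isCompl (Submodule.span F {(⟨a1, ha1⟩ : K)})
    have hdC := Submodule.finrank_add_eq_of_isCompl hC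
    have hs1 := finrank_span_le_card (R := F) ({(⟨a1, ha1⟩ : K)} : Set K)
    simp at hs1
    obtain ⟨a2', ha2C, ha20, ha2Q⟩ := exists_sing (Q.restrict K) (U := C) (by omega)
    obtain ⟨a2, ha2⟩ := a2'
    have ha2Q' : Q a2 = 0 := ha2Q
    have ha20' : a2 ≠ 0 := fun h => ha20 (Subtype.ext h)
    have hind : ∀ c : F, a2 ≠ c • a1 := by
      intro c hc
      apply ha20
      have h1 : (⟨a2, ha2⟩ : K) ∈ Submodule.span F {(⟨a1, ha1⟩ : K)} ⊓ C := by
        refine ⟨?_, ha2C⟩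
        rw [SetLike.mem_coe, Submodule.mem_span_singleton]
        exact ⟨c, Subtype.ext hc.symm⟩
      rw [hC.inf_eq_bot] at h1
      exact (Submodule.mem_bot F).1 h1
    have hperp : ∀ a ∈ K, a ≠ 0 → Q a = 0 → ∀ b ∈ U, polar Q a b = 0 → g b ∈ W := by
      intro a ha ha0 haQ b hb hab
      have hgaW : g a ∈ W := ha.2
      have hga0 : g a ≠ 0 := fun h => ha0 ((map_eq_zero_iff g g.injective).1 h)
      obtain ⟨c, hc⟩ := hcon a ha.1 b hb haQ hab (S.notMem hgaW hga0)
      have hTga : T (g a) = 0 := by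
        have h1 := hT1 (g a)
        by_contra h2
        apply S.notMem' h1 h2
        have h3 := W.sub_mem hgaW (hT2 (g a))
        rwa [sub_sub_cancel] at h3
      rw [hTga, smul_zero] at hc
      exact hTW _ hc
    -- so `g U ≤ W`
    apply hno g hgO
    intro x hx
    have ha1U : a1 ∈ U := ha1.1
    have ha2U : a2 ∈ U := ha2.1
    have hn1 : (⟨a1, ha1U⟩ : U) ∉ Submodule.span F {(⟨a2, ha2U⟩ : U)} := by
      rw [Submodule.mem_span_singleton]
      rintro ⟨c, hc⟩
      have hc' : c • a2 = a1 := congrArg Subtype.val hc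
      have hc0 : c ≠ 0 := by
        rintro rfl
        rw [zero_smul] at hc'
        exact ha10 hc'.symm
      exact hind c⁻¹ (by rw [← hc', smul_smul, inv_mul_cancel₀ hc0, one_smul])
    obtain ⟨⟨y, hyU⟩, hy1, hy2⟩ := sep S.ndU hn1
    have hy1' : polar Q a2 y = 0 := hy1 _ (Submodule.mem_span_singleton_self _)
    have hy2' : polar Q a1 y ≠ 0 := hy2
    have hgy : g y ∈ W := hperp a2 ha2 ha20' ha2Q' y hyU hy1'
    have hgx : g (x - ((polar Q a1 y)⁻¹ * polar Q a1 x) • y) ∈ W := by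
      refine hperp a1 ha1 ha10 ha1Q _ (U.sub_mem hx (U.smul_mem _ hyU)) ?_
      rw [p_sub', p_smul']
      field_simp
      ring
    rw [map_sub, map_smul] at hgx
    have := W.add_mem hgx (W.smul_mem ((polar Q a1 y)⁻¹ * polar Q a1 x) hgy)
    rwa [sub_add_cancel] at this
  · -- a singular vector of `U` not mapped into `U`
    have hgU : ∃ a ∈ U, Q a = 0 ∧ g a ∉ U := by
      by_contra h
      push Not at h
      apply hgS
      have hgU : ∀ x ∈ U, g x ∈ U := by
        intro x hx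
        have h1 := O12Nd.span_sing (Q := Q.restrict U) S.ndU (by omega) ((U.comap (g : V →ₗ[F] V)).comap U.subtype)
          (fun z hz => h z z.2 hz) ⟨x, hx⟩
        exact h1
      apply stab_of
      intro x hx
      rw [← orth_orth S.nd W]
      intro w hw
      have h2 : ∃ w' ∈ U, g w' = w := by
        have h3 : U.map (g : V →ₗ[F] V) = U := by
          apply Submodule.eq_of_le_of_finrank_eq
          · rintro _ ⟨y, hy, rfl⟩; exact hgU y hy
          · exact LinearEquiv.finrank_map_eq g U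
        have h4 : w ∈ U.map (g : V →ₗ[F] V) := by rw [h3]; exact hw
        obtain ⟨w', hw', h5⟩ := h4
        exact ⟨w', hw', h5⟩
      obtain ⟨w', hw', rfl⟩ := h2
      rw [O_polar hgO, p_comm]
      exact hw' x hx
    obtain ⟨a, ha, haQ, hga⟩ := hgU
    -- dimension count
    set P : Submodule F V := U ⊓ orth Q (Submodule.span F {a}) with hP
    have hPf : finrank F U ≤ finrank F P + 1 := by
      have h1 := finrank_orth S.nd (Submodule.span F {a})
      have h2 := finrank_span_le_card (R := F) ({a} : Set V)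
      simp at h2
      have h3 : finrank F (U ⊔ orth Q (Submodule.span F {a}) : Submodule F V) + finrank F P =
        finrank F U + finrank F (orth Q (Submodule.span F {a})) :=
        Submodule.finrank_sup_add_finrank_inf_eq U (orth Q (Submodule.span F {a}))
      have h4 := Submodule.finrank_le (U ⊔ orth Q (Submodule.span F {a}))
      omega
    set f : P →ₗ[F] V := (T ∘ₗ (g : V →ₗ[F] V)) ∘ₗ P.subtype with hf
    have h1 := LinearMap.finrank_range_add_finrank_ker f
    have h2 : finrank F (LinearMap.range f) ≤ 1 := by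
      have h3 : LinearMap.range f ≤ Submodule.span F {T (g a)} := by
        rintro _ ⟨b, rfl⟩
        obtain ⟨c, hc⟩ := hcon a ha b b.2.1 haQ (b.2.2 a (Submodule.mem_span_singleton_self a)) hga
        rw [Submodule.mem_span_singleton]
        exact ⟨c, hc.symm⟩
      have h4 := Submodule.finrank_mono h3
      have h5 := finrank_span_le_card (R := F) ({T (g a)} : Set V)
      simp at h5
      omega
    have h3 : finrank F (LinearMap.ker f) ≤ finrank F K := by
      have h4 : (LinearMap.ker f).map P.subtype ≤ K := by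
        rintro _ ⟨x, hx, rfl⟩
        exact ⟨x.2.1, hTW _ hx⟩
      have h5 := Submodule.finrank_mono h4
      rwa [Submodule.finrank_map_subtype_eq] at h5
    omega


end main

end H95.O8Nd
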