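import Mathlib
import Cfsg.Agent.Lib.H95.O8Nd
import Cfsg.Agent.Lib.H7.OLow

/-!
Maximality of the stabilisers of non-degenerate subspaces in `Om Q`: dimension eight, complements of
dimension at least five.
-/
set_option autoImplicit false

namespace H95.O8Nd

open Module QuadraticMap H48.QuadSplit H48.QuadWitt H95.OGeo H7.OA H7.OABridge H7.OAPar H7.OANd
open H95.O8Pt (perpT)

variable {F V : Type*} [Field F] [AddCommGroup V] [Module F V] {Q : QuadraticForm F V}
variable [Finite F] [FiniteDimensional F V]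

/-- hyperbolic pairs orthogonal to a vector -/
lemma hyp_one (hQ : ND Q) (hn : 5 ≤ finrank F V) (a : V) :
    ∃ e f, Q e = 0 ∧ Q f = 0 ∧ polar Q e f = 1 ∧ polar Q a e = 0 ∧ polar Q a f = 0 := by
  have hfr : finrank F (Submodule.span F ({a} : Set V)) ≤ 1 := by
    have h := finrank_span_le_card (R := F) ({a} : Set V)
    simpa using h
  obtain ⟨e, he, f, hf, h1, h2, h3⟩ := H95.OGeo.exists_hyp hQ (L := Submodule.span F {a}) (by omega)
  exact ⟨e, f, h1, h2, h3, he a (Submodule.mem_span_singleton_self a), hf a (Submodule.mem_span_singleton_self a)⟩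

/-- a singular vector orthogonal to two vectors, dimension at least six -/
lemma hyp_two (hQ : ND Q) (h6 : 6 ≤ finrank F V) (a b : V) (hab : ∀ c : F, b ≠ c • a) :
    ∃ u, Q u = 0 ∧ u ≠ 0 ∧ polar Q a u = 0 ∧ polar Q b u = 0 ∧ ∀ α β : F, b ≠ α • u + β • a := by
  classical
  set L : Submodule F V := Submodule.span F {a, b} with hL
  have hLf : finrank F L ≤ 2 := by
    have h := finrank_span_finset_le_card (R := F) ({a, b} : Finset V)
    have h2 : ({a, b} : Finset V).card ≤ 2 := Finset.card_le_two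
    have h3 : ((({a, b} : Finset V) : Set V)) = ({a, b} : Set V) := by simp
    rw [h3] at h
    exact h.trans h2
  set P := orth Q L with hP
  have hdP := finrank_orth hQ L
  rw [← hP] at hdP
  have haL : a ∈ L := Submodule.subset_span (by simp)
  have hbL : b ∈ L := Submodule.subset_span (by simp)
  -- a singular vector outside `L` suffices
  have fin : (∃ e ∈ P, Q e = 0 ∧ e ∉ L) → ∃ u, Q u = 0 ∧ u ≠ 0 ∧ polar Q a u = 0 ∧ polar Q b u = 0 ∧
      ∀ α β : F, b ≠ α • u + β • a := by
    rintro ⟨e, heP, heQ, heL⟩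
    refine ⟨e, heQ, ?_, heP a haL, heP b hbL, ?_⟩
    · rintro rfl
      exact heL L.zero_mem
    · intro α β h
      have hα : α ≠ 0 := by
        rintro rfl
        rw [zero_smul, zero_add] at h
        exact hab β h
      apply heL
      have h1 : e = α⁻¹ • (b - β • a) := by
        rw [h, add_sub_cancel_right, smul_smul, inv_mul_cancel₀ hα, one_smul]
      rw [h1]
      exact L.smul_mem _ (L.sub_mem hbL (L.smul_mem _ haL))
  by_cases hcase : finrank F (L ⊓ P : Submodule F V) + 3 ≤ finrank F P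
  · apply fin
    obtain ⟨C, hC⟩ := Submodule.exists_isCompl (Submodule.comap P.subtype L)
    have hdC := Submodule.finrank_add_eq_of_isCompl hC
    have h1 : finrank F (Submodule.comap P.subtype L) = finrank F (L ⊓ P : Submodule F V) := by
      have h2 : (Submodule.comap P.subtype L).map P.subtype = L ⊓ P := by
        rw [Submodule.map_comap_subtype, inf_comm]
      rw [← h2, Submodule.finrank_map_subtype_eq]
    obtain ⟨e, heC, he0, heQ⟩ := exists_sing (Q.restrict P) (U := C) (by omega)
    refine ⟨e, e.2, heQ, fun heL => he0 ?_⟩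
    have h3 : e ∈ (Submodule.comap P.subtype L) ⊓ C := ⟨heL, heC⟩
    rw [hC.inf_eq_bot] at h3
    exact (Submodule.mem_bot F).1 h3
  · have hle1 := Submodule.finrank_mono (inf_le_left : L ⊓ P ≤ L)
    have hL2 : finrank F L = 2 := by omega
    have hLP : L ≤ P := by
      have h1 : L ⊓ P = L := Submodule.eq_of_le_of_finrank_le inf_le_left (by omega)
      rw [← h1]; exact inf_le_right
    have hnle : ¬ P ≤ L := by
      intro h
      have := Submodule.finrank_mono h
      omega
    by_cases hns : ∃ n ∈ L, Q n ≠ 0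
    · apply fin
      obtain ⟨n, hn, hnQ⟩ := hns
      have h2 : (2 : F) = 0 := by
        have h3 : polar Q n n = 0 := hLP hn n hn
        rw [p_self] at h3
        exact (mul_eq_zero.1 h3).resolve_right hnQ
      obtain ⟨h, hh, hhL⟩ := SetLike.not_le_iff_exists.1 hnle
      have : CharP F 2 := CharTwo.of_one_ne_zero_of_two_eq_zero one_ne_zero h2
      have hinj : Function.Injective (frobenius F 2) := frobenius_inj F 2
      obtain ⟨c, hc⟩ := Finite.surjective_of_injective hinj (Q h * (Q n)⁻¹)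
      rw [frobenius_def] at hc
      refine ⟨h + c • n, P.add_mem hh (P.smul_mem _ (hLP hn)), ?_, fun h3 => hhL ?_⟩
      · have h4 : polar Q h n = 0 := by rw [p_comm]; exact hh n hn
        have h5 : c * c * Q n = Q h := by
          rw [← pow_two, hc, inv_mul_cancel_right₀ hnQ]
        rw [Q_add, Q_smul, p_smul', h4, h5]
        linear_combination Q h * h2
      · exact (Submodule.add_mem_iff_left L (L.smul_mem _ hn)).1 h3
    · push Not at hns
      have ha0 : a ≠ 0 := by
        rintro rfl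
        have h1 : L ≤ Submodule.span F {b} := by
          rw [hL, Submodule.span_le]
          rintro x (rfl | rfl)
          · exact Submodule.zero_mem _
          · exact Submodule.mem_span_singleton_self _
        have h2 := Submodule.finrank_mono h1
        have h3 : finrank F (Submodule.span F ({b} : Set V)) ≤ 1 := by
          have h := finrank_span_le_card (R := F) ({b} : Set V)
          simpa using h
        omega
      refine ⟨a, hns a haL, ha0, hLP haL a haL, hLP haL b hbL, fun α β h => hab (α + β) ?_⟩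
      rw [h, add_smul]

section main

variable {W : Submodule F V} {M : Subgroup (V ≃ₗ[F] V)}

/-- the key commutator, dimension five, odd characteristic -/
lemma Sit8.key5 (S : Sit8 Q W M) (h2 : (2 : F) ≠ 0) (h5 : 5 ≤ finrank F (orth Q W))
    (hpl : (finrank F W = 2 ∧ ∃ x ∈ W, x ≠ 0 ∧ Q x = 0) → 4 ≤ Nat.card F)
    {a aU b bU : V} (h : Has Q M a b) (haU : aU ∈ orth Q W) (haW : a - aU ∈ W) (hbU : bU ∈ orth Q W)
    (hbW : b - bU ∈ W) (ha : a ∉ orth Q W) (haQ : Q a = 0) (hab : polar Q a b = 0) (hbQ : Q b ≠ 0)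
    (hb : ∀ c : F, bU ≠ c • aU) : Om Q ≤ M := by
  have hbU0 : bU ≠ 0 := fun h0 => hb 0 (by rw [h0, zero_smul])
  by_cases haU0 : aU = 0
  · -- the first vector in `W`
    have hfr : finrank F (Submodule.span F ({⟨bU, hbU⟩} : Set (orth Q W))) ≤ 1 := by
      have h := finrank_span_le_card (R := F) ({⟨bU, hbU⟩} : Set (orth Q W))
      simpa using h
    obtain ⟨⟨u, hu⟩, hu0, hux, huT⟩ := perpT S.ndU ![⟨bU, hbU⟩] (Submodule.span F {⟨bU, hbU⟩}) (by omega)
    have hub : polar Q u bU = 0 := hux 0
    have hu0' : Q u = 0 := hu0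
    have hun : u ≠ 0 := by
      rintro rfl
      exact huT (Submodule.zero_mem _)
    refine S.key hpl h haU haW hbU hbW ha hu hu0' hun (by rw [haU0, p_zero]) (by rw [p_comm, hub]) ?_
    intro α β hαβ
    rw [haU0, smul_zero, add_zero] at hαβ
    have hα : α ≠ 0 := by
      rintro rfl
      exact hbU0 (by rw [hαβ, zero_smul])
    apply huT
    rw [Submodule.mem_span_singleton]
    refine ⟨α⁻¹, Subtype.ext ?_⟩
    show α⁻¹ • bU = u
    rw [hαβ, smul_smul, inv_mul_cancel₀ hα, one_smul]
  obtain ⟨⟨u, hu⟩, hu0, hux, huT⟩ := perpT S.ndU ![⟨aU, haU⟩, ⟨bU, hbU⟩] ⊥ (by rw [finrank_bot]; omega)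
  have hua : polar Q u aU = 0 := hux 0
  have hub : polar Q u bU = 0 := hux 1
  have hu0' : Q u = 0 := hu0
  have hun : u ≠ 0 := by
    rintro rfl
    exact huT (Submodule.zero_mem _)
  by_cases hbs : ∀ α β : F, bU ≠ α • u + β • aU
  · exact S.key hpl h haU haW hbU hbW ha hu hu0' hun (by rw [p_comm, hua]) (by rw [p_comm, hub]) hbs
  push Not at hbs
  obtain ⟨α, β, hαβ⟩ := hbs
  have hα : α ≠ 0 := by
    rintro rfl
    exact hb β (by rw [hαβ, zero_smul, zero_add])
  have haun : (⟨aU, haU⟩ : orth Q W) ∉ Submodule.span F {(⟨u, hu⟩ : orth Q W)} := by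
    rw [Submodule.mem_span_singleton]
    rintro ⟨c, hc⟩
    have hc' : c • u = aU := congrArg Subtype.val hc
    have hc0 : c ≠ 0 := by
      rintro rfl
      exact haU0 (by rw [← hc', zero_smul])
    apply hb (α * c⁻¹ + β)
    rw [hαβ, add_smul, ← smul_smul]
    congr 2
    rw [← hc', smul_smul, inv_mul_cancel₀ hc0, one_smul]
  obtain ⟨⟨w, hw⟩, hw1, hw2⟩ := sep S.ndU haun
  have hwu : polar Q u w = 0 := hw1 _ (Submodule.mem_span_singleton_self _)
  have hwa : polar Q aU w ≠ 0 := hw2
  -- change `b`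
  obtain ⟨b', hb'⟩ : ∃ b', b' = b - β • a := ⟨_, rfl⟩
  have hH : Has Q M a b' := by
    have h3 := (has_add_u (M := M) haQ hab (-β)).2 h
    rw [hb']
    have e : b - β • a = b + (-β) • a := by module
    rw [e]; exact h3
  have hb'W : b' - α • u ∈ W := by
    have e : b' - α • u = (b - bU) - β • (a - aU) := by rw [hb', hαβ]; module
    rw [e]
    exact W.sub_mem hbW (W.smul_mem _ haW)
  have hab' : polar Q a b' = 0 := by rw [hb', p_sub', p_smul', p_self, haQ, hab]; ring
  have hb'Q : Q b' = Q b := by rw [hb', Q_sub, Q_smul, p_smul', p_comm, hab, haQ]; ring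
  have hαu : α • u ∈ orth Q W := (orth Q W).smul_mem _ hu
  have huu : polar Q u u = 0 := by rw [p_self, hu0', mul_zero]
  have h1 : Has Q M u w := S.hasU hu hw hu0' hwu
  have hua' : polar Q u a = 0 := by rw [p_comm, toU haW hu, p_comm, hua]
  have hub' : polar Q u b' = 0 := by rw [p_comm, toU hb'W hu, p_smul, huu, mul_zero]
  have h3 := h1.comm hu0' hwu hH S.leO hua' hub'
  have e1 : polar Q w a = polar Q aU w := by rw [p_comm, toU haW hw]
  have e2 : polar Q w b' = 0 := by rw [p_comm, toU hb'W hw, p_smul, hwu, mul_zero]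
  obtain ⟨γ, hγ⟩ : ∃ γ, γ = polar Q aU w := ⟨_, rfl⟩
  rw [e1, e2, ← hγ] at h3
  rw [← hγ] at hwa
  have e3 : γ • b' - (0 + Q b' * γ) • a =
      (γ • (α • u) - (Q b' * γ) • aU) + (γ • ((b' - α • u) - Q b' • (a - aU))) := by module
  rw [e3] at h3
  refine S.top_of hpl hu hu0' hun ((orth Q W).sub_mem ((orth Q W).smul_mem _ hαu) ((orth Q W).smul_mem _ haU))
    (by rw [p_sub', p_smul', p_smul', p_smul', huu, hua]; ring)
    (W.smul_mem _ (W.sub_mem hb'W (W.smul_mem _ haW))) ?_ h3
  intro h0
  have h4 : (b' - α • u) - Q b' • (a - aU) = 0 := (smul_eq_zero.1 h0).resolve_left hwa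
  have h5 : b' - α • u = Q b' • (a - aU) := sub_eq_zero.1 h4
  -- values
  have hpW : ∀ x ∈ W, polar Q (α • u) x = 0 := fun x hx => by rw [p_comm]; exact hαu x hx
  have hpW' : ∀ x ∈ W, polar Q aU x = 0 := fun x hx => by rw [p_comm]; exact haU x hx
  have e4 : Q b' = Q (b' - α • u) := by
    have h6 : b' = α • u + (b' - α • u) := by abel
    have h7 : Q b' = Q (α • u + (b' - α • u)) := by rw [← h6]
    rw [h7, Q_add, Q_smul, hu0', hpW _ hb'W]; ring
  have e5 : polar Q (a - aU) (b' - α • u) = 0 := by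
    have h6 : polar Q (aU + (a - aU)) (α • u + (b' - α • u)) = 0 := by
      rw [add_sub_cancel, add_sub_cancel, hab']
    rw [p_add, p_add', p_add', hpW' _ hb'W, p_smul', p_comm Q aU u, hua, p_comm Q (a - aU) (α • u),
      hpW _ haW] at h6
    linear_combination h6
  rw [h5, p_smul', p_self] at e5
  rw [h5, Q_smul] at e4
  have hne : Q b' ≠ 0 := by rw [hb'Q]; exact hbQ
  have e6 : Q (a - aU) = 0 := by
    rcases mul_eq_zero.1 e5 with h7 | h7
    · exact absurd h7 hne
    · exact (mul_eq_zero.1 h7).resolve_left h2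
  rw [e6, mul_zero] at e4
  exact hne e4

/-- **Maximality of the stabilisers of non-degenerate subspaces**, complement of dimension at least five -/
theorem Sit8.maximal5 (S : Sit8 Q W M) (h2 : (2 : F) ≠ 0) (h5 : 5 ≤ finrank F (orth Q W))
    (hW3 : finrank F W ≤ 3)
    (hpl : (finrank F W = 2 ∧ ∃ x ∈ W, x ≠ 0 ∧ Q x = 0) → 4 ≤ Nat.card F)
    (hne : ∃ g ∈ M, ¬ Stab W g) : Om Q ≤ M := by
  classical
  obtain ⟨g, hg, hgS⟩ := hne
  have hgO := S.leO hg
  set U := orth Q W with hU
  obtain ⟨T, hT1, hT2⟩ := exists_proj (isCompl_orth S.ndW).symm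
  have hTW : ∀ x, T x = 0 → x ∈ W := by
    intro x hx
    have := hT2 x
    rwa [hx, sub_zero] at this
  by_contra hcon
  -- a singular vector of `U` not mapped into `U`
  have hgU : ∃ a ∈ U, Q a = 0 ∧ g a ∉ U := by
    by_contra h
    push Not at h
    apply hgS
    have hgU : ∀ x ∈ U, g x ∈ U := by
      intro x hx
      have h1 := O12Nd.span_sing (Q := Q.restrict U) S.ndU (by omega) ((U.comap (g : V →ₗ[F] V)).comap U.subtype)
        (fun z hz => h z z.2 hz) ⟨x, hx⟩
      exact h1
    apply stab_of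
    intro x hx
    rw [← orth_orth S.nd W]
    intro w hw
    have h2 : ∃ w' ∈ U, g w' = w := by
      have h3 : U.map (g : V →ₗ[F] V) = U := by
        apply Submodule.eq_of_le_of_finrank_eq
        · rintro _ ⟨y, hy, rfl⟩; exact hgU y hy
        · exact LinearEquiv.finrank_map_eq g U
      have h4 : w ∈ U.map (g : V →ₗ[F] V) := by rw [h3]; exact hw
      obtain ⟨w', hw', h5⟩ := h4
      exact ⟨w', hw', h5⟩
    obtain ⟨w', hw', rfl⟩ := h2
    rw [O_polar hgO, p_comm]
    exact hw' x hx
  obtain ⟨a, ha, haQ, hga⟩ := hgU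
  have claim1 : ∀ b ∈ U, polar Q a b = 0 → Q b ≠ 0 → ∃ c : F, T (g b) = c • T (g a) := by
    intro b hb hab hbQ
    by_contra hcon'
    push Not at hcon'
    apply hcon
    exact S.key5 h2 h5 hpl ((S.hasU ha hb haQ hab).conj hg hgO) (hT1 _) (hT2 _) (hT1 _) (hT2 _) hga
      (by rw [mem_O.1 hgO, haQ]) (by rw [O_polar hgO, hab]) (by rw [mem_O.1 hgO]; exact hbQ) hcon'
  obtain ⟨⟨s0, hs0U⟩, hs0a, hs0Q⟩ := H7.OLow.ns1 S.ndU (by
    have : finrank F (orth Q W) = finrank F U := rfl
    omega) (⟨a, ha⟩ : U)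
  have hs0a' : polar Q a s0 = 0 := by rw [p_comm]; exact hs0a
  have hs0Q' : Q s0 ≠ 0 := hs0Q
  obtain ⟨c0, hc0⟩ := claim1 s0 hs0U hs0a' hs0Q'
  have claim2 : ∀ b ∈ U, polar Q a b = 0 → ∃ c : F, T (g b) = c • T (g a) := by
    intro b hb hab
    by_cases hbQ : Q b = 0
    swap
    · exact claim1 b hb hab hbQ
    by_cases h3 : Q (b + s0) = 0
    · have h4 : Q (b - s0) ≠ 0 := by
        intro h4
        rw [Q_add, hbQ] at h3
        rw [Q_sub, hbQ] at h4
        have : 2 * Q s0 = 0 := by linear_combination h3 + h4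
        exact mul_ne_zero h2 hs0Q' this
      obtain ⟨c, hc⟩ := claim1 (b - s0) (U.sub_mem hb hs0U) (by rw [p_sub', hab, hs0a', sub_zero]) h4
      refine ⟨c + c0, ?_⟩
      rw [map_sub, map_sub, hc0] at hc
      rw [add_smul, ← hc]; abel
    · obtain ⟨c, hc⟩ := claim1 (b + s0) (U.add_mem hb hs0U) (by rw [p_add', hab, hs0a', add_zero]) h3
      refine ⟨c - c0, ?_⟩
      rw [map_add, map_add, hc0] at hc
      rw [sub_smul, ← hc]; abel
  -- dimension count
  set P : Submodule F V := U ⊓ orth Q (Submodule.span F {a}) with hP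
  have hPf : finrank F U ≤ finrank F P + 1 := by
    have h1 := finrank_orth S.nd (Submodule.span F {a})
    have h2 := finrank_span_le_card (R := F) ({a} : Set V)
    simp at h2
    have h3 : finrank F (U ⊔ orth Q (Submodule.span F {a}) : Submodule F V) + finrank F P =
      finrank F U + finrank F (orth Q (Submodule.span F {a})) :=
      Submodule.finrank_sup_add_finrank_inf_eq U (orth Q (Submodule.span F {a}))
    have h4 := Submodule.finrank_le (U ⊔ orth Q (Submodule.span F {a}))
    omega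
  set f : P →ₗ[F] V := (T ∘ₗ (g : V →ₗ[F] V)) ∘ₗ P.subtype with hf
  have h1 := LinearMap.finrank_range_add_finrank_ker f
  have h2' : finrank F (LinearMap.range f) ≤ 1 := by
    have h3 : LinearMap.range f ≤ Submodule.span F {T (g a)} := by
      rintro _ ⟨b, rfl⟩
      obtain ⟨c, hc⟩ := claim2 b b.2.1 (b.2.2 a (Submodule.mem_span_singleton_self a))
      rw [Submodule.mem_span_singleton]
      exact ⟨c, hc.symm⟩
    have h4 := Submodule.finrank_mono h3
    have h5 := finrank_span_le_card (R := F) ({T (g a)} : Set V)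
    simp at h5
    omega
  -- the image of the kernel is `W`
  set K' : Submodule F V := ((LinearMap.ker f).map P.subtype).map (g : V →ₗ[F] V) with hK'
  have hK'f : finrank F K' = finrank F (LinearMap.ker f) := by
    rw [hK', LinearEquiv.finrank_map_eq, Submodule.finrank_map_subtype_eq]
  have hK'W : K' ≤ W := by
    rintro _ ⟨_, ⟨x, hx, rfl⟩, rfl⟩
    exact hTW _ hx
  have hK'e : K' = W := Submodule.eq_of_le_of_finrank_le hK'W (by omega)
  apply hga
  rw [hU]
  intro y hy
  rw [← hK'e] at hy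
  obtain ⟨_, ⟨x, hx, rfl⟩, rfl⟩ := hy
  show polar Q (g (x : V)) (g a) = 0
  rw [O_polar hgO, p_comm]
  exact x.2.2 a (Submodule.mem_span_singleton_self a)

end main

end H95.O8Nd
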