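import Mathlib
import Cfsg.Agent.Lib.H95.O8NdB
import Cfsg.Agent.Lib.H95.O12NdB

/-!
Maximality of the stabilisers of non-degenerate subspaces in `Om Q`: dimension eight, four-dimensional
subspaces of minus type with complement of plus type.
-/
set_option autoImplicit false

namespace H95.O8Nd

open Module QuadraticMap H48.QuadSplit H48.QuadWitt H95.OGeo H7.OA H7.OABridge H7.OAPar H7.OANd
open H48.QuadStd

section gen

variable {F V : Type*} [Field F] [AddCommGroup V] [Module F V] {Q : QuadraticForm F V}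
variable [Finite F] [FiniteDimensional F V]

/-- a singular vector orthogonal to a nonsingular one and not orthogonal to a further one -/
lemma sing_perp (hQ : ND Q) (hn : 4 ≤ finrank F V) {a b : V} (ha : Q a ≠ 0) (hb : b ∉ Submodule.span F {a}) :
    ∃ e, Q e = 0 ∧ polar Q a e = 0 ∧ polar Q b e ≠ 0 := by
  have h1 := finrank_orth hQ (Submodule.span F {a})
  have h2 : finrank F (Submodule.span F ({a} : Set V)) ≤ 1 := by
    have h := finrank_span_le_card (R := F) ({a} : Set V)
    simpa using h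
  obtain ⟨e0, he0, he00, he0Q⟩ := exists_sing Q (U := orth Q (Submodule.span F {a})) (by omega)
  have hae0 : polar Q a e0 = 0 := he0 a (Submodule.mem_span_singleton_self a)
  have he0a : e0 ∉ Submodule.span F {a} := by
    intro h
    obtain ⟨c, hc⟩ := Submodule.mem_span_singleton.1 h
    rw [← hc, Q_smul] at he0Q
    rcases mul_eq_zero.1 he0Q with h3 | h3
    · rw [mul_self_eq_zero.1 h3, zero_smul] at hc
      exact he00 hc.symm
    · exact ha h3
  obtain ⟨n, hn1, hn2⟩ := sep hQ he0a
  have han : polar Q a n = 0 := hn1 a (Submodule.mem_span_singleton_self a)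
  obtain ⟨n', n1, n2⟩ : ∃ n', polar Q e0 n' = 1 ∧ polar Q a n' = 0 :=
    ⟨(polar Q e0 n)⁻¹ • n, by rw [p_smul', inv_mul_cancel₀ hn2], by rw [p_smul', han, mul_zero]⟩
  obtain ⟨e1, he1⟩ : ∃ e1, e1 = n' - Q n' • e0 := ⟨_, rfl⟩
  have e1Q : Q e1 = 0 := by rw [he1, Q_sub, Q_smul, p_smul', p_comm Q n', n1, he0Q]; ring
  have e01 : polar Q e0 e1 = 1 := by rw [he1, p_sub', p_smul', p_self, he0Q, n1]; ring
  have ae1 : polar Q a e1 = 0 := by rw [he1, p_sub', p_smul', n2, hae0]; ring
  have e10 : polar Q e1 e0 = 1 := by rw [p_comm, e01]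
  obtain ⟨y, hy1, hy2⟩ := sep hQ hb
  have hay : polar Q a y = 0 := hy1 a (Submodule.mem_span_singleton_self a)
  by_contra hcon
  push Not at hcon
  have b0 := hcon e0 he0Q hae0
  have b1 := hcon e1 e1Q ae1
  obtain ⟨t, ht⟩ : ∃ t, t = y - polar Q y e1 • e0 - polar Q y e0 • e1 := ⟨_, rfl⟩
  have t0 : polar Q t e0 = 0 := by rw [ht, p_sub, p_sub, p_smul, p_smul, p_self, he0Q, e10]; ring
  have t1 : polar Q t e1 = 0 := by rw [ht, p_sub, p_sub, p_smul, p_smul, p_self, e1Q, e01]; ring
  have bz := hcon (t + (e0 - Q t • e1)) (by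
    rw [Q_add, Q_sub, Q_smul, p_smul', p_sub', p_smul', t0, t1, he0Q, e1Q, e01]; ring) (by
    rw [ht, p_add', p_sub', p_sub', p_sub', p_smul', p_smul', p_smul', hay, hae0, ae1]; ring)
  rw [p_add', p_sub', p_smul', b0, b1, ht, p_sub', p_sub', p_smul', p_smul', b0, b1] at bz
  apply hy2
  linear_combination bz

omit [Finite F] [FiniteDimensional F V] in
/-- a subspace with a hyperbolic pair is spanned by its singular vectors -/
lemma span_hyp {U : Submodule F V} {e f : V} (he : e ∈ U) (hf : f ∈ U) (heQ : Q e = 0) (hfQ : Q f = 0)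
    (hef : polar Q e f = 1) (S : Submodule F V) (hS : ∀ z ∈ U, Q z = 0 → z ∈ S) : U ≤ S := by
  intro y hy
  have hfe : polar Q f e = 1 := by rw [p_comm, hef]
  obtain ⟨t, ht⟩ : ∃ t, t = y - polar Q y f • e - polar Q y e • f := ⟨_, rfl⟩
  have t1 : polar Q t e = 0 := by rw [ht, p_sub, p_sub, p_smul, p_smul, p_self, heQ, hfe]; ring
  have t2 : polar Q t f = 0 := by rw [ht, p_sub, p_sub, p_smul, p_smul, p_self, hfQ, hef]; ring
  have heS := hS e he heQ
  have hfS := hS f hf hfQ
  have htU : t ∈ U := by rw [ht]; exact U.sub_mem (U.sub_mem hy (U.smul_mem _ he)) (U.smul_mem _ hf)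
  have hz : t + (e - Q t • f) ∈ S := by
    apply hS
    · exact U.add_mem htU (U.sub_mem he (U.smul_mem _ hf))
    · rw [Q_add, Q_sub, Q_smul, p_smul', p_sub', p_smul', t1, t2, heQ, hfQ, hef]; ring
  have htS : t ∈ S := (Submodule.add_mem_iff_left S (S.sub_mem heS (S.smul_mem _ hfS))).1 hz
  have : y = t + polar Q y f • e + polar Q y e • f := by rw [ht]; abel
  rw [this]
  exact S.add_mem (S.add_mem htS (S.smul_mem _ heS)) (S.smul_mem _ hfS)

/-- an anisotropic non-degenerate plane in a four-dimensional space of minus type has a singular vector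
in its complement -/
lemma sing_of_aniso (hQ : ND Q) (h4 : finrank F V = 4)
    (an : ∀ x y : V, x ≠ 0 → Q x = 0 → Q y = 0 → polar Q x y = 0 → ∃ c : F, y = c • x)
    {a b : V} (hab : polar Q a b ≠ 0) (h2 : (2 : F) = 0)
    (han : ∀ α β : F, Q (α • a + β • b) = 0 → α = 0 ∧ β = 0) :
    ∃ f, f ≠ 0 ∧ Q f = 0 ∧ polar Q a f = 0 ∧ polar Q b f = 0 := by
  set B : Submodule F V := Submodule.span F (Set.range ![a, b]) with hB
  have hli : LinearIndependent F ![a, b] := by
    rw [LinearIndependent.pair_iff]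
    intro s t hst
    exact han s t (by rw [hst, QuadraticMap.map_zero])
  have hB2 : finrank F B = 2 := by rw [hB, finrank_span_eq_card hli]; simp
  have hmem : ∀ x ∈ B, ∃ α β : F, x = α • a + β • b := by
    intro x hx
    rw [hB, Submodule.mem_span_range_iff_exists_fun] at hx
    obtain ⟨c, hc⟩ := hx
    rw [Fin.sum_univ_two] at hc
    exact ⟨c 0, c 1, hc.symm⟩
  have haB : a ∈ B := Submodule.subset_span ⟨0, rfl⟩
  have hbB : b ∈ B := Submodule.subset_span ⟨1, rfl⟩
  have haa : polar Q a a = 0 := by rw [p_self, h2, zero_mul]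
  have hbb : polar Q b b = 0 := by rw [p_self, h2, zero_mul]
  have hndB : ND (Q.restrict B) := by
    rintro ⟨x, hx⟩ h
    obtain ⟨α, β, rfl⟩ := hmem x hx
    have e1 : polar Q (α • a + β • b) a = 0 := h ⟨a, haB⟩
    have e2 : polar Q (α • a + β • b) b = 0 := h ⟨b, hbB⟩
    rw [p_add, p_smul, p_smul, haa, mul_zero, zero_add, p_comm] at e1
    rw [p_add, p_smul, p_smul, hbb, mul_zero, add_zero] at e2
    have hβ := (mul_eq_zero.1 e1).resolve_right hab
    have hα := (mul_eq_zero.1 e2).resolve_right hab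
    apply Subtype.ext
    show α • a + β • b = 0
    rw [hα, hβ, zero_smul, zero_smul, add_zero]
  have hd := finrank_orth hQ B
  by_contra hcon
  push Not at hcon
  -- no totally singular lines
  have noB : ∀ T : Submodule F B, TS (Q.restrict B) T → finrank F T = 1 → False := by
    intro T hT hT1
    have hne : T ≠ ⊥ := by
      rintro rfl
      rw [finrank_bot] at hT1
      omega
    obtain ⟨⟨x, hx⟩, hxT, hx0⟩ := (Submodule.ne_bot_iff T).1 hne
    obtain ⟨α, β, rfl⟩ := hmem x hx
    have h3 : Q (α • a + β • b) = 0 := hT _ hxT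
    obtain ⟨hα, hβ⟩ := han α β h3
    apply hx0
    apply Subtype.ext
    show α • a + β • b = 0
    rw [hα, hβ, zero_smul, zero_smul, add_zero]
  have noC : ∀ T : Submodule F (orth Q B), TS (Q.restrict (orth Q B)) T → finrank F T = 1 → False := by
    intro T hT hT1
    have hne : T ≠ ⊥ := by
      rintro rfl
      rw [finrank_bot] at hT1
      omega
    obtain ⟨⟨x, hx⟩, hxT, hx0⟩ := (Submodule.ne_bot_iff T).1 hne
    exact hcon x (fun h => hx0 (Subtype.ext h)) (hT _ hxT) (hx a haB) (hx b hbB)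
  rcases classify_even 1 _ (Q.restrict B) hndB (by omega) with hp | ⟨-, z, hz, hm⟩
  · obtain ⟨T, hT, hT1⟩ := O12NdB.ts_of_plus hp
    exact noB T hT hT1
  rcases classify_even 1 _ (Q.restrict (orth Q B)) (nd_orth hQ hndB) (by omega) with hp | ⟨-, z', hz', hm'⟩
  · obtain ⟨T, hT, hT1⟩ := O12NdB.ts_of_plus hp
    exact noC T hT hT1
  obtain ⟨T, hT, hT2⟩ := O12NdB.plus_of_minus hQ hndB (m := 1) le_rfl (by omega) (by omega) hz hz' hm hm'
  have hne : T ≠ ⊥ := by
    rintro rfl
    rw [finrank_bot] at hT2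
    omega
  obtain ⟨x, hxT, hx0⟩ := (Submodule.ne_bot_iff T).1 hne
  have hTx : T ≤ Submodule.span F {x} := by
    intro y hy
    obtain ⟨c, hc⟩ := an x y hx0 (hT x hxT) (hT y hy) (by
      have h6 := Q_add Q x y
      rw [hT x hxT, hT y hy, hT _ (T.add_mem hxT hy)] at h6
      simpa using h6.symm)
    rw [hc]
    exact Submodule.smul_mem _ _ (Submodule.mem_span_singleton_self x)
  have h5 := Submodule.finrank_mono hTx
  have h6 : finrank F (Submodule.span F ({x} : Set V)) ≤ 1 := by
    have h := finrank_span_le_card (R := F) ({x} : Set V)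
    simpa using h
  omega

end gen

end H95.O8Nd
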