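import Mathlib
import Cfsg.Agent.Lib.H95.O8NdC

/-!
Maximality of the stabilisers of non-degenerate subspaces in `Om Q`: dimension eight, four-dimensional
subspaces of minus type with complement of plus type, main part.
-/
set_option autoImplicit false

namespace H95.O8Nd

open Module QuadraticMap H48.QuadSplit H48.QuadWitt H95.OGeo H7.OA H7.OABridge H7.OAPar H7.OANd
open H48.QuadStd

variable {F V : Type*} [Field F] [AddCommGroup V] [Module F V] {Q : QuadraticForm F V}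
variable [Finite F] [FiniteDimensional F V]
variable {W : Submodule F V} {M : Subgroup (V ≃ₗ[F] V)}

/-- the standing situation for four-dimensional subspaces -/
structure Sit4 (Q : QuadraticForm F V) (W : Submodule F V) (M : Subgroup (V ≃ₗ[F] V)) : Prop extends
    Sit8 Q W M where
  W4 : finrank F W = 4
  U4 : finrank F (orth Q W) = 4
  an : ∀ x ∈ W, ∀ y ∈ W, x ≠ 0 → Q x = 0 → Q y = 0 → polar Q x y = 0 → ∃ c : F, y = c • x
  pl : ∀ n ∈ orth Q W, Q n ≠ 0 → ∃ e ∈ orth Q W, ∃ f ∈ orth Q W, Q e = 0 ∧ Q f = 0 ∧ polar Q e f = 0 ∧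
    polar Q n e ≠ 0 ∧ ∀ c : F, f ≠ c • e

lemma Sit4.top' (S : Sit4 Q W M) {u y r : V} (hu : u ∈ orth Q W) (hu0 : Q u = 0) (hun : u ≠ 0)
    (hy : y ∈ orth Q W) (huy : polar Q u y = 0) (hr : r ∈ W) (hr0 : r ≠ 0) (h : Has Q M u (y + r)) :
    Om Q ≤ M :=
  S.top_of (fun h => by have := S.W4; omega) hu hu0 hun hy huy hr hr0 h

lemma Sit4.part (S : Sit4 Q W M) {u : V} (hu : u ∈ orth Q W) (hu0 : Q u = 0) :
    ∃ y ∈ orth Q W, Q y = 0 ∧ polar Q u y = 0 ∧ ∀ c : F, y ≠ c • u := by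
  obtain ⟨e, f, he, hf, h1, h2, h3, h4, h5⟩ := S.hyp u hu hu0
  refine ⟨e, he, h1, h4, fun c hc => ?_⟩
  rw [hc, p_smul, h5, mul_zero] at h3
  exact zero_ne_one h3

omit [Finite F] [FiniteDimensional F V] in
lemma pUW {x y : V} (hx : x ∈ orth Q W) (hy : y ∈ W) : polar Q x y = 0 := by
  rw [p_comm]; exact hx y hy

/-- first vector in `W` -/
lemma Sit4.A0 (S : Sit4 Q W M) {a bU bW : V} (ha : a ∈ W) (ha0 : a ≠ 0) (haQ : Q a = 0) (hbU : bU ∈ orth Q W)
    (hbW : bW ∈ W) (hbQ : Q (bU + bW) = 0) (hab : polar Q a bW = 0) (hb : ∀ c : F, bU + bW ≠ c • a)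
    (h : Has Q M a (bU + bW)) : Om Q ≤ M := by
  have haU : polar Q a bU = 0 := by rw [p_comm]; exact pUW hbU ha
  have hbb : polar Q bU bW = 0 := pUW hbU hbW
  have h1 : Has Q M a bU := by
    have h2 := h.sub (S.hasW ha hbW haQ hab) haQ (by rw [p_add', haU, hab, add_zero]) hab
    rwa [add_sub_cancel_right] at h2
  have hna : -a ∈ W := W.neg_mem ha
  have hna0 : -a ≠ 0 := neg_ne_zero.2 ha0
  by_cases hQ : Q bU = 0
  · have hbU0 : bU ≠ 0 := by
      rintro rfl
      rw [zero_add] at hbQ hb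
      obtain ⟨c, hc⟩ := S.an a ha bW hbW ha0 haQ hbQ hab
      exact hb c hc
    have h2 := (has_swap haQ hQ).1 h1
    exact S.top' hbU hQ hbU0 (orth Q W).zero_mem (p_zero' _ _) hna hna0 (by rw [zero_add]; exact h2)
  obtain ⟨e, he, f, hf, heQ, hfQ, hef, hbe, hfe⟩ := S.pl bU hbU hQ
  have h2 := h1.comm haQ haU (S.hasU he hf heQ hef) S.leO (by rw [p_comm]; exact pUW he ha)
    (by rw [p_comm]; exact pUW hf ha)
  rw [hfQ, zero_mul, add_zero] at h2
  obtain ⟨x, hx⟩ : ∃ x, x = polar Q bU e • f - polar Q bU f • e := ⟨_, rfl⟩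
  rw [← hx] at h2
  have hxU : x ∈ orth Q W := by
    rw [hx]; exact (orth Q W).sub_mem ((orth Q W).smul_mem _ hf) ((orth Q W).smul_mem _ he)
  have hxQ : Q x = 0 := by
    rw [hx, Q_sub, Q_smul, Q_smul, p_smul, p_smul', p_comm Q f e, hef, hfQ, heQ]; ring
  have hx0 : x ≠ 0 := by
    intro h0
    rw [hx, sub_eq_zero] at h0
    apply hfe ((polar Q bU e)⁻¹ * polar Q bU f)
    rw [← smul_smul, ← h0, smul_smul, inv_mul_cancel₀ hbe, one_smul]
  have h3 := (has_swap haQ hxQ).1 h2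
  exact S.top' hxU hxQ hx0 (orth Q W).zero_mem (p_zero' _ _) hna hna0 (by rw [zero_add]; exact h3)

/-- dependent components in `U` -/
lemma Sit4.A1 (S : Sit4 Q W M) {aU aW bU bW : V} (haU : aU ∈ orth Q W) (haW : aW ∈ W) (hbU : bU ∈ orth Q W)
    (hbW : bW ∈ W) (haU0 : aU ≠ 0) (haQ : Q (aU + aW) = 0) (hbQ : Q (bU + bW) = 0)
    (hab : polar Q (aU + aW) (bU + bW) = 0) (hb : ∀ c : F, bU + bW ≠ c • (aU + aW)) {c : F} (hc : bU = c • aU)
    (h : Has Q M (aU + aW) (bU + bW)) : Om Q ≤ M := by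
  obtain ⟨b', hb'⟩ : ∃ b', b' = bW - c • aW := ⟨_, rfl⟩
  have e1 : b' = (bU + bW) + (-c) • (aU + aW) := by rw [hb', hc]; module
  have hH : Has Q M (aU + aW) b' := by rw [e1]; exact (has_add_u (M := M) haQ hab (-c)).2 h
  have hb'W : b' ∈ W := by rw [hb']; exact W.sub_mem hbW (W.smul_mem _ haW)
  have hb'0 : b' ≠ 0 := by
    intro h0
    apply hb c
    rw [h0] at e1
    have e2 : bU + bW = c • (aU + aW) + ((bU + bW) + (-c) • (aU + aW)) := by module
    rw [e2, ← e1, add_zero]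
  have hb'Q : Q b' = 0 := by rw [e1, Q_add, Q_smul, p_smul', p_comm, hab, haQ, hbQ]; ring
  have hab' : polar Q (aU + aW) b' = 0 := by rw [e1, p_add', p_smul', p_self, haQ, hab]; ring
  have hpa : polar Q aW b' = 0 := by
    rw [p_add, pUW haU hb'W, zero_add] at hab'
    exact hab'
  have h2 := (has_swap haQ hb'Q).1 hH
  have e3 : -(aU + aW) = -aU + -aW := by module
  rw [e3] at h2
  refine S.A0 hb'W hb'0 hb'Q ((orth Q W).neg_mem haU) (W.neg_mem haW) (by rw [← e3, Q_neg, haQ])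
    (by rw [p_neg', p_comm, hpa, neg_zero]) ?_ h2
  intro d hd
  have h3 : -aU ∈ W := by
    have : -aU = d • b' - -aW := by rw [← hd]; abel
    rw [this]
    exact W.sub_mem (W.smul_mem _ hb'W) (W.neg_mem haW)
  exact S.notMem h3 (neg_ne_zero.2 haU0) ((orth Q W).neg_mem haU)

/-- singular first component in `U` -/
lemma Sit4.A (S : Sit4 Q W M) {aU aW bU bW : V} (haU : aU ∈ orth Q W) (haW : aW ∈ W) (hbU : bU ∈ orth Q W)
    (hbW : bW ∈ W) (haUQ : Q aU = 0) (haWQ : Q aW = 0) (ha0 : aU + aW ≠ 0) (hbQ : Q (bU + bW) = 0)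
    (hab : polar Q (aU + aW) (bU + bW) = 0) (hb : ∀ c : F, bU + bW ≠ c • (aU + aW))
    (hnot : aW ≠ 0 ∨ bW ≠ 0) (h : Has Q M (aU + aW) (bU + bW)) : Om Q ≤ M := by
  have haQ : Q (aU + aW) = 0 := by rw [Q_add, haUQ, haWQ, pUW haU haW]; ring
  by_cases haU0 : aU = 0
  · rw [haU0, zero_add] at ha0 hab hb h
    refine S.A0 haW ha0 haWQ hbU hbW hbQ ?_ hb h
    rw [p_add', p_comm Q aW bU, pUW hbU haW, zero_add] at hab
    exact hab
  by_cases haW0 : aW = 0
  · have hbW0 : bW ≠ 0 := by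
      rcases hnot with h1 | h1
      · exact absurd haW0 h1
      · exact h1
    rw [haW0, add_zero] at hab h
    have h1 : polar Q aU bU = 0 := by
      rw [p_add', pUW haU hbW, add_zero] at hab
      exact hab
    exact S.top' haU haUQ haU0 hbU h1 hbW hbW0 h
  have hnaW : -aW ∈ W := W.neg_mem haW
  have hnaW0 : -aW ≠ 0 := neg_ne_zero.2 haW0
  have e3 : -(aU + aW) = -aU + -aW := by module
  have haa : polar Q aU aU = 0 := by rw [p_self, haUQ, mul_zero]
  have hp1 : ∀ y ∈ orth Q W, polar Q (bU + bW) y = polar Q bU y := fun y hy => by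
    rw [p_add, p_comm Q bW, pUW hy hbW, add_zero]
  have hp2 : ∀ y ∈ orth Q W, polar Q (aU + aW) y = polar Q aU y := fun y hy => by
    rw [p_add, p_comm Q aW, pUW hy haW, add_zero]
  by_cases hp : polar Q bU aU = 0
  · by_cases hc : ∃ c : F, bU = c • aU
    · obtain ⟨c, hc⟩ := hc
      exact S.A1 haU haW hbU hbW haU0 haQ hbQ hab hb hc h
    push Not at hc
    have hbs : (⟨bU, hbU⟩ : orth Q W) ∉ Submodule.span F {(⟨aU, haU⟩ : orth Q W)} := by
      rw [Submodule.mem_span_singleton]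
      rintro ⟨c, h1⟩
      exact hc c (congrArg Subtype.val h1).symm
    obtain ⟨⟨y, hy⟩, hy1, hy2⟩ := sep S.ndU hbs
    have hay : polar Q aU y = 0 := hy1 _ (Submodule.mem_span_singleton_self _)
    have hby : polar Q bU y ≠ 0 := hy2
    have h2 := h.comm haQ hab (S.hasU haU hy haUQ hay) S.leO (by rw [hp2 _ haU, haa]) (by rw [hp2 _ hy, hay])
    rw [hp1 _ haU, hp1 _ hy, hp] at h2
    have e4 : (0 : F) • y - (polar Q bU y + Q y * 0) • aU = (-(polar Q bU y)) • aU := by module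
    rw [e4] at h2
    have hκ : -(polar Q bU y) ≠ 0 := neg_ne_zero.2 hby
    have h3 := (has_swap haQ (by rw [Q_smul, haUQ, mul_zero])).1 h2
    rw [e3] at h3
    exact S.top' ((orth Q W).smul_mem _ haU) (by rw [Q_smul, haUQ, mul_zero]) (smul_ne_zero hκ haU0)
      ((orth Q W).neg_mem haU) (by rw [p_smul, p_neg', haa]; ring) hnaW hnaW0 h3
  · obtain ⟨y, hy, hyQ, hay, hyc⟩ := S.part haU haUQ
    have h2 := h.comm haQ hab (S.hasU haU hy haUQ hay) S.leO (by rw [hp2 _ haU, haa]) (by rw [hp2 _ hy, hay])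
    rw [hp1 _ haU, hp1 _ hy, hyQ, zero_mul, add_zero] at h2
    obtain ⟨x, hx⟩ : ∃ x, x = polar Q bU aU • y - polar Q bU y • aU := ⟨_, rfl⟩
    rw [← hx] at h2
    have hxU : x ∈ orth Q W := by
      rw [hx]; exact (orth Q W).sub_mem ((orth Q W).smul_mem _ hy) ((orth Q W).smul_mem _ haU)
    have hxQ : Q x = 0 := by
      rw [hx, Q_sub, Q_smul, Q_smul, p_smul, p_smul', p_comm Q y aU, hay, hyQ, haUQ]; ring
    have hx0 : x ≠ 0 := by
      intro h0
      rw [hx, sub_eq_zero] at h0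
      apply hyc ((polar Q bU aU)⁻¹ * polar Q bU y)
      rw [← smul_smul, ← h0, smul_smul, inv_mul_cancel₀ hp, one_smul]
    have hxa : polar Q x aU = 0 := by rw [hx, p_sub, p_smul, p_smul, p_comm Q y aU, hay, haa]; ring
    have h3 := (has_swap haQ hxQ).1 h2
    rw [e3] at h3
    exact S.top' hxU hxQ hx0 ((orth Q W).neg_mem haU) (by rw [p_neg', hxa, neg_zero]) hnaW hnaW0 h3

/-- nonsingular first component, odd characteristic -/
lemma Sit4.B (S : Sit4 Q W M) (h2 : (2 : F) ≠ 0) {aU aW bU bW : V} (haU : aU ∈ orth Q W) (haW : aW ∈ W)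
    (hbU : bU ∈ orth Q W) (hbW : bW ∈ W) (haUQ : Q aU ≠ 0) (haQ : Q (aU + aW) = 0) (hbQ : Q (bU + bW) = 0)
    (hab : polar Q (aU + aW) (bU + bW) = 0) (hb : ∀ c : F, bU + bW ≠ c • (aU + aW))
    (h : Has Q M (aU + aW) (bU + bW)) : Om Q ≤ M := by
  have haU0 : aU ≠ 0 := by rintro rfl; exact haUQ (QuadraticMap.map_zero Q)
  have haW0 : aW ≠ 0 := by
    rintro rfl
    rw [add_zero] at haQ
    exact haUQ haQ
  have e3 : -(aU + aW) = -aU + -aW := by module
  have hp1 : ∀ y ∈ orth Q W, polar Q (bU + bW) y = polar Q bU y := fun y hy => by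
    rw [p_add, p_comm Q bW, pUW hy hbW, add_zero]
  have hp2 : ∀ y ∈ orth Q W, polar Q (aU + aW) y = polar Q aU y := fun y hy => by
    rw [p_add, p_comm Q aW, pUW hy haW, add_zero]
  by_cases hc : ∃ c : F, bU = c • aU
  · obtain ⟨c, hc⟩ := hc
    exact S.A1 haU haW hbU hbW haU0 haQ hbQ hab hb hc h
  push Not at hc
  have hbs : (⟨bU, hbU⟩ : orth Q W) ∉ Submodule.span F {(⟨aU, haU⟩ : orth Q W)} := by
    rw [Submodule.mem_span_singleton]
    rintro ⟨c, h1⟩
    exact hc c (congrArg Subtype.val h1).symm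
  have hU4 := S.U4
  obtain ⟨⟨e, he⟩, heQ, hae, hbe⟩ := sing_perp S.ndU (by omega) (a := ⟨aU, haU⟩) haUQ hbs
  have heQ' : Q e = 0 := heQ
  have hae' : polar Q aU e = 0 := hae
  have hbe' : polar Q bU e ≠ 0 := hbe
  obtain ⟨⟨f, hf⟩, hfa, hfe, hfQ⟩ := H7.OLow.ns2 S.ndU h2 (by omega) (v := ⟨aU, haU⟩) (w := ⟨e, he⟩)
    (Or.inl haUQ)
  have hfa' : polar Q f aU = 0 := hfa
  have hfe' : polar Q f e = 0 := hfe
  have hfQ' : Q f ≠ 0 := hfQ
  have hef : polar Q e f = 0 := by rw [p_comm, hfe']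
  have haf : polar Q aU f = 0 := by rw [p_comm, hfa']
  have hee : polar Q e e = 0 := by rw [p_self, heQ', mul_zero]
  have k1 : polar Q (aU + aW) e = 0 := by rw [hp2 _ he, hae']
  have k2 : polar Q (aU + aW) f = 0 := by rw [hp2 _ hf, haf]
  have h3 := h.comm haQ hab (S.hasU he hf heQ' hef) S.leO k1 k2
  rw [hp1 _ he, hp1 _ hf] at h3
  obtain ⟨p, hp⟩ : ∃ p, p = polar Q bU e := ⟨_, rfl⟩
  obtain ⟨r, hr⟩ : ∃ r, r = polar Q bU f + Q f * polar Q bU e := ⟨_, rfl⟩
  rw [← hr, ← hp] at h3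
  rw [← hp] at hbe'
  have h4 := h3.comm haQ (by rw [p_sub', p_smul', p_smul', k1, k2]; ring) (S.hasU he hf heQ' hef) S.leO k1 k2
  have e5 : polar Q (p • f - r • e) e = 0 := by rw [p_sub, p_smul, p_smul, hfe', hee]; ring
  have e6 : polar Q (p • f - r • e) f = p * (2 * Q f) := by rw [p_sub, p_smul, p_smul, p_self, hef]; ring
  rw [e5, e6] at h4
  have e7 : (0 : F) • f - (p * (2 * Q f) + Q f * 0) • e = (-(p * (2 * Q f))) • e := by module
  rw [e7] at h4
  have hκ : -(p * (2 * Q f)) ≠ 0 := neg_ne_zero.2 (mul_ne_zero hbe' (mul_ne_zero h2 hfQ'))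
  have he0 : e ≠ 0 := by
    rintro rfl
    apply hbe'
    rw [hp, p_zero']
  have h5 := (has_swap haQ (by rw [Q_smul, heQ', mul_zero])).1 h4
  rw [e3] at h5
  exact S.top' ((orth Q W).smul_mem _ he) (by rw [Q_smul, heQ', mul_zero]) (smul_ne_zero hκ he0)
    ((orth Q W).neg_mem haU) (by rw [p_smul, p_neg', p_comm Q e aU, hae']; ring) (W.neg_mem haW)
    (neg_ne_zero.2 haW0) h5

/-- nonsingular first component, characteristic two -/
lemma Sit4.C (S : Sit4 Q W M) (h2 : (2 : F) = 0) {aU aW bU bW : V} (haU : aU ∈ orth Q W) (haW : aW ∈ W)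
    (hbU : bU ∈ orth Q W) (hbW : bW ∈ W) (haUQ : Q aU ≠ 0) (haQ : Q (aU + aW) = 0) (hbQ : Q (bU + bW) = 0)
    (hab : polar Q (aU + aW) (bU + bW) = 0) (hb : ∀ c : F, bU + bW ≠ c • (aU + aW))
    (h : Has Q M (aU + aW) (bU + bW)) : Om Q ≤ M := by
  have haU0 : aU ≠ 0 := by rintro rfl; exact haUQ (QuadraticMap.map_zero Q)
  have haW0 : aW ≠ 0 := by
    rintro rfl
    rw [add_zero] at haQ
    exact haUQ haQ
  have ha0 : aU + aW ≠ 0 := by
    intro h0
    apply S.notMem' haU haU0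
    rw [eq_neg_of_add_eq_zero_left h0]
    exact W.neg_mem haW
  have e3 : -(aU + aW) = -aU + -aW := by module
  have hp1 : ∀ y ∈ orth Q W, polar Q (bU + bW) y = polar Q bU y := fun y hy => by
    rw [p_add, p_comm Q bW, pUW hy hbW, add_zero]
  have hp2 : ∀ y ∈ orth Q W, polar Q (aU + aW) y = polar Q aU y := fun y hy => by
    rw [p_add, p_comm Q aW, pUW hy haW, add_zero]
  have hp3 : ∀ y ∈ W, polar Q (bU + bW) y = polar Q bW y := fun y hy => by
    rw [p_add, pUW hbU hy, zero_add]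
  have hp4 : ∀ y ∈ W, polar Q (aU + aW) y = polar Q aW y := fun y hy => by
    rw [p_add, pUW haU hy, zero_add]
  have hval : ∀ x ∈ orth Q W, ∀ y ∈ W, Q (x + y) = Q x + Q y := fun x hx y hy => by
    rw [Q_add, pUW hx hy, add_zero]
  have haWQ : Q aW = -Q aU := by
    rw [hval _ haU _ haW] at haQ
    exact eq_neg_of_add_eq_zero_right haQ
  have hδ : polar Q aU bU + polar Q aW bW = 0 := by
    rw [p_add, p_add', p_add', pUW haU hbW, p_comm Q aW bU, pUW hbU haW] at hab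
    linear_combination hab
  have haaU : polar Q aU aU = 0 := by rw [p_self, h2, zero_mul]
  have haaW : polar Q aW aW = 0 := by rw [p_self, h2, zero_mul]
  have hU4 := S.U4
  have hW4 := S.W4
  by_cases hcU : ∃ c : F, bU = c • aU
  · obtain ⟨c, hc⟩ := hcU
    exact S.A1 haU haW hbU hbW haU0 haQ hbQ hab hb hc h
  push Not at hcU
  by_cases hδ0 : polar Q aU bU = 0
  swap
  · by_cases hs : ∃ α β : F, ¬ (α = 0 ∧ β = 0) ∧ Q (α • aU + β • bU) = 0
    · obtain ⟨α, β, hne, hs⟩ := hs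
      have hβ : β ≠ 0 := by
        rintro rfl
        rw [zero_smul, add_zero, Q_smul] at hs
        rcases mul_eq_zero.1 hs with h3 | h3
        · exact hne ⟨mul_self_eq_zero.1 h3, rfl⟩
        · exact haUQ h3
      obtain ⟨a', ha'⟩ : ∃ a', a' = (α • aU + β • bU) + (α • aW + β • bW) := ⟨_, rfl⟩
      have ea' : a' = α • (aU + aW) + β • (bU + bW) := by rw [ha']; module
      have ha'Q : Q a' = 0 := by
        rw [ea', Q_add, Q_smul, Q_smul, p_smul, p_smul', hab, haQ, hbQ]; ring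
      have hwQ : Q (α • aW + β • bW) = 0 := by
        rw [ha', hval _ ((orth Q W).add_mem ((orth Q W).smul_mem _ haU) ((orth Q W).smul_mem _ hbU)) _
          (W.add_mem (W.smul_mem _ haW) (W.smul_mem _ hbW)), hs, zero_add] at ha'Q
        exact ha'Q
      obtain ⟨κ, hκ⟩ : ∃ κ, κ = -β⁻¹ := ⟨_, rfl⟩
      have hκ0 : κ ≠ 0 := by rw [hκ]; exact neg_ne_zero.2 (inv_ne_zero hβ)
      have hH : Has Q M a' (κ • (aU + aW)) := by
        rw [has_swap ha'Q (by rw [Q_smul, haQ, mul_zero]), has_scale, ea']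
        have e4 : κ • -(α • (aU + aW) + β • (bU + bW)) = (bU + bW) + (-(κ * α)) • (aU + aW) := by
          have : κ * β = -1 := by rw [hκ, neg_mul, inv_mul_cancel₀ hβ]
          have e5 : κ • -(α • (aU + aW) + β • (bU + bW)) = (-(κ * β)) • (bU + bW) + (-(κ * α)) • (aU + aW) := by
            module
          rw [e5, this]; module
        rw [e4, has_add_u haQ hab]
        exact h
      have e6 : κ • (aU + aW) = κ • aU + κ • aW := smul_add _ _ _
      rw [ha', e6] at hH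
      have hind : ∀ c : F, κ • aU + κ • aW ≠ c • ((α • aU + β • bU) + (α • aW + β • bW)) := by
        intro c hc
        rw [← ha', ← e6, ea'] at hc
        by_cases hc0 : c = 0
        · rw [hc0, zero_smul] at hc
          exact smul_ne_zero hκ0 ha0 hc
        · apply hb ((c * β)⁻¹ * (κ - c * α))
          have e7 : (c * β) • (bU + bW) = (κ - c * α) • (aU + aW) := by
            have : (κ - c * α) • (aU + aW) = κ • (aU + aW) - (c * α) • (aU + aW) := sub_smul _ _ _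
            rw [this, hc]; module
          rw [← smul_smul, ← e7, smul_smul, inv_mul_cancel₀ (mul_ne_zero hc0 hβ), one_smul]
      refine S.A ((orth Q W).add_mem ((orth Q W).smul_mem _ haU) ((orth Q W).smul_mem _ hbU))
        (W.add_mem (W.smul_mem _ haW) (W.smul_mem _ hbW)) ((orth Q W).smul_mem _ haU) (W.smul_mem _ haW)
        hs hwQ ?_ (by rw [← e6, Q_smul, haQ, mul_zero]) ?_ hind (Or.inr (smul_ne_zero hκ0 haW0)) hH
      · intro h0
        rw [← ha', ea'] at h0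
        apply hb (-(β⁻¹ * α))
        have e7 : β • (bU + bW) = (-α) • (aU + aW) := by
          have : β • (bU + bW) = (α • (aU + aW) + β • (bU + bW)) - α • (aU + aW) := by abel
          rw [this, h0]; module
        have e8 : bU + bW = β⁻¹ • (β • (bU + bW)) := by rw [smul_smul, inv_mul_cancel₀ hβ, one_smul]
        rw [e8, e7, smul_smul]; congr 1; ring
      · rw [← ha', ← e6, ea', p_add, p_smul, p_smul, p_smul', p_smul', p_self, haQ, p_comm Q (bU + bW), hab]
        ring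
    · push Not at hs
      have hWan : ∀ α β : F, Q (α • aW + β • bW) = 0 → α = 0 ∧ β = 0 := by
        intro α β h3
        by_contra hne
        apply hs α β (fun h5 h6 => hne ⟨h5, h6⟩)
        have h4 : Q (α • (aU + aW) + β • (bU + bW)) = 0 := by
          rw [Q_add, Q_smul, Q_smul, p_smul, p_smul', hab, haQ, hbQ]; ring
        have e4 : α • (aU + aW) + β • (bU + bW) = (α • aU + β • bU) + (α • aW + β • bW) := by module
        rw [e4, hval _ ((orth Q W).add_mem ((orth Q W).smul_mem _ haU) ((orth Q W).smul_mem _ hbU)) _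
          (W.add_mem (W.smul_mem _ haW) (W.smul_mem _ hbW)), h3, add_zero] at h4
        exact h4
      have hpW : polar Q aW bW ≠ 0 := by
        intro h3
        apply hδ0
        rw [h3, add_zero] at hδ
        exact hδ
      obtain ⟨⟨f, hf⟩, hf0, hfQ, hfa, hfb⟩ := sing_of_aniso (V := W) (Q := Q.restrict W) S.ndW hW4
        (fun x y hx0 hx hy hxy => by
          obtain ⟨c, hc⟩ := S.an x x.2 y y.2 (fun h => hx0 (Subtype.ext h)) hx hy hxy
          exact ⟨c, Subtype.ext hc⟩) (a := ⟨aW, haW⟩) (b := ⟨bW, hbW⟩) hpW h2 hWan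
      have hf0' : f ≠ 0 := fun h => hf0 (Subtype.ext h)
      have hfQ' : Q f = 0 := hfQ
      have hfa' : polar Q aW f = 0 := hfa
      have hfb' : polar Q bW f = 0 := hfb
      have h3 := h.comm haQ hab (S.hasW hf haW hfQ' (by rw [p_comm, hfa'])) S.leO (by rw [hp4 _ hf, hfa'])
        (by rw [hp4 _ haW, haaW])
      rw [hp3 _ hf, hp3 _ haW, hfb'] at h3
      have e4 : (0 : F) • aW - (polar Q bW aW + Q aW * 0) • f = (-(polar Q bW aW)) • f := by module
      rw [e4] at h3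
      have hκ : -(polar Q bW aW) ≠ 0 := neg_ne_zero.2 (by rw [p_comm]; exact hpW)
      have h4 := (has_swap haQ (by rw [Q_smul, hfQ', mul_zero])).1 h3
      rw [e3] at h4
      refine S.A0 (W.smul_mem _ hf) (smul_ne_zero hκ hf0') (by rw [Q_smul, hfQ', mul_zero])
        ((orth Q W).neg_mem haU) (W.neg_mem haW) (by rw [← e3, Q_neg, haQ])
        (by rw [p_smul, p_neg', p_comm Q f, hfa']; ring) ?_ h4
      intro d hd
      have h5 : -aU ∈ W := by
        have : -aU = d • ((-(polar Q bW aW)) • f) - -aW := by rw [← hd]; abel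
        rw [this]
        exact W.sub_mem (W.smul_mem _ (W.smul_mem _ hf)) (W.neg_mem haW)
      exact S.notMem h5 (neg_ne_zero.2 haU0) ((orth Q W).neg_mem haU)
  · have hδ0' : polar Q aW bW = 0 := by
      rw [hδ0, zero_add] at hδ
      exact hδ
    by_cases hcW : ∃ c : F, bW = c • aW
    · obtain ⟨c, hc⟩ := hcW
      obtain ⟨b', hb'⟩ : ∃ b', b' = bU - c • aU := ⟨_, rfl⟩
      have e1 : b' = (bU + bW) + (-c) • (aU + aW) := by rw [hb', hc]; module
      have hH : Has Q M (aU + aW) b' := by rw [e1]; exact (has_add_u (M := M) haQ hab (-c)).2 h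
      have hb'U : b' ∈ orth Q W := by rw [hb']; exact (orth Q W).sub_mem hbU ((orth Q W).smul_mem _ haU)
      have hb'0 : b' ≠ 0 := by
        intro h0
        rw [hb', sub_eq_zero] at h0
        exact hcU c h0
      have hb'Q : Q b' = 0 := by rw [e1, Q_add, Q_smul, p_smul', p_comm, hab, haQ, hbQ]; ring
      have h3 := (has_swap haQ hb'Q).1 hH
      rw [e3] at h3
      exact S.top' hb'U hb'Q hb'0 ((orth Q W).neg_mem haU) (by
        rw [p_neg', hb', p_sub, p_smul, p_comm Q bU, hδ0, haaU]; ring) (W.neg_mem haW) (neg_ne_zero.2 haW0) h3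
    push Not at hcW
    have hbsU : (⟨bU, hbU⟩ : orth Q W) ∉ Submodule.span F {(⟨aU, haU⟩ : orth Q W)} := by
      rw [Submodule.mem_span_singleton]
      rintro ⟨c, h1⟩
      exact hcU c (congrArg Subtype.val h1).symm
    have hbsW : (⟨bW, hbW⟩ : W) ∉ Submodule.span F {(⟨aW, haW⟩ : W)} := by
      rw [Submodule.mem_span_singleton]
      rintro ⟨c, h1⟩
      exact hcW c (congrArg Subtype.val h1).symm
    obtain ⟨⟨e', he'⟩, heQ', hae', hbe'⟩ := sing_perp S.ndU (by omega) (a := ⟨aU, haU⟩) haUQ hbsU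
    obtain ⟨⟨f', hf'⟩, hfQ', haf', hbf'⟩ := sing_perp S.ndW (by omega) (a := ⟨aW, haW⟩)
      (show Q aW ≠ 0 by rw [haWQ]; exact neg_ne_zero.2 haUQ) hbsW
    have heQ1 : Q e' = 0 := heQ'
    have hae1 : polar Q aU e' = 0 := hae'
    have hbe1 : polar Q bU e' ≠ 0 := hbe'
    have hfQ1 : Q f' = 0 := hfQ'
    have haf1 : polar Q aW f' = 0 := haf'
    have hbf1 : polar Q bW f' ≠ 0 := hbf'
    obtain ⟨e, he, heQ, hae, hbe⟩ : ∃ e ∈ orth Q W, Q e = 0 ∧ polar Q aU e = 0 ∧ polar Q bU e = 1 :=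
      ⟨(polar Q bU e')⁻¹ • e', (orth Q W).smul_mem _ he', by rw [Q_smul, heQ1, mul_zero],
        by rw [p_smul', hae1, mul_zero], by rw [p_smul', inv_mul_cancel₀ hbe1]⟩
    obtain ⟨f, hf, hfQ, haf, hbf⟩ : ∃ f ∈ W, Q f = 0 ∧ polar Q aW f = 0 ∧ polar Q bW f = 1 :=
      ⟨(polar Q bW f')⁻¹ • f', W.smul_mem _ hf', by rw [Q_smul, hfQ1, mul_zero],
        by rw [p_smul', haf1, mul_zero], by rw [p_smul', inv_mul_cancel₀ hbf1]⟩
    have he0 : e ≠ 0 := by
      rintro rfl
      rw [p_zero'] at hbe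
      exact zero_ne_one hbe
    have hf0 : f ≠ 0 := by
      rintro rfl
      rw [p_zero'] at hbf
      exact zero_ne_one hbf
    have ka : polar Q (aU + aW) e = 0 := by rw [hp2 _ he, hae]
    have kb : polar Q (aU + aW) aU = 0 := by rw [hp2 _ haU, haaU]
    have kc : polar Q (aU + aW) f = 0 := by rw [hp4 _ hf, haf]
    have kd : polar Q (aU + aW) aW = 0 := by rw [hp4 _ haW, haaW]
    have h3 := h.comm haQ hab (S.hasU he haU heQ (by rw [p_comm, hae])) S.leO ka kb
    have h4 := h.comm haQ hab (S.hasW hf haW hfQ (by rw [p_comm, haf])) S.leO kc kd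
    rw [hp1 _ he, hp1 _ haU, hbe, p_comm Q bU, hδ0] at h3
    rw [hp3 _ hf, hp3 _ haW, hbf, p_comm Q bW, hδ0', haWQ] at h4
    have h5 := h3.mul h4 haQ (by rw [p_sub', p_smul', p_smul', ka, kb]; ring)
      (by rw [p_sub', p_smul', p_smul', kc, kd]; ring)
    have e5 : (1 : F) • aU - (0 + Q aU * 1) • e + ((1 : F) • aW - (0 + -Q aU * 1) • f) =
        ((-Q aU) • e + Q aU • f) + (1 : F) • (aU + aW) := by module
    have kx : polar Q (aU + aW) ((-Q aU) • e + Q aU • f) = 0 := by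
      rw [p_add', p_smul', p_smul', ka, kc]; ring
    rw [e5, has_add_u haQ kx] at h5
    have hxQ : Q ((-Q aU) • e + Q aU • f) = 0 := by
      rw [hval _ ((orth Q W).smul_mem _ he) _ (W.smul_mem _ hf), Q_smul, Q_smul, heQ, hfQ]; ring
    have h6 := (has_swap haQ hxQ).1 h5
    rw [e3] at h6
    have hne : ∀ x ∈ W, (-Q aU) • e + x ≠ 0 := by
      intro x hx h0
      apply S.notMem' ((orth Q W).smul_mem (-Q aU) he) (smul_ne_zero (neg_ne_zero.2 haUQ) he0)
      rw [eq_neg_of_add_eq_zero_left h0]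
      exact W.neg_mem hx
    refine S.A ((orth Q W).smul_mem _ he) (W.smul_mem _ hf) ((orth Q W).neg_mem haU) (W.neg_mem haW)
      (by rw [Q_smul, heQ, mul_zero]) (by rw [Q_smul, hfQ, mul_zero]) (hne _ (W.smul_mem _ hf))
      (by rw [← e3, Q_neg, haQ]) (by rw [← e3, p_neg', p_comm, kx, neg_zero]) ?_
      (Or.inl (smul_ne_zero haUQ hf0)) h6
    intro c hc
    -- the component in `U`
    have h7 : -aU - (c * -Q aU) • e ∈ W := by
      have : -aU - (c * -Q aU) • e = (c * Q aU) • f - -aW := by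
        have e8 : -aU = c • ((-Q aU) • e + Q aU • f) - -aW := by rw [← hc]; abel
        rw [e8]; module
      rw [this]
      exact W.sub_mem (W.smul_mem _ hf) (W.neg_mem haW)
    have h8 : -aU - (c * -Q aU) • e ∈ orth Q W :=
      (orth Q W).sub_mem ((orth Q W).neg_mem haU) ((orth Q W).smul_mem _ he)
    have h9 : -aU - (c * -Q aU) • e = 0 := by
      by_contra hne'
      exact S.notMem h7 hne' h8
    apply haUQ
    rw [sub_eq_zero] at h9
    have h10 : Q (-aU) = 0 := by rw [h9, Q_smul, heQ, mul_zero]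
    rwa [Q_neg] at h10

/-- **Maximality of the stabilisers of non-degenerate subspaces**, dimension four, complement of plus type -/
theorem Sit4.maximal (S : Sit4 Q W M) (hne : ∃ g ∈ M, ¬ Stab W g) : Om Q ≤ M := by
  obtain ⟨g, hg, hgS⟩ := hne
  have hgO := S.leO hg
  obtain ⟨T, hT1, hT2⟩ := exists_proj (isCompl_orth S.ndW).symm
  have hgU : ∃ t ∈ orth Q W, Q t = 0 ∧ g t ∉ orth Q W := by
    by_contra h
    push Not at h
    apply hgS
    obtain ⟨e, f, he, hf, h1, h2, h3, -, -⟩ := S.hyp 0 (orth Q W).zero_mem (QuadraticMap.map_zero Q)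
    have hgU : orth Q W ≤ (orth Q W).comap (g : V →ₗ[F] V) :=
      span_hyp he hf h1 h2 h3 _ (fun z hz hzQ => h z hz hzQ)
    apply stab_of
    intro x hx
    rw [← orth_orth S.nd W]
    intro w hw
    have h2 : ∃ w' ∈ orth Q W, g w' = w := by
      have h3 : (orth Q W).map (g : V →ₗ[F] V) = orth Q W := by
        apply Submodule.eq_of_le_of_finrank_eq
        · rintro _ ⟨y, hy, rfl⟩; exact hgU hy
        · exact LinearEquiv.finrank_map_eq g (orth Q W)
      have h4 : w ∈ (orth Q W).map (g : V →ₗ[F] V) := by rw [h3]; exact hw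
      obtain ⟨w', hw', h5⟩ := h4
      exact ⟨w', hw', h5⟩
    obtain ⟨w', hw', rfl⟩ := h2
    rw [O_polar hgO, p_comm]
    exact hw' x hx
  obtain ⟨t1, ht1, ht1Q, hgt⟩ := hgU
  obtain ⟨t2, ht2, ht2Q, ht12, htc⟩ := S.part ht1 ht1Q
  have hH := (S.hasU ht1 ht2 ht1Q ht12).conj hg hgO
  have haQ : Q (g t1) = 0 := by rw [mem_O.1 hgO, ht1Q]
  have hbQ : Q (g t2) = 0 := by rw [mem_O.1 hgO, ht2Q]
  have hab : polar Q (g t1) (g t2) = 0 := by rw [O_polar hgO, ht12]
  have hb : ∀ c : F, g t2 ≠ c • g t1 := by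
    intro c hc
    rw [← map_smul] at hc
    exact htc c (g.injective hc)
  have ha0 : g t1 ≠ 0 := by
    intro h0
    apply hgt
    rw [h0]; exact (orth Q W).zero_mem
  have ea : g t1 = T (g t1) + (g t1 - T (g t1)) := by abel
  have eb : g t2 = T (g t2) + (g t2 - T (g t2)) := by abel
  have haU := hT1 (g t1)
  have haW := hT2 (g t1)
  have hbU := hT1 (g t2)
  have hbW := hT2 (g t2)
  have haW0 : g t1 - T (g t1) ≠ 0 := by
    intro h0
    rw [sub_eq_zero] at h0
    exact hgt (h0 ▸ haU)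
  obtain ⟨aU, haUd⟩ : ∃ x, x = T (g t1) := ⟨_, rfl⟩
  obtain ⟨aW, haWd⟩ : ∃ x, x = g t1 - T (g t1) := ⟨_, rfl⟩
  obtain ⟨bU, hbUd⟩ : ∃ x, x = T (g t2) := ⟨_, rfl⟩
  obtain ⟨bW, hbWd⟩ : ∃ x, x = g t2 - T (g t2) := ⟨_, rfl⟩
  rw [← haUd] at haU
  rw [← haWd] at haW haW0
  rw [← hbUd] at hbU
  rw [← hbWd] at hbW
  rw [← haWd, ← haUd] at ea
  rw [← hbWd, ← hbUd] at eb
  rw [ea, eb] at hH hab
  rw [ea] at haQ ha0
  rw [eb] at hbQ
  have hb' : ∀ c : F, bU + bW ≠ c • (aU + aW) := by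
    intro c hc
    rw [← ea, ← eb] at hc
    exact hb c hc
  by_cases hQ : Q aU = 0
  · have hQW : Q aW = 0 := by
      rw [Q_add, pUW haU haW, hQ] at haQ
      linear_combination haQ
    exact S.A haU haW hbU hbW hQ hQW ha0 hbQ hab hb' (Or.inl haW0) hH
  by_cases h2 : (2 : F) = 0
  · exact S.C h2 haU haW hbU hbW hQ haQ hbQ hab hb' hH
  · exact S.B h2 haU haW hbU hbW hQ haQ hbQ hab hb' hH

end H95.O8Nd
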