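import Mathlib
import Cfsg.Agent.Lib.H95.O8NdD

/-!
Maximality of the stabilisers of non-degenerate subspaces in `Om Q`: dimension eight, minus type.
-/
set_option autoImplicit false

namespace H95.O8Nd

open Module QuadraticMap H48.QuadSplit H48.QuadWitt H95.OGeo H7.OA H7.OABridge H7.OAPar H7.OANd
open H48.QuadStd

section gen

variable {F V : Type*} [Field F] [AddCommGroup V] [Module F V] {Q : QuadraticForm F V}
variable [Finite F] [FiniteDimensional F V]

lemma not_stab8 (hQ : ND Q) (hn : 5 ≤ finrank F V) {W : Submodule F V} (hW : ND (Q.restrict W))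
    (hW0 : W ≠ ⊥) (h3 : 3 ≤ finrank F (orth Q W)) : ∃ g ∈ Om Q, ¬ Stab W g := by
  obtain ⟨u, hu, hu0, huQ⟩ := exists_sing Q (U := orth Q W) h3
  obtain ⟨w, hw, hw0⟩ := (Submodule.ne_bot_iff W).1 hW0
  have : ∃ x ∈ W, polar Q x w ≠ 0 := by
    by_contra hcon
    push Not at hcon
    exact hw0 (congrArg Subtype.val (hW ⟨w, hw⟩ fun x => by
      rw [polar_restrict, p_comm]; exact hcon x x.2))
  obtain ⟨x, hx, hxw⟩ := this
  obtain ⟨g, hg, hgx⟩ := full_Om hQ hn huQ w (by rw [p_comm]; exact hu w hw)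
  refine ⟨g, hg, fun hst => ?_⟩
  have h1 := (hst x).1 hx
  rw [hgx, sgF, hu x hx] at h1
  have h2 : (-(polar Q x w)) • u ∈ W := by
    have := W.sub_mem h1 hx
    have e : x + (0 : F) • w - (polar Q x w + Q w * 0) • u - x = (-(polar Q x w)) • u := by module
    rwa [e] at this
  have h3 : u ∈ W := by
    have := W.smul_mem (-(polar Q x w))⁻¹ h2
    rwa [smul_smul, inv_mul_cancel₀ (neg_ne_zero.2 hxw), one_smul] at this
  exact hu0 (congrArg Subtype.val (hW ⟨u, h3⟩ fun y => by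
    rw [polar_restrict, p_comm]; exact hu y y.2))

omit [Finite F] in
lemma two_dim {T : Submodule F V} (hT : 2 ≤ finrank F T) (e : V) : ∃ f ∈ T, ∀ c : F, f ≠ c • e := by
  by_contra hcon
  push Not at hcon
  have h1 : T ≤ Submodule.span F {e} := by
    intro f hf
    obtain ⟨c, hc⟩ := hcon f hf
    rw [hc]; exact Submodule.smul_mem _ _ (Submodule.mem_span_singleton_self e)
  have h2 := Submodule.finrank_mono h1
  have h3 : finrank F (Submodule.span F ({e} : Set V)) ≤ 1 := by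
    have h := finrank_span_le_card (R := F) ({e} : Set V)
    simpa using h
  omega

omit [Finite F] [FiniteDimensional F V] in
lemma ts_polar {T : Submodule F V} (hT : TS Q T) {x y : V} (hx : x ∈ T) (hy : y ∈ T) : polar Q x y = 0 := by
  have h6 := Q_add Q x y
  rw [hT x hx, hT y hy, hT _ (T.add_mem hx hy)] at h6
  simpa using h6.symm

/-- geometry of a four-dimensional space of plus type -/
lemma plus_pl (hQ : ND Q) (h4 : finrank F V = 4) {T : Submodule F V} (hT : TS Q T) (hT2 : finrank F T = 2)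
    {n : V} (hn : Q n ≠ 0) : ∃ e f, Q e = 0 ∧ Q f = 0 ∧ polar Q e f = 0 ∧ polar Q n e ≠ 0 ∧ ∀ c : F, f ≠ c • e := by
  have h1 := finrank_orth hQ T
  have hTT : T ≤ orth Q T := fun x hx y hy => ts_polar hT hy hx
  have hTe : T = orth Q T := Submodule.eq_of_le_of_finrank_le hTT (by omega)
  have : ∃ e ∈ T, polar Q n e ≠ 0 := by
    by_contra hcon
    push Not at hcon
    apply hn
    apply hT
    rw [hTe]
    intro y hy
    rw [p_comm]; exact hcon y hy
  obtain ⟨e, he, hne⟩ := this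
  obtain ⟨f, hf, hfe⟩ := two_dim (F := F) (T := T) (by omega) e
  exact ⟨e, f, hT e he, hT f hf, ts_polar hT he hf, hne, hfe⟩

/-- hyperbolic pairs in a four-dimensional space of plus type -/
lemma plus_hyp (hQ : ND Q) (h4 : finrank F V = 4) {T : Submodule F V} (hT : TS Q T) (hT2 : finrank F T = 2)
    {a : V} (ha : Q a = 0) : ∃ e f, Q e = 0 ∧ Q f = 0 ∧ polar Q e f = 1 ∧ polar Q a e = 0 ∧ polar Q a f = 0 := by
  by_cases ha0 : a = 0
  · obtain ⟨e, -, f, -, h1, h2, h3⟩ := H95.OGeo.exists_hyp hQ (L := (⊥ : Submodule F V)) (by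
      rw [finrank_bot]; omega)
    exact ⟨e, f, h1, h2, h3, by rw [ha0, p_zero], by rw [ha0, p_zero]⟩
  have : ∃ e, Q e = 0 ∧ polar Q a e = 0 ∧ e ∉ Submodule.span F {a} := by
    by_cases haT : a ∈ T
    · obtain ⟨e, he, hea⟩ := two_dim (F := F) (T := T) (by omega) a
      refine ⟨e, hT e he, ts_polar hT haT he, fun h => ?_⟩
      obtain ⟨c, hc⟩ := Submodule.mem_span_singleton.1 h
      exact hea c hc.symm
    · have h1 := finrank_orth hQ (Submodule.span F {a})
      have h2 : finrank F (Submodule.span F ({a} : Set V)) ≤ 1 := by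
        have h := finrank_span_le_card (R := F) ({a} : Set V)
        simpa using h
      have h3 := Submodule.finrank_sup_add_finrank_inf_eq T (orth Q (Submodule.span F {a}))
      have h4' := Submodule.finrank_le (T ⊔ orth Q (Submodule.span F {a}))
      have hne : T ⊓ orth Q (Submodule.span F {a}) ≠ ⊥ := by
        intro h
        rw [h, finrank_bot] at h3
        omega
      obtain ⟨e, he, he0⟩ := (Submodule.ne_bot_iff _).1 hne
      refine ⟨e, hT e he.1, he.2 a (Submodule.mem_span_singleton_self a), fun h => ?_⟩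
      obtain ⟨c, hc⟩ := Submodule.mem_span_singleton.1 h
      have hc0 : c ≠ 0 := by
        rintro rfl
        rw [zero_smul] at hc
        exact he0 hc.symm
      apply haT
      have : a = c⁻¹ • e := by rw [← hc, smul_smul, inv_mul_cancel₀ hc0, one_smul]
      rw [this]
      exact T.smul_mem _ he.1
  obtain ⟨e, he, hae, hea⟩ := this
  obtain ⟨n, hn1, hn2⟩ := sep hQ hea
  have han : polar Q a n = 0 := hn1 a (Submodule.mem_span_singleton_self a)
  obtain ⟨n', n1, n2⟩ : ∃ n', polar Q e n' = 1 ∧ polar Q a n' = 0 :=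
    ⟨(polar Q e n)⁻¹ • n, by rw [p_smul', inv_mul_cancel₀ hn2], by rw [p_smul', han, mul_zero]⟩
  refine ⟨e, n' - Q n' • e, he, ?_, ?_, hae, ?_⟩
  · rw [Q_sub, Q_smul, p_smul', p_comm Q n', n1, he]; ring
  · rw [p_sub', p_smul', p_self, he, n1]; ring
  · rw [p_sub', p_smul', n2, hae]; ring

/-- four-dimensional subspaces whose complement has plus type -/
theorem max4 (hQ : ND Q) (hn : finrank F V = 8) {W : Submodule F V} (hW : ND (Q.restrict W))
    (hW4 : finrank F W = 4) {T : Submodule F (orth Q W)} (hT : TS (Q.restrict (orth Q W)) T)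
    (hT2 : finrank F T = 2) (hno : ∀ T : Submodule F V, TS Q T → finrank F T = 4 → False) :
    (∃ g ∈ Om Q, ¬ Stab W g) ∧ ∀ M : Subgroup (V ≃ₗ[F] V), (∀ g ∈ Om Q, Stab W g → g ∈ M) →
      M ≤ Om Q → (∃ g ∈ M, ¬ Stab W g) → Om Q ≤ M := by
  have hd := finrank_orth hQ W
  have hU4 : finrank F (orth Q W) = 4 := by omega
  have hndU := nd_orth hQ hW
  have hW0 : W ≠ ⊥ := by
    rintro rfl
    rw [finrank_bot] at hW4
    omega
  refine ⟨not_stab8 hQ (by omega) hW hW0 (by omega), fun M h1 h2 h3 => ?_⟩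
  refine Sit4.maximal (W := W) ⟨⟨hQ, hW, by omega, ?_, h1, h2⟩, hW4, hU4, ?_, ?_⟩ h3
  · intro a ha haQ
    obtain ⟨e, f, k1, k2, k3, k4, k5⟩ := plus_hyp hndU hU4 hT hT2 (a := ⟨a, ha⟩) haQ
    exact ⟨e, f, e.2, f.2, k1, k2, k3, k4, k5⟩
  · intro x hx y hy hx0 hxQ hyQ hxy
    by_contra hcon
    push Not at hcon
    have hli : LinearIndependent F ![x, y] := by
      rw [LinearIndependent.pair_iff' hx0]
      intro a ha
      exact hcon a ha.symm
    set T' : Submodule F V := T.map (orth Q W).subtype with hT'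
    set B : Submodule F V := Submodule.span F (Set.range ![x, y]) with hB
    have hBmem : ∀ z ∈ B, ∃ α β : F, z = α • x + β • y := by
      intro z hz
      rw [hB, Submodule.mem_span_range_iff_exists_fun] at hz
      obtain ⟨c, hc⟩ := hz
      rw [Fin.sum_univ_two] at hc
      exact ⟨c 0, c 1, hc.symm⟩
    have hT'U : T' ≤ orth Q W := by
      rintro _ ⟨z, -, rfl⟩
      exact z.2
    have hT'f : finrank F T' = 2 := by rw [hT', Submodule.finrank_map_subtype_eq, hT2]
    have hBW : B ≤ W := by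
      rw [hB, Submodule.span_le]
      rintro _ ⟨i, rfl⟩
      fin_cases i
      · exact hx
      · exact hy
    have hBf : finrank F B = 2 := by rw [hB, finrank_span_eq_card hli]; simp
    have hinf : T' ⊓ B = ⊥ := by
      rw [Submodule.eq_bot_iff]
      rintro z ⟨hz1, hz2⟩
      have h4 : (⟨z, hBW hz2⟩ : W) = 0 := hW ⟨z, hBW hz2⟩ fun w => by
        rw [polar_restrict, p_comm]; exact hT'U hz1 w w.2
      exact congrArg Subtype.val h4
    have hsum := Submodule.finrank_sup_add_finrank_inf_eq T' B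
    rw [hinf, finrank_bot, hT'f, hBf] at hsum
    refine hno (T' ⊔ B) ?_ (by omega)
    intro z hz
    obtain ⟨t, ht, b, hb, rfl⟩ := Submodule.mem_sup.1 hz
    obtain ⟨α, β, hb'⟩ := hBmem b hb
    have h5 : Q t = 0 := by
      obtain ⟨t', ht', rfl⟩ := ht
      exact hT t' ht'
    have h6 : Q b = 0 := by
      rw [hb', Q_add, Q_smul, Q_smul, p_smul, p_smul', hxQ, hyQ, hxy]; ring
    rw [Q_add, h5, h6, pUW (hT'U ht) (hBW hb)]; ring
  · intro n hn hnQ
    obtain ⟨e, f, k1, k2, k3, k4, k5⟩ := plus_pl hndU hU4 hT hT2 (n := ⟨n, hn⟩) hnQ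
    exact ⟨e, e.2, f, f.2, k1, k2, k3, k4, fun c hc => k5 c (Subtype.ext hc)⟩

/-- subspaces of dimension at most three -/
theorem max3 (hQ : ND Q) (hn : finrank F V = 8) {W : Submodule F V} (hW : ND (Q.restrict W))
    (hW0 : W ≠ ⊥) (hW3 : finrank F W ≤ 3) (hodd : finrank F W = 3 → (2 : F) ≠ 0)
    (hpl : (finrank F W = 2 ∧ ∃ x ∈ W, x ≠ 0 ∧ Q x = 0) → 4 ≤ Nat.card F) :
    (∃ g ∈ Om Q, ¬ Stab W g) ∧ ∀ M : Subgroup (V ≃ₗ[F] V), (∀ g ∈ Om Q, Stab W g → g ∈ M) →
      M ≤ Om Q → (∃ g ∈ M, ¬ Stab W g) → Om Q ≤ M := by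
  have hd := finrank_orth hQ W
  have hndU := nd_orth hQ hW
  refine ⟨not_stab8 hQ (by omega) hW hW0 (by omega), fun M h1 h2 h3 => ?_⟩
  have S : Sit8 Q W M := ⟨hQ, hW, by omega, fun a ha _ => by
    obtain ⟨e, f, k1, k2, k3, k4, k5⟩ := hyp_one hndU (by omega) (⟨a, ha⟩ : orth Q W)
    exact ⟨e, f, e.2, f.2, k1, k2, k3, k4, k5⟩, h1, h2⟩
  by_cases h33 : finrank F W = 3
  · exact S.maximal5 (hodd h33) (by omega) hW3 hpl h3
  · refine S.maximal6 (by omega) ?_ hpl ?_ h3
    · intro a ha b hb hab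
      obtain ⟨u, k1, k2, k3, k4, k5⟩ := hyp_two hndU (by omega) (⟨a, ha⟩ : orth Q W) ⟨b, hb⟩
        (fun c hc => hab c (congrArg Subtype.val hc))
      exact ⟨u, u.2, k1, fun h => k2 (Subtype.ext h), k3, k4, fun α β hc => k5 α β (Subtype.ext hc)⟩
    · intro g hg hgU
      have h4 : (orth Q W).map (g : V →ₗ[F] V) ≤ W := by
        rintro _ ⟨x, hx, rfl⟩; exact hgU x hx
      have h5 := Submodule.finrank_mono h4
      have h6 : finrank F ((orth Q W).map (g : V →ₗ[F] V)) = finrank F (orth Q W) := LinearEquiv.finrank_map_eq g _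
      omega

/-- transfer to the orthogonal complement -/
lemma of_orth (hQ : ND Q) {W : Submodule F V} (h : (∃ g ∈ Om Q, ¬ Stab (orth Q W) g) ∧
      ∀ M : Subgroup (V ≃ₗ[F] V), (∀ g ∈ Om Q, Stab (orth Q W) g → g ∈ M) →
      M ≤ Om Q → (∃ g ∈ M, ¬ Stab (orth Q W) g) → Om Q ≤ M) :
    (∃ g ∈ Om Q, ¬ Stab W g) ∧ ∀ M : Subgroup (V ≃ₗ[F] V), (∀ g ∈ Om Q, Stab W g → g ∈ M) →
      M ≤ Om Q → (∃ g ∈ M, ¬ Stab W g) → Om Q ≤ M := by
  refine ⟨?_, fun M h1 h2 h3 => ?_⟩
  · obtain ⟨g, hg, hgS⟩ := h.1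
    exact ⟨g, hg, fun h => hgS ((stab_orth_iff hQ (Om_le Q hg)).2 h)⟩
  · refine h.2 M (fun g hg hgS => h1 g hg ((stab_orth_iff hQ (Om_le Q hg)).1 hgS)) h2 ?_
    obtain ⟨g, hg, hgS⟩ := h3
    exact ⟨g, hg, fun h => hgS ((stab_orth_iff hQ (Om_le Q (h2 hg))).1 h)⟩

end gen

/-- non-degenerate subspaces, dimension eight, minus type -/
theorem nd8 {F : Type*} [Field F] [Fintype F] {n : ℕ} (hn : n = 8) (Q : (Fin n → F) → F)
    (hQ : Cfsg.Geo.IsNondegenerateQuadraticForm Q) (hminus : ¬ Cfsg.Geo.IsPlusTypeOn Q ⊤)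
    (W : Submodule F (Fin n → F)) (hW0 : W ≠ ⊥) (hW1 : W ≠ ⊤)
    (hW : Cfsg.Geo.IsNondegenerateOn (QuadraticMap.polar Q) W)
    (hodd : Odd (finrank F W) → (2 : F) ≠ 0)
    (hex : ¬ (Fintype.card F ≤ 3 ∧ (∃ U : Submodule F (Fin n → F), Module.finrank F U = 2 ∧
      Cfsg.Geo.IsNondegenerateOn (QuadraticMap.polar Q) U ∧ Cfsg.Geo.IsPlusTypeOn Q U ∧
      (U = W ∨ (Cfsg.Geo.AreOrthogonalFor (QuadraticMap.polar Q) U W ∧
      Module.finrank F U + Module.finrank F W = n))))) :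
    Cfsg.Geo.IsMaximalIn (Cfsg.Geo.omegaGL Q) (Cfsg.Geo.subspaceStabilizer W ⊓ Cfsg.Geo.omegaGL Q) := by
  have hfr : Module.finrank F (Fin n → F) = n := by simp
  have hcard : Nat.card F = Fintype.card F := Nat.card_eq_fintype_card
  obtain ⟨q, rfl⟩ : ∃ q : QuadraticForm F (Fin n → F), ⇑q = Q := ⟨H7.OABridge.ofFun hQ, rfl⟩
  have hnd : H48.QuadSplit.ND q := H7.OABridge.nd_of rfl hQ
  have hnd' : H48.QuadSplit.ND (q.restrict W) := H7.OANd.nd_of_on hW
  have hpar := H48.QuadSplit.finrank_orth hnd W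
  have hUU : orth q (orth q W) = W := orth_orth hnd W
  have hndU := nd_orth hnd hnd'
  have hno4 : ∀ T : Submodule F (Fin n → F), TS q T → finrank F T = 4 → False := fun T hT hT' =>
    hminus ⟨T, le_top, hT, by rw [hT', finrank_top]; omega⟩
  have hp1 : (finrank F W = 2 ∧ ∃ x ∈ W, x ≠ 0 ∧ q x = 0) → 4 ≤ Nat.card F := by
    rintro ⟨h3, x, hx, hx0, hxQ⟩
    by_contra hlt
    exact hex ⟨by omega, W, h3, hW, H7.OANd.plus_of_vec h3 hx hx0 hxQ, Or.inl rfl⟩
  have hp2 : (finrank F (orth q W) = 2 ∧ ∃ x ∈ orth q W, x ≠ 0 ∧ q x = 0) → 4 ≤ Nat.card F := by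
    rintro ⟨h3, x, hx, hx0, hxQ⟩
    by_contra hlt
    refine hex ⟨by omega, H48.QuadSplit.orth q W, h3, H7.OANd.on_of_nd (H48.QuadSplit.nd_orth hnd hnd'),
      H7.OANd.plus_of_vec h3 hx hx0 hxQ, Or.inr ⟨?_, by omega⟩⟩
    intro u hu v hv
    have := hu v hv
    rw [QuadraticMap.polar_comm] at this
    exact this
  have key : (∃ g ∈ Om q, ¬ Stab W g) ∧ ∀ M : Subgroup ((Fin n → F) ≃ₗ[F] (Fin n → F)),
      (∀ g ∈ Om q, Stab W g → g ∈ M) → M ≤ Om q → (∃ g ∈ M, ¬ Stab W g) → Om q ≤ M := by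
    rcases lt_trichotomy (finrank F W) 4 with hlt | heq | hgt
    · exact max3 hnd (by omega) hnd' hW0 (by omega) (fun h => hodd (by rw [h]; decide)) hp1
    · have hU4 : finrank F (orth q W) = 4 := by omega
      rcases classify_even 2 _ (q.restrict (orth q W)) hndU (by omega) with hp | ⟨-, z', hz', hm'⟩
      · obtain ⟨T, hT, hT2⟩ := O12NdB.ts_of_plus hp
        exact max4 hnd (by omega) hnd' heq hT hT2 hno4
      · rcases classify_even 2 _ (q.restrict W) hnd' (by omega) with hp | ⟨-, z, hz, hm⟩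
        · have hp' : (q.restrict (orth q (orth q W))).Equivalent (qPlus 2 F) := by rw [hUU]; exact hp
          obtain ⟨T, hT, hT2⟩ := O12NdB.ts_of_plus hp'
          exact of_orth hnd (max4 hnd (by omega) hndU hU4 hT hT2 hno4)
        · exfalso
          obtain ⟨T, hT, hT'⟩ := O12NdB.plus_of_minus hnd hnd' (m := 2) (by norm_num) (by omega) (by omega)
            hz hz' hm hm'
          exact hno4 T hT (by omega)
    · have hU0 : orth q W ≠ ⊥ := by
        intro h
        apply hW1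
        rw [h, finrank_bot, zero_add] at hpar
        exact Submodule.eq_top_of_finrank_eq hpar
      refine of_orth hnd (max3 hnd (by omega) hndU hU0 (by omega) (fun h => hodd ?_) hp2)
      have h5 : finrank F W = 5 := by omega
      rw [h5]; decide
  exact H7.OABridge.isMaximalIn_omegaGL rfl (H7.OABridge.mem_stab (W := W)) key.1 key.2

end H95.O8Nd
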