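import Mathlib
import Cfsg.Agent.Lib.H95.Bridge

set_option autoImplicit false

/-!
Decomposition stabilisers for two-member decompositions.
-/

namespace H95.Bridge2

open Module Cfsg Cfsg.Geo H95.Bridge
open scoped Matrix MatrixGroups

variable {ι : Type} [Fintype ι] [DecidableEq ι] {F : Type*} [Field F]

/-- Preserves or interchanges. -/
def Perm2' {V : Type*} [AddCommGroup V] [Module F V] (U1 U2 : Submodule F V) (g : V ≃ₗ[F] V) : Prop :=
  ((∀ x ∈ U1, g x ∈ U1) ∧ ∀ x ∈ U2, g x ∈ U2) ∨ ((∀ x ∈ U1, g x ∈ U2) ∧ ∀ x ∈ U2, g x ∈ U1)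

lemma iSup_two {V : Type*} [AddCommGroup V] [Module F V] (D : Fin 2 → Submodule F V)
    (h : iSup D = ⊤) : D 0 ⊔ D 1 = ⊤ := by
  rw [eq_top_iff, ← h]
  apply iSup_le
  intro i
  fin_cases i
  · exact le_sup_left
  · exact le_sup_right

lemma mem_decomp_two {D : Fin 2 → Submodule F (ι → F)}
    (hr : finrank F (D 0) = finrank F (D 1)) {g : GL ι F} :
    g ∈ decompositionStabilizer D ↔ Perm2' (D 0) (D 1) (toEq ι F g) := by
  have hmapeq : ∀ (i j : Fin 2), (∀ x ∈ D i, toEq ι F g x ∈ D j) →
      (D i).map (toEq ι F g : (ι → F) →ₗ[F] (ι → F)) = D j := by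
    intro i j hg
    have hfr : ∀ i j : Fin 2, finrank F (D i) = finrank F (D j) := by
      intro i j
      fin_cases i <;> fin_cases j
      · rfl
      · exact hr
      · exact hr.symm
      · rfl
    apply Submodule.eq_of_le_of_finrank_eq
    · rintro _ ⟨x, hx, rfl⟩; exact hg x hx
    · exact (LinearEquiv.finrank_map_eq (toEq ι F g) (D i)).trans (hfr i j)
  rw [mem_decompositionStabilizer]
  constructor
  · rintro ⟨σ, hσ⟩
    have key : ∀ i, ∀ x ∈ D i, toEq ι F g x ∈ D (σ i) := by
      intro i x hx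
      rw [← hσ i]
      exact ⟨x, hx, rfl⟩
    by_cases h0 : σ 0 = 0
    · have h1 : σ 1 = 1 := by
        have : σ 1 ≠ σ 0 := fun h => by simpa using σ.injective h
        omega
      left
      exact ⟨fun x hx => by have := key 0 x hx; rwa [h0] at this,
        fun x hx => by have := key 1 x hx; rwa [h1] at this⟩
    · have h0' : σ 0 = 1 := by omega
      have h1 : σ 1 = 0 := by
        have : σ 1 ≠ σ 0 := fun h => by simpa using σ.injective h
        omega
      right
      exact ⟨fun x hx => by have := key 0 x hx; rwa [h0'] at this,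
        fun x hx => by have := key 1 x hx; rwa [h1] at this⟩
  · rintro (h | h)
    · refine ⟨1, fun i => ?_⟩
      fin_cases i
      · exact hmapeq 0 0 h.1
      · exact hmapeq 1 1 h.2
    · refine ⟨Equiv.swap 0 1, fun i => ?_⟩
      fin_cases i
      · exact hmapeq 0 1 h.1
      · exact hmapeq 1 0 h.2

end H95.Bridge2
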