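import Mathlib

set_option autoImplicit false

/-!
Small finite fields.
-/

namespace H95.F2

variable {F : Type*} [Field F] [Fintype F]

lemma two (h : Fintype.card F = 2) : (∀ a : F, a = 0 ∨ a = 1) ∧ (2 : F) = 0 := by
  classical
  have h2 : (2 : F) = 0 := by
    have := FiniteField.cast_card_eq_zero F
    rw [h] at this; exact_mod_cast this
  refine ⟨fun a => ?_, h2⟩
  have h1 := FiniteField.pow_card a
  rw [h] at h1
  have h3 : a * (a - 1) = 0 := by linear_combination h1
  rcases mul_eq_zero.1 h3 with h | h
  · exact Or.inl h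
  · exact Or.inr (sub_eq_zero.1 h)

lemma three (h : Fintype.card F = 3) : (∀ a : F, a = 0 ∨ a = 1 ∨ a = -1) ∧ (3 : F) = 0 := by
  classical
  have h2 : (3 : F) = 0 := by
    have := FiniteField.cast_card_eq_zero F
    rw [h] at this; exact_mod_cast this
  refine ⟨fun a => ?_, h2⟩
  have h1 := FiniteField.pow_card a
  rw [h] at h1
  have h3 : a * ((a - 1) * (a + 1)) = 0 := by linear_combination h1
  rcases mul_eq_zero.1 h3 with h | h
  · exact Or.inl h
  · rcases mul_eq_zero.1 h with h | h
    · exact Or.inr (Or.inl (sub_eq_zero.1 h))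
    · exact Or.inr (Or.inr (eq_neg_of_add_eq_zero_left h))

end H95.F2
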