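import Mathlib
import Cfsg.Agent.Lib.H95.SpGeom

set_option autoImplicit false

/-!
Overgroups of stabilisers of orthogonal decompositions in the symplectic group.
-/

namespace H95.SpMax

open Module H95.SpBasic H95.SpGeom

variable {F V : Type*} [Field F] [AddCommGroup V] [Module F V]

/-- An orthogonal decomposition with its projections. -/
structure OD (B : LinearMap.BilinForm F V) {ι : Type*} [Fintype ι] [DecidableEq ι]
    (D : ι → Submodule F V) (p : ι → V →ₗ[F] V) : Prop where
  nd : ∀ i, ∀ v ∈ D i, (∀ w ∈ D i, B v w = 0) → v = 0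
  mem : ∀ i x, p i x ∈ D i
  self : ∀ i, ∀ x ∈ D i, p i x = x
  other : ∀ i j, i ≠ j → ∀ x ∈ D j, p i x = 0
  orth : ∀ i j, i ≠ j → ∀ u ∈ D i, ∀ v ∈ D j, B u v = 0
  sum : ∀ x, ∑ i, p i x = x

variable {B : LinearMap.BilinForm F V} {ι : Type*} [Fintype ι] [DecidableEq ι]
    {D : ι → Submodule F V} {p : ι → V →ₗ[F] V}

lemma exists_OD (B : LinearMap.BilinForm F V) [FiniteDimensional F V]
    (D : ι → Submodule F V) (hnd : ∀ i, ∀ v ∈ D i, (∀ w ∈ D i, B v w = 0) → v = 0)
    (horth : ∀ i j, i ≠ j → ∀ u ∈ D i, ∀ v ∈ D j, B u v = 0) (hsup : iSup D = ⊤) :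
    ∃ p, OD B D p := by
  choose p hp1 hp2 using fun i => exists_proj B (D i) (hnd i)
  have hself : ∀ i, ∀ x ∈ D i, p i x = x := fun i x hx => proj_of_mem (hnd i) (hp1 i) (hp2 i) hx
  have hother : ∀ i j, i ≠ j → ∀ x ∈ D j, p i x = 0 := fun i j hij x hx =>
    proj_of_orth (hnd i) (hp1 i) (hp2 i) (fun u hu => horth j i hij.symm x hx u hu)
  refine ⟨p, hnd, hp1, hself, hother, horth, ?_⟩
  intro x
  have hx : x ∈ iSup D := by rw [hsup]; trivial
  induction hx using Submodule.iSup_induction' with
  | mem i x hx =>
    rw [Finset.sum_eq_single i, hself i x hx]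
    · intro j _ hj
      exact hother j i hj x hx
    · intro h; exact absurd (Finset.mem_univ i) h
  | zero => simp
  | add x y _ _ hx hy => simp only [map_add, Finset.sum_add_distrib, hx, hy]

namespace OD

lemma ext (h : OD B D p) {x y : V} (hxy : ∀ i, p i x = p i y) : x = y := by
  rw [← h.sum x, ← h.sum y]
  exact Finset.sum_congr rfl fun i _ => hxy i

lemma pp (h : OD B D p) (i j : ι) (x : V) : p i (p j x) = if i = j then p j x else 0 := by
  split_ifs with hij
  · subst hij; exact h.self _ _ (h.mem _ _)
  · exact h.other i j hij _ (h.mem _ _)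

lemma form_left (h : OD B D p) (x : V) {i : ι} {u : V} (hu : u ∈ D i) : B x u = B (p i x) u := by
  have h1 : B x u = B.flip u x := rfl
  rw [h1]
  conv_lhs => rw [← h.sum x]
  rw [map_sum, Finset.sum_eq_single i]
  · rfl
  · intro j _ hj
    exact h.orth j i hj _ (h.mem _ _) _ hu
  · intro hi; exact absurd (Finset.mem_univ i) hi

lemma form (h : OD B D p) (x y : V) : B x y = ∑ i, B (p i x) (p i y) := by
  conv_lhs => rw [← h.sum y]
  rw [map_sum]
  exact Finset.sum_congr rfl fun i _ => h.form_left x (h.mem i y)

/-- The support of a vector. -/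
def supp (_ : OD B D p) [DecidableEq V] (x : V) : Finset ι := Finset.univ.filter fun i => p i x ≠ 0

lemma mem_supp (h : OD B D p) [DecidableEq V] {x : V} {i : ι} : i ∈ h.supp x ↔ p i x ≠ 0 := by
  simp [supp]

/-- Replace the `i`-component of `x` by `u`. -/
def repl (_ : OD B D p) (x : V) (i : ι) (u : V) : V := x - p i x + u

lemma repl_self (h : OD B D p) (x : V) (i : ι) {u : V} (hu : u ∈ D i) :
    p i (h.repl x i u) = u := by
  simp [repl, h.pp, h.self i u hu]

lemma repl_other (h : OD B D p) (x : V) {i j : ι} (hij : j ≠ i) {u : V} (hu : u ∈ D i) :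
    p j (h.repl x i u) = p j x := by
  simp [repl, h.pp, hij, h.other j i hij u hu]

lemma cen_repl (h : OD B D p) (hB : B.IsAlt) {M : Subgroup (V ≃ₗ[F] V)} 
    (hD : ∀ i, ∀ v ∈ D i, Cen B hB M v) {x : V} (hx : Cen B hB M x) {i : ι} (hi : p i x ≠ 0)
    {u : V} (hu : u ∈ D i) (hu0 : u ≠ 0) : Cen B hB M (h.repl x i u) := by
  obtain ⟨g, hg, hgi, hgx, hgf, -⟩ := ext_of_tr_move B hB (D i) (h.nd i) M (hD i) (h.mem i x) hu hi hu0
  have h1 : g x = h.repl x i u := by
    have h2 : g (x - p i x) = x - p i x := by
      apply hgf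
      intro u hu
      rw [map_sub, LinearMap.sub_apply, h.form_left x hu, sub_self]
    rw [map_sub, hgx, sub_eq_iff_eq_add] at h2
    exact h2
  rw [← h1]
  exact hx.map hg hgi

/-- All vectors with the same support as a centre are centres. -/
lemma full (h : OD B D p) [DecidableEq V] (hB : B.IsAlt) {M : Subgroup (V ≃ₗ[F] V)} 
    (hD : ∀ i, ∀ v ∈ D i, Cen B hB M v) {y : V} (hy : Cen B hB M y) :
    ∀ x, h.supp x = h.supp y → Cen B hB M x := by
  have key : ∀ (n : ℕ) (y : V), Cen B hB M y → ∀ x, h.supp x = h.supp y →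
      (Finset.univ.filter fun i => p i x ≠ p i y).card = n → Cen B hB M x := by
    intro n
    induction n with
    | zero =>
      intro y hy x hxy hc
      have : x = y := by
        apply h.ext
        intro i
        by_contra hne
        have : i ∈ (Finset.univ.filter fun i => p i x ≠ p i y) := by simp [hne]
        rw [Finset.card_eq_zero.1 hc] at this
        simp at this
      rw [this]; exact hy
    | succ n ih =>
      intro y hy x hxy hc
      obtain ⟨i, hi⟩ : (Finset.univ.filter fun i => p i x ≠ p i y).Nonempty := by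
        rw [← Finset.card_pos]; omega
      have hi' : p i x ≠ p i y := by simpa using hi
      have hiS : i ∈ h.supp x := by
        rw [mem_supp]
        intro h0
        have : i ∉ h.supp x := by rw [mem_supp]; simpa using h0
        rw [hxy, mem_supp] at this
        push Not at this
        exact hi' (by rw [h0, this])
      have hx0 : p i x ≠ 0 := h.mem_supp.1 hiS
      have hy0 : p i y ≠ 0 := by rw [hxy] at hiS; exact h.mem_supp.1 hiS
      have hc' := h.cen_repl hB hD hy hy0 (h.mem i x) hx0
      apply ih (h.repl y i (p i x)) hc' x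
      · ext j
        rw [mem_supp, mem_supp]
        by_cases hj : j = i
        · subst hj
          rw [h.repl_self _ _ (h.mem _ _)]
        · rw [h.repl_other _ hj (h.mem _ _), ← mem_supp h, ← mem_supp h, hxy]
      · have : (Finset.univ.filter fun j => p j x ≠ p j (h.repl y i (p i x))) =
            (Finset.univ.filter fun j => p j x ≠ p j y).erase i := by
          ext j
          simp only [Finset.mem_filter, Finset.mem_univ, true_and, Finset.mem_erase]
          by_cases hj : j = i
          · subst hj
            rw [h.repl_self _ _ (h.mem _ _)]; simp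
          · rw [h.repl_other _ hj (h.mem _ _)]; simp [hj]
        rw [this, Finset.card_erase_of_mem hi, hc]
        rfl
  intro x hxy
  exact key _ y hy x hxy rfl

/-- If every vector with support of size two is a centre, every vector is. -/
lemma all_of_pairs (h : OD B D p) [DecidableEq V] (hB : B.IsAlt) {M : Subgroup (V ≃ₗ[F] V)}
    (hD : ∀ i, ∀ v ∈ D i, Cen B hB M v) (h2 : ∀ x, (h.supp x).card = 2 → Cen B hB M x) :
    ∀ x, Cen B hB M x := by
  have key : ∀ (n : ℕ) (x : V), (h.supp x).card = n → Cen B hB M x := by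
    intro n
    induction n using Nat.strong_induction_on with
    | _ n ih =>
      intro x hx
      rcases Nat.lt_or_ge n 1 with h0 | h0
      · have : x = 0 := by
          apply h.ext
          intro i
          by_contra hne
          rw [map_zero] at hne
          have h4 := h.mem_supp.2 hne
          have h5 : (h.supp x).card = 0 := by omega
          rw [Finset.card_eq_zero.1 h5] at h4
          simp at h4
        rw [this]; exact Cen.zero _ _ _
      rcases Nat.lt_or_ge n 2 with h1 | h1
      · have h5 : (h.supp x).card = 1 := by omega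
        obtain ⟨i, hi⟩ := Finset.card_eq_one.1 h5
        have : x = p i x := by
          apply h.ext
          intro j
          rw [h.pp]
          split_ifs with hj
          · rw [hj]
          · by_contra hne
            have h4 := h.mem_supp.2 hne
            rw [hi, Finset.mem_singleton] at h4
            exact hj h4
        rw [this]; exact hD i _ (h.mem _ _)
      rcases Nat.lt_or_ge n 3 with h3 | h3
      · exact h2 x (by omega)
      -- at least three
      obtain ⟨a, ha, b, hb, hab⟩ := Finset.one_lt_card.1 (show 1 < (h.supp x).card by omega)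
      have ha' := h.mem_supp.1 ha
      have hb' := h.mem_supp.1 hb
      obtain ⟨u, hu, hu'⟩ : ∃ w ∈ D b, B (p b x) w ≠ 0 := by
        by_contra hcon; push Not at hcon; exact hb' (h.nd b _ (h.mem b x) hcon)
      have hu0 : u ≠ 0 := by rintro rfl; simp at hu'
      have hux : p b x - u ≠ 0 := by
        intro h0
        have : p b x = u := sub_eq_zero.1 h0
        rw [this] at hu'
        exact hu' (hB u)
      -- y has support S \ {a}
      set y := h.repl (x - p a x) b u with hy
      set z := p a x + (p b x - u) with hz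
      have hyp : ∀ j, p j y = if j = a then 0 else if j = b then u else p j x := by
        intro j
        rw [hy]
        by_cases hj : j = b
        · subst hj
          rw [h.repl_self _ _ hu]; simp [hab.symm]
        · rw [h.repl_other _ hj hu]
          by_cases hja : j = a
          · subst hja; simp [h.pp]
          · simp [h.pp, hja, hj]
      have hzp : ∀ j, p j z = if j = a then p a x else if j = b then p b x - u else 0 := by
        intro j
        rw [hz]
        by_cases hja : j = a
        · subst hja
          simp [h.pp, hab, h.other j b hab u hu]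
        · by_cases hj : j = b
          · subst hj
            simp [h.pp, hja, h.self j u hu]
          · simp [h.pp, hja, hj, h.other j b hj u hu]
      have hxyz : x = y + (1 : F) • z := by
        apply h.ext
        intro j
        rw [one_smul, map_add, hyp, hzp]
        by_cases hja : j = a
        · subst hja; simp
        · by_cases hj : j = b
          · subst hj; simp [hja]
          · simp [hja, hj]
      have hsy : h.supp y = (h.supp x).erase a := by
        ext j
        rw [mem_supp, Finset.mem_erase, mem_supp, hyp]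
        by_cases hja : j = a
        · simp [hja]
        · by_cases hj : j = b
          · subst hj; simp [hja, hu0, hb']
          · simp [hja, hj]
      have hsz : h.supp z = {a, b} := by
        ext j
        rw [mem_supp, Finset.mem_insert, Finset.mem_singleton, hzp]
        by_cases hja : j = a
        · subst hja; simp [ha']
        · by_cases hj : j = b
          · subst hj; simp [hja, hux]
          · simp [hja, hj]
      have hcy : Cen B hB M y := ih (n - 1) (by omega) y (by
        rw [hsy, Finset.card_erase_of_mem ha, hx])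
      have hcz : Cen B hB M z := h2 z (by rw [hsz, Finset.card_pair hab])
      have hyz : B y z ≠ 0 := by
        rw [h.form y z, Finset.sum_eq_single b]
        · rw [hyp, hzp, if_neg hab.symm, if_neg hab.symm, if_pos rfl, if_pos rfl, map_sub]
          have h6 : B u u = 0 := hB u
          rw [h6, sub_zero, ← LinearMap.BilinForm.IsAlt.neg_eq hB]
          exact neg_ne_zero.2 hu'
        · intro j _ hj
          rw [hyp, hzp]
          by_cases hja : j = a
          · simp [hja]
          · simp [hja, hj]
        · intro hi; exact absurd (Finset.mem_univ b) hi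
      rw [hxyz]
      exact hcy.add hcz hyz 1
  intro x
  exact key _ x rfl

/-- Reduction of the support of a centre with at least three components to two. -/
lemma exists_pair (h : OD B D p) [DecidableEq V] (hB : B.IsAlt) {M : Subgroup (V ≃ₗ[F] V)}
    (hD : ∀ i, ∀ v ∈ D i, Cen B hB M v)
    (hk : ∀ i, ∀ v ∈ D i, v ≠ 0 → ∃ v' ∈ D i, v' ≠ 0 ∧ v' ≠ v ∧ B v v' = 0)
    {y : V} (hy : Cen B hB M y) (hc : 1 < (h.supp y).card) :
    ∃ z, Cen B hB M z ∧ (h.supp z).card = 2 := by
  rcases Nat.lt_or_ge (h.supp y).card 3 with h3 | h3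
  · exact ⟨y, hy, by omega⟩
  obtain ⟨a, b, c, ha, hb, hc, hab, hac, hbc⟩ := Finset.two_lt_card_iff.1 (show 2 < (h.supp y).card by omega)
  have hb' := h.mem_supp.1 hb
  have hc' := h.mem_supp.1 hc
  obtain ⟨u, hu, hu'⟩ : ∃ w ∈ D b, B (p b y) w ≠ 0 := by
    by_contra hcon; push Not at hcon; exact hb' (h.nd b _ (h.mem b y) hcon)
  have hu0 : u ≠ 0 := by rintro rfl; simp at hu'
  obtain ⟨w, hw, hw0, hwc, hw'⟩ := hk c _ (h.mem c y) hc'
  have hc1 := h.cen_repl hB hD hy hb' hu hu0
  have hc2 := h.cen_repl hB hD (i := c) hc1 (by rw [h.repl_other _ hbc.symm hu]; exact hc') hw hw0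
  set y' := h.repl (h.repl y b u) c w with hy'
  have hyp : ∀ j, p j y' = if j = c then w else if j = b then u else p j y := by
    intro j
    rw [hy']
    by_cases hj : j = c
    · subst hj
      rw [h.repl_self _ _ hw]; simp
    · rw [h.repl_other _ hj hw]
      by_cases hjb : j = b
      · subst hjb; rw [h.repl_self _ _ hu]; simp [hj]
      · rw [h.repl_other _ hjb hu]; simp [hj, hjb]
  have hyy : B y' y ≠ 0 := by
    rw [h.form y' y, Finset.sum_eq_single b]
    · rw [hyp, if_neg hbc, if_pos rfl, ← LinearMap.BilinForm.IsAlt.neg_eq hB]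
      exact neg_ne_zero.2 hu'
    · intro j _ hj
      rw [hyp]
      by_cases hjc : j = c
      · subst hjc
        rw [if_pos rfl, ← LinearMap.BilinForm.IsAlt.neg_eq hB, hw', neg_zero]
      · rw [if_neg hjc, if_neg hj]; exact hB _
    · intro hi; exact absurd (Finset.mem_univ b) hi
  refine ⟨y' + (-1 : F) • y, hc2.add hy hyy (-1), ?_⟩
  have : h.supp (y' + (-1 : F) • y) = {b, c} := by
    ext j
    rw [mem_supp, Finset.mem_insert, Finset.mem_singleton, map_add, map_smul, hyp]
    by_cases hjc : j = c
    · subst hjc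
      simp only [if_true, neg_smul, one_smul, or_true, iff_true]
      intro h0
      exact hwc (eq_of_sub_eq_zero (by rw [sub_eq_add_neg]; exact h0))
    · by_cases hjb : j = b
      · subst hjb
        simp only [hjc, if_true, if_false, neg_smul, one_smul, true_or, iff_true]
        intro h0
        have : u = p j y := eq_of_sub_eq_zero (by rw [sub_eq_add_neg]; exact h0)
        rw [this] at hu'
        exact hu' (hB _)
      · simp [hjc, hjb]
  rw [this, Finset.card_pair hbc]

/-- `g` swaps the members `i` and `j` of the decomposition and fixes the others. -/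
def Swaps (D : ι → Submodule F V) (g : V ≃ₗ[F] V) (i j : ι) : Prop :=
  (∀ x ∈ D i, g x ∈ D j) ∧ (∀ x ∈ D j, g x ∈ D i) ∧ ∀ l, l ≠ i → l ≠ j → ∀ x ∈ D l, g x ∈ D l

lemma supp_swap (h : OD B D p) [DecidableEq V] {g : V ≃ₗ[F] V} {i j : ι} (hg : Swaps D g i j)
    (x : V) : h.supp (g x) = (h.supp x).image (Equiv.swap i j) := by
  have h1 : ∀ l, ∀ x ∈ D l, g x ∈ D (Equiv.swap i j l) := by
    intro l x hx
    by_cases hli : l = i
    · subst hli; rw [Equiv.swap_apply_left]; exact hg.1 x hx
    · by_cases hlj : l = j
      · subst hlj; rw [Equiv.swap_apply_right]; exact hg.2.1 x hx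
      · rw [Equiv.swap_apply_of_ne_of_ne hli hlj]; exact hg.2.2 l hli hlj x hx
  have h2 : ∀ l, p (Equiv.swap i j l) (g x) = g (p l x) := by
    intro l
    conv_lhs => rw [← h.sum x]
    rw [map_sum, map_sum, Finset.sum_eq_single l]
    · exact h.self _ _ (h1 _ _ (h.mem _ _))
    · intro m _ hm
      exact h.other _ _ (fun heq => hm ((Equiv.swap i j).injective heq).symm) _ (h1 _ _ (h.mem _ _))
    · intro hi; exact absurd (Finset.mem_univ _) hi
  ext l
  rw [mem_supp, Finset.mem_image]
  have h3 := h2 (Equiv.swap i j l)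
  rw [Equiv.swap_apply_self] at h3
  rw [h3]
  constructor
  · intro hne
    refine ⟨Equiv.swap i j l, ?_, by simp⟩
    rw [mem_supp]
    intro h0
    rw [h0, map_zero] at hne
    exact hne rfl
  · rintro ⟨m, hm, rfl⟩
    rw [Equiv.swap_apply_self]
    rw [mem_supp] at hm
    intro h0
    exact hm ((map_eq_zero_iff g g.injective).1 h0)

/-- From one pair to all pairs, using swaps. -/
lemma all_pairs (h : OD B D p) [DecidableEq V] (hB : B.IsAlt) {M : Subgroup (V ≃ₗ[F] V)}
    (hMi : M ≤ isom B) (hD : ∀ i, ∀ v ∈ D i, Cen B hB M v)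
    (hsw : ∀ i j, i ≠ j → ∃ g ∈ M, Swaps D g i j)
    {y : V} (hy : Cen B hB M y) (hc : (h.supp y).card = 2) :
    ∀ x, (h.supp x).card = 2 → Cen B hB M x := by
  intro x hx
  obtain ⟨i, j, hij, hxs⟩ := Finset.card_eq_two.1 hx
  obtain ⟨a, b, hab, hys⟩ := Finset.card_eq_two.1 hc
  -- first move a to i
  have step : ∀ (z : V) (a b i : ι), a ≠ b → Cen B hB M z → h.supp z = {a, b} →
      ∃ z' c, c ≠ i ∧ Cen B hB M z' ∧ h.supp z' = {i, c} := by
    intro z a b i hab hz hzs
    by_cases hai : a = i
    · subst hai; exact ⟨z, b, hab.symm, hz, hzs⟩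
    · obtain ⟨g, hg, hgs⟩ := hsw a i hai
      refine ⟨g z, Equiv.swap a i b, ?_, hz.map hg (hMi hg), ?_⟩
      · intro h0
        have := congrArg (Equiv.swap a i) h0
        rw [Equiv.swap_apply_self, Equiv.swap_apply_right] at this
        exact hab this.symm
      · rw [h.supp_swap hgs, hzs]
        simp [Finset.image_insert]
  obtain ⟨z, c, hci, hz, hzs⟩ := step y a b i hab hy hys
  have hzs' : h.supp z = {c, i} := by rw [hzs, Finset.pair_comm]
  by_cases hcj : c = j
  · subst hcj
    exact h.full hB hD hz x (by rw [hxs, hzs])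
  · obtain ⟨g, hg, hgs⟩ := hsw c j hcj
    refine h.full hB hD (hz.map hg (hMi hg)) x ?_
    rw [h.supp_swap hgs, hzs', hxs]
    rw [Finset.image_insert, Finset.image_singleton, Equiv.swap_apply_left,
      Equiv.swap_apply_of_ne_of_ne hci.symm hij, Finset.pair_comm]

/-- Main theorem for wreath type stabilisers, first half. -/
theorem isom_le (h : OD B D p) [DecidableEq V] (hB : B.IsAlt) [FiniteDimensional F V]
    (hndV : ∀ v, (∀ w, B v w = 0) → v = 0) {M : Subgroup (V ≃ₗ[F] V)}
    (hMi : M ≤ isom B) (hD : ∀ i, ∀ v ∈ D i, Cen B hB M v)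
    (hsw : ∀ i j, i ≠ j → ∃ g ∈ M, Swaps D g i j)
    (hk : ∀ i, ∀ v ∈ D i, v ≠ 0 → ∃ v' ∈ D i, v' ≠ 0 ∧ v' ≠ v ∧ B v v' = 0)
    {y : V} (hy : Cen B hB M y) (hc : 1 < (h.supp y).card) : isom B ≤ M := by
  obtain ⟨z, hz, hzc⟩ := h.exists_pair hB hD hk hy hc
  have := h.all_of_pairs hB hD (h.all_pairs hB hMi hD hsw hz hzc)
  exact isom_le_of_tr B hB hndV M (fun v c => this v c)

/-- Second half: if all centres lie in the union of the members then `M` permutes them. -/
theorem permutes (h : OD B D p) [DecidableEq V] (hB : B.IsAlt) [FiniteDimensional F V]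
    {M : Subgroup (V ≃ₗ[F] V)}
    (hMi : M ≤ isom B) (hD : ∀ i, ∀ v ∈ D i, Cen B hB M v)
    (hnb : ∀ i, D i ≠ ⊥)
    (hc : ∀ y, Cen B hB M y → (h.supp y).card ≤ 1) {g : V ≃ₗ[F] V} (hg : g ∈ M) :
    ∃ σ : Equiv.Perm ι, ∀ i, (D i).map (g : V →ₗ[F] V) = D (σ i) := by
  have key : ∀ g ∈ M, ∀ i, ∃ j, ∀ x ∈ D i, g x ∈ D j := by
    intro g hg i
    obtain ⟨v, hv, hv0⟩ := Submodule.exists_mem_ne_zero_of_ne_bot (hnb i)
    -- a centre lies in some member
    have hmem : ∀ x, Cen B hB M x → x ≠ 0 → ∃ j, x ∈ D j := by
      intro x hx hx0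
      have h1 : (h.supp x).Nonempty := by
        by_contra hcon
        rw [Finset.not_nonempty_iff_eq_empty] at hcon
        apply hx0
        apply h.ext
        intro i
        by_contra hne
        rw [map_zero] at hne
        have := h.mem_supp.2 hne
        rw [hcon] at this; simp at this
      obtain ⟨j, hj⟩ := h1
      refine ⟨j, ?_⟩
      have : x = p j x := by
        apply h.ext
        intro l
        rw [h.pp]
        split_ifs with hl
        · rw [hl]
        · by_contra hne
          have h4 := h.mem_supp.2 hne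
          exact hl ((Finset.card_le_one.1 (hc x hx)) _ h4 _ hj)
      rw [this]; exact h.mem _ _
    obtain ⟨j, hj⟩ := hmem (g v) ((hD i v hv).map hg (hMi hg)) (by simpa using hv0)
    refine ⟨j, ?_⟩
    have hor : D i ≤ (D j).comap (g : V →ₗ[F] V) ∨ D i ≤ LinearMap.ker (B v) := by
      apply le_or_le_of_subset_union
      intro x hx
      by_cases hvx : B v x = 0
      · right; exact hvx
      · left
        have hx0 : x ≠ 0 := by rintro rfl; simp at hvx
        obtain ⟨l, hl⟩ := hmem (g x) ((hD i x hx).map hg (hMi hg)) (by simpa using hx0)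
        have : j = l := by
          by_contra hjl
          have h5 := h.orth j l hjl _ hj _ hl
          rw [hMi hg] at h5
          exact hvx h5
        subst this
        exact hl
    rcases hor with h6 | h6
    · exact fun x hx => h6 hx
    · exact absurd (h.nd i v hv (fun w hw => h6 hw)) hv0
  choose f hf using key g hg
  choose f' hf' using key g⁻¹ (M.inv_mem hg)
  have hgg : ∀ x, g⁻¹ (g x) = x := fun x => g.symm_apply_apply x
  have hgg' : ∀ x, g (g⁻¹ x) = x := fun x => g.apply_symm_apply x
  have huniq : ∀ i j x, x ≠ 0 → x ∈ D i → x ∈ D j → i = j := by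
    intro i j x hx hi hj
    by_contra hij
    apply hx
    rw [← h.self i x hi, h.other i j hij x hj]
  have hl : ∀ i, f' (f i) = i := by
    intro i
    obtain ⟨v, hv, hv0⟩ := Submodule.exists_mem_ne_zero_of_ne_bot (hnb i)
    have := hf' (f i) (g v) (hf i v hv)
    rw [hgg] at this
    exact huniq _ _ v hv0 this hv
  have hr : ∀ i, f (f' i) = i := by
    intro i
    obtain ⟨v, hv, hv0⟩ := Submodule.exists_mem_ne_zero_of_ne_bot (hnb i)
    have := hf (f' i) (g⁻¹ v) (hf' i v hv)
    rw [hgg'] at this
    exact huniq _ _ v hv0 this hv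
  refine ⟨⟨f, f', hl, hr⟩, ?_⟩
  intro i
  apply le_antisymm
  · rintro _ ⟨x, hx, rfl⟩
    exact hf i x hx
  · intro y hy
    refine ⟨g⁻¹ y, ?_, hgg' y⟩
    have := hf' (f i) y hy
    rw [hl i] at this
    exact this

end OD

end H95.SpMax
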