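import Mathlib
import Cfsg.Agent.Lib.H95.SpMax

set_option autoImplicit false

/-!
The stabiliser of an orthogonal decomposition in the symplectic group is maximal: abstract version.
-/

namespace H95.SpWreath

open Module H95.SpBasic H95.SpGeom H95.SpMax

variable {F V : Type*} [Field F] [AddCommGroup V] [Module F V]
variable {B : LinearMap.BilinForm F V} {ι : Type*} [Fintype ι] [DecidableEq ι]
    {D : ι → Submodule F V} {p : ι → V →ₗ[F] V}

lemma exists_swap (h : OD B D p) (hB : B.IsAlt) [FiniteDimensional F V] {i j : ι} (hij : i ≠ j)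
    (hr : finrank F (D i) = finrank F (D j)) :
    ∃ g ∈ isom B, (∀ x ∈ D i, g x ∈ D j) ∧ (∀ x ∈ D j, g x ∈ D i) ∧
      ∀ l, l ≠ i → l ≠ j → ∀ x ∈ D l, g x = x := by
  obtain ⟨e, e', he, he', hee', he'e, hei, hei'⟩ :=
    exists_isometry_sub B hB (D i) (D j) (h.nd i) (h.nd j) hr
  let f : V →ₗ[F] V := LinearMap.id - p i - p j + e ∘ₗ p i + e' ∘ₗ p j
  have hf : ∀ x, f x = x - p i x - p j x + e (p i x) + e' (p j x) := fun x => rfl
  have hpe : ∀ l x, p l (e (p i x)) = if l = j then e (p i x) else 0 := by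
    intro l x
    have h1 := he _ (h.mem i x)
    split_ifs with hl
    · subst hl; exact h.self _ _ h1
    · exact h.other l j hl _ h1
  have hpe' : ∀ l x, p l (e' (p j x)) = if l = i then e' (p j x) else 0 := by
    intro l x
    have h1 := he' _ (h.mem j x)
    split_ifs with hl
    · subst hl; exact h.self _ _ h1
    · exact h.other l i hl _ h1
  have hpf : ∀ l x, p l (f x) = if l = i then e' (p j x) else if l = j then e (p i x) else p l x := by
    intro l x
    rw [hf]
    simp only [map_add, map_sub, hpe, hpe', h.pp]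
    by_cases hl : l = i
    · subst hl; simp [hij]
    · by_cases hlj : l = j
      · subst hlj; simp [hl]
      · simp [hl, hlj]
  have hinv : Function.Involutive f := by
    intro x
    apply h.ext
    intro l
    rw [hpf l (f x), hpf j x, hpf i x, hpf l x]
    by_cases hl : l = i
    · subst hl; simp [hij.symm, hee' _ (h.mem _ _)]
    · by_cases hlj : l = j
      · subst hlj; simp [hl, he'e _ (h.mem _ _)]
      · simp [hl, hlj]
  let g : V ≃ₗ[F] V := LinearEquiv.ofInvolutive f hinv
  have hg : ∀ x, g x = f x := fun x => rfl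
  refine ⟨g, ?_, ?_, ?_, ?_⟩
  · intro x y
    rw [hg, hg, h.form (f x) (f y), h.form x y]
    have h1 : ∀ l, B (p l (f x)) (p l (f y)) =
        (fun m => B (p m x) (p m y)) (Equiv.swap i j l) := by
      intro l
      rw [hpf, hpf]
      by_cases hl : l = i
      · subst hl
        simp only [if_true, Equiv.swap_apply_left]
        exact hei' _ (h.mem _ _) _ (h.mem _ _)
      · by_cases hlj : l = j
        · subst hlj
          simp only [hl, if_true, if_false, Equiv.swap_apply_right]
          exact hei _ (h.mem _ _) _ (h.mem _ _)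
        · simp only [hl, hlj, if_false, Equiv.swap_apply_of_ne_of_ne hl hlj]
    rw [Finset.sum_congr rfl (fun l _ => h1 l)]
    exact Equiv.sum_comp (Equiv.swap i j) (fun m => B (p m x) (p m y))
  · intro x hx
    rw [hg, hf, h.self i x hx, h.other j i hij.symm x hx, map_zero]
    have h9 : x - x - 0 + e x + 0 = e x := by abel
    rw [h9]
    exact he x hx
  · intro x hx
    rw [hg, hf, h.self j x hx, h.other i j hij x hx, map_zero]
    simp only [sub_zero, sub_self, zero_add]
    exact he' x hx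
  · intro l hli hlj x hx
    rw [hg, hf, h.other i l hli.symm x hx, h.other j l hlj.symm x hx]
    simp

/-- Existence of a second orthogonal vector. -/
lemma exists_second (hB : B.IsAlt) (U : Submodule F V) [FiniteDimensional F V]
    (hU : 3 ≤ finrank F U ∨ ∃ a : F, a ≠ 0 ∧ a ≠ 1) {v : V} (hv : v ∈ U) (hv0 : v ≠ 0) :
    ∃ v' ∈ U, v' ≠ 0 ∧ v' ≠ v ∧ B v v' = 0 := by
  rcases hU with hU | ⟨a, ha, ha1⟩
  · -- kernel of B v on U has dimension at least two
    let φ : U →ₗ[F] F := (B v).comp U.subtype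
    have h1 := LinearMap.finrank_range_add_finrank_ker φ
    have h2 : finrank F (LinearMap.range φ) ≤ 1 := by
      have := Submodule.finrank_le (LinearMap.range φ)
      rwa [finrank_self] at this
    have h3 : 2 ≤ finrank F (LinearMap.ker φ) := by omega
    have h4 : ¬ LinearMap.ker φ ≤ Submodule.span F {(⟨v, hv⟩ : U)} := by
      intro hle
      have h5 := Submodule.finrank_mono hle
      have h6 := finrank_span_singleton (K := F) (v := (⟨v, hv⟩ : U)) (by simpa using hv0)
      omega
    obtain ⟨w, hw, hw'⟩ := SetLike.not_le_iff_exists.1 h4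
    refine ⟨w, w.2, ?_, ?_, hw⟩
    · intro h0
      apply hw'
      have : w = 0 := Subtype.ext h0
      rw [this]; exact Submodule.zero_mem _
    · intro h0
      apply hw'
      have : w = ⟨v, hv⟩ := Subtype.ext h0
      rw [this]; exact Submodule.mem_span_singleton_self _
  · refine ⟨a • v, U.smul_mem _ hv, by simp [ha, hv0], ?_, ?_⟩
    · intro h
      have : (a - 1) • v = 0 := by rw [sub_smul, one_smul, h, sub_self]
      rcases smul_eq_zero.1 this with h' | h'
      · exact ha1 (sub_eq_zero.1 h')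
      · exact hv0 h'
    · rw [map_smul, hB v, smul_zero]

/-- Overgroups of the stabiliser of an orthogonal decomposition. -/
theorem overgroup [FiniteDimensional F V] (B : LinearMap.BilinForm F V) (hB : B.IsAlt)
    (hndV : ∀ v, (∀ w, B v w = 0) → v = 0)
    (D : ι → Submodule F V) (k : ℕ) (hk : ∀ i, finrank F (D i) = k)
    (hnd : ∀ i, ∀ v ∈ D i, (∀ w ∈ D i, B v w = 0) → v = 0)
    (horth : ∀ i j, i ≠ j → ∀ u ∈ D i, ∀ v ∈ D j, B u v = 0) (hsup : iSup D = ⊤)
    (hk0 : k ≠ 0) (hk3 : 3 ≤ k ∨ ∃ a : F, a ≠ 0 ∧ a ≠ 1)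
    (M : Subgroup (V ≃ₗ[F] V)) (hMi : M ≤ isom B)
    (hH : ∀ g ∈ isom B, (∃ σ : Equiv.Perm ι, ∀ i, (D i).map (g : V →ₗ[F] V) = D (σ i)) → g ∈ M)
    (hM : ∃ g ∈ M, ¬ ∃ σ : Equiv.Perm ι, ∀ i, (D i).map (g : V →ₗ[F] V) = D (σ i)) :
    isom B ≤ M := by
  classical
  obtain ⟨p, h⟩ := exists_OD B D hnd horth hsup
  have hmapeq : ∀ (g : V ≃ₗ[F] V) (i j : ι), (∀ x ∈ D i, g x ∈ D j) →
      (D i).map (g : V →ₗ[F] V) = D j := by
    intro g i j hg
    apply Submodule.eq_of_le_of_finrank_eq
    · rintro _ ⟨x, hx, rfl⟩; exact hg x hx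
    · rw [hk j]; exact (LinearEquiv.finrank_map_eq g (D i)).trans (hk i)
  have hD : ∀ i, ∀ v ∈ D i, Cen B hB M v := by
    intro i v hv c
    apply hH _ (tr_mem_isom _ _ _ _)
    refine ⟨1, fun j => ?_⟩
    apply hmapeq
    intro x hx
    rw [tr_apply, Equiv.Perm.one_apply]
    by_cases hij : j = i
    · subst hij
      exact (D j).add_mem hx ((D j).smul_mem _ hv)
    · rw [horth j i hij x hx v hv]; simpa using hx
  have hsw : ∀ i j, i ≠ j → ∃ g ∈ M, OD.Swaps D g i j := by
    intro i j hij
    obtain ⟨g, hg, h1, h2, h3⟩ := exists_swap h hB hij (by rw [hk, hk])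
    refine ⟨g, hH g hg ⟨Equiv.swap i j, ?_⟩, h1, h2, fun l hli hlj x hx => by
      rw [h3 l hli hlj x hx]; exact hx⟩
    intro l
    apply hmapeq
    intro x hx
    by_cases hl : l = i
    · subst hl; rw [Equiv.swap_apply_left]; exact h1 x hx
    · by_cases hlj : l = j
      · subst hlj; rw [Equiv.swap_apply_right]; exact h2 x hx
      · rw [Equiv.swap_apply_of_ne_of_ne hl hlj, h3 l hl hlj x hx]; exact hx
  by_cases hc : ∃ y, Cen B hB M y ∧ 1 < (h.supp y).card
  · obtain ⟨y, hy, hyc⟩ := hc
    exact h.isom_le hB hndV hMi hD hsw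
      (fun i v hv hv0 => exists_second hB (D i) (by rw [hk i]; exact hk3) hv hv0) hy hyc
  · exfalso
    push Not at hc
    obtain ⟨g, hg, hg'⟩ := hM
    apply hg'
    exact h.permutes hB hMi hD (fun i h0 => by
      have := hk i
      rw [h0, finrank_bot] at this
      exact hk0 this.symm) hc hg

/-- There is an isometry not permuting the members. -/
theorem exists_not_perm [FiniteDimensional F V] (B : LinearMap.BilinForm F V) (hB : B.IsAlt)
    (D : ι → Submodule F V)
    (hnd : ∀ i, ∀ v ∈ D i, (∀ w ∈ D i, B v w = 0) → v = 0)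
    (horth : ∀ i j, i ≠ j → ∀ u ∈ D i, ∀ v ∈ D j, B u v = 0) (hsup : iSup D = ⊤)
    (a b : ι) (hab : a ≠ b) (ha : D a ≠ ⊥) (hb : D b ≠ ⊥) :
    ∃ g ∈ isom B, ∃ x ∈ D a, ∀ j, g x ∉ D j := by
  classical
  obtain ⟨p, h⟩ := exists_OD B D hnd horth hsup
  obtain ⟨u, hu, v, hv, huv⟩ := exists_hyp B (D a) (hnd a) ha
  obtain ⟨w, hw, hw0⟩ := Submodule.exists_mem_ne_zero_of_ne_bot hb
  refine ⟨tr B hB (v + w) 1, tr_mem_isom _ _ _ _, u, hu, ?_⟩
  intro j hj
  have huw : B u w = 0 := horth a b hab u hu w hw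
  rw [tr_apply, map_add, huv, huw] at hj
  simp only [add_zero, one_mul, one_smul] at hj
  have h1 : p a (u + (v + w)) = u + v := by
    rw [map_add, map_add, h.self a u hu, h.self a v hv, h.other a b hab w hw, add_zero]
  have h2 : p b (u + (v + w)) = w := by
    rw [map_add, map_add, h.other b a hab.symm u hu, h.other b a hab.symm v hv, h.self b w hw]
    simp
  by_cases hja : j = a
  · subst hja
    rw [h.other b j hab.symm _ hj] at h2
    exact hw0 h2.symm
  · rw [h.other a j (Ne.symm hja) _ hj] at h1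
    have h3 : u = - v := eq_neg_of_add_eq_zero_left h1.symm
    rw [h3, map_neg, LinearMap.neg_apply] at huv
    have h4 : B v v = 0 := hB v
    rw [h4, neg_zero] at huv
    exact zero_ne_one huv

end H95.SpWreath
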