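import Mathlib
import Cfsg.Agent.Lib.H95.SpWreath
import Cfsg.Agent.Lib.H95.Bridge

set_option autoImplicit false

/-!
Over the field with two elements the stabiliser in the symplectic group of a decomposition into planes
is not maximal.
-/

namespace H95.NmSp2

open Module H95.SpBasic H95.SpMax H95.SpGeom

variable {F V : Type*} [Field F] [AddCommGroup V] [Module F V] {B : LinearMap.BilinForm F V}
  {ι : Type*} [Fintype ι] [DecidableEq ι] {D : ι → Submodule F V} {p : ι → V →ₗ[F] V}

/-- the number of nonzero components -/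
noncomputable def qf (p : ι → V →ₗ[F] V) (v : V) : F :=
  open Classical in ∑ i, if p i v = 0 then 0 else 1

lemma qf_perm (h : OD B D p) {g : V ≃ₗ[F] V} {σ : Equiv.Perm ι} (hσ : ∀ i, ∀ x ∈ D i, g x ∈ D (σ i))
    (v : V) : qf p (g v) = qf p v := by
  classical
  have key : ∀ i, p (σ i) (g v) = g (p i v) := by
    intro i
    conv_lhs => rw [← h.sum v]
    rw [map_sum, map_sum, Finset.sum_eq_single i]
    · exact h.self _ _ (hσ i _ (h.mem i v))
    · intro j _ hj
      exact h.other _ _ (fun e => hj (σ.injective e).symm) _ (hσ j _ (h.mem j v))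
    · intro hi; exact absurd (Finset.mem_univ i) hi
  unfold qf
  rw [← Equiv.sum_comp σ]
  refine Finset.sum_congr rfl fun i _ => ?_
  rw [key]
  by_cases h0 : p i v = 0
  · rw [h0, map_zero]
  · rw [if_neg h0, if_neg ((LinearEquiv.map_eq_zero_iff g).not.2 h0)]

/-- polarisation in a plane -/
lemma plane (hF : ∀ a : F, a = 0 ∨ a = 1) (h2 : (2 : F) = 0) (hB : B.IsAlt) {U : Submodule F V}
    (hU : ∀ v ∈ U, (∀ w ∈ U, B v w = 0) → v = 0) (hr : finrank F U = 2) {x y : V} (hx : x ∈ U)
    (hy : y ∈ U) : (open Classical in (if x + y = 0 then (0 : F) else 1)) =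
      (open Classical in (if x = 0 then (0 : F) else 1)) +
      (open Classical in (if y = 0 then (0 : F) else 1)) + B x y := by
  have hdbl : ∀ v : V, v + v = 0 := fun v => by rw [← two_smul F, h2, zero_smul]
  by_cases hx0 : x = 0
  · subst hx0; rw [if_pos rfl, zero_add, zero_add, map_zero, LinearMap.zero_apply, add_zero]
  by_cases hy0 : y = 0
  · subst hy0; rw [if_pos (rfl : (0 : V) = 0), add_zero, add_zero, map_zero, add_zero]
  by_cases hxy : x + y = 0
  · have : x = y := by
      rw [← sub_eq_zero, ← hxy, sub_eq_add_neg]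
      congr 1
      rw [neg_eq_iff_add_eq_zero]; exact hdbl y
    subst this
    rw [if_pos hxy, if_neg hx0, hB x, add_zero]
    have : (1 : F) + 1 = 2 := by norm_num
    rw [this, h2]
  · rw [if_neg hxy, if_neg hx0, if_neg hy0]
    have hne : B x y ≠ 0 := by
      intro h0
      have hli : LinearIndependent F ![x, y] := by
        rw [LinearIndependent.pair_iff]
        intro a b hab
        rcases hF a with rfl | rfl <;> rcases hF b with rfl | rfl
        · exact ⟨rfl, rfl⟩
        · simp at hab; exact absurd hab hy0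
        · simp at hab; exact absurd hab hx0
        · simp at hab; exact absurd hab hxy
      have hle : Submodule.span F {x, y} ≤ U := by
        rw [Submodule.span_le]
        intro z hz
        rcases hz with rfl | hz
        · exact hx
        · rw [Set.mem_singleton_iff] at hz
          rw [hz]; exact hy
      have hspan : Submodule.span F {x, y} = U := by
        have e : ({x, y} : Set V) = Set.range ![x, y] := by
          ext z; simp [or_comm]
        have : FiniteDimensional F U := Module.finite_of_finrank_pos (by omega)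
        apply Submodule.eq_of_le_of_finrank_le hle
        rw [hr, e, finrank_span_eq_card hli]; simp
      apply hx0
      apply hU x hx
      intro w hw
      rw [← hspan] at hw
      obtain ⟨a, b, rfl⟩ := Submodule.mem_span_pair.1 hw
      rw [map_add, map_smul, map_smul, hB x, h0]; simp
    rw [(hF _).resolve_left hne]
    linear_combination -h2

lemma qf_add (hF : ∀ a : F, a = 0 ∨ a = 1) (h2 : (2 : F) = 0) (hB : B.IsAlt) (h : OD B D p)
    (hr : ∀ i, finrank F (D i) = 2) (x y : V) : qf p (x + y) = qf p x + qf p y + B x y := by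
  classical
  have e1 : B x y = ∑ i, B (p i x) (p i y) := by
    have e2 : ∀ j, ∀ w ∈ D j, B x w = B (p j x) w := by
      intro j w hw
      have e3 : B x w = B.flip w x := rfl
      rw [e3]
      conv_lhs => rw [← h.sum x]
      rw [map_sum, Finset.sum_eq_single j]
      · rfl
      · intro i _ hi
        exact h.orth i j hi _ (h.mem i x) _ hw
      · intro hi; exact absurd (Finset.mem_univ j) hi
    have e4 : B x y = ∑ j, B x (p j y) := by
      conv_lhs => rw [← h.sum y]
      rw [map_sum]
    rw [e4]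
    exact Finset.sum_congr rfl fun j _ => e2 j _ (h.mem j y)
  rw [e1]
  unfold qf
  rw [← Finset.sum_add_distrib, ← Finset.sum_add_distrib]
  refine Finset.sum_congr rfl fun i _ => ?_
  rw [map_add]
  exact plane hF h2 hB (h.nd i) (hr i) (h.mem i x) (h.mem i y)

lemma qf_tr (hF : ∀ a : F, a = 0 ∨ a = 1) (h2 : (2 : F) = 0) (hB : B.IsAlt) (h : OD B D p)
    (hr : ∀ i, finrank F (D i) = 2) {v : V} (hv : qf p v = 1) (x : V) :
    qf p (tr B hB v 1 x) = qf p x := by
  rw [tr_apply]
  rcases hF (B x v) with h0 | h0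
  · rw [h0]; simp
  · rw [h0, one_mul, one_smul, qf_add hF h2 hB h hr, hv, h0]
    linear_combination h2

theorem not_max (hF : ∀ a : F, a = 0 ∨ a = 1) (h2 : (2 : F) = 0) (hB : B.IsAlt) (h : OD B D p)
    (hr : ∀ i, finrank F (D i) = 2) {i j k : ι} (hij : i ≠ j) (hik : i ≠ k) (hjk : j ≠ k) :
    (∃ g ∈ isom B, (∀ v, qf p (g v) = qf p v) ∧ ∃ x ∈ D i, ∀ l, g x ∉ D l) ∧
      ∃ g ∈ isom B, ∃ v, qf p (g v) ≠ qf p v := by
  classical
  have hne : ∀ l, ∃ u ∈ D l, u ≠ 0 := by
    intro l
    have : D l ≠ ⊥ := by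
      intro h0
      have := hr l
      rw [h0, finrank_bot] at this
      omega
    exact Submodule.exists_mem_ne_zero_of_ne_bot this
  obtain ⟨u₁, hu₁, hu₁0⟩ := hne i
  obtain ⟨u₂, hu₂, hu₂0⟩ := hne j
  obtain ⟨u₃, hu₃, hu₃0⟩ := hne k
  have hq1 : ∀ l, ∀ u ∈ D l, u ≠ 0 → qf p u = 1 := by
    intro l u hu hu0
    unfold qf
    rw [Finset.sum_eq_single l]
    · rw [h.self l u hu, if_neg hu0]
    · intro m _ hm
      rw [h.other m l hm u hu, if_pos rfl]
    · intro hl; exact absurd (Finset.mem_univ l) hl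
  have q1 := hq1 i u₁ hu₁ hu₁0
  have q2 := hq1 j u₂ hu₂ hu₂0
  have q3 := hq1 k u₃ hu₃ hu₃0
  obtain ⟨x, hx, hxu⟩ : ∃ x ∈ D i, B x u₁ = 1 := by
    by_contra hcon
    push Not at hcon
    apply hu₁0
    apply h.nd i u₁ hu₁
    intro w hw
    rcases hF (B w u₁) with h0 | h0
    · rw [← hB.neg_eq, h0, neg_zero]
    · exact absurd h0 (hcon w hw)
  have x2 : B x u₂ = 0 := h.orth i j hij x hx _ hu₂
  have x3 : B x u₃ = 0 := h.orth i k hik x hx _ hu₃
  have q12 : qf p (u₁ + u₂) = 0 := by
    rw [qf_add hF h2 hB h hr, q1, q2, h.orth i j hij _ hu₁ _ hu₂]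
    linear_combination h2
  constructor
  · refine ⟨tr B hB (u₁ + u₂ + u₃) 1, tr_mem_isom _ _ _ _, fun v => qf_tr hF h2 hB h hr ?_ v, x, hx,
      fun l hl => ?_⟩
    · rw [qf_add hF h2 hB h hr, q12, q3, map_add, LinearMap.add_apply, h.orth i k hik _ hu₁ _ hu₃,
        h.orth j k hjk _ hu₂ _ hu₃]
      ring
    · rw [tr_apply, map_add, map_add, hxu, x2, x3] at hl
      simp only [add_zero, one_mul, one_smul] at hl
      have e2 : p j (x + (u₁ + u₂ + u₃)) = u₂ := by
        rw [map_add, map_add, map_add, h.other j i hij.symm x hx, h.other j i hij.symm _ hu₁,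
          h.self j _ hu₂, h.other j k hjk _ hu₃]; simp
      have e3 : p k (x + (u₁ + u₂ + u₃)) = u₃ := by
        rw [map_add, map_add, map_add, h.other k i hik.symm x hx, h.other k i hik.symm _ hu₁,
          h.other k j hjk.symm _ hu₂, h.self k _ hu₃]; simp
      by_cases hl1 : l = j
      · rw [hl1] at hl
        rw [h.other k j hjk.symm _ hl] at e3
        exact hu₃0 e3.symm
      · rw [h.other j l (Ne.symm hl1) _ hl] at e2
        exact hu₂0 e2.symm
  · refine ⟨tr B hB (u₁ + u₂) 1, tr_mem_isom _ _ _ _, x, ?_⟩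
    rw [tr_apply, map_add, hxu, x2]
    simp only [add_zero, one_mul, one_smul]
    rw [qf_add hF h2 hB h hr, q12, map_add, hxu, x2]
    intro h0
    apply one_ne_zero (α := F)
    linear_combination h0

end H95.NmSp2
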