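import Mathlib
import Cfsg.Agent.Lib.H95.UBasic

set_option autoImplicit false

/-!
Over the field with four elements the stabiliser in the special unitary group of a decomposition into
nondegenerate planes is not maximal.
-/

namespace H95.NmU2

open Module H95.UBasic

variable {F V : Type*} [Field F] [AddCommGroup V] [Module F V] {σ : F →+* F}
  {h : V →ₗ[F] V →ₛₗ[σ] F}

/-- a vector of a plane -/
lemma span_two {U : Submodule F V} (hr : finrank F U = 2) {x y : V} (hx : x ∈ U)
    (hy : y ∈ U) (hli : LinearIndependent F ![x, y]) {z : V} (hz : z ∈ U) :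
    ∃ a b : F, z = a • x + b • y := by
  have hle : Submodule.span F {x, y} ≤ U := by
    rw [Submodule.span_le]
    intro z hz
    rcases hz with rfl | hz
    · exact hx
    · rw [Set.mem_singleton_iff] at hz
      rw [hz]; exact hy
  have hspan : Submodule.span F {x, y} = U := by
    have e : ({x, y} : Set V) = Set.range ![x, y] := by
      ext z; simp [or_comm]
    have : FiniteDimensional F U := Module.finite_of_finrank_pos (by omega)
    apply Submodule.eq_of_le_of_finrank_le hle
    rw [hr, e, finrank_span_eq_card hli]; simp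
  rw [← hspan] at hz
  obtain ⟨a, b, hab⟩ := Submodule.mem_span_pair.1 hz
  exact ⟨a, b, hab.symm⟩

lemma frame (H : IsSkew h) (hN : ∀ a : F, a ≠ 0 → a * σ a = 1) (hfix : ∀ b : F, σ b = b → b = 0 ∨ b = 1)
    (h2 : (2 : F) = 0) {U : Submodule F V} (hU : ∀ v ∈ U, (∀ w ∈ U, h v w = 0) → v = 0)
    (hr : finrank F U = 2) : ∃ a ∈ U, ∃ b ∈ U, h a a = 1 ∧ h b b = 1 ∧ h a b = 0 ∧
      ∀ x ∈ U, h x x ≠ 0 → (∃ α : F, x = α • a) ∨ ∃ β : F, x = β • b := by
  have hself : ∀ x, h x x ≠ 0 → h x x = 1 := by
    intro x hx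
    have h1 := H.self x
    have h3 : - h x x = h x x := by linear_combination (-h x x) * h2
    rw [h3] at h1
    exact (hfix _ h1).resolve_left hx
  obtain ⟨a, ha, ha0⟩ : ∃ a ∈ U, h a a ≠ 0 := by
    by_contra hcon
    push Not at hcon
    have h1 := ti_of_iso H hcon
    have hne : U ≠ ⊥ := by
      intro h0; rw [h0, finrank_bot] at hr; omega
    obtain ⟨v, hv, hv0⟩ := Submodule.exists_mem_ne_zero_of_ne_bot hne
    exact hv0 (hU v hv fun w hw => h1 v hv w hw)
  have ha1 := hself a ha0
  have hane : a ≠ 0 := by rintro rfl; exact ha0 (by simp)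
  obtain ⟨y, hy, hya⟩ : ∃ y ∈ U, y ∉ Submodule.span F {a} := by
    by_contra hcon
    push Not at hcon
    have : FiniteDimensional F (Submodule.span F {a}) := FiniteDimensional.span_singleton F a
    have h1 := Submodule.finrank_mono (show U ≤ Submodule.span F {a} from hcon)
    rw [finrank_span_singleton hane] at h1
    omega
  set b := y - h y a • a with hb
  have hbU : b ∈ U := U.sub_mem hy (U.smul_mem _ ha)
  have hb0 : b ≠ 0 := by
    intro h0
    apply hya
    rw [hb, sub_eq_zero] at h0
    rw [h0]; exact Submodule.smul_mem _ _ (Submodule.mem_span_singleton_self a)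
  have hba : h b a = 0 := by
    rw [hb, map_sub, map_smul, LinearMap.sub_apply, LinearMap.smul_apply, ha1, smul_eq_mul, mul_one,
      sub_self]
  have hab : h a b = 0 := H.symm_zero hba
  have hli : LinearIndependent F ![a, b] := by
    rw [LinearIndependent.pair_iff]
    intro s t hst
    have h1 : h (s • a + t • b) a = 0 := by rw [hst, map_zero, LinearMap.zero_apply]
    rw [map_add, map_smul, map_smul, LinearMap.add_apply, LinearMap.smul_apply, LinearMap.smul_apply,
      ha1, hba, smul_eq_mul, smul_eq_mul, mul_one, mul_zero, add_zero] at h1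
    rw [h1, zero_smul, zero_add] at hst
    exact ⟨h1, (smul_eq_zero.1 hst).resolve_right hb0⟩
  have hbb : h b b ≠ 0 := by
    intro h0
    apply hb0
    apply hU b hbU
    intro w hw
    obtain ⟨s, t, rfl⟩ := span_two hr ha hbU hli hw
    rw [map_add, LinearMap.map_smulₛₗ, LinearMap.map_smulₛₗ, hba, h0]; simp
  have hb1 := hself b hbb
  refine ⟨a, ha, b, hbU, ha1, hb1, hab, fun x hx hxx => ?_⟩
  obtain ⟨s, t, rfl⟩ := span_two hr ha hbU hli hx
  by_cases hs : s = 0
  · right; exact ⟨t, by rw [hs, zero_smul, zero_add]⟩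
  by_cases ht : t = 0
  · left; exact ⟨s, by rw [ht, zero_smul, add_zero]⟩
  exfalso
  apply hxx
  simp only [map_add, map_smul, LinearMap.map_smulₛₗ, LinearMap.add_apply, LinearMap.smul_apply, ha1,
    hb1, hab, hba, smul_eq_mul]
  linear_combination hN s hs + hN t ht + h2

theorem not_max [FiniteDimensional F V] (H : IsSkew h) (hN : ∀ a : F, a ≠ 0 → a * σ a = 1)
    (hfix : ∀ b : F, σ b = b → b = 0 ∨ b = 1) (h2 : (2 : F) = 0) {ι : Type*}
    {D : ι → Submodule F V} (hnd : ∀ i, ∀ v ∈ D i, (∀ w ∈ D i, h v w = 0) → v = 0)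
    (horth : ∀ i j, i ≠ j → ∀ u ∈ D i, ∀ v ∈ D j, h u v = 0)
    (hr : ∀ i, finrank F (D i) = 2) {i j : ι} (hij : i ≠ j) :
    (∃ g ∈ SU h, (∀ v, (∃ l, v ∈ D l ∧ h v v ≠ 0) → ∃ l, g v ∈ D l ∧ h (g v) (g v) ≠ 0) ∧
      (∀ v, (∃ l, g v ∈ D l ∧ h (g v) (g v) ≠ 0) → ∃ l, v ∈ D l ∧ h v v ≠ 0) ∧
      ∀ l, ¬ ∀ x ∈ D i, g x ∈ D l) ∧
      ∃ g ∈ SU h, ∃ v, (∃ l, v ∈ D l ∧ h v v ≠ 0) ∧ ∀ l, g v ∉ D l := by
  obtain ⟨a, ha, b, hb, haa, hbb, hab, hframe⟩ := frame H hN hfix h2 (hnd i) (hr i)
  obtain ⟨c, hc, d, hd, hcc, hdd, hcd, hframe'⟩ := frame H hN hfix h2 (hnd j) (hr j)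
  have hac := horth i j hij a ha c hc
  have had := horth i j hij a ha d hd
  have hbc := horth i j hij b hb c hc
  have hbd := horth i j hij b hb d hd
  have hca := H.symm_zero hac
  have hda := H.symm_zero had
  have hcb := H.symm_zero hbc
  have hdb := H.symm_zero hbd
  have hba := H.symm_zero hab
  have hdc := H.symm_zero hcd
  have hdbl : ∀ v : V, v + v = 0 := fun v => by rw [← two_smul F, h2, zero_smul]
  have h1 : (1 : F) ≠ 0 := one_ne_zero
  constructor
  · have hz : h (a + c) (a + c) = 0 := by
      simp only [map_add, LinearMap.add_apply, haa, hcc, hac, hca]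
      linear_combination h2
    have hg := tr_mem_SU H hz (map_one σ)
    have hgx : ∀ x, rf h (a + c) 1 x = x + h x (a + c) • (a + c) := by
      intro x
      rw [rf_apply (tr_good hz (map_one σ)), one_mul]
    have hgi := (mem_SU.1 hg).1
    have hga : rf h (a + c) 1 a = c := by
      rw [hgx, map_add, haa, hac, add_zero, one_smul, ← add_assoc, hdbl, zero_add]
    have hgc : rf h (a + c) 1 c = a := by
      rw [hgx, map_add, hca, hcc, zero_add, one_smul, add_comm a c, ← add_assoc, hdbl, zero_add]
    have hgb : rf h (a + c) 1 b = b := by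
      rw [hgx, map_add, hba, hbc, add_zero, zero_smul, add_zero]
    have hgd : rf h (a + c) 1 d = d := by
      rw [hgx, map_add, hda, hdc, add_zero, zero_smul, add_zero]
    have key : ∀ v, (∃ l, v ∈ D l ∧ h v v ≠ 0) → ∃ l, rf h (a + c) 1 v ∈ D l ∧
        h (rf h (a + c) 1 v) (rf h (a + c) 1 v) ≠ 0 := by
      rintro v ⟨l, hl, hv⟩
      have hvv : h (rf h (a + c) 1 v) (rf h (a + c) 1 v) ≠ 0 := by rw [hgi]; exact hv
      by_cases hli : l = i
      · subst hli
        rcases hframe v hl hv with ⟨α, rfl⟩ | ⟨β, rfl⟩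
        · exact ⟨j, by rw [map_smul, hga]; exact (D j).smul_mem _ hc, hvv⟩
        · exact ⟨l, by rw [map_smul, hgb]; exact (D l).smul_mem _ hb, hvv⟩
      · by_cases hlj : l = j
        · subst hlj
          rcases hframe' v hl hv with ⟨α, rfl⟩ | ⟨β, rfl⟩
          · exact ⟨i, by rw [map_smul, hgc]; exact (D i).smul_mem _ ha, hvv⟩
          · exact ⟨l, by rw [map_smul, hgd]; exact (D l).smul_mem _ hd, hvv⟩
        · refine ⟨l, ?_, hvv⟩
          rw [hgx, map_add, horth l i hli v hl a ha, horth l j hlj v hl c hc, add_zero, zero_smul,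
            add_zero]
          exact hl
    have hgg : ∀ x, rf h (a + c) 1 (rf h (a + c) 1 x) = x := by
      intro x
      have e1 : h (rf h (a + c) 1 x) (a + c) = h x (a + c) := by
        have e0 : h (x + h x (a + c) • (a + c)) = h x + h x (a + c) • h (a + c) := by
          rw [map_add h x, map_smul]
        rw [hgx, e0, LinearMap.add_apply, LinearMap.smul_apply, hz, smul_zero, add_zero]
      rw [hgx (rf h (a + c) 1 x), e1, hgx, add_assoc, ← add_smul]
      have e2 : h x (a + c) + h x (a + c) = 0 := by linear_combination (h x (a + c)) * h2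
      rw [e2, zero_smul, add_zero]
    refine ⟨rf h (a + c) 1, hg, key, fun v hv => ?_, fun l hl => ?_⟩
    · have := key _ hv
      rwa [hgg] at this
    · have e1 := hl a ha
      have e2 := hl b hb
      rw [hga] at e1
      rw [hgb] at e2
      have e3 : l = j := by
        by_contra hne
        have := horth l j hne c e1 c hc
        rw [hcc] at this
        exact h1 this
      have e4 : l = i := by
        by_contra hne
        have := horth l i hne b e2 b hb
        rw [hbb] at this
        exact h1 this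
      exact hij (e4.symm.trans e3)
  · have hz : h (a + b + c + d) (a + b + c + d) = 0 := by
      simp only [map_add, LinearMap.add_apply, haa, hbb, hcc, hdd, hac, hca, hab, hba, had, hda, hbc, hcb,
        hbd, hdb, hcd, hdc]
      linear_combination 2 * h2
    have hg := tr_mem_SU H hz (map_one σ)
    refine ⟨rf h (a + b + c + d) 1, hg, a, ⟨i, ha, by rw [haa]; exact h1⟩, fun l hl => ?_⟩
    have e1 : rf h (a + b + c + d) 1 a = b + c + d := by
      rw [rf_apply (tr_good hz (map_one σ)), one_mul, map_add, map_add, map_add, haa, hab, hac, had]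
      simp only [add_zero, one_smul]
      calc a + (a + b + c + d) = (a + a) + (b + c + d) := by abel
        _ = b + c + d := by rw [hdbl, zero_add]
    rw [e1] at hl
    by_cases hli : l = i
    · subst hli
      have := horth l j hij _ hl c hc
      rw [map_add, map_add, LinearMap.add_apply, LinearMap.add_apply, hbc, hcc, hdc] at this
      apply h1
      linear_combination this
    · have := horth l i hli _ hl b hb
      rw [map_add, map_add, LinearMap.add_apply, LinearMap.add_apply, hbb, hcb, hdb] at this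
      apply h1
      linear_combination this

end H95.NmU2
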