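import Mathlib
import Cfsg.Agent.Lib.H7.Tens3
import Cfsg.Agent.Lib.H95.SpBasic
import Cfsg.Agent.Lib.H95.NmU2

set_option autoImplicit false

/-!
Non-maximal stabilisers of tensor decompositions in symplectic and unitary groups over small fields.
-/

namespace H95.NmTens

open Module H7.Tens3 H7.ONonmax

variable {F V V1 V2 : Type*} [Field F] [AddCommGroup V] [Module F V] [AddCommGroup V1] [Module F V1]
  [AddCommGroup V2] [Module F V2] {τ : V1 →ₗ[F] V2 →ₗ[F] V}

/-- the union of the members -/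
def ST (A : Set V1) (τ : V1 →ₗ[F] V2 →ₗ[F] V) : Set V := {x | ∃ a ∈ A, ∃ b, x = τ a b}

/-- The pairing data. -/
structure TS (h : V → V → F) (h₁ : V1 → V1 → F) (h₂ : V2 → V2 → F) (τ : V1 →ₗ[F] V2 →ₗ[F] V)
    (c : F) : Prop where
  c0 : c ≠ 0
  pair : ∀ a b a' b', h (τ a b) (τ a' b') = c * (h₁ a a' * h₂ b b')
  add : ∀ x y z, h (x + y) z = h x z + h y z
  add₁ : ∀ x y z, h₁ (x + y) z = h₁ x z + h₁ y z
  add₁' : ∀ x y z, h₁ z (x + y) = h₁ z x + h₁ z y
  smul₁ : ∀ (k : F) x z, h₁ (k • x) z = k * h₁ x z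
  add₂ : ∀ x y z, h₂ (x + y) z = h₂ x z + h₂ y z
  smul₂ : ∀ (k : F) x z, h₂ (k • x) z = k * h₂ x z
  nd₂ : ∀ b, (∀ z, h₂ b z = 0) → b = 0

variable {h : V → V → F} {h₁ : V1 → V1 → F} {h₂ : V2 → V2 → F} {c : F}

lemma TS.zero₂ (T : TS h h₁ h₂ τ c) (z : V2) : h₂ 0 z = 0 := by
  have := T.smul₂ 0 0 z
  rwa [zero_smul, zero_mul] at this

lemma TS.sub₂ (T : TS h h₁ h₂ τ c) (x y z : V2) : h₂ (x - y) z = h₂ x z - h₂ y z := by
  have h1 : x - y = x + (-1 : F) • y := by module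
  rw [h1, T.add₂, T.smul₂]; ring

lemma nonpure (T : TS h h₁ h₂ τ c) {x y : V1} (hx : h₁ x x ≠ 0) (hy : h₁ y y ≠ 0)
    (hxy : h₁ x y = 0) (hyx : h₁ y x = 0) {b b' b'' : V2} {a'' : V1} (hb : b ≠ 0)
    (he : τ x b + τ y b' = τ a'' b'') : ∃ μ : F, b' = μ • b := by
  have h1 : h₁ x x • b = h₁ a'' x • b'' := by
    rw [← sub_eq_zero]
    apply T.nd₂
    intro z
    have h3 : h (τ x b + τ y b') (τ x z) = h (τ a'' b'') (τ x z) := by rw [he]
    rw [T.add, T.pair, T.pair, T.pair, hyx, zero_mul, mul_zero, add_zero] at h3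
    rw [T.sub₂, T.smul₂, T.smul₂, mul_left_cancel₀ T.c0 h3, sub_self]
  have h1' : h₁ y y • b' = h₁ a'' y • b'' := by
    rw [← sub_eq_zero]
    apply T.nd₂
    intro z
    have h3 : h (τ x b + τ y b') (τ y z) = h (τ a'' b'') (τ y z) := by rw [he]
    rw [T.add, T.pair, T.pair, T.pair, hxy, zero_mul, mul_zero, zero_add] at h3
    rw [T.sub₂, T.smul₂, T.smul₂, mul_left_cancel₀ T.c0 h3, sub_self]
  have hk : h₁ a'' x ≠ 0 := by
    intro h0
    rw [h0, zero_smul, smul_eq_zero] at h1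
    exact (h1.resolve_left hx) |> hb
  refine ⟨(h₁ y y)⁻¹ * h₁ a'' y * ((h₁ a'' x)⁻¹ * h₁ x x), ?_⟩
  rw [mul_smul, mul_smul, mul_smul _ (h₁ x x) b, h1, inv_smul_smul₀ hk, ← h1', inv_smul_smul₀ hy]

/-- the common part -/
theorem common (T : TS h h₁ h₂ τ c) {G : Subgroup (V ≃ₗ[F] V)} {A : Set V1} {x y : V1} (hxA : x ∈ A)
    (hx : h₁ x x ≠ 0) (hy : h₁ y y ≠ 0) (hxy : h₁ x y = 0) (hyx : h₁ y x = 0)
    (hA : ∀ a ∈ A, (∃ α : F, a = α • x) ∨ h₁ a x = 0) {b b0 : V2} (hb0 : b0 ≠ 0) (hb00 : h₂ b0 b0 = 0)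
    (hb : h₂ b b0 ≠ 0)
    (hG : ∀ a : V1, ∃ g ∈ G, ∃ k : F, k ≠ 0 ∧ ∀ v, g v = v + (k * h v (τ a b0)) • τ a b0)
    (hpure : ∀ g ∈ G, PureP τ g → ∀ v ∈ ST A τ, g v ∈ ST A τ) :
    (∀ g ∈ G, PureP τ g → g ∈ setStab F (ST A τ)) ∧ (∃ g ∈ G, g ∈ setStab F (ST A τ) ∧ ¬ PureP τ g) ∧
      (∃ g ∈ G, g ∉ setStab F (ST A τ)) := by
  have hbne : b ≠ 0 := by rintro rfl; exact hb (T.zero₂ b0)
  -- no proportionality
  have hindep : ∀ K : F, K ≠ 0 → ∀ μ : F, b + K • b0 ≠ μ • b := by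
    intro K hK μ he
    have h1 : h₂ (b + K • b0) b0 = h₂ (μ • b) b0 := by rw [he]
    rw [T.add₂, T.smul₂, T.smul₂, hb00, mul_zero, add_zero] at h1
    have h2 : μ = 1 := by
      apply mul_right_cancel₀ hb
      rw [one_mul]; exact h1.symm
    rw [h2, one_smul, add_eq_left, smul_eq_zero] at he
    exact he.elim hK hb0
  refine ⟨fun g hg hp v => ⟨fun hv => hpure g hg hp v hv, fun hv => ?_⟩, ?_, ?_⟩
  · have := hpure g⁻¹ (G.inv_mem hg) hp.inv _ hv
    rwa [show g⁻¹ (g v) = v from g.symm_apply_apply v] at this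
  · obtain ⟨g, hg, k, hk, hgv⟩ := hG x
    have hstep : ∀ k' : F, ∀ v ∈ ST A τ, v + (k' * h v (τ x b0)) • τ x b0 ∈ ST A τ := by
      rintro k' v ⟨a, ha, d, rfl⟩
      rcases hA a ha with ⟨α, rfl⟩ | h0
      · refine ⟨x, hxA, α • d + (k' * h (τ (α • x) d) (τ x b0)) • b0, ?_⟩
        rw [map_add, map_smul, map_smul, map_smul, LinearMap.smul_apply]
      · rw [T.pair, h0, zero_mul, mul_zero, mul_zero, zero_smul, add_zero]
        exact ⟨a, ha, d, rfl⟩
    refine ⟨g, hg, fun v => ⟨fun hv => by rw [hgv]; exact hstep k v hv, fun hv => ?_⟩, ?_⟩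
    · have h1 := hstep (-k) _ hv
      have h2 : h (g v) (τ x b0) = h v (τ x b0) := by
        rw [hgv, T.add]
        have h3 : (k * h v (τ x b0)) • τ x b0 = τ x ((k * h v (τ x b0)) • b0) := by rw [map_smul]
        rw [h3, T.pair, T.smul₂, hb00]; ring
      rw [h2, hgv] at h1
      have h4 : v + (k * h v (τ x b0)) • τ x b0 + (-k * h v (τ x b0)) • τ x b0 = v := by module
      rwa [h4] at h1
    · rintro ⟨α, β, hp⟩
      have e1 := hp (x + y) b
      rw [hgv] at e1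
      set K := k * h (τ (x + y) b) (τ x b0) with hKd
      have hK : K ≠ 0 := by
        rw [hKd, T.pair, T.add₁, hyx, add_zero]
        exact mul_ne_zero hk (mul_ne_zero T.c0 (mul_ne_zero hx hb))
      have e2 : τ y b + τ x (b + K • b0) = τ (α (x + y)) (β b) := by
        rw [← e1, map_add, map_add, map_smul, LinearMap.add_apply]; abel
      obtain ⟨μ, hμ⟩ := nonpure T hy hx hyx hxy hbne e2
      exact hindep K hK μ hμ
  · obtain ⟨g, hg, k, hk, hgv⟩ := hG (x + y)
    refine ⟨g, hg, fun hgS => ?_⟩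
    obtain ⟨a'', -, b'', e1⟩ := (hgS (τ x b)).1 ⟨x, hxA, b, rfl⟩
    rw [hgv] at e1
    set K := k * h (τ x b) (τ (x + y) b0) with hKd
    have hK : K ≠ 0 := by
      rw [hKd, T.pair, T.add₁', hxy, add_zero]
      exact mul_ne_zero hk (mul_ne_zero T.c0 (mul_ne_zero hx hb))
    have e2 : τ x (b + K • b0) + τ y (K • b0) = τ a'' b'' := by
      rw [← e1, map_add, map_add, map_smul, map_smul, LinearMap.add_apply, smul_add]; abel
    have hne : b + K • b0 ≠ 0 := by
      intro h0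
      have := hindep K hK 0
      rw [zero_smul] at this
      exact this h0
    obtain ⟨μ, hμ⟩ := nonpure T hx hy hxy hyx hne e2
    have h5 : h₂ (K • b0) b0 = h₂ (μ • (b + K • b0)) b0 := by rw [← hμ]
    rw [T.smul₂, T.smul₂, T.add₂, T.smul₂, hb00, mul_zero, add_zero] at h5
    have h6 : μ = 0 := (mul_eq_zero.1 h5.symm).resolve_right hb
    rw [h6, zero_smul, smul_eq_zero] at hμ
    exact hμ.elim hK hb0

/-- an isometry acting as a pure tensor product preserves orthogonality in the first factor -/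
lemma orth_of_pure (T : TS h h₁ h₂ τ c) {g : V ≃ₗ[F] V} (hg : ∀ x y, h (g x) (g y) = h x y)
    {α : V1 ≃ₗ[F] V1} {β : V2 ≃ₗ[F] V2} (hp : ∀ a b, g (τ a b) = τ (α a) (β b))
    (nt : ∃ b b', h₂ b b' ≠ 0) {a a' : V1} : h₁ (α a) (α a') = 0 → h₁ a a' = 0 := by
  intro h0
  obtain ⟨b, b', hb⟩ := nt
  have h1 := hg (τ a b) (τ a' b')
  rw [hp, hp, T.pair, T.pair, h0, zero_mul, mul_zero] at h1
  have h4 := (mul_eq_zero.1 h1.symm).resolve_left T.c0
  exact (mul_eq_zero.1 h4).resolve_right hb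

section Sp3

open QuadraticMap H48.QuadSplit H95.OGeo H7.OA

/-- the three-dimensional factor over the field with three elements -/
lemma three [Finite F] [FiniteDimensional F V1] {Q1 : QuadraticForm F V1}
    (hF : ∀ a : F, a = 0 ∨ a = 1 ∨ a = -1) (h3 : (3 : F) = 0) (nd1 : ND Q1) (hd1 : finrank F V1 = 3) :
    ∃ x y : V1, x ∈ AA Q1 ∧ polar Q1 x x ≠ 0 ∧ polar Q1 y y ≠ 0 ∧ polar Q1 x y = 0 ∧
      polar Q1 y x = 0 ∧ ∀ a ∈ AA Q1, (∃ α : F, a = α • x) ∨ polar Q1 a x = 0 := by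
  have h2 : (2 : F) ≠ 0 := by
    intro h; apply one_ne_zero (α := F); linear_combination h3 - h
  obtain ⟨a0, ha0, x, -, y, -, z, -, qx, qy, qz, pxy, pxz, pyz⟩ :=
    frame3 (Q := Q1) (W := ⊤) hF h3 (fun v _ hv => nd1 v fun w => hv w Submodule.mem_top) (by rw [finrank_top, hd1])
  have h2a : 2 * a0 ≠ 0 := mul_ne_zero h2 ha0
  have pyx : polar Q1 y x = 0 := by rw [p_comm]; exact pxy
  have pzx : polar Q1 z x = 0 := by rw [p_comm]; exact pxz
  have pzy : polar Q1 z y = 0 := by rw [p_comm]; exact pyz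
  have hli : LinearIndependent F ![x, y, z] := by
    apply li_of_dual (Q := Q1) (y := ![x, y, z]) (d := fun _ => 2 * a0) (fun _ => h2a)
    intro i j
    fin_cases i <;> fin_cases j <;> simp [qx, qy, qz, pxy, pxz, pyz, pyx, pzx, pzy]
  have hcomb : ∀ v : V1, ∃ a b c : F, v = a • x + b • y + c • z := by
    intro v
    obtain ⟨d, hd⟩ := mem_comb (W := ⊤) hli (fun _ => Submodule.mem_top) (by rw [finrank_top, hd1])
      (w := v) Submodule.mem_top
    exact ⟨d 0, d 1, d 2, by rw [← hd, Fin.sum_univ_three]; rfl⟩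
  have hQc : ∀ a b c : F, Q1 (a • x + b • y + c • z) = a0 * (a * a + b * b + c * c) := by
    intro a b c
    simp only [Q_add, Q_smul, p_add, p_smul, p_smul', qx, qy, qz, pxy, pxz, pyz]; ring
  have hPc : ∀ a b c a' b' c' : F, polar Q1 (a • x + b • y + c • z) (a' • x + b' • y + c' • z) =
      2 * a0 * (a * a' + b * b' + c * c') := by
    intro a b c a' b' c'
    simp only [p_add, p_add', p_smul, p_smul', p_self, qx, qy, qz, pxy, pxz, pyz, pyx, pzx, pzy]; ring
  have hz0 : ∀ a b c : F, a • x + b • y + c • z = 0 → a = 0 ∧ b = 0 ∧ c = 0 := by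
    intro a b c h
    have e1 := hPc a b c 1 0 0
    have e2 := hPc a b c 0 1 0
    have e3 := hPc a b c 0 0 1
    rw [h, p_zero] at e1 e2 e3
    refine ⟨?_, ?_, ?_⟩
    · exact (mul_eq_zero.1 (show 2 * a0 * a = 0 by linear_combination -e1)).resolve_left h2a
    · exact (mul_eq_zero.1 (show 2 * a0 * b = 0 by linear_combination -e2)).resolve_left h2a
    · exact (mul_eq_zero.1 (show 2 * a0 * c = 0 by linear_combination -e3)).resolve_left h2a
  have hAx : x ∈ AA Q1 := by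
    refine ⟨by rintro rfl; rw [QuadraticMap.map_zero] at qx; exact ha0 qx.symm, fun v hv hq => ?_⟩
    obtain ⟨a, b, c, rfl⟩ := hcomb v
    have e1 := hPc 1 0 0 a b c
    simp only [one_smul, zero_smul, add_zero] at e1
    rw [hv] at e1
    have ha : a = 0 := (mul_eq_zero.1 (show 2 * a0 * a = 0 by linear_combination -e1)).resolve_left h2a
    rw [hQc] at hq
    have h4 := (mul_eq_zero.1 hq).resolve_left ha0
    subst ha
    rcases hF b with rfl | rfl | rfl <;> rcases hF c with rfl | rfl | rfl <;>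
      first
      | (simp; done)
      | (exfalso; apply one_ne_zero (α := F); linear_combination h4; done)
      | (exfalso; apply one_ne_zero (α := F); linear_combination h3 - h4; done)
  have hA : ∀ v ∈ AA Q1, (∃ α : F, v = α • x) ∨ (polar Q1 v x = 0) := by
    rintro v ⟨hv0, hv⟩
    obtain ⟨a, b, c, rfl⟩ := hcomb v
    have e1 := hPc a b c 1 0 0
    simp only [one_smul, zero_smul, add_zero] at e1
    by_cases ha : a = 0
    · right; rw [e1, ha]; ring
    have haa : a * a = 1 := by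
      rcases hF a with rfl | rfl | rfl
      · exact absurd rfl ha
      · ring
      · ring
    have hsq : ∀ t : F, t ≠ 0 → t * t = 1 := by
      intro t ht
      rcases hF t with rfl | rfl | rfl
      · exact absurd rfl ht
      · ring
      · ring
    have hb : b = 0 := by
      by_contra hb
      by_cases hc0 : c = 0
      · have h5 := hz0 _ _ _ (hv (b • x + (-a) • y + (1 : F) • z) (by rw [hPc, hc0]; ring)
          (by rw [hQc]; linear_combination a0 * hsq b hb + a0 * haa + a0 * h3))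
        exact one_ne_zero h5.2.2
      · have h5 := hz0 _ _ _ (hv (a • x + b • y + c • z)
          (by rw [hPc]; linear_combination 2 * a0 * hsq b hb + 2 * a0 * haa + 2 * a0 * hsq c hc0 + 2 * a0 * h3)
          (by rw [hQc]; linear_combination a0 * hsq b hb + a0 * haa + a0 * hsq c hc0 + a0 * h3))
        exact ha h5.1
    have hc : c = 0 := by
      by_contra hc0
      have h5 := hz0 _ _ _ (hv (c • x + (1 : F) • y + (-a) • z) (by rw [hPc, hb]; ring)
          (by rw [hQc]; linear_combination a0 * hsq c hc0 + a0 * haa + a0 * h3))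
      exact one_ne_zero h5.2.1
    left
    exact ⟨a, by rw [hb, hc]; simp⟩
  refine ⟨x, y, hAx, ?_, ?_, pxy, pyx, hA⟩
  · rw [p_self, qx]; exact h2a
  · rw [p_self, qy]; exact h2a

end Sp3

end H95.NmTens
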