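import Mathlib
import Cfsg.Agent.Lib.H95.NmTens
import Cfsg.Agent.Lib.H95.UBridge
import Cfsg.Agent.Lib.H7.Tens

set_option autoImplicit false

/-!
Unitary forms as sesquilinear maps; the tensor decompositions of unitary forms.
-/

namespace H95.NmTensU

open Module Cfsg Cfsg.Geo H95.Bridge H95.UBridge H7.Tens
open scoped Matrix MatrixGroups Kronecker

variable {F : Type*} [Field F] {κ : Type} [Fintype κ] [DecidableEq κ]

/-- a unitary form as a sesquilinear map -/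
def sesq {q : ℕ} {σ : F →+* F} (hσ : ∀ a, σ a = a ^ q) (f : (κ → F) → (κ → F) → F)
    (hf : IsUnitaryFormPow q f) : (κ → F) →ₗ[F] (κ → F) →ₛₗ[σ] F :=
  LinearMap.mk₂'ₛₗ (RingHom.id F) σ f (fun u u' v => hf.add_left u u' v)
    (fun c u v => by rw [hf.smul_left]; rfl)
    (fun u v v' => by rw [hf.herm u, hf.add_left, ← hσ, map_add, hσ, hσ, ← hf.herm, ← hf.herm])
    (fun c u v => by rw [hf.herm u, hf.smul_left, ← hσ, map_mul, hσ (f v u), ← hf.herm]; rfl)

omit [Fintype κ] [DecidableEq κ] in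
lemma sesq_apply {q : ℕ} {σ : F →+* F} (hσ : ∀ a, σ a = a ^ q) (f : (κ → F) → (κ → F) → F)
    (hf : IsUnitaryFormPow q f) (u v : κ → F) : sesq hσ f hf u v = f u v := rfl

lemma uni_expand {q : ℕ} {σ : F →+* F} (hσ : ∀ a, σ a = a ^ q) (f : (κ → F) → (κ → F) → F)
    (hf : IsUnitaryFormPow q f) (x y : κ → F) :
    f x y = ∑ i, ∑ j, x i * gramMatrix f i j * (y j) ^ q := by
  have hexp : ∀ z : κ → F, z = ∑ i, z i • (Pi.single i 1 : κ → F) := by
    intro z; funext j; simp [Finset.sum_apply, Pi.single_apply]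
  have h1 : f x y = sesq hσ f hf (∑ i, x i • (Pi.single i 1 : κ → F))
      (∑ j, y j • (Pi.single j 1 : κ → F)) := by
    rw [← hexp, ← hexp]; rfl
  rw [h1]
  rw [map_sum (sesq hσ f hf) (fun i => x i • (Pi.single i 1 : κ → F)), LinearMap.sum_apply]
  refine Finset.sum_congr rfl fun i _ => ?_
  rw [map_sum]
  refine Finset.sum_congr rfl fun j _ => ?_
  show f (x i • (Pi.single i 1 : κ → F)) (y j • (Pi.single j 1 : κ → F)) =
    x i * f (Pi.single i 1) (Pi.single j 1) * y j ^ q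
  rw [hf.smul_left, hf.herm _ (y j • _), hf.smul_left, mul_pow, ← hf.herm]
  ring

variable {ι : Type} [Fintype ι] [DecidableEq ι] {n₁ n₂ : ℕ}

theorem form_tau_u {q : ℕ} {σ : F →+* F} (hσ : ∀ a, σ a = a ^ q) {f : (ι → F) → (ι → F) → F}
    {f₁ : (Fin n₁ → F) → (Fin n₁ → F) → F}
    {f₂ : (Fin n₂ → F) → (Fin n₂ → F) → F} (h1 : IsUnitaryFormPow q f₁) (h2 : IsUnitaryFormPow q f₂)
    {e : ι ≃ Fin n₁ × Fin n₂} {P : GL ι F}
    (hT : IsTensorFormStructure (fun x : F => x ^ q) f f₁ f₂ e P) :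
    ∃ c : F, c ≠ 0 ∧ ∀ a b a' b', f (tau e P a b) (tau e P a' b') = c * (f₁ a a' * f₂ b b') := by
  obtain ⟨c, hc, h⟩ := hT
  refine ⟨c, hc, fun a b a' b' => ?_⟩
  rw [tau_apply, tau_apply, h, uni_expand hσ f₁ h1, uni_expand hσ f₂ h2]
  congr 1
  unfold formOfGram
  rw [Finset.sum_mul_sum, Fintype.sum_prod_type]
  refine Finset.sum_congr rfl fun i _ => Finset.sum_congr rfl fun k _ => ?_
  rw [Finset.sum_mul_sum, Fintype.sum_prod_type]
  refine Finset.sum_congr rfl fun j _ => Finset.sum_congr rfl fun l _ => ?_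
  simp only [Matrix.kroneckerMap_apply, mul_pow]
  ring

end H95.NmTensU
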