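import Cfsg.Agent.Lib.H7.ExtO4
import Cfsg.Agent.Lib.H7.ExtOBr
import Cfsg.Agent.Lib.H7.ExtBr
import Cfsg.Agent.Lib.H95.OBridge

set_option autoImplicit false
set_option linter.unusedSectionVars false

/-!
Overgroups of orthogonal groups over an extension field of prime degree: dimension six over a quadratic
extension.
-/

namespace H95.O12Ext

open Module QuadraticMap H48.QuadSplit H95.OGeo H17.OrthAbs H95.OSie H7.OLow H7.ExtF H7.ExtO
open scoped commutatorElement

variable {F K V : Type*} [Field F] [Field K] [Algebra F K] [AddCommGroup V] [Module F V] [Module K V]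
  [IsScalarTower F K V]
variable {R : QuadraticForm K V} {l0 : K →ₗ[F] F} {Q : QuadraticForm F V}
variable [FiniteDimensional K V]

lemma exists_x1 (h : OE R l0 Q) [Finite K] (h2 : (2 : K) ≠ 0) (hn : 6 ≤ finrank K V)
    {v : V} (hv : R v = 0) (hv0 : v ≠ 0) {w : V} (hwv : polar R w v = 0) (hwL : w ∉ ln F K v) :
    ∃ x1, R x1 = 0 ∧ polar R x1 v = 0 ∧ polar R x1 w = 1 := by
  have hvw : polar R v w = 0 := by rw [p_comm, hwv]
  by_cases hw : R w = 0
  · obtain ⟨y0, y1, y2⟩ := h.val2 hv0 hwL 0 1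
    refine ⟨y0 - R y0 • w, ?_, ?_, ?_⟩
    · rw [Q_sub, Q_smul, p_smul', hw, y2]; ring
    · rw [p_sub, p_smul, y1, hwv]; ring
    · rw [p_sub, p_smul, y2, p_self, hw]; ring
  obtain ⟨y0, y1, y2⟩ := h.val2 hv0 hwL 1 0
  obtain ⟨v', hv'⟩ : ∃ v', v' = y0 - R y0 • v := ⟨_, rfl⟩
  have a1 : R v' = 0 := by rw [hv', Q_sub, Q_smul, p_smul', hv, y1]; ring
  have a2 : polar R v' v = 1 := by rw [hv', p_sub, p_smul, y1, p_self, hv]; ring
  have a3 : polar R v' w = 0 := by rw [hv', p_sub, p_smul, y2, hvw]; ring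
  have a4 : polar R v v' = 1 := by rw [p_comm, a2]
  have a5 : polar R w v' = 0 := by rw [p_comm, a3]
  obtain ⟨f1, b1, b2, b3, b4⟩ := ns3 h.nd h2 (by omega) hv (w := v') (by rw [a4]; exact one_ne_zero) hw hwv a5
  obtain ⟨f2, hf2, c4⟩ := exists_ns h.nd (S := Submodule.span K (Set.range ![v, v', w, f1])) (by
    intro hle
    have h3 := finrank_orth h.nd (Submodule.span K (Set.range ![v, v', w, f1]))
    have h4 := finrank_range_le (F := K) ![v, v', w, f1]
    have h5 : orth R (Submodule.span K (Set.range ![v, v', w, f1])) = ⊥ := by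
      rw [Submodule.eq_bot_iff]
      intro x hx
      have hx' := hle hx
      rw [mem_orth_range] at hx
      rw [Submodule.mem_span_range_iff_exists_fun] at hx'
      obtain ⟨c, hc⟩ := hx'
      rw [Fin.sum_univ_four] at hc
      have hc' : x = c 0 • v + c 1 • v' + c 2 • w + c 3 • f1 := hc.symm
      have x1 : polar R x v = 0 := hx 0
      have x2 : polar R x v' = 0 := hx 1
      have x3 : polar R x w = 0 := hx 2
      have x4 : polar R x f1 = 0 := hx 3
      have k1 : c 1 = 0 := by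
        rw [hc', p_add, p_add, p_add, p_smul, p_smul, p_smul, p_smul, p_self, hv, a2, hwv, b1] at x1
        linear_combination x1
      have k0 : c 0 = 0 := by
        rw [hc', p_add, p_add, p_add, p_smul, p_smul, p_smul, p_smul, p_self, a1, a4, a5, b2] at x2
        linear_combination x2
      have k2 : c 2 = 0 := by
        rw [hc', p_add, p_add, p_add, p_smul, p_smul, p_smul, p_smul, p_self, hvw, a3, b3] at x3
        have : c 2 * (2 * R w) = 0 := by linear_combination x3
        exact (mul_eq_zero.1 this).resolve_right (mul_ne_zero h2 hw)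
      have k3 : c 3 = 0 := by
        rw [hc', p_add, p_add, p_add, p_smul, p_smul, p_smul, p_smul, p_self, p_comm R v f1, b1, p_comm R v' f1,
          b2, p_comm R w f1, b3] at x4
        have : c 3 * (2 * R f1) = 0 := by linear_combination x4
        exact (mul_eq_zero.1 this).resolve_right (mul_ne_zero h2 b4)
      rw [hc', k0, k1, k2, k3, zero_smul, zero_smul, zero_smul, zero_smul, add_zero, add_zero, add_zero]
    rw [h5, finrank_bot] at h3
    omega)
  rw [mem_orth_range] at hf2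
  have c1 : polar R f2 v = 0 := hf2 0
  have c3 : polar R f2 w = 0 := hf2 2
  have c5 : polar R f2 f1 = 0 := hf2 3
  obtain ⟨a, ha⟩ : ∃ a, a = (2 * R w)⁻¹ := ⟨_, rfl⟩
  have ha' : a * (2 * R w) = 1 := by rw [ha, inv_mul_cancel₀ (mul_ne_zero h2 hw)]
  obtain ⟨s, t, hst⟩ := two_reps h2 b4 c4 (-(a * a * R w))
  obtain ⟨p, hp⟩ : ∃ p, p = s • f1 + t • f2 := ⟨_, rfl⟩
  have p1 : polar R p v = 0 := by rw [hp, p_add, p_smul, p_smul, b1, c1]; ring
  have p2 : polar R p w = 0 := by rw [hp, p_add, p_smul, p_smul, b3, c3]; ring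
  have p3 : R p = -(a * a * R w) := by
    rw [hp, Q_add, Q_smul, Q_smul, p_smul, p_smul', p_comm R f1 f2, c5, mul_zero, mul_zero, add_zero, hst]
  refine ⟨a • w + p, ?_, ?_, ?_⟩
  · rw [Q_add, Q_smul, p_smul, p_comm R w p, p2, p3]; ring
  · rw [p_add, p_smul, hwv, p1]; ring
  · rw [p_add, p_smul, p_self, p2, ha']; ring

/-- the perpendicular space, large dimension -/
lemma perp6 (h : OE R l0 Q) [Finite K] (h2 : (2 : K) ≠ 0) (hn : 6 ≤ finrank K V)
    {M : Subgroup (V ≃ₗ[F] V)} (hHM : HK F R ≤ M) (hMO : M ≤ O Q) {v : V}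
    (hv : R v = 0) (hv0 : v ≠ 0) {w : V} (hwv : polar R w v = 0) (hwL : w ∉ ln F K v) (hw : w ∈ sg Q M (h.Qs1 hv))
    {z : V} (hz : polar R z v = 0) : z ∈ sg Q M (h.Qs1 hv) := by
  have hvw : polar R v w = 0 := by rw [p_comm, hwv]
  have key : ∀ x, R x = 0 → polar R x v = 0 → polar R w x ≠ 0 → ∀ y, polar R y v = 0 → polar R y x = 0 →
      y ∈ sg Q M (h.Qs1 hv) := by
    intro x hx hxv hxw
    have hvx : polar R v x = 0 := by rw [p_comm, hxv]
    have hx0 : x ≠ 0 := by
      rintro rfl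
      rw [p_zero'] at hxw
      exact hxw rfl
    have hm : ∀ y, polar R y v = 0 → polar R y x = 0 → ∀ s ∈ sg Q M (h.Qs1 hv),
        S F R x y s - s ∈ sg Q M (h.Qs1 hv) := by
      intro y hyv hyx s hs
      have hxy : polar R x y = 0 := by rw [p_comm, hyx]
      have hmem := h.S_mem h2 hx hxy
      exact sg_move _ hs (hHM hmem) (h.HK_O hmem) (OE.S_fix hx hxy hvx (by rw [p_comm, hyv]))
    obtain ⟨e, e1, e2, e3⟩ : ∃ e, polar R e v = 0 ∧ polar R e x = 0 ∧ R e ≠ 0 := by
      obtain ⟨e, he, he'⟩ := exists_ns h.nd (S := Submodule.span K (Set.range ![v, x])) (by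
        intro hle
        have h1 := Submodule.finrank_mono hle
        have h3 := finrank_orth h.nd (Submodule.span K (Set.range ![v, x]))
        have h4 := finrank_range_le (F := K) ![v, x]
        omega)
      rw [mem_orth_range] at he
      exact ⟨e, he 0, he 1, he'⟩
    have e2' : polar R x e = 0 := by rw [p_comm, e2]
    have hkx : ∀ k : K, k • x ∈ sg Q M (h.Qs1 hv) := by
      intro k
      obtain ⟨y1, hy1⟩ : ∃ y1, y1 = S F R x e w - w := ⟨_, rfl⟩
      have h3 : y1 ∈ sg Q M (h.Qs1 hv) := by rw [hy1]; exact hm e e1 e2 w hw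
      have hy1' : y1 = polar R w x • e - (polar R w e + R e * polar R w x) • x := by
        rw [hy1, S_apply hx e2']; module
      have h4 : polar R y1 x = 0 := by
        rw [hy1', p_sub, p_smul, p_smul, e2, p_self, hx]; ring
      have h5 : polar R y1 e = polar R w x * (2 * R e) := by
        rw [hy1', p_sub, p_smul, p_smul, e2', p_self]; ring
      obtain ⟨μ, hμ⟩ : ∃ μ : K, μ * (polar R w x * (2 * R e)) = -k :=
        ⟨-k / (polar R w x * (2 * R e)), div_mul_cancel₀ _ (mul_ne_zero hxw (mul_ne_zero h2 e3))⟩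
      have h6 := hm (μ • e) (by rw [p_smul, e1, mul_zero]) (by rw [p_smul, e2, mul_zero]) y1 h3
      rw [S_apply hx (by rw [p_smul', e2', mul_zero]), h4, p_smul', h5, hμ] at h6
      convert h6 using 1
      module
    intro y hyv hyx
    obtain ⟨y', hy'⟩ : ∃ y', y' = (polar R w x)⁻¹ • y := ⟨_, rfl⟩
    have hy'v : polar R y' v = 0 := by rw [hy', p_smul, hyv, mul_zero]
    have hy'x : polar R y' x = 0 := by rw [hy', p_smul, hyx, mul_zero]
    have h3 := hm y' hy'v hy'x w hw
    have h4 := AddSubgroup.add_mem _ h3 (hkx (polar R w y' + R y' * polar R w x))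
    have h5 : S F R x y' w - w + (polar R w y' + R y' * polar R w x) • x = y := by
      rw [S_apply hx (by rw [p_comm, hy'x]), hy', smul_smul, mul_inv_cancel₀ hxw, one_smul]
      module
    rwa [h5] at h4
  -- two vectors
  obtain ⟨x1, a1, a3, a4⟩ := exists_x1 h h2 hn hv hv0 hwv hwL
  have hx1 : ∀ a b : K, x1 ≠ a • v + b • w := by
    intro a b hab
    have e1 := a4
    rw [hab, p_add, p_smul, p_smul, hvw, mul_zero, zero_add, p_self] at e1
    have e2 := a1
    rw [hab, Q_add, Q_smul, Q_smul, hv, p_smul, p_smul', hvw] at e2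
    have e3 : b * b * R w = 0 := by linear_combination e2
    have e4 : b * (b * (2 * R w)) = 0 := by linear_combination 2 * e3
    rw [e1, mul_one] at e4
    rw [e4, zero_mul] at e1
    exact zero_ne_one e1
  obtain ⟨e, b1, b2, b3, b4⟩ : ∃ e, polar R e v = 0 ∧ polar R e w = 0 ∧ polar R e x1 ≠ 0 ∧ R e ≠ 0 := by
    obtain ⟨u, c1, c2, c3⟩ := h.val3 hv0 hwL hx1 0 0 1
    by_cases hu : R u = 0
    swap
    · exact ⟨u, c1, c2, by rw [c3]; exact one_ne_zero, hu⟩
    obtain ⟨e0, he, he'⟩ := exists_ns h.nd (S := Submodule.span K (Set.range ![v, w])) (by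
      intro hle
      have h1 := Submodule.finrank_mono hle
      have h3 := finrank_orth h.nd (Submodule.span K (Set.range ![v, w]))
      have h4 := finrank_range_le (F := K) ![v, w]
      omega)
    rw [mem_orth_range] at he
    have d1 : polar R e0 v = 0 := he 0
    have d2 : polar R e0 w = 0 := he 1
    by_cases d3 : polar R e0 x1 = 0
    swap
    · exact ⟨e0, d1, d2, d3, he'⟩
    by_cases h4 : R (u + e0) = 0
    · refine ⟨u - e0, by rw [p_sub, c1, d1, sub_zero], by rw [p_sub, c2, d2, sub_zero],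
        by rw [p_sub, c3, d3, sub_zero]; exact one_ne_zero, fun h5 => he' ?_⟩
      rw [Q_add, hu] at h4
      rw [Q_sub, hu] at h5
      have h7 : 2 * R e0 = 0 := by linear_combination h4 + h5
      exact (mul_eq_zero.1 h7).resolve_left h2
    · exact ⟨u + e0, by rw [p_add, c1, d1, add_zero], by rw [p_add, c2, d2, add_zero],
        by rw [p_add, c3, d3, add_zero]; exact one_ne_zero, h4⟩
  obtain ⟨x2, hx2⟩ : ∃ x2, x2 = x1 - ((R e)⁻¹ * polar R e x1) • e := ⟨_, rfl⟩
  have f1 : R x2 = 0 := by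
    have : x2 = H17.OrthAbs.refl R e b4 x1 := by rw [hx2, refl_apply]
    rw [this, refl_mem_O R e b4 x1, a1]
  have f2 : polar R x2 v = 0 := by rw [hx2, p_sub, p_smul, a3, b1]; ring
  have f3 : polar R x2 w = 1 := by rw [hx2, p_sub, p_smul, a4, b2]; ring
  have f4 : polar R x2 x1 ≠ 0 := by
    rw [hx2, p_sub, p_smul, p_self, a1, mul_zero, zero_sub]
    exact neg_ne_zero.2 (mul_ne_zero (mul_ne_zero (inv_ne_zero b4) b3) b3)
  have hx1L : x1 ∉ ln F K v := by
    intro hmem
    obtain ⟨k, hk⟩ := mem_ln.1 hmem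
    rw [← hk, p_smul, hvw, mul_zero] at a4
    exact zero_ne_one a4
  have hx2L : ∀ a b : K, x2 ≠ a • v + b • x1 := by
    rintro a b hab
    apply f4
    rw [hab, p_add, p_smul, p_smul, p_comm R v x1, a3, p_self, a1]; ring
  obtain ⟨z1, g1, g2, g3⟩ := h.val3 hv0 hx1L hx2L 0 0 (polar R z x2)
  have m1 := key x1 a1 a3 (by rw [p_comm, a4]; exact one_ne_zero) z1 g1 g2
  have m2 := key x2 f1 f2 (by rw [p_comm, f3]; exact one_ne_zero) (z - z1) (by rw [p_sub, hz, g1, sub_zero])
    (by rw [p_sub, g3, sub_self])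
  have := AddSubgroup.add_mem _ m1 m2
  rwa [add_sub_cancel] at this

/-- overgroups of orthogonal groups over an extension field -/
theorem overgroup6 (h : OE R l0 Q) [Finite F] (h2 : (2 : F) ≠ 0) (hn : 4 ≤ finrank K V)
    [FiniteDimensional F V] [FiniteDimensional F K] (hr : (finrank F K).Prime)
    (hcase : 3 ≤ finrank F K ∨ 6 ≤ finrank K V) {M : Subgroup (V ≃ₗ[F] V)}
    (hHM : HK F R ≤ M) (hMO : M ≤ O Q)
    (hM : ∃ g ∈ M, ∃ x : V, ∃ k : K, g (k • x) ∉ ln F K (g x)) : ⁅O Q, O Q⁆ ≤ M := by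
  have hK : Finite K := Module.finite_of_finite F
  have h2K : (2 : K) ≠ 0 := by
    intro h0
    apply h2
    have h3 : algebraMap F K 2 = 0 := by rw [map_ofNat]; exact h0
    exact (map_eq_zero (algebraMap F K)).1 h3
  have hF3 : 3 ≤ Nat.card F := by
    by_contra hcon
    push Not at hcon
    have h3 : Nat.card F = 2 := le_antisymm (by omega) Finite.one_lt_card
    have : Fintype F := Fintype.ofFinite F
    have h4 := FiniteField.pow_card (2 : F)
    rw [← Nat.card_eq_fintype_card, h3] at h4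
    apply h2
    have h5 : (2 : F) * (2 - 1) = 0 := by linear_combination h4
    norm_num at h5
    exact h5
  have hKc : 3 < Nat.card K := by
    rw [Module.natCard_eq_pow_finrank (K := F) (V := K)]
    calc 3 < 3 ^ 2 := by norm_num
      _ ≤ Nat.card F ^ 2 := Nat.pow_le_pow_left hF3 2
      _ ≤ Nat.card F ^ finrank F K := Nat.pow_le_pow_right (by omega) hr.two_le
  have ht := exists_t hKc
  obtain ⟨v, hv, hv0, D, hD, hDr, g, hg, hgD, u, hu, hgu, hwv⟩ := h.hyper h2K hn ht hr hHM hMO hM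
  obtain ⟨ℓ, hℓ, hℓ0, hs⟩ := h.root h2K hn hHM hMO hv hv0 hD hDr hg hgD hu hgu hwv
  have hall : ∀ v' : V, R v' = 0 → ∀ k l : K, sie Q (k • v') (l • v') ∈ M := fun v' hv' k l =>
    h.allsie h2K hn hHM hv hℓ hℓ0 hs hv' k l
  have hfull : ∃ v, v ≠ 0 ∧ R v = 0 ∧ Full Q M v := by
    rcases hcase with h3 | h3
    · exact ⟨v, hv0, hv, h.full_of_perp h2K hn hHM hv hv0 (fun z hz =>
        h.perp3 h2K hHM hMO hall h3 hv hv0 hz)⟩
    · have hD0 : D ≠ ⊥ := by
        rintro rfl
        rw [finrank_bot] at hDr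
        have := hr.two_le
        omega
      obtain ⟨d, hd, hd0⟩ := (Submodule.ne_bot_iff D).1 hD0
      obtain ⟨k, hk⟩ := mem_ln.1 (hD hd)
      have hk0 : k ≠ 0 := by
        rintro rfl
        rw [zero_smul] at hk
        exact hd0 hk.symm
      have hRd : R d = 0 := by rw [← hk, Q_smul, hv, mul_zero]
      obtain ⟨l, hl⟩ := mem_ln.1 hu
      have hw : g u ∈ sg Q M (h.Qs1 hRd) := by
        have h4 : sie Q d u ∈ M := by rw [← hk, ← hl]; exact hall v hv k l
        have h5 : polar Q d u = 0 := by rw [← hk, ← hl]; exact h.Ps hv k l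
        have h6 := conj_mem' hg h4
        rw [sie_conj (h.Qs1 hRd) h5 (hMO hg), hgD d hd] at h6
        refine ⟨?_, h6⟩
        have := polar_map (hMO hg) d u
        rw [hgD d hd, h5] at this
        exact this
      have hwd : polar R (g u) d = 0 := by rw [← hk, p_smul', hwv, mul_zero]
      have hwL : g u ∉ ln F K d := by
        intro h4
        obtain ⟨m, hm⟩ := mem_ln.1 h4
        apply hgu
        rw [mem_ln]
        exact ⟨m * k, by rw [mul_smul, hk, hm]⟩
      exact ⟨d, hd0, hRd, h.full_of_perp h2K hn hHM hRd hd0 (fun z hz =>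
        perp6 h h2K h3 hHM hMO hRd hd0 hwd hwL hw hz)⟩
  obtain ⟨v, hv0, hv, hfv⟩ := hfull
  obtain ⟨v', w1, w2⟩ := h.partner hv hv0
  obtain ⟨ρ, hρ⟩ : ∃ ρ : K, l0 ρ ≠ 0 := by
    by_contra hcon
    push Not at hcon
    exact h.l00 (LinearMap.ext hcon)
  have hρ0 : ρ ≠ 0 := by
    rintro rfl
    exact hρ (map_zero _)
  have hv'0 : v' ≠ 0 := by
    rintro rfl
    rw [p_zero'] at w2
    exact zero_ne_one w2
  obtain ⟨t, ht, htv⟩ := trans_sing h.nd h2K hn hv (w := ρ • v') (by rw [Q_smul, w1, mul_zero]) hv0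
    (smul_ne_zero hρ0 hv'0)
  have hTm : rs F K V t ∈ HK F R := ⟨t, ht, rfl⟩
  have hfv' := hfv.map (hHM hTm) (h.HK_O hTm)
  rw [rs_apply, htv] at hfv'
  have hnF : 7 ≤ finrank F V := by
    rw [← Module.finrank_mul_finrank F K V]
    rcases hcase with h3 | h3
    · calc 7 ≤ 3 * 4 := by norm_num
        _ ≤ _ := Nat.mul_le_mul h3 hn
    · calc 7 ≤ 2 * 6 := by norm_num
        _ ≤ _ := Nat.mul_le_mul hr.two_le h3
  exact omega_le_of_full h.ndQ hnF hfv hfv' (by
    rw [h.smulP, p_comm R v' v, w2, mul_one]; exact hρ)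

end H95.O12Ext

namespace H95.O12Ext

open H95.Bridge Module H7.ExtF H7.ExtO H7.ExtBr H95.OGeo H17.OrthAbs H48.QuadSplit H7.OLow H95.OSie
open scoped Matrix MatrixGroups
open Cfsg

/-- extension fields, dimension twelve -/
theorem ext12 {F : Type*} [Field F] [Fintype F] {n : ℕ} (hn : n = 12) (Q : (Fin n → F) → F)
    (hQ : Cfsg.Geo.IsNondegenerateQuadraticForm Q) (hodd : Odd (Fintype.card F)) (r : ℕ) (hr : r.Prime)
    (hnr : 3 * r ≤ n) (K : Subalgebra F (Matrix (Fin n) (Fin n) F)) (hK : Cfsg.Geo.IsFieldSubalgebra r K)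
    (hsa : Cfsg.Geo.IsSelfAdjointFor (QuadraticMap.polar Q) K) :
    Cfsg.Geo.IsMaximalIn (Cfsg.Geo.omegaGL Q) (Cfsg.Geo.subalgebraNormalizer K ⊓ Cfsg.Geo.omegaGL Q) := by
  obtain ⟨Q', hQ'def, hQ'⟩ := H95.OBridge.exists_quad hQ
  subst hQ'def
  have h2 : (2 : F) ≠ 0 := H95.OBridge.two_ne hodd
  have hV : finrank F (Fin n → F) = n := by
    rw [finrank_fintype_fun_eq_card]; simp
  obtain ⟨E, i1, i2, i3, i4, φ, h1, h2', h3, hEr⟩ := exists_model hK hr.pos
  have : FiniteDimensional F E := Module.finite_of_finrank_pos (by rw [hEr]; exact hr.pos)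
  have : FiniteDimensional E (Fin n → F) := FiniteDimensional.right F E _
  have hfr := Module.finrank_mul_finrank F E (Fin n → F)
  rw [hEr, hV] at hfr
  obtain ⟨R, l0, h⟩ := exists_OE (F := F) (K := E) (V := Fin n → F) h2 hQ'
    (fun k x y => by rw [h1, h1]; exact hsa _ (h2' k) x y)
  have hr2 := hr.two_le
  have hr4 : r ≤ 4 := by omega
  have hr23 : r = 2 ∨ r = 3 := by
    have : r ≠ 4 := by
      rintro rfl
      exact absurd hr (by norm_num)
    omega
  have hk : 4 ≤ finrank E (Fin n → F) := by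
    rcases hr23 with rfl | rfl <;> omega
  have hcase : 3 ≤ finrank F E ∨ 6 ≤ finrank E (Fin n → F) := by
    rw [hEr]
    rcases hr23 with rfl | rfl <;> omega
  have hsymm : ∀ x : (Fin n → F) ≃ₗ[F] (Fin n → F), toEq (Fin n) F ((toEq _ F).symm x) = x :=
    fun x => by rw [MulEquiv.apply_symm_apply]
  have hmem := H95.OBridge.mem_omegaGL Q'
  apply isMaximalIn_of
  · obtain ⟨g, hg, e, he⟩ := h.exists_not_semi h2 hk (by rw [hEr]; exact hr2)
    refine ⟨(toEq _ F).symm g, ?_, ?_⟩
    · rw [hmem, hsymm]; exact hg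
    · intro hn'
      obtain ⟨e', he'⟩ := semilin h1 h2' h3 hn' e
      obtain ⟨v, hv⟩ := he e'
      rw [hsymm] at he'
      exact hv (he' v)
  · intro M hHM hMK ⟨g, hg, hgS⟩
    have hMO : M.map (toEq (Fin n) F).toMonoidHom ≤ O Q' := by
      rintro _ ⟨x, hx, rfl⟩
      exact omega_le_O Q' ((hmem x).1 (hMK hx))
    refine le_of_map hmem (overgroup6 h h2 hk (by rw [hEr]; exact hr) hcase ?_ hMO ?_)
    · intro x hx
      rw [mem_map_toEq]
      refine hHM ⟨?_, ?_⟩
      · exact comm_mem_normalizer h1 h2' h3 (fun v e => by rw [hsymm]; exact HK_smul hx e v)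
      · exact (hmem _).2 (by rw [hsymm]; exact h.HK_om hx)
    · refine ⟨toEq _ F g, ⟨g, hg, rfl⟩, ?_⟩
      by_contra hcon
      push Not at hcon
      exact hgS (mem_normalizer h1 h2' h3 (by omega) hcon)

end H95.O12Ext
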