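import Mathlib
import Cfsg.Agent.Lib.H95.OIp5

set_option autoImplicit false

/-!
Overgroups of stabilisers of orthogonal decompositions into planes: the second part.
-/

namespace H95.OIp

open Module QuadraticMap H48.QuadSplit H95.OGeo H17.OrthAbs H95.OSie H95.OQd H95.OSmall H95.OIg
open H95.OIe (sq_surj scale omega_of_full)
open H95.OImp (refl_conj Rv Rv_refl exists_swap adj omega_conj refl_mul_sub)
open scoped commutatorElement

section field

variable {F : Type*} [Field F] [Finite F]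

/-- elements of the same square class -/
lemma sq_class {a b : F} (ha : a ≠ 0) (hb : b ≠ 0) (h : IsSquare a ↔ IsSquare b) :
    ∃ c : F, c ≠ 0 ∧ c * c * a = b := by
  by_cases h1 : IsSquare a
  · obtain ⟨r, hr⟩ := h1
    obtain ⟨s, hs⟩ := h.1 ⟨r, hr⟩
    have hr0 : r ≠ 0 := by rintro rfl; rw [mul_zero] at hr; exact ha hr
    have hs0 : s ≠ 0 := by rintro rfl; rw [mul_zero] at hs; exact hb hs
    refine ⟨s / r, div_ne_zero hs0 hr0, ?_⟩
    rw [hr, hs]; field_simp
  · have h2 : ¬ IsSquare b := fun h2 => h1 (h.2 h2)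
    have : Fintype F := Fintype.ofFinite F
    classical
    have two : (2 : F) ≠ 0 := by
      intro two
      obtain ⟨k, hk⟩ := sq_surj two a
      exact h1 ⟨k, hk.symm⟩
    have hc : ringChar F ≠ 2 := by
      intro hc
      apply two
      have := ringChar.Nat.cast_ringChar (R := F)
      rw [hc] at this
      exact_mod_cast this
    have e1 : quadraticChar F a = -1 := quadraticChar_neg_one_iff_not_isSquare.2 h1
    have e2 : quadraticChar F b = -1 := quadraticChar_neg_one_iff_not_isSquare.2 h2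
    have e3 : quadraticChar F (b * a) = 1 := by rw [map_mul, e1, e2]; norm_num
    obtain ⟨k, hk⟩ := (quadraticChar_one_iff_isSquare (mul_ne_zero hb ha)).1 e3
    have hk0 : k ≠ 0 := by rintro rfl; rw [mul_zero] at hk; exact mul_ne_zero hb ha hk
    refine ⟨k / a, div_ne_zero hk0 ha, ?_⟩
    rw [div_mul_div_comm, ← hk]; field_simp

open Polynomial in
/-- a nonzero quadratic polynomial has at most two roots -/
lemma quad_roots [DecidableEq F] (a b c : F) (h : ¬ (a = 0 ∧ b = 0 ∧ c = 0)) :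
    ∃ S : Finset F, S.card ≤ 2 ∧ ∀ l, a + l * b + l * l * c = 0 → l ∈ S := by
  set P : F[X] := C c * X ^ 2 + C b * X + C a with hP
  have hP0 : P ≠ 0 := by
    intro h0
    apply h
    have e0 : P.coeff 0 = a := by simp [hP]
    have e1 : P.coeff 1 = b := by simp [hP]
    have e2 : P.coeff 2 = c := by simp [hP]
    rw [h0] at e0 e1 e2
    simp only [coeff_zero] at e0 e1 e2
    exact ⟨e0.symm, e1.symm, e2.symm⟩
  refine ⟨P.roots.toFinset, ?_, fun l hl => ?_⟩
  · calc P.roots.toFinset.card ≤ P.roots.card := Multiset.toFinset_card_le _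
      _ ≤ P.natDegree := P.card_roots'
      _ ≤ 2 := by rw [hP]; exact natDegree_quadratic_le
  · rw [Multiset.mem_toFinset, mem_roots hP0, IsRoot.def, hP]
    simp only [eval_add, eval_mul, eval_C, eval_pow, eval_X]
    linear_combination hl

end field

variable {F V : Type*} [Field F] [AddCommGroup V] [Module F V] {Q : QuadraticForm F V}
  {ι : Type*} [Fintype ι] [DecidableEq ι] {D : ι → Submodule F V} {p : ι → V →ₗ[F] V}
  {M : Subgroup (V ≃ₗ[F] V)} [FiniteDimensional F V]

/-- elements preserving a decomposition into planes moving only a plane -/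
theorem pres_plane (h : QD Q D p) (hd : ∀ i, finrank F (D i) = 2) {S : Submodule F V}
    (hS : finrank F S = 2) {b : V ≃ₗ[F] V} (hb : ∀ x, b x - x ∈ S)
    (hDS : ∀ j, ∀ x ∈ D j, x ∈ S → x = 0) {σ : Equiv.Perm ι} (hσ : ∀ i, ∀ x ∈ D i, b x ∈ D (σ i)) :
    (∀ x, b (b x) = x) ∧ (b ≠ 1 → ∃ j k, j ≠ k ∧ σ = Equiv.swap j k) := by
  -- fixed members
  have hfix : ∀ j, σ j = j → ∀ x ∈ D j, b x = x := by
    intro j hj x hx
    have h1 := hσ j x hx
    rw [hj] at h1
    exact sub_eq_zero.1 (hDS j _ ((D j).sub_mem h1 hx) (hb x))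
  -- moved members
  have hsurj : ∀ j, σ j ≠ j → ∀ s ∈ S, ∃ x ∈ D j, b x - x = s := by
    intro j hj
    let φ : D j →ₗ[F] S :=
      { toFun := fun x => ⟨b x - x, hb x⟩
        map_add' := fun x y => by
          apply Subtype.ext
          show b ((x : V) + y) - (x + y) = (b x - x) + (b y - y)
          rw [map_add]; abel
        map_smul' := fun c x => by
          apply Subtype.ext
          show b (c • (x : V)) - c • (x : V) = c • (b x - x)
          rw [map_smul, smul_sub] }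
    have hφ : Function.Injective φ := by
      rw [← LinearMap.ker_eq_bot, LinearMap.ker_eq_bot']
      intro x hx
      have h1 : b x - x = 0 := congrArg Subtype.val hx
      have h2 : (x : V) ∈ D (σ j) := by
        have := hσ j x x.2
        rwa [sub_eq_zero.1 h1] at this
      exact Subtype.ext (h.disj hj h2 x.2)
    have hφs : Function.Surjective φ :=
      (LinearMap.injective_iff_surjective_of_finrank_eq_finrank (by rw [hd, hS])).1 hφ
    intro s hs
    obtain ⟨x, hx⟩ := hφs ⟨s, hs⟩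
    exact ⟨x, x.2, congrArg Subtype.val hx⟩
  have hinv : ∀ j, σ j ≠ j → ∀ x ∈ D j, b (b x) = x := by
    intro j hj x hx
    have hjj : σ (σ j) ≠ σ j := fun h0 => hj (σ.injective h0)
    obtain ⟨y, hy, hy'⟩ := hsurj j hj (b (b x) - b x) (hb (b x))
    have h1 := hσ j x hx
    have h2 := hσ _ _ h1
    have h3 := hσ j y hy
    -- the component at `σ j`
    have h4 := congrArg (p (σ j)) hy'
    rw [map_sub, map_sub, h.self _ _ h3, h.other _ _ hj y hy, h.other _ _ (Ne.symm hjj) _ h2,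
      h.self _ _ h1, sub_zero, zero_sub, ← map_neg] at h4
    have h5 : y = -x := b.injective h4
    rw [h5, map_neg] at hy'
    have h6 : b (b x) = b x + (-b x - -x) := by rw [hy']; abel
    rw [h6]; abel
  refine ⟨fun x => ?_, fun hb1 => ?_⟩
  · rw [← h.sum x, map_sum, map_sum]
    apply Finset.sum_congr rfl
    intro j _
    by_cases hj : σ j = j
    · rw [hfix j hj _ (h.mem j x), hfix j hj _ (h.mem j x)]
    · exact hinv j hj _ (h.mem j x)
  · obtain ⟨j, hj⟩ : ∃ j, σ j ≠ j := by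
      by_contra hcon
      push Not at hcon
      apply hb1
      ext x
      show b x = x
      conv_lhs => rw [← h.sum x]
      rw [map_sum]
      conv_rhs => rw [← h.sum x]
      exact Finset.sum_congr rfl fun j _ => hfix j (hcon j) _ (h.mem j x)
    have hex : ∃ x ∈ D j, x ≠ 0 := ex_ne (by rw [hd]; omega)
    obtain ⟨x₀, hx₀, hx₀0⟩ := hex
    have hinv2 : ∀ l, σ l ≠ l → σ (σ l) = l := by
      intro l hl
      by_contra hne
      obtain ⟨x, hx, hx0⟩ : ∃ x ∈ D l, x ≠ 0 := ex_ne (by rw [hd]; omega)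
      have h1 := hσ _ _ (hσ l x hx)
      rw [hinv l hl x hx] at h1
      exact hx0 (h.disj hne h1 hx)
    have hsup : ∀ l, σ l ≠ l → ∀ s ∈ S, ∀ m, m ≠ l → m ≠ σ l → p m s = 0 := by
      intro l hl s hs m hm hm'
      obtain ⟨x, hx, rfl⟩ := hsurj l hl s hs
      rw [map_sub, h.other m (σ l) hm' _ (hσ l x hx), h.other m l hm x hx, sub_zero]
    refine ⟨j, σ j, Ne.symm hj, ?_⟩
    ext l
    by_cases hlj : l = j
    · rw [hlj, Equiv.swap_apply_left]
    by_cases hlk : l = σ j
    · rw [hlk, Equiv.swap_apply_right, hinv2 j hj]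
    rw [Equiv.swap_apply_of_ne_of_ne hlj hlk]
    by_contra hl
    -- a nonzero element of S
    have hs0 : b x₀ - x₀ ≠ 0 := by
      intro h0
      have h1 := hσ j x₀ hx₀
      rw [sub_eq_zero.1 h0] at h1
      exact hx₀0 (h.disj hj h1 hx₀)
    apply hs0
    apply h.ext
    intro m
    rw [map_zero]
    by_cases hmj : m = j ∨ m = σ j
    · apply hsup l hl _ (hb x₀)
      · rcases hmj with h1 | h1
        · rw [h1]; exact Ne.symm hlj
        · rw [h1]; exact Ne.symm hlk
      · rcases hmj with h1 | h1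
        · rw [h1]
          intro h2
          apply hlk
          rw [h2, hinv2 l hl]
        · rw [h1]
          intro h2
          exact hlj (σ.injective h2).symm
    · push Not at hmj
      exact hsup j hj _ (hb x₀) m hmj.1 hmj.2

variable [Finite F]

namespace HP

omit [Finite F] in
/-- a nonsingular vector orthogonal to a nonsingular vector -/
lemma perp_ns {U : Submodule F V} (hU : NDs Q U) (h2 : 2 ≤ finrank F U) {v : V} (hv : v ∈ U)
    (hv0 : Q v ≠ 0) : ∃ w ∈ U, polar Q v w = 0 ∧ Q w ≠ 0 := by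
  by_cases two : (2 : F) = 0
  · exact ⟨v, hv, by rw [p_self, two, zero_mul], hv0⟩
  · exact perp_plane two hU h2 hv hv0

/-- singular vectors -/
theorem star_sing (H : HP Q D p M)
    (hst : ∀ m ∈ M, ∀ i j, ∀ v ∈ D i, Q v ≠ 0 → m v ∈ D j → Pres D m) {m : V ≃ₗ[F] V} (hm : m ∈ M)
    {i j : ι} {e : V} (he : e ∈ D i) (he0 : e ≠ 0) (heQ : Q e = 0) (hme : m e ∈ D j) :
    Pres D m ∨ ⁅O Q, O Q⁆ ≤ M := by
  have hh := H.hg.h
  by_contra hcon
  push Not at hcon
  obtain ⟨hmp, hno⟩ := hcon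
  obtain ⟨f, hf, hfQ, hef, hbas⟩ := hyp_basis (H.nds i) (H.dim i) he he0 heQ
  have hsumQ : Q (e + f) = 1 := by rw [Q_add, heQ, hfQ, hef]; ring
  have hefi : e + f ∈ D i := (D i).add_mem he hf
  have hsum0 : Q (e + f) ≠ 0 := by rw [hsumQ]; exact one_ne_zero
  -- reduce to `j = i`
  obtain ⟨m₁, hm₁, hm₁e, hm₁p⟩ : ∃ m₁ ∈ M, m₁ e ∈ D i ∧ ¬ Pres D m₁ := by
    by_cases hji : j = i
    · subst hji; exact ⟨m, hm, hme, hmp⟩
    · obtain ⟨π, hπ, -, h2, h3⟩ := H.hg.swap_mem (l := i) (m := j) (Ne.symm hji)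
      refine ⟨π * m, M.mul_mem hπ hm, h2 _ hme, fun h4 => hmp ?_⟩
      have h5 : Pres D π := hst π hπ i j (e + f) hefi hsum0 (h3 _ hefi)
      have h6 := hh.pres_mul (hh.pres_inv h5) h4
      rwa [← mul_assoc, inv_mul_cancel, one_mul] at h6
  -- reduce to an eigenvector
  obtain ⟨m₂, hm₂, ν, hm₂e, hm₂p⟩ : ∃ m₂ ∈ M, ∃ ν : F, m₂ e = ν • e ∧ ¬ Pres D m₂ := by
    have h1 := hbas _ hm₁e
    have h2 : Q (m₁ e) = polar Q (m₁ e) f * polar Q (m₁ e) e := by
      conv_lhs => rw [h1]
      rw [Q_add, Q_smul, Q_smul, p_smul, p_smul', heQ, hfQ, hef]; ring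
    rw [H.hg.M_le hm₁, heQ] at h2
    rcases mul_eq_zero.1 h2.symm with h3 | h3
    · -- swap the two lines
      rw [h3, zero_smul, zero_add] at h1
      have q1 : Q (e - f) = -1 := by rw [Q_sub, heQ, hfQ, hef]; ring
      have n1 : Q (e - f) ≠ 0 := by rw [q1]; exact neg_ne_zero.2 one_ne_zero
      obtain ⟨l, hl⟩ := H.free {i} (by simp)
      rw [Finset.mem_singleton] at hl
      obtain ⟨w', hw', hwQ'⟩ := H.hg.rep l _ n1
      have nw' : Q w' ≠ 0 := by rw [hwQ']; exact n1
      have hgM := H.hg.dbl_mem ((D i).sub_mem he hf) hw' n1 nw' hwQ'.symm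
      have hx : ∀ x ∈ D i, (refl Q (e - f) n1 * refl Q w' nw') x =
          x - ((Q (e - f))⁻¹ * polar Q (e - f) x) • (e - f) := by
        intro x hx
        rw [LinearEquiv.mul_apply, refl_apply Q w', hh.orth l i hl w' hw' x hx, mul_zero, zero_smul,
          sub_zero, refl_apply]
      have hgf : (refl Q (e - f) n1 * refl Q w' nw') f = e := by
        rw [hx f hf, q1, p_sub, hef, p_self, hfQ, inv_neg, inv_one]; module
      have hge : (refl Q (e - f) n1 * refl Q w' nw') (e + f) = e + f := by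
        rw [hx _ hefi, p_sub, p_add', p_add', p_self, p_self, heQ, hfQ, hef, p_comm Q f e, hef]
        simp
      refine ⟨(refl Q (e - f) n1 * refl Q w' nw') * m₁, M.mul_mem hgM hm₁, polar Q (m₁ e) e, ?_,
        fun h4 => hm₁p ?_⟩
      · have e5 : ((refl Q (e - f) n1 * refl Q w' nw') * m₁) e =
          (refl Q (e - f) n1 * refl Q w' nw') (m₁ e) := rfl
        rw [e5]
        conv_lhs => rw [h1]
        rw [map_smul, hgf]
      · have h5 : Pres D (refl Q (e - f) n1 * refl Q w' nw') :=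
          hst _ hgM i i (e + f) hefi hsum0 (by rw [hge]; exact hefi)
        have h6 := hh.pres_mul (hh.pres_inv h5) h4
        rwa [← mul_assoc, inv_mul_cancel, one_mul] at h6
    · rw [h3, zero_smul, add_zero] at h1
      exact ⟨m₁, hm₁, _, h1, hm₁p⟩
  have hν : ν ≠ 0 := by
    rintro rfl
    rw [zero_smul, LinearEquiv.map_eq_zero_iff] at hm₂e
    exact he0 hm₂e
  by_cases hall : ∀ l, l ≠ i → p l (ν • m₂ f - f) = 0
  · have h1 : ν • m₂ f - f ∈ D i := hh.mem_iff.2 hall
    have h2 : ν • m₂ f ∈ D i := ((D i).sub_mem_iff_left hf).1 h1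
    have h3 : m₂ f ∈ D i := ((D i).smul_mem_iff hν).1 h2
    exact hm₂p (hst m₂ hm₂ i i (e + f) hefi hsum0 (by
      rw [map_add, hm₂e]; exact (D i).add_mem ((D i).smul_mem _ he) h3))
  · push Not at hall
    obtain ⟨l, hli, hl⟩ := hall
    exact hno (H.core he hf heQ hfQ hef hm₂ hm₂e hli hl)

/-- three indices with equal values -/
lemma three (H : HP Q D p M) {x : V} {G : Finset ι} (hG : 5 ≤ G.card)
    (hGx : ∀ i ∈ G, Q (p i x) ≠ 0) : ∃ i j k, i ≠ j ∧ i ≠ k ∧ j ≠ k ∧ ∃ a ∈ D i, ∃ b ∈ D j, ∃ c ∈ D k,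
      Q a ≠ 0 ∧ Q b = Q a ∧ Q c = Q a ∧ polar Q a x = 0 ∧ polar Q b x = 0 ∧ polar Q c x = 0 := by
  classical
  have hh := H.hg.h
  have hw : ∀ i, ∃ w ∈ D i, i ∈ G → polar Q x w = 0 ∧ Q w ≠ 0 := by
    intro i
    by_cases hi : i ∈ G
    · obtain ⟨w, hw, h1, h2⟩ := perp_ns (H.nds i) (H.dim i).ge (hh.mem i x) (hGx i hi)
      exact ⟨w, hw, fun _ => ⟨by rw [hh.pl x hw, h1], h2⟩⟩
    · exact ⟨0, (D i).zero_mem, fun h => absurd h hi⟩
  choose w hwD hw using hw
  have hsplit : 3 ≤ (G.filter fun i => IsSquare (Q (w i))).card ∨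
      3 ≤ (G.filter fun i => ¬ IsSquare (Q (w i))).card := by
    have := Finset.card_filter_add_card_filter_not (s := G) (fun i => IsSquare (Q (w i)))
    omega
  have key : ∀ T : Finset ι, T ⊆ G → 3 ≤ T.card →
      (∀ i ∈ T, ∀ j ∈ T, (IsSquare (Q (w i)) ↔ IsSquare (Q (w j)))) →
      ∃ i j k, i ≠ j ∧ i ≠ k ∧ j ≠ k ∧ ∃ a ∈ D i, ∃ b ∈ D j, ∃ c ∈ D k,
      Q a ≠ 0 ∧ Q b = Q a ∧ Q c = Q a ∧ polar Q a x = 0 ∧ polar Q b x = 0 ∧ polar Q c x = 0 := by
    intro T hT hc hsq
    obtain ⟨i, hi, j, hj, k, hk, hij, hik, hjk⟩ := Finset.two_lt_card.1 hc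
    obtain ⟨hi1, hi2⟩ := hw i (hT hi)
    obtain ⟨hj1, hj2⟩ := hw j (hT hj)
    obtain ⟨hk1, hk2⟩ := hw k (hT hk)
    obtain ⟨b, hb0, hb⟩ := sq_class hj2 hi2 (hsq j hj i hi)
    obtain ⟨c, hc0, hc'⟩ := sq_class hk2 hi2 (hsq k hk i hi)
    refine ⟨i, j, k, hij, hik, hjk, w i, hwD i, b • w j, (D j).smul_mem _ (hwD j), c • w k,
      (D k).smul_mem _ (hwD k), hi2, by rw [Q_smul, hb], by rw [Q_smul, hc'], ?_, ?_, ?_⟩
    · rw [p_comm, hi1]
    · rw [p_smul, p_comm, hj1, mul_zero]
    · rw [p_smul, p_comm, hk1, mul_zero]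
  rcases hsplit with h1 | h1
  · exact key _ (Finset.filter_subset _ _) h1 fun i hi j hj => by
      simp only [Finset.mem_filter] at hi hj
      exact ⟨fun _ => hj.2, fun _ => hi.2⟩
  · exact key _ (Finset.filter_subset _ _) h1 fun i hi j hj => by
      simp only [Finset.mem_filter] at hi hj
      exact ⟨fun h => absurd h hi.2, fun h => absurd h hj.2⟩

/-- Part B. -/
theorem partB (H : HP Q D p M)
    (hs : ∀ m ∈ M, ∀ i j, ∀ v ∈ D i, v ≠ 0 → m v ∈ D j → Pres D m) {g : V ≃ₗ[F] V} (hg : g ∈ M) :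
    Pres D g := by
  classical
  by_contra hgp
  have hh := H.hg.h
  have hgO := H.hg.M_le hg
  have ggi : ∀ x, g (g⁻¹ x) = x := fun x => g.apply_symm_apply x
  have gig : ∀ x, g⁻¹ (g x) = x := fun x => g.symm_apply_apply x
  set D' : ι → Submodule F V := fun i => (D i).map (g : V →ₗ[F] V) with hD'd
  have hD' := hh.conj hgO
  have hmemD' : ∀ i x, x ∈ D' i ↔ g⁻¹ x ∈ D i := by
    intro i x
    constructor
    · rintro ⟨y, hy, rfl⟩
      rw [LinearEquiv.coe_coe, gig]; exact hy
    · intro hx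
      exact ⟨g⁻¹ x, hx, ggi x⟩
  have hdim' : ∀ i, finrank F (D' i) = 2 := fun i => by
    rw [hD'd]
    simp only []
    rw [LinearEquiv.finrank_map_eq, H.dim]
  -- B1
  have hB1 : ∀ i j, ∀ x ∈ D i, x ∈ D' j → x = 0 := by
    intro i j x hx hx'
    by_contra hx0
    apply hgp
    apply hs g hg j i (g⁻¹ x) ((hmemD' j x).1 hx') (by
      intro h0
      rw [LinearEquiv.map_eq_zero_iff] at h0
      exact hx0 h0)
    rw [ggi]; exact hx
  -- B2
  have hB2 : ∀ b ∈ M, ∀ j, ∀ x ∈ D' j, x ≠ 0 → b x = x → Pres D' b := by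
    intro b hb j x hx hx0 hbx
    have h1 : g⁻¹ * b * g ∈ M := M.mul_mem (M.mul_mem (M.inv_mem hg) hb) hg
    have h2 : Pres D (g⁻¹ * b * g) := by
      apply hs _ h1 j j (g⁻¹ x) ((hmemD' j x).1 hx) (by
        intro h0
        rw [LinearEquiv.map_eq_zero_iff] at h0
        exact hx0 h0)
      rw [LinearEquiv.mul_apply, LinearEquiv.mul_apply, ggi, hbx]
      exact (hmemD' j x).1 hx
    obtain ⟨σ, hσ⟩ := h2
    refine ⟨σ, fun a z hz => ?_⟩
    rw [hmemD'] at hz ⊢
    have := hσ a _ hz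
    rwa [LinearEquiv.mul_apply, LinearEquiv.mul_apply, ggi] at this
  -- B3
  have hB3 : ∀ j, ∀ x ∈ D' j, x ≠ 0 → ∀ i, p i x ≠ 0 := by
    intro j x hx hx0 i hi
    obtain ⟨v, hv, hv1⟩ := H.hg.rep i 1 one_ne_zero
    obtain ⟨a, ha, h1, -, h2, -, -, h3⟩ := H.rot hv (by rw [hv1]; exact one_ne_zero)
    have hax : a x = x := fix_of hh h1 hi
    obtain ⟨σ, hσ⟩ := hB2 a ha j x hx hx0 hax
    obtain ⟨h4, -⟩ := pres_plane hD' hdim' (H.dim i) h2 (fun l y hy hy' => hB1 i l y hy' hy) hσ
    apply h3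
    ext y
    exact h4 y
  -- a vector with many nonsingular components
  obtain ⟨j₀, -⟩ := H.free ∅ (by simp)
  obtain ⟨x, hx, hx0, G, hG, hGx⟩ : ∃ x ∈ D' j₀, x ≠ 0 ∧ ∃ G : Finset ι, 5 ≤ G.card ∧
      ∀ i ∈ G, Q (p i x) ≠ 0 := by
    rcases H.ty with ⟨hty, -⟩ | ⟨hty, h7⟩
    · obtain ⟨x, hx, hx0⟩ := ex_ne (U := D' j₀) (by rw [hdim']; omega)
      refine ⟨x, hx, hx0, Finset.univ, ?_, fun i _ h0 => hB3 j₀ x hx hx0 i (hty i _ (hh.mem i x) h0)⟩
      rw [Finset.card_univ]
      have := H.card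
      omega
    · -- counting
      have : Fintype F := Fintype.ofFinite F
      obtain ⟨e₀, he₀, he₀0, he₀Q⟩ := hty j₀
      obtain ⟨f₀, hf₀, hf₀Q, hef₀, -⟩ := hyp_basis (H.nds j₀) (H.dim j₀) he₀ he₀0 he₀Q
      obtain ⟨e, he⟩ : ∃ e, g e₀ = e := ⟨_, rfl⟩
      obtain ⟨f, hf⟩ : ∃ f, g f₀ = f := ⟨_, rfl⟩
      have heD : e ∈ D' j₀ := (hmemD' _ _).2 (by rw [← he, gig]; exact he₀)
      have hfD : f ∈ D' j₀ := (hmemD' _ _).2 (by rw [← hf, gig]; exact hf₀)
      have hef : polar Q e f = 1 := by rw [← he, ← hf, polar_map hgO, hef₀]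
      have heQ : Q e = 0 := by rw [← he, hgO, he₀Q]
      have hfQ : Q f = 0 := by rw [← hf, hgO, hf₀Q]
      have hne : ∀ a b : F, (a ≠ 0 ∨ b ≠ 0) → a • e + b • f ≠ 0 := by
        intro a b hab h0
        have e1 := congrArg (polar Q e) h0
        have e2 := congrArg (polar Q f) h0
        rw [p_add', p_smul', p_smul', p_self, heQ, hef, p_zero'] at e1
        rw [p_add', p_smul', p_smul', p_self, hfQ, p_comm Q f e, hef, p_zero'] at e2
        rcases hab with h | h
        · apply h; linear_combination e2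
        · apply h; linear_combination e1
      have hbad : ∀ i, ∃ S : Finset F, S.card ≤ 2 ∧ ∀ l, Q (p i (e + l • f)) = 0 → l ∈ S := by
        intro i
        obtain ⟨S, hS, hS'⟩ := quad_roots (Q (p i e)) (polar Q (p i e) (p i f)) (Q (p i f)) (by
          rintro ⟨h1, h2, h3⟩
          have hei : p i e ≠ 0 := hB3 j₀ e heD (by
            have := hne 1 0 (Or.inl one_ne_zero)
            simpa using this) i
          obtain ⟨f₁, hf₁, -, -, hb₁⟩ := hyp_basis (H.nds i) (H.dim i) (hh.mem i e) hei h1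
          have h4 := hb₁ _ (hh.mem i f)
          rw [p_comm Q (p i f) (p i e), h2, zero_smul, add_zero] at h4
          have h5 : p i ((-polar Q (p i f) f₁) • e + (1 : F) • f) = 0 := by
            rw [map_add, map_smul, map_smul, neg_smul, ← h4]; module
          exact hB3 j₀ _ ((D' j₀).add_mem ((D' j₀).smul_mem _ heD) ((D' j₀).smul_mem _ hfD))
            (hne _ _ (Or.inr one_ne_zero)) i h5)
        refine ⟨S, hS, fun l hl => hS' l ?_⟩
        rw [map_add, map_smul, Q_add, Q_smul, p_smul'] at hl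
        linear_combination hl
      choose B hB hB' using hbad
      obtain ⟨l, hl⟩ : ∃ l : F, (Finset.univ.filter fun i => l ∈ B i).card + 5 ≤ Fintype.card ι := by
        by_contra hcon
        push Not at hcon
        have h1 : ∑ l : F, (Finset.univ.filter fun i => l ∈ B i).card = ∑ i, (B i).card := by
          simp only [Finset.card_filter]
          rw [Finset.sum_comm]
          apply Finset.sum_congr rfl
          intro i _
          rw [← Finset.card_filter]
          congr 1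
          ext l
          simp
        have h2 : ∑ i, (B i).card ≤ Fintype.card ι * 2 := by
          calc ∑ i, (B i).card ≤ ∑ _i : ι, 2 := Finset.sum_le_sum fun i _ => hB i
            _ = Fintype.card ι * 2 := by rw [Finset.sum_const, Finset.card_univ, smul_eq_mul]
        have h3 : Fintype.card F * (Fintype.card ι - 4) ≤
            ∑ l : F, (Finset.univ.filter fun i => l ∈ B i).card := by
          calc Fintype.card F * (Fintype.card ι - 4) = ∑ _l : F, (Fintype.card ι - 4) := by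
                rw [Finset.sum_const, Finset.card_univ, smul_eq_mul]
            _ ≤ _ := Finset.sum_le_sum fun l _ => by have := hcon l; omega
        have h4 : 7 * (Fintype.card ι - 4) ≤ Fintype.card F * (Fintype.card ι - 4) := by
          apply Nat.mul_le_mul_right
          rwa [← Nat.card_eq_fintype_card]
        have h5 := H.card
        omega
      refine ⟨e + l • f, (D' j₀).add_mem heD ((D' j₀).smul_mem _ hfD), ?_,
        Finset.univ.filter fun i => l ∉ B i, ?_, fun i hi h0 => ?_⟩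
      · have := hne 1 l (Or.inl one_ne_zero)
        rwa [one_smul] at this
      · have h1 := Finset.card_filter_add_card_filter_not (s := (Finset.univ : Finset ι))
          (fun i => l ∈ B i)
        rw [Finset.card_univ] at h1
        omega
      · simp only [Finset.mem_filter, Finset.mem_univ, true_and] at hi
        exact hi (hB' i l h0)
  obtain ⟨i, j, k, hij, hik, hjk, a, ha, b, hb, c, hc, ha0, hba, hca, hax, hbx, hcx⟩ :=
    H.three hG hGx
  -- a double reflection induces a transposition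
  have key : ∀ i j : ι, i ≠ j → ∀ a ∈ D i, ∀ b ∈ D j, ∀ (n₁ : Q a ≠ 0) (n₂ : Q b ≠ 0), Q a = Q b →
      polar Q a x = 0 → polar Q b x = 0 → ∃ σ : Equiv.Perm ι,
        (∀ l, ∀ y ∈ D' l, (refl Q a n₁ * refl Q b n₂) y ∈ D' (σ l)) ∧ σ.sign = -1 := by
    intro i j hij a ha b hb n₁ n₂ hab hax hbx
    have hM := H.hg.dbl_mem ha hb n₁ n₂ hab
    have hwy : polar Q a b = 0 := hh.orth i j hij a ha b hb
    have hfix : (refl Q a n₁ * refl Q b n₂) x = x := by
      rw [dbl_apply n₁ n₂ hwy, p_comm Q x a, p_comm Q x b, hax, hbx]; simp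
    obtain ⟨σ, hσ⟩ := hB2 _ hM j₀ x hx hx0 hfix
    refine ⟨σ, hσ, ?_⟩
    have hane : a ≠ 0 := by rintro rfl; exact n₁ (QuadraticMap.map_zero Q)
    have hbne : b ≠ 0 := by rintro rfl; exact n₂ (QuadraticMap.map_zero Q)
    have hli : LinearIndependent F ![a, b] := by
      rw [LinearIndependent.pair_iff]
      intro s t hst
      have h1 := congrArg (p i) hst
      rw [map_add, map_smul, map_smul, hh.self i a ha, hh.other i j hij b hb, smul_zero, add_zero,
        map_zero] at h1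
      have h2 : s = 0 := (smul_eq_zero.1 h1).resolve_right hane
      rw [h2, zero_smul, zero_add] at hst
      exact ⟨h2, (smul_eq_zero.1 hst).resolve_right hbne⟩
    have hSd : finrank F (Submodule.span F (Set.range ![a, b])) = 2 := by
      rw [finrank_span_eq_card hli, Fintype.card_fin]
    have haS : a ∈ Submodule.span F (Set.range ![a, b]) := Submodule.subset_span ⟨0, rfl⟩
    have hbS : b ∈ Submodule.span F (Set.range ![a, b]) := Submodule.subset_span ⟨1, rfl⟩
    obtain ⟨m, hm⟩ := H.free {i, j} (by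
      have := Finset.card_le_two (a := i) (b := j)
      omega)
    simp only [Finset.mem_insert, Finset.mem_singleton, not_or] at hm
    have hSm : ∀ y ∈ Submodule.span F (Set.range ![a, b]), p m y = 0 := by
      intro y hy
      have h1 : Submodule.span F (Set.range ![a, b]) ≤ LinearMap.ker (p m) := by
        rw [Submodule.span_le]
        rintro _ ⟨l, rfl⟩
        fin_cases l
        · exact hh.other m i hm.1 a ha
        · exact hh.other m j hm.2 b hb
      exact h1 hy
    obtain ⟨-, h2⟩ := pres_plane hD' hdim' hSd (b := refl Q a n₁ * refl Q b n₂) (fun y => by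
      rw [dbl_apply n₁ n₂ hwy]
      have : y - ((Q a)⁻¹ * polar Q y a) • a - ((Q b)⁻¹ * polar Q y b) • b - y =
        -(((Q a)⁻¹ * polar Q y a) • a) - ((Q b)⁻¹ * polar Q y b) • b := by abel
      rw [this]
      exact Submodule.sub_mem _ (Submodule.neg_mem _ (Submodule.smul_mem _ _ haS))
        (Submodule.smul_mem _ _ hbS)) (fun l y hy hyS => by
          by_contra hy0
          exact hB3 l y hy hy0 m (hSm y hyS)) hσ
    obtain ⟨z, hz, hza⟩ := partner (H.nds i) ha hane
    obtain ⟨r, s, hrs, hσe⟩ := h2 (by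
      intro h1
      have h3 : (refl Q a n₁ * refl Q b n₂) z = z := by rw [h1]; rfl
      rw [dbl_apply n₁ n₂ hwy, hza, hh.orth i j hij z hz b hb, mul_zero, zero_smul, sub_zero,
        mul_one, sub_eq_self] at h3
      exact smul_ne_zero (inv_ne_zero n₁) hane h3)
    rw [hσe, Equiv.Perm.sign_swap hrs]
  have hb0 : Q b ≠ 0 := by rw [hba]; exact ha0
  have hc0 : Q c ≠ 0 := by rw [hca]; exact ha0
  obtain ⟨σ₁, h1, s1⟩ := key i j hij a ha b hb ha0 hb0 hba.symm hax hbx
  obtain ⟨σ₂, h2, s2⟩ := key j k hjk b hb c hc hb0 hc0 (by rw [hba, hca]) hbx hcx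
  obtain ⟨σ₃, h3, s3⟩ := key i k hik a ha c hc ha0 hc0 hca.symm hax hcx
  have hprod : (refl Q a ha0 * refl Q b hb0) * (refl Q b hb0 * refl Q c hc0) =
      refl Q a ha0 * refl Q c hc0 := by
    have e1 : refl Q b hb0 * refl Q b hb0 = 1 := refl_sq Q b hb0
    calc (refl Q a ha0 * refl Q b hb0) * (refl Q b hb0 * refl Q c hc0) =
        refl Q a ha0 * (refl Q b hb0 * refl Q b hb0) * refl Q c hc0 := by group
      _ = _ := by rw [e1, mul_one]
  have hσ : σ₃ = σ₁ * σ₂ := by
    ext l
    rw [Equiv.Perm.mul_apply]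
    obtain ⟨y, hy, hy0⟩ := ex_ne (U := D' l) (by rw [hdim']; omega)
    have h4 := h1 _ _ (h2 l y hy)
    have h5 := h3 l y hy
    rw [← hprod, LinearEquiv.mul_apply] at h5
    by_contra hne
    have h6 := hD'.disj hne h5 h4
    rw [LinearEquiv.map_eq_zero_iff, LinearEquiv.map_eq_zero_iff] at h6
    exact hy0 h6
  rw [hσ, map_mul, s1, s2] at s3
  exact absurd s3 (by decide)

/-- Overgroups of stabilisers of decompositions into planes. -/
theorem overgroup (H : HP Q D p M) {g : V ≃ₗ[F] V} (hg : g ∈ M) (hgp : ¬ Pres D g) :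
    ⁅O Q, O Q⁆ ≤ M := by
  by_contra hno
  have hst : ∀ m ∈ M, ∀ i j, ∀ v ∈ D i, Q v ≠ 0 → m v ∈ D j → Pres D m := by
    intro m hm i j v hv hv0 hmv
    rcases combine H.hg (c := Q v) hv0 (fun M' H' i₀ u hu hu' _ hn g hg hgp =>
      HP.partA (M := M') { hg := H', dim := H.dim, card := H.card, ty := H.ty } hu' hn hg hgp)
      with h | h
    · exact h m hm i j v hv rfl hmv
    · exact absurd h hno
  apply hgp
  apply H.partB _ hg
  intro m hm i j v hv hv0 hmv
  by_cases hvQ : Q v = 0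
  · rcases H.star_sing hst hm hv hv0 hvQ hmv with h | h
    · exact h
    · exact absurd h hno
  · exact hst m hm i j v hv hvQ hmv

end HP

/-- some element of `Ω` does not permute the members -/
theorem exists_not_pres3 (H : HG Q D p M) {i l m : ι} (hil : i ≠ l) (him : i ≠ m) (hlm : l ≠ m) :
    ∃ g ∈ ⁅O Q, O Q⁆, ¬ Pres D g := by
  have hh := H.h
  obtain ⟨a, ha, ha1⟩ := H.rep i 1 one_ne_zero
  obtain ⟨b, hb, hb1⟩ := H.rep l (-1) (neg_ne_zero.2 one_ne_zero)
  obtain ⟨z, hz, hz1⟩ := H.rep m 1 one_ne_zero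
  have hane : a ≠ 0 := by
    rintro rfl; rw [QuadraticMap.map_zero] at ha1; exact zero_ne_one ha1
  have hbne : b ≠ 0 := by
    rintro rfl; rw [QuadraticMap.map_zero] at hb1; exact neg_ne_zero.2 one_ne_zero hb1.symm
  have hzne : z ≠ 0 := by
    rintro rfl; rw [QuadraticMap.map_zero] at hz1; exact zero_ne_one hz1
  obtain ⟨v, hv, hva⟩ := partner (H.h.nd i) ha hane
  have hs : Q (a + b) = 0 := by rw [Q_add, ha1, hb1, hh.orth i l hil a ha b hb]; ring
  have hsz : polar Q (a + b) z = 0 := by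
    rw [p_add, hh.orth i m him a ha z hz, hh.orth l m hlm b hb z hz, add_zero]
  refine ⟨sie Q (a + b) z, sie_mem_omega H.hQ H.hn hs hsz, ?_⟩
  rintro ⟨σ, hσ⟩
  have h1 := hσ i v hv
  rw [sie_apply hs hsz, p_add', hva, hh.orth i l hil v hv b hb, hh.orth i m him v hv z hz, hz1,
    add_zero, one_smul, zero_smul, sub_zero, mul_one, one_smul] at h1
  have e1 : p m (v + z - (a + b)) = z := by
    rw [map_sub, map_add, map_add, hh.other m i him.symm v hv, hh.self m z hz,
      hh.other m i him.symm a ha, hh.other m l hlm.symm b hb]; simp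
  have e2 : p l (v + z - (a + b)) = -b := by
    rw [map_sub, map_add, map_add, hh.other l i hil.symm v hv, hh.other l m hlm z hz,
      hh.other l i hil.symm a ha, hh.self l b hb]; simp
  have h2 : σ i = m := by
    by_contra hne
    rw [hh.other m (σ i) (Ne.symm hne) _ h1] at e1
    exact hzne e1.symm
  rw [h2] at h1
  rw [hh.other l m hlm _ h1] at e2
  exact hbne (neg_eq_zero.1 e2.symm)

end H95.OIp
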