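import Mathlib
import Cfsg.Agent.Lib.H95.OIp6

set_option autoImplicit false

/-!
Maximality of the stabilisers of orthogonal decompositions in even dimension.
-/

namespace H95.OIf

open Module QuadraticMap H48.QuadSplit H95.OGeo H17.OrthAbs H95.OSie H95.OQd H95.OSmall H95.OIg
  H95.Bridge H95.OBridge H95.OImpB Cfsg Cfsg.Geo
open scoped Matrix MatrixGroups

variable {ι : Type} [Fintype ι] [DecidableEq ι] {F : Type*} [Field F]

lemma plus_iso {Q : QuadraticForm F (ι → F)} {A B : Submodule F (ι → F)}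
    (h : AreIsometricFor (⇑Q) A B) (hA : IsPlusTypeOn (⇑Q) A) : IsPlusTypeOn (⇑Q) B := by
  obtain ⟨e, he⟩ := h
  obtain ⟨U, hU, hs, hd⟩ := hA
  refine ⟨((U.comap A.subtype).map (e : A →ₗ[F] B)).map B.subtype, ?_, ?_, ?_⟩
  · rintro _ ⟨x, -, rfl⟩
    exact x.2
  · rintro _ ⟨_, ⟨x, hx, rfl⟩, rfl⟩
    show Q ((e x : B) : ι → F) = 0
    rw [he]
    exact hs _ hx
  · rw [Submodule.finrank_map_subtype_eq, LinearEquiv.finrank_map_eq,
      ← LinearEquiv.finrank_eq e, ← hd]
    congr 1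
    rw [← Submodule.finrank_map_subtype_eq A (U.comap A.subtype), Submodule.map_comap_subtype,
      inf_eq_right.2 hU]

/-- a singular vector in a plane -/
lemma plus_of_sing {Q : QuadraticForm F (ι → F)} {A : Submodule F (ι → F)} (hA : finrank F A = 2)
    {e : ι → F} (he : e ∈ A) (he0 : e ≠ 0) (heQ : Q e = 0) : IsPlusTypeOn (⇑Q) A := by
  refine ⟨Submodule.span F {e}, ?_, ?_, ?_⟩
  · rw [Submodule.span_le]; simpa using he
  · intro w hw
    obtain ⟨c, rfl⟩ := Submodule.mem_span_singleton.1 hw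
    rw [Q_smul, heQ, mul_zero]
  · rw [finrank_span_singleton he0, hA]

/-- a singular line pair in dimension four -/
lemma plus_of_pair {Q : QuadraticForm F (ι → F)} {A : Submodule F (ι → F)} (hA : finrank F A = 4)
    {a b : ι → F} (ha : a ∈ A) (hb : b ∈ A) (haQ : Q a = 0) (hbQ : Q b = 0) (hab : polar Q a b = 0)
    (hli : LinearIndependent F ![a, b]) : IsPlusTypeOn (⇑Q) A := by
  refine ⟨Submodule.span F (Set.range ![a, b]), ?_, ?_, ?_⟩
  · rw [Submodule.span_le]
    rintro _ ⟨i, rfl⟩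
    fin_cases i
    · exact ha
    · exact hb
  · intro w hw
    have h6 : Set.range ![a, b] = {a, b} := by
      ext x; simp [or_comm]
    rw [h6] at hw
    obtain ⟨c, d, rfl⟩ := Submodule.mem_span_pair.1 hw
    rw [Q_add, Q_smul, Q_smul, p_smul, p_smul', haQ, hbQ, hab]; ring
  · rw [finrank_span_eq_card hli, Fintype.card_fin, hA]

theorem max_all [Fintype F] {Q' : QuadraticForm F (ι → F)} (hQ : ND Q')
    (hn : 13 ≤ Fintype.card ι) {t k : ℕ} (hk2 : 2 ≤ k) {D : Fin t → Submodule F (ι → F)}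
    (hD : IsOrthogonalMDecomposition (⇑Q') k D) (hko : Odd k → Odd (Fintype.card F))
    (hA : k = 2 → Fintype.card F ≠ 3 ∧ ((∀ i, IsPlusTypeOn (⇑Q') (D i)) → 7 ≤ Fintype.card F))
    (hB : k = 3 → Fintype.card F ≠ 3)
    (hC : k = 4 → Fintype.card F = 2 → ¬ ∀ i, IsPlusTypeOn (⇑Q') (D i)) :
    IsMaximalIn (omegaGL (⇑Q')) (decompositionStabilizer D ⊓ omegaGL (⇑Q')) := by
  have hk := hD.decomp.decomp.finrank_eq
  have ht := hD.decomp.decomp.two_le
  have : Nontrivial (Fin t) := Fin.nontrivial_iff_two_le.2 ht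
  have hcard := card_eq hD.decomp.decomp
  have h1F : 1 < Fintype.card F := Fintype.one_lt_card
  by_cases hcase : (2 : F) ≠ 0 ∧ 3 ≤ k
  · -- odd characteristic, dimension at least three
    refine max_odd3 hQ hcase.1 (by omega) hD ?_
    rw [Nat.card_eq_fintype_card]
    by_cases h4 : 4 ≤ k
    · exact Or.inl h4
    · right
      have h3 : k = 3 := by omega
      refine ⟨?_, h3⟩
      have h5 := hB h3
      obtain ⟨a, ha⟩ := hko (by rw [h3]; decide)
      omega
  obtain ⟨p, hp⟩ := exists_QD Q' D (fun i => nd_mem (hD.decomp.nondegenerate i))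
    (fun i j hij u hu v hv => hD.decomp.orthogonal i j hij u hu v hv) hD.decomp.decomp.iSup_eq_top
  have hrep : ∀ i, ∀ e : F, e ≠ 0 → ∃ w ∈ D i, Q' w = e := by
    intro i e he
    by_cases two : (2 : F) = 0
    · obtain ⟨a, ha, ha0⟩ := ex_ns' (hp.nd i) (by rw [hk]; omega)
      obtain ⟨c, hc⟩ := H95.OIe.scale two ha0 e
      exact ⟨c • a, (D i).smul_mem _ ha, hc⟩
    · exact rep two (hp.nd i) (by rw [hk]; omega) e
  have hH : ∀ M : Subgroup ((ι → F) ≃ₗ[F] (ι → F)), M ≤ ⁅O Q', O Q'⁆ →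
      (∀ g ∈ ⁅O Q', O Q'⁆, Pres D g → g ∈ M) → HG Q' D p M := fun M h1 h2 =>
    { hQ := hQ
      hn := by rw [Module.finrank_fintype_fun_eq_card]; omega
      h := hp
      rep := hrep
      iso := hD.isometric
      M_le := h1.trans (omega_le_O Q')
      H_le := h2 }
  by_cases h2 : k = 2
  · -- planes
    subst h2
    obtain ⟨hq3, hplus⟩ := hA rfl
    have ht7 : 7 ≤ t := by omega
    have hty : ((∀ i, ∀ x ∈ D i, Q' x = 0 → x = 0) ∧ Nat.card F ≠ 3) ∨
        ((∀ i, ∃ e ∈ D i, e ≠ 0 ∧ Q' e = 0) ∧ 7 ≤ Nat.card F) := by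
      rw [Nat.card_eq_fintype_card]
      by_cases hex : ∃ i, ∃ x ∈ D i, Q' x = 0 ∧ x ≠ 0
      · obtain ⟨i, x, hx, hx0, hxne⟩ := hex
        right
        have h3 := plus_of_sing (hk i) hx hxne hx0
        have h4 : ∀ j, IsPlusTypeOn (⇑Q') (D j) := fun j => plus_iso (hD.isometric i j) h3
        refine ⟨fun j => ?_, hplus h4⟩
        obtain ⟨U, hU, hs, hd⟩ := h4 j
        rw [hk] at hd
        obtain ⟨y, hy, hy0⟩ := ex_ne (U := U) (by omega)
        exact ⟨y, hU hy, hy0, hs y hy⟩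
      · push Not at hex
        exact Or.inl ⟨hex, hq3⟩
    apply max_of hk
    · exact H95.OIp.exists_not_pres3 (hH ⁅O Q', O Q'⁆ le_rfl fun g hg _ => hg)
        (i := ⟨0, by omega⟩) (l := ⟨1, by omega⟩) (m := ⟨2, by omega⟩) (by simp) (by simp) (by simp)
    · intro M h1 h2 g hg hgp
      have hc7 : 7 ≤ Fintype.card (Fin t) := by rw [Fintype.card_fin]; exact ht7
      exact H95.OIp.HP.overgroup (p := p) ⟨hH M h1 h2, hk, hc7, hty⟩ hg hgp
  · -- characteristic two
    have h3 : 3 ≤ k := by omega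
    have two : (2 : F) = 0 := by
      by_contra h
      exact hcase ⟨h, h3⟩
    have hk4 : 4 ≤ k := by
      rcases Nat.lt_or_ge 3 k with h4 | h4
      · exact h4
      · exfalso
        have h5 : k = 3 := by omega
        exact two_ne (hko (by rw [h5]; decide)) two
    apply max_of hk
    · obtain ⟨s, hs, hs0, hsQ⟩ := OGeo.exists_sing Q' (U := D ⟨0, by omega⟩) (by rw [hk]; omega)
      exact H95.OIe.exists_not_pres (hH ⁅O Q', O Q'⁆ le_rfl fun g hg _ => hg)
        (i := ⟨0, by omega⟩) (l := ⟨1, by omega⟩) (by simp) hs hs0 hsQ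
    · intro M h1 h2 g hg hgp
      refine H95.OIe.overgroup (hH M h1 h2) two (fun i => by rw [hk]; exact hk4) ?_ hg hgp
      intro hc i hi a ha b hb haQ hbQ hab hli
      rw [Nat.card_eq_fintype_card] at hc
      rw [hk] at hi
      exact hC hi hc fun j => plus_iso (hD.isometric i j)
        (plus_of_pair (by rw [hk, hi]) ha hb haQ hbQ hab hli)

end H95.OIf
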