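import Cfsg.Agent.Lib.H95.O12NdB
import Cfsg.Agent.Lib.H95.O12Ext
import Cfsg.Agent.Lib.H95.OIf
import Cfsg.Agent.Lib.H95.RatQBS
import Cfsg.Agent.Lib.H7.OAPar
import Cfsg.Agent.Lib.H7.OAPoint

/-!
Maximality of geometric subgroups of the orthogonal groups in dimension twelve, minus type.
-/
set_option autoImplicit false

namespace H95.O12All

open Module QuadraticMap H48.QuadSplit H95.OGeo H17.OrthAbs H95.OSie H95.OQd H95.OSmall H95.OIg
  H95.Bridge H95.OBridge H95.OImpB H95.OIf Cfsg Cfsg.Geo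
open scoped Matrix MatrixGroups

section
variable {ι : Type} [Fintype ι] [DecidableEq ι] {F : Type*} [Field F]

/-- orthogonal decompositions into members of even dimension at least four -/
theorem max_imp [Fintype F] {Q' : QuadraticForm F (ι → F)} (hQ : ND Q')
    (hn : 9 ≤ Fintype.card ι) {t k : ℕ} (hk4 : 4 ≤ k) {D : Fin t → Submodule F (ι → F)}
    (hD : IsOrthogonalMDecomposition (⇑Q') k D)
    (hC : k = 4 → Fintype.card F = 2 → ¬ ∀ i, IsPlusTypeOn (⇑Q') (D i)) :
    IsMaximalIn (omegaGL (⇑Q')) (decompositionStabilizer D ⊓ omegaGL (⇑Q')) := by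
  have hk := hD.decomp.decomp.finrank_eq
  have ht := hD.decomp.decomp.two_le
  have : Nontrivial (Fin t) := Fin.nontrivial_iff_two_le.2 ht
  have hcard := card_eq hD.decomp.decomp
  have h1F : 1 < Fintype.card F := Fintype.one_lt_card
  by_cases two : (2 : F) ≠ 0
  · exact max_odd3 hQ two (by omega) hD (Or.inl hk4)
  push Not at two
  obtain ⟨p, hp⟩ := exists_QD Q' D (fun i => nd_mem (hD.decomp.nondegenerate i))
    (fun i j hij u hu v hv => hD.decomp.orthogonal i j hij u hu v hv) hD.decomp.decomp.iSup_eq_top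
  have hrep : ∀ i, ∀ e : F, e ≠ 0 → ∃ w ∈ D i, Q' w = e := by
    intro i e he
    obtain ⟨a, ha, ha0⟩ := ex_ns' (hp.nd i) (by rw [hk]; omega)
    obtain ⟨c, hc⟩ := H95.OIe.scale two ha0 e
    exact ⟨c • a, (D i).smul_mem _ ha, hc⟩
  have hH : ∀ M : Subgroup ((ι → F) ≃ₗ[F] (ι → F)), M ≤ ⁅O Q', O Q'⁆ →
      (∀ g ∈ ⁅O Q', O Q'⁆, Pres D g → g ∈ M) → HG Q' D p M := fun M h1 h2 =>
    { hQ := hQ
      hn := by rw [Module.finrank_fintype_fun_eq_card]; omega
      h := hp
      rep := hrep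
      iso := hD.isometric
      M_le := h1.trans (omega_le_O Q')
      H_le := h2 }
  apply max_of hk
  · obtain ⟨s, hs, hs0, hsQ⟩ := OGeo.exists_sing Q' (U := D ⟨0, by omega⟩) (by rw [hk]; omega)
    exact H95.OIe.exists_not_pres (hH ⁅O Q', O Q'⁆ le_rfl fun g hg _ => hg)
      (i := ⟨0, by omega⟩) (l := ⟨1, by omega⟩) (by simp) hs hs0 hsQ
  · intro M h1 h2 g hg hgp
    refine H95.OIe.overgroup (hH M h1 h2) two (fun i => by rw [hk]; exact hk4) ?_ hg hgp
    intro hc i hi a ha b hb haQ hbQ hab hli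
    rw [Nat.card_eq_fintype_card] at hc
    rw [hk] at hi
    exact hC hi hc fun j => plus_iso (hD.isometric i j)
      (plus_of_pair (by rw [hk, hi]) ha hb haQ hbQ hab hli)

end

variable {F : Type*} [Field F] [Fintype F]

theorem sing12 {n : ℕ} (hn : n = 12) (Q : (Fin n → F) → F) (hQ : IsNondegenerateQuadraticForm Q)
    (hminus : ¬ IsPlusTypeOn Q ⊤) (W : Submodule F (Fin n → F)) (hW0 : W ≠ ⊥) (hW : IsTotallySingularQuad Q W) :
    IsMaximalIn (omegaGL Q) (subspaceStabilizer W ⊓ omegaGL Q) := by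
  have hfr : Module.finrank F (Fin n → F) = n := by simp
  refine H7.OABridge.isMaximalIn_omegaGL (Q := H7.OABridge.ofFun hQ) rfl (H7.OABridge.mem_stab (W := W)) ?_ ?_
  · exact H7.OAPar.exists_not_stab (H7.OABridge.nd_ofFun hQ) (by omega) hW hW0
  · intro M h1 h2 h3
    refine H7.OAPar.maximal (H7.OABridge.nd_ofFun hQ) (by omega) hW ?_ h1 h2 h3
    intro U hU hU'
    exact absurd ⟨U, le_top, hU, by rw [hU', finrank_top]⟩ hminus

theorem point12 {n : ℕ} (hn : n = 12) (Q : (Fin n → F) → F) (hQ : IsNondegenerateQuadraticForm Q)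
    (hchar : ¬ Odd (Fintype.card F)) (v : (Fin n → F)) (hv : Q v ≠ 0) :
    IsMaximalIn (omegaGL Q) (subspaceStabilizer (Submodule.span F {v}) ⊓ omegaGL Q) := by
  have hfr : Module.finrank F (Fin n → F) = n := by simp
  obtain ⟨q, rfl⟩ : ∃ q : QuadraticForm F (Fin n → F), ⇑q = Q := ⟨H7.OABridge.ofFun hQ, rfl⟩
  have hnd : H48.QuadSplit.ND q := H7.OABridge.nd_of rfl hQ
  refine H7.OABridge.isMaximalIn_omegaGL rfl (H7.OABridge.mem_stab (W := Submodule.span F {v})) ?_ ?_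
  · exact H7.OAPoint.exists_not_stab_point hnd (by omega) hv
  · intro M h1 h2 h3
    exact H7.OAPoint.max_point hnd (by omega) hv h1 h2 h3

theorem imp12 {n : ℕ} (hn : n = 12) (Q : (Fin n → F) → F) (hQ : IsNondegenerateQuadraticForm Q)
    {t : ℕ} (D : Fin t → Submodule F (Fin n → F)) (hD : IsOrthogonalMDecomposition Q 4 D)
    (hm : ∀ i, ¬ IsPlusTypeOn Q (D i)) :
    IsMaximalIn (omegaGL Q) (decompositionStabilizer D ⊓ omegaGL Q) := by
  obtain ⟨Q', hQ', hnd⟩ := exists_quad hQ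
  rw [← hQ'] at hD hm ⊢
  have ht := hD.decomp.decomp.two_le
  exact max_imp hnd (by rw [Fintype.card_fin]; omega) le_rfl hD fun _ _ h => hm ⟨0, by omega⟩ (h _)

theorem rat12 {n : ℕ} (hn : n = 12) (Q : (Fin n → F) → F) (hQ : IsNondegenerateQuadraticForm Q)
    (F₀ : Subfield F) (r : ℕ) (hr : r.Prime) (hcard : Fintype.card F = Nat.card F₀ ^ r)
    (P : Matrix.GeneralLinearGroup (Fin n) F) (ζ : F) (hζ : ζ ≠ 0)
    (hP : IsQuadFormRationalStructure (fun v : Fin n → F => ζ * Q v) F₀ P) :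
    IsMaximalIn (omegaGL Q) (subfieldSubgroup F₀ P ⊓ omegaGL Q) := by
  obtain ⟨Q', rfl, hnd⟩ := exists_quad hQ
  have hnd' : ND (ζ • Q') := by
    intro x hx
    apply hnd
    intro w
    have h1 := hx w
    rw [coeFn_smul, polar_smul, smul_eq_mul] at h1
    exact (mul_eq_zero.1 h1).resolve_left hζ
  have e : Cfsg.Geo.omegaGL (⇑Q') = Cfsg.Geo.omegaGL (⇑(ζ • Q')) := by
    have e1 : Cfsg.isometryGroup F (⇑Q') = Cfsg.isometryGroup F (⇑(ζ • Q')) := by
      ext g
      rw [mem_iso, mem_iso, H17.OrthAbs.mem_O, H17.OrthAbs.mem_O]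
      constructor
      · intro h x
        rw [coeFn_smul, Pi.smul_apply, Pi.smul_apply, h]
      · intro h x
        have h1 := h x
        rw [coeFn_smul, Pi.smul_apply, Pi.smul_apply, smul_eq_mul, smul_eq_mul] at h1
        exact mul_left_cancel₀ hζ h1
    rw [omegaGL_eq, omegaGL_eq, e1]
  rw [e]
  exact H95.RatQBS.rat_max hnd' (by rw [Fintype.card_fin]; omega) hr
    (by rw [Nat.card_eq_fintype_card]; exact hcard) hP

end H95.O12All
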