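import Mathlib
import Cfsg.Agent.Lib.H7.OAParity

/-!
Stabilisers of pairs of complementary maximal totally singular subspaces.
-/
set_option autoImplicit false

namespace H95.OAPair12

open Module QuadraticMap H48.QuadSplit H48.QuadWitt H95.OGeo H7.OA H7.OABridge H7.OAPar H7.OAParity

variable {F V : Type*} [Field F] [AddCommGroup V] [Module F V] {Q : QuadraticForm F V}

/-- permuting two subspaces -/
def PP (W1 W2 : Submodule F V) (g : V ≃ₗ[F] V) : Prop :=
  (Stab W1 g ∧ Stab W2 g) ∨ (W1.map (g : V →ₗ[F] V) = W2 ∧ W2.map (g : V →ₗ[F] V) = W1)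

lemma PP.symm {W1 W2 : Submodule F V} {g : V ≃ₗ[F] V} (h : PP W1 W2 g) : PP W2 W1 g := by
  rcases h with h | h
  · exact Or.inl ⟨h.2, h.1⟩
  · exact Or.inr ⟨h.2, h.1⟩

/-- the standing situation -/
structure Sit (Q : QuadraticForm F V) (W1 W2 : Submodule F V) (M : Subgroup (V ≃ₗ[F] V)) : Prop where
  nd : ND Q
  m1 : MTS Q W1
  m2 : MTS Q W2
  compl : IsCompl W1 W2
  dim : 12 ≤ finrank F V
  stab : ∀ g ∈ Om Q, PP W1 W2 g → g ∈ M
  le : M ≤ Om Q

variable {W1 W2 : Submodule F V} {M : Subgroup (V ≃ₗ[F] V)}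

lemma Sit.symm (S : Sit Q W1 W2 M) : Sit Q W2 W1 M :=
  ⟨S.nd, S.m2, S.m1, S.compl.symm, S.dim, fun g hg h => S.stab g hg h.symm, S.le⟩

lemma Sit.leO (S : Sit Q W1 W2 M) : M ≤ O Q := S.le.trans (Om_le Q)

/-- decomposition of vectors -/
lemma Sit.dec (S : Sit Q W1 W2 M) (x : V) : ∃ a ∈ W1, ∃ b ∈ W2, x = a + b := by
  have : x ∈ W1 ⊔ W2 := by rw [S.compl.sup_eq_top]; trivial
  rw [Submodule.mem_sup] at this
  obtain ⟨a, ha, b, hb, h⟩ := this
  exact ⟨a, ha, b, hb, h.symm⟩

variable [FiniteDimensional F V]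

/-- separation: for `w ∈ W1` outside a subspace of `W1` -/
lemma Sit.sep (S : Sit Q W1 W2 M) {T : Submodule F V} (hT : T ≤ W1) {w : V} (hw : w ∈ W1) (hwT : w ∉ T) :
    ∃ y ∈ W2, (∀ t ∈ T, polar Q t y = 0) ∧ polar Q w y = 1 := by
  obtain ⟨y, h1, h2⟩ := H95.OGeo.sep S.nd hwT
  obtain ⟨a, ha, b, hb, rfl⟩ := S.dec y
  have h3 : ∀ t ∈ W1, polar Q t (a + b) = polar Q t b := by
    intro t ht; rw [p_add', S.m1.ts.polar ht ha, zero_add]
  refine ⟨(polar Q w (a + b))⁻¹ • b, W2.smul_mem _ hb, fun t ht => ?_, ?_⟩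
  · rw [p_smul', ← h3 t (hT ht), h1 t ht, mul_zero]
  · rw [p_smul', ← h3 w hw, inv_mul_cancel₀ h2]

lemma Sit.sep1 (S : Sit Q W1 W2 M) {w u : V} (hu : u ∈ W1) (hw : w ∈ W1) (hwu : ∀ c : F, w ≠ c • u) :
    ∃ y ∈ W2, polar Q u y = 0 ∧ polar Q w y = 1 := by
  obtain ⟨y, hy, h1, h2⟩ := S.sep (T := Submodule.span F {u})
    (by rw [Submodule.span_le, Set.singleton_subset_iff]; exact hu) hw (by
      rw [Submodule.mem_span_singleton]
      rintro ⟨c, hc⟩
      exact hwu c hc.symm)
  exact ⟨y, hy, h1 u (Submodule.mem_span_singleton_self u), h2⟩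

lemma Sit.sep2 (S : Sit Q W1 W2 M) {w u v : V} (hu : u ∈ W1) (hv : v ∈ W1) (hw : w ∈ W1)
    (hwu : ∀ c d : F, w ≠ c • u + d • v) :
    ∃ y ∈ W2, polar Q u y = 0 ∧ polar Q v y = 0 ∧ polar Q w y = 1 := by
  obtain ⟨y, hy, h1, h2⟩ := S.sep (T := Submodule.span F {u, v})
    (by rw [Submodule.span_le]; rintro x (rfl | rfl); exacts [hu, hv]) hw (by
      rw [Submodule.mem_span_pair]
      rintro ⟨c, d, hc⟩
      exact hwu c d hc.symm)
  exact ⟨y, hy, h1 u (Submodule.subset_span (by simp)), h1 v (Submodule.subset_span (by simp)), h2⟩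

omit [FiniteDimensional F V] in
lemma Sit.seven (S : Sit Q W1 W2 M) : 6 ≤ finrank F W1 := by
  have := S.m1.dim
  have := S.dim
  omega

variable [Finite F]

/-- Siegel elements in `M` -/
lemma Sit.has (S : Sit Q W1 W2 M) {u w : V} (hu : u ∈ W1) (hw : w ∈ W2) (huw : polar Q u w = 0) : Has Q M u w := by
  obtain ⟨g, hg, hgx⟩ := full_Om S.nd (by have := S.dim; omega) (S.m1.ts u hu) w huw
  refine ⟨g, S.stab g hg (Or.inl ⟨stab_of fun x hx => ?_, stab_of fun x hx => ?_⟩), hgx⟩
  · rw [hgx, sgF, S.m1.ts.polar hx hu, zero_smul, add_zero]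
    exact W1.sub_mem hx (W1.smul_mem _ hu)
  · rw [hgx, sgF, S.m2.ts.polar hx hw, S.m2.ts w hw]
    have e : x + polar Q x u • w - (0 + 0 * polar Q x u) • u = x + polar Q x u • w := by module
    rw [e]
    exact W2.add_mem hx (W2.smul_mem _ hw)

/-- one vector of `W1` outside `⟨u⟩` gives everything -/
lemma Sit.full_of (S : Sit Q W1 W2 M) {u w : V} (hu : u ∈ W1) (hw : w ∈ W1) (hwu : ∀ c : F, w ≠ c • u)
    (h : Has Q M u w) : Full Q M u := by
  have huQ := S.m1.ts u hu
  -- moving by transvections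
  have step : ∀ w ∈ W1, (∀ c : F, w ≠ c • u) → Has Q M u w → ∀ y ∈ W2, polar Q u y = 0 → polar Q w y = 1 →
      ∀ x ∈ W1, polar Q x y = 0 → Has Q M u x := by
    intro w hw hwu h y hy huy hwy x hx hxy
    obtain ⟨g, hg, hgx⟩ := S.has hx hy hxy
    have h1 := h.conj hg (S.leO hg)
    have e1 : g u = u := by
      rw [hgx, sgF, S.m1.ts.polar hu hx, huy]; module
    have e2 : g w = w - x := by
      rw [hgx, sgF, S.m1.ts.polar hw hx, hwy]; module
    rw [e1, e2] at h1
    have h2 := h.sub h1 huQ (S.m1.ts.polar hu hw) (S.m1.ts.polar hu (W1.sub_mem hw hx))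
    rwa [sub_sub_cancel] at h2
  obtain ⟨y, hy, huy, hwy⟩ := S.sep1 hu hw hwu
  have hR := step w hw hwu h y hy huy hwy
  -- a second vector
  have hall : ∀ z ∈ W1, Has Q M u z := by
    intro z hz
    by_cases hzy : polar Q z y = 0
    · exact hR z hz hzy
    · -- choose `w' ∈ W1 ∩ y^⊥` outside `⟨u⟩`
      obtain ⟨w', hw', hw'y, hw'u⟩ : ∃ w' ∈ W1, polar Q w' y = 0 ∧ ∀ c : F, w' ≠ c • u := by
        by_contra hcon
        push Not at hcon
        have h1 : (W1 ⊓ orth Q (Submodule.span F {y}) : Submodule F V) ≤ Submodule.span F {u} := by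
          intro x hx
          obtain ⟨c, hc⟩ := hcon x hx.1 (by rw [p_comm]; exact hx.2 y (Submodule.mem_span_singleton_self y))
          rw [Submodule.mem_span_singleton]
          exact ⟨c, hc.symm⟩
        have h2 := Submodule.finrank_mono h1
        have h3 := finrank_span_le_card (R := F) ({u} : Set V)
        simp at h3
        have h4 := finrank_orth S.nd (Submodule.span F {y})
        have h5 := finrank_span_le_card (R := F) ({y} : Set V)
        simp at h5
        have h6 := Submodule.finrank_sup_add_finrank_inf_eq W1 (orth Q (Submodule.span F {y}))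
        have h7 := Submodule.finrank_le (W1 ⊔ orth Q (Submodule.span F {y}))
        have h8 := S.seven
        omega
      obtain ⟨y', hy', huy', hzy', hw'y'⟩ := S.sep2 hu hz hw' (fun c d hcd => by
        have h1 : polar Q (c • u + d • z) y = 0 := by rw [← hcd, hw'y]
        rw [p_add, p_smul, p_smul, huy] at h1
        have h2 : d = 0 := by
          have : d * polar Q z y = 0 := by linear_combination h1
          exact (mul_eq_zero.1 this).resolve_right hzy
        rw [h2, zero_smul, add_zero] at hcd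
        exact hw'u c hcd)
      exact step w' hw' hw'u (hR w' hw' hw'y) y' hy' huy' hw'y' z hz hzy'
  intro x hx
  obtain ⟨a, ha, b, hb, rfl⟩ := S.dec x
  have h1 : polar Q u b = 0 := by
    rw [p_add', S.m1.ts.polar hu ha, zero_add] at hx; exact hx
  exact (hall a ha).mul (S.has hu hb h1) huQ (S.m1.ts.polar hu ha) h1

/-- with a swap, a full centre suffices -/
lemma Sit.top_of_full (S : Sit Q W1 W2 M) {s : V ≃ₗ[F] V} (hs : s ∈ M) (hs1 : ∀ x ∈ W1, s x ∈ W2) {u : V} (hu : u ∈ W1)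
    (hu0 : u ≠ 0) (h : Full Q M u) : Om Q ≤ M := by
  have h5 : 5 ≤ finrank F V := by have := S.dim; omega
  set v := s u with hv
  have hvW : v ∈ W2 := hs1 u hu
  have hv0 : v ≠ 0 := fun h => hu0 ((map_eq_zero_iff s s.injective).1 h)
  have hfv : Full Q M v := h.conj hs (S.leO hs)
  by_cases huv : polar Q u v = 0
  · obtain ⟨x, hx, -, hvx⟩ := S.symm.sep1 (w := v) (u := 0) W2.zero_mem hvW (fun c => by rw [smul_zero]; exact hv0)
    -- `x ∉ ⟨u⟩`
    obtain ⟨y, hy, hxy, huy⟩ := S.sep1 hx hu (fun c hc => by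
      have h1 : polar Q v (c • x) = 0 := by rw [← hc, p_comm, huv]
      rw [p_smul', hvx, mul_one] at h1
      rw [h1, zero_smul] at hc
      exact hu0 hc)
    obtain ⟨g, hg, hgx⟩ := S.symm.has hy hx (by rw [p_comm, hxy])
    have hgv : g v = v - y := by
      rw [hgx, sgF, S.m2.ts.polar hvW hy, hvx]; module
    have h1 := hfv.conj hg (S.leO hg)
    rw [hgv] at h1
    refine le_of_full S.nd h5 (S.m1.ts u hu) (S.m2.ts _ (W2.sub_mem hvW hy)) ?_ h h1
    rw [p_sub', huv, huy]
    simp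
  · exact le_of_full S.nd h5 (S.m1.ts u hu) (S.m2.ts v hvW) huv h hfv

/-- the key commutator -/
lemma Sit.key (S : Sit Q W1 W2 M) {a b a1 b1 : V} (h : Has Q M a b) (hbQ : Q b = 0)
    (ha1 : a1 ∈ W1) (ha2 : a - a1 ∈ W2) (hb1 : b1 ∈ W1) (hb2 : b - b1 ∈ W2)
    (hind : ∀ c d : F, c • a1 + d • b1 = 0 → c = 0 ∧ d = 0) : ∃ u ∈ W1, u ≠ 0 ∧ Full Q M u := by
  -- `u ∈ W1` orthogonal to `a`, `b`, outside `⟨a1, b1⟩`
  obtain ⟨u, hu, hua, hub, hun⟩ : ∃ u ∈ W1, polar Q u a = 0 ∧ polar Q u b = 0 ∧ u ∉ Submodule.span F {a1, b1} := by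
    by_contra hcon
    push Not at hcon
    have h1 : (W1 ⊓ orth Q (Submodule.span F {a, b}) : Submodule F V) ≤ Submodule.span F {a1, b1} := by
      intro x hx
      refine hcon x hx.1 ?_ ?_
      · rw [p_comm]; exact hx.2 a (Submodule.subset_span (by simp))
      · rw [p_comm]; exact hx.2 b (Submodule.subset_span (by simp))
    have h2 := Submodule.finrank_mono h1
    have h3 := H7.OAPoint.finrank_pair_le (F := F) a1 b1
    have h4 := finrank_orth S.nd (Submodule.span F {a, b})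
    have h5 := H7.OAPoint.finrank_pair_le (F := F) a b
    have h6 := Submodule.finrank_sup_add_finrank_inf_eq W1 (orth Q (Submodule.span F {a, b}))
    have h7 := Submodule.finrank_le (W1 ⊔ orth Q (Submodule.span F {a, b}))
    have h8 := S.seven
    omega
  have hu0 : u ≠ 0 := by
    rintro rfl
    exact hun (Submodule.zero_mem _)
  have hun' : ∀ c d : F, u ≠ c • a1 + d • b1 := fun c d h => hun (Submodule.mem_span_pair.2 ⟨c, d, h.symm⟩)
  refine ⟨u, hu, hu0, ?_⟩
  -- `w ∈ W2` orthogonal to `u`, `b1`, with `polar a1 w = 1`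
  obtain ⟨w, hw, huw, hbw, haw⟩ := S.sep2 hu hb1 ha1 (fun c d hcd => by
    by_cases hc : c = 0
    · rw [hc, zero_smul, zero_add] at hcd
      have := (hind 1 (-d) (by rw [hcd]; module)).1
      exact one_ne_zero this
    · apply hun' c⁻¹ (-(c⁻¹ * d))
      rw [hcd, smul_add, smul_smul, inv_mul_cancel₀ hc]
      module)
  have toW : ∀ x x1, x - x1 ∈ W2 → polar Q w x = polar Q x1 w := by
    intro x x1 hx
    have : x = (x - x1) + x1 := by abel
    rw [this, p_add', S.m2.ts.polar hw hx, zero_add, p_comm]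
  have h1 := (S.has hu hw huw).comm (S.m1.ts u hu) huw h S.leO hua hub
  rw [toW a a1 ha2, toW b b1 hb2, haw, hbw, hbQ] at h1
  have e1 : (1 : F) • b - (0 + 0 * 1 : F) • a = b := by module
  rw [e1] at h1
  -- remove the `W2` component
  have hub2 : polar Q u (b - b1) = 0 := by
    rw [p_sub', hub, S.m1.ts.polar hu hb1, sub_zero]
  have h2 := h1.sub (S.has hu hb2 hub2) (S.m1.ts u hu) hub hub2
  rw [sub_sub_cancel] at h2
  refine S.full_of hu hb1 (fun c hc => ?_) h2
  by_cases hc0 : c = 0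
  · rw [hc0, zero_smul] at hc
    have := (hind 0 1 (by rw [hc]; simp)).2
    exact one_ne_zero this
  · apply hun' 0 c⁻¹
    rw [hc, smul_smul, inv_mul_cancel₀ hc0]
    module

omit [Finite F] in
/-- finding independent components -/
lemma Sit.find (S : Sit Q W1 W2 M) {A B : Submodule F V} (hA : finrank F A = finrank F W1)
    (hB : finrank F B = finrank F W1) (hAB : A ⊔ B = ⊤) (hA' : ¬ A ≤ W2) (hB' : ¬ B ≤ W2) :
    ∃ a ∈ A, ∃ b ∈ B, ∃ a1 b1, polar Q a b = 0 ∧ a1 ∈ W1 ∧ a - a1 ∈ W2 ∧ b1 ∈ W1 ∧ b - b1 ∈ W2 ∧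
      ∀ c d : F, c • a1 + d • b1 = 0 → c = 0 ∧ d = 0 := by
  obtain ⟨T, hT1, hT2⟩ := H7.OANd.exists_proj S.compl
  have hT0 : ∀ x, T x = 0 → x ∈ W2 := by
    intro x hx
    have := hT2 x
    rwa [hx, sub_zero] at this
  have hsum : finrank F W1 ≤ finrank F (A.map T) + finrank F (B.map T) := by
    have h1 : W1 ≤ A.map T ⊔ B.map T := by
      intro x hx
      have hTx : T x = x := by
        have h2 := W1.sub_mem hx (hT1 x)
        have h3 : x - T x ∈ W1 ⊓ W2 := ⟨h2, hT2 x⟩
        rw [S.compl.inf_eq_bot, Submodule.mem_bot, sub_eq_zero] at h3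
        exact h3.symm
      rw [← hTx, ← Submodule.map_sup, hAB]
      exact ⟨x, trivial, rfl⟩
    have h2 := Submodule.finrank_mono h1
    have h3 := Submodule.finrank_add_le_finrank_add_finrank (A.map T) (B.map T)
    omega
  have h7 := S.seven
  -- symmetric core
  have core : ∀ A B : Submodule F V, finrank F A = finrank F W1 → 3 ≤ finrank F (A.map T) → ¬ B ≤ W2 →
      ∃ a ∈ A, ∃ b ∈ B, polar Q a b = 0 ∧ ∀ c d : F, c • T a + d • T b = 0 → c = 0 ∧ d = 0 := by
    intro A B hA hdA hB'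
    obtain ⟨b, hb, hbW⟩ := SetLike.not_le_iff_exists.1 hB'
    have hTb : T b ≠ 0 := fun h => hbW (hT0 b h)
    by_contra hcon
    push Not at hcon
    have h1 : (A ⊓ orth Q (Submodule.span F {b}) : Submodule F V).map T ≤ Submodule.span F {T b} := by
      rintro _ ⟨x, hx, rfl⟩
      obtain ⟨c, d, hcd, hne⟩ := hcon x hx.1 b hb (by rw [p_comm]; exact hx.2 b (Submodule.mem_span_singleton_self b))
      by_cases hc : c = 0
      · have hd : d ≠ 0 := hne hc
        rw [hc, zero_smul, zero_add] at hcd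
        exact absurd ((smul_eq_zero.1 hcd).resolve_left hd) hTb
      · rw [Submodule.mem_span_singleton]
        refine ⟨-(c⁻¹ * d), ?_⟩
        have : T x = c⁻¹ • (c • T x) := by rw [smul_smul, inv_mul_cancel₀ hc, one_smul]
        rw [this, eq_neg_of_add_eq_zero_left hcd]
        module
    have h2 := Submodule.finrank_mono h1
    have h3 := finrank_span_le_card (R := F) ({T b} : Set V)
    simp at h3
    have h4 := finrank_orth S.nd (Submodule.span F {b})
    have h5 := finrank_span_le_card (R := F) ({b} : Set V)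
    simp at h5
    set P : Submodule F V := A ⊓ orth Q (Submodule.span F {b}) with hP
    have h6 : finrank F (A ⊔ orth Q (Submodule.span F {b}) : Submodule F V) + finrank F P =
        finrank F A + finrank F (orth Q (Submodule.span F {b})) :=
      Submodule.finrank_sup_add_finrank_inf_eq A (orth Q (Submodule.span F {b}))
    have h7 := Submodule.finrank_le (A ⊔ orth Q (Submodule.span F {b}))
    -- rank-nullity on `A` and on `P`
    have h8 := LinearMap.finrank_range_add_finrank_ker (T ∘ₗ A.subtype)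
    have h9 := LinearMap.finrank_range_add_finrank_ker (T ∘ₗ P.subtype)
    rw [LinearMap.range_comp, Submodule.range_subtype] at h8 h9
    have h10 : finrank F (LinearMap.ker (T ∘ₗ P.subtype)) ≤ finrank F (LinearMap.ker (T ∘ₗ A.subtype)) := by
      have e1 : (LinearMap.ker (T ∘ₗ P.subtype)).map P.subtype ≤ (LinearMap.ker (T ∘ₗ A.subtype)).map A.subtype := by
        rintro _ ⟨x, hx, rfl⟩
        exact ⟨⟨x, x.2.1⟩, hx, rfl⟩
      have e2 := Submodule.finrank_mono e1
      rwa [Submodule.finrank_map_subtype_eq, Submodule.finrank_map_subtype_eq] at e2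
    omega
  rcases le_or_gt 3 (finrank F (A.map T)) with h4 | h4
  · obtain ⟨a, ha, b, hb, hab, hind⟩ := core A B hA h4 hB'
    exact ⟨a, ha, b, hb, T a, T b, hab, hT1 a, hT2 a, hT1 b, hT2 b, hind⟩
  · obtain ⟨b, hb, a, ha, hab, hind⟩ := core B A hB (by omega) hA'
    refine ⟨a, ha, b, hb, T a, T b, by rw [p_comm]; exact hab, hT1 a, hT2 a, hT1 b, hT2 b, fun c d hcd => ?_⟩
    have := hind d c (by rw [add_comm]; exact hcd)
    exact ⟨this.2, this.1⟩

/-- **Maximality of the stabilisers of pairs of complementary totally singular subspaces** -/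
theorem Sit.maximal (S : Sit Q W1 W2 M) {s : V ≃ₗ[F] V} (hs : s ∈ M) (hs1 : ∀ x ∈ W1, s x ∈ W2)
    (hs2 : ∀ x ∈ W2, s x ∈ W1) (hne : ∃ g ∈ M, ¬ PP W1 W2 g) : Om Q ≤ M := by
  obtain ⟨g, hg, hgP⟩ := hne
  have hgO := S.leO hg
  have hd1 : finrank F (W1.map (g : V →ₗ[F] V)) = finrank F W1 := LinearEquiv.finrank_map_eq g W1
  have hd2 : finrank F (W2.map (g : V →ₗ[F] V)) = finrank F W2 := LinearEquiv.finrank_map_eq g W2
  have hd : finrank F W1 = finrank F W2 := by
    have := S.m1.dim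
    have := S.m2.dim
    omega
  have hsup : W1.map (g : V →ₗ[F] V) ⊔ W2.map (g : V →ₗ[F] V) = ⊤ := by
    rw [← Submodule.map_sup, S.compl.sup_eq_top, Submodule.map_top]
    exact LinearEquiv.range g
  -- the Siegel elements for `g W1`, `g W2`
  have hasg : ∀ a ∈ W1.map (g : V →ₗ[F] V), ∀ b ∈ W2.map (g : V →ₗ[F] V), polar Q a b = 0 → Has Q M a b := by
    rintro _ ⟨a, ha, rfl⟩ _ ⟨b, hb, rfl⟩ hab
    have hab' : polar Q (g a) (g b) = 0 := hab
    rw [O_polar hgO] at hab'
    exact (S.has ha hb hab').conj hg hgO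
  have e12 : ∀ {A B : Submodule F V}, A ≤ B → finrank F A = finrank F B → A = B :=
    fun h h' => Submodule.eq_of_le_of_finrank_eq h h'
  have tsg : ∀ b ∈ W2.map (g : V →ₗ[F] V), Q b = 0 := by
    rintro _ ⟨b, hb, rfl⟩
    exact (mem_O.1 hgO b).trans (S.m2.ts b hb)
  by_cases hA : W1.map (g : V →ₗ[F] V) ≤ W2 ∨ W2.map (g : V →ₗ[F] V) ≤ W2
  · by_cases hB : W1.map (g : V →ₗ[F] V) ≤ W1 ∨ W2.map (g : V →ₗ[F] V) ≤ W1
    · exfalso
      apply hgP
      have hdisj : ∀ X : Submodule F V, X ≤ W1 → X ≤ W2 → finrank F X ≠ finrank F W1 := by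
        intro X h1 h2 h3
        have h4 : X ≤ ⊥ := by rw [← S.compl.inf_eq_bot]; exact le_inf h1 h2
        have h5 : X = ⊥ := le_bot_iff.1 h4
        rw [h5, finrank_bot] at h3
        have := S.seven
        omega
      rcases hA with hA | hA <;> rcases hB with hB | hB
      · exact absurd hd1 (hdisj _ hB hA)
      · right
        exact ⟨e12 hA (by omega), e12 hB (by omega)⟩
      · left
        exact ⟨stab_of fun x hx => hB ⟨x, hx, rfl⟩, stab_of fun x hx => hA ⟨x, hx, rfl⟩⟩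
      · exact absurd (hd2.trans hd.symm) (hdisj _ hB hA)
    · push Not at hB
      obtain ⟨a, ha, b, hb, a1, b1, hab, h1, h2, h3, h4, h5⟩ := S.symm.find (hd1.trans hd) hd2 hsup hB.1 hB.2
      obtain ⟨u, hu, hu0, hfu⟩ := S.symm.key (hasg a ha b hb hab) (tsg b hb) h1 h2 h3 h4 h5
      exact S.symm.top_of_full hs hs2 hu hu0 hfu
  · push Not at hA
    obtain ⟨a, ha, b, hb, a1, b1, hab, h1, h2, h3, h4, h5⟩ := S.find hd1 (hd2.trans hd.symm) hsup hA.1 hA.2
    obtain ⟨u, hu, hu0, hfu⟩ := S.key (hasg a ha b hb hab) (tsg b hb) h1 h2 h3 h4 h5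
    exact S.top_of_full hs hs1 hu hu0 hfu

/-! ### The swap -/

omit [Finite F] in
/-- an isometry interchanging the two subspaces -/
lemma exists_s0 (hQ : ND Q) (h1 : MTS Q W1) (h2 : MTS Q W2) (hc : IsCompl W1 W2) :
    ∃ s ∈ O Q, (∀ x ∈ W1, s x ∈ W2) ∧ ∀ x ∈ W2, s x ∈ W1 := by
  classical
  have dec : ∀ x : V, ∃ a ∈ W1, ∃ b ∈ W2, x = a + b := by
    intro x
    have : x ∈ W1 ⊔ W2 := by rw [hc.sup_eq_top]; trivial
    rw [Submodule.mem_sup] at this
    obtain ⟨a, ha, b, hb, h⟩ := this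
    exact ⟨a, ha, b, hb, h.symm⟩
  let b := Module.finBasis F W1
  have hb : LinearIndependent F (fun i => ((b i : W1) : V)) :=
    b.linearIndependent.map' W1.subtype (Submodule.ker_subtype W1)
  have hy : ∀ i, ∃ y ∈ W2, ∀ j, polar Q y (b j : V) = (Pi.single i 1 : Fin _ → F) j := by
    intro i
    obtain ⟨u, hu⟩ := dual hQ hb (Pi.single i 1)
    obtain ⟨a, ha, y, hy, rfl⟩ := dec u
    refine ⟨y, hy, fun j => ?_⟩
    rw [← hu j, p_add, h1.ts.polar ha (b j).2, zero_add]
  choose y hyW hyb using hy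
  let s : V →ₗ[F] V := ∑ i, ((polarBilin Q (y i)).smulRight (y i) + (polarBilin Q (b i : V)).smulRight (b i : V))
  have hs : ∀ x, s x = ∑ i, (polar Q (y i) x • y i + polar Q (b i : V) x • (b i : V)) := by
    intro x
    simp only [s, LinearMap.sum_apply, LinearMap.add_apply, LinearMap.smulRight_apply, polarBilin_apply_apply]
  have hs1 : ∀ x ∈ W1, s x = ∑ i, polar Q (y i) x • y i := by
    intro x hx
    rw [hs]
    refine Finset.sum_congr rfl fun i _ => ?_
    rw [h1.ts.polar (b i).2 hx, zero_smul, add_zero]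
  have hs2 : ∀ x ∈ W2, s x = ∑ i, polar Q (b i : V) x • (b i : V) := by
    intro x hx
    rw [hs]
    refine Finset.sum_congr rfl fun i _ => ?_
    rw [h2.ts.polar (hyW i) hx, zero_smul, zero_add]
  have hs1' : ∀ x ∈ W1, s x ∈ W2 := by
    intro x hx
    rw [hs1 x hx]
    exact W2.sum_mem fun i _ => W2.smul_mem _ (hyW i)
  have hs2' : ∀ x ∈ W2, s x ∈ W1 := by
    intro x hx
    rw [hs2 x hx]
    exact W1.sum_mem fun i _ => W1.smul_mem _ (b i).2
  have psum : ∀ (c : Fin (finrank F W1) → F) (z : Fin (finrank F W1) → V) (v : V),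
      polar Q (∑ i, c i • z i) v = ∑ i, c i * polar Q (z i) v := by
    intro c z v
    have h := congrArg (fun f : V →ₗ[F] F => f v) (map_sum (polarBilin Q) (fun i => c i • z i) Finset.univ)
    simp only [LinearMap.sum_apply, map_smul, LinearMap.smul_apply, polarBilin_apply_apply, smul_eq_mul] at h
    exact h
  have hexp : ∀ x ∈ W1, x = ∑ i, polar Q (y i) x • (b i : V) := by
    intro x hx
    have h3 := congrArg Subtype.val (b.sum_repr ⟨x, hx⟩)
    simp only [Submodule.coe_sum, Submodule.coe_smul] at h3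
    have h4 : ∀ i, polar Q (y i) x = b.repr ⟨x, hx⟩ i := by
      intro i
      have h5 : polar Q (y i) x = polar Q (∑ j, b.repr ⟨x, hx⟩ j • (b j : V)) (y i) := by
        rw [h3, p_comm]
      rw [h5, psum, Finset.sum_eq_single i]
      · rw [p_comm, hyb, Pi.single_eq_same, mul_one]
      · intro j _ hj
        rw [p_comm, hyb, Pi.single_eq_of_ne hj, mul_zero]
      · intro h; exact absurd (Finset.mem_univ i) h
    simp_rw [h4]
    exact h3.symm
  have hiso : ∀ x, Q (s x) = Q x := by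
    intro x
    obtain ⟨x1, hx1, x2, hx2, rfl⟩ := dec x
    rw [map_add, Q_add, Q_add, h1.ts x1 hx1, h2.ts x2 hx2, h2.ts _ (hs1' x1 hx1), h1.ts _ (hs2' x2 hx2)]
    congr 1
    have e1 : polar Q x1 x2 = ∑ i, polar Q (y i) x1 * polar Q (b i : V) x2 := by
      conv_lhs => rw [hexp x1 hx1]
      rw [psum]
    rw [e1, hs1 x1 hx1, psum]
    refine Finset.sum_congr rfl fun i _ => ?_
    congr 1
    rw [hs2 x2 hx2, p_comm, psum, Finset.sum_eq_single i]
    · rw [p_comm Q (b i : V) (y i), hyb, Pi.single_eq_same, mul_one]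
    · intro j _ hj
      rw [p_comm Q (b j : V) (y i), hyb, Pi.single_eq_of_ne hj, mul_zero]
    · intro h; exact absurd (Finset.mem_univ i) h
  obtain ⟨e, he⟩ := exists_equiv (nd_iff.1 hQ) s hiso
  exact ⟨e, fun x => by rw [he, hiso], fun x hx => by rw [he]; exact hs1' x hx, fun x hx => by rw [he]; exact hs2' x hx⟩

/-- in even rank the swap is in `Om Q` -/
theorem Sit.exists_swap (S : Sit Q W1 W2 M) (hk : Even (finrank F W1)) :
    ∃ s ∈ M, (∀ x ∈ W1, s x ∈ W2) ∧ ∀ x ∈ W2, s x ∈ W1 := by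
  obtain ⟨s0, hs0, h1, h2⟩ := exists_s0 S.nd S.m1 S.m2 S.compl
  have h5 : 5 ≤ finrank F V := by have := S.dim; omega
  have h7 := S.seven
  obtain ⟨e, he, he0⟩ := (Submodule.ne_bot_iff W1).1 (by
    intro h
    rw [h, finrank_bot] at h7
    omega)
  obtain ⟨f, hf, -, hef⟩ := S.sep1 (u := 0) W1.zero_mem he (fun c => by rw [smul_zero]; exact he0)
  obtain ⟨d, hd, hdx, hsd⟩ := H7.OA.adj S.nd h5 (S.m1.ts e he) (S.m2.ts f hf) hef hs0
  have hff : polar Q f f = 0 := S.m2.ts.polar hf hf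
  have hee : polar Q e e = 0 := S.m1.ts.polar he he
  have hfe : polar Q f e = 1 := by rw [p_comm, hef]
  -- `d` fixes `W1 ∩ f^⊥` and `W2 ∩ e^⊥`
  have hd1 : ∀ x ∈ W1, polar Q x f = 0 → d x = x := fun x hx hxf =>
    hdx x (S.m1.ts.polar he hx) (by rw [p_comm, hxf])
  have hd2 : ∀ x ∈ W2, polar Q x e = 0 → d x = x := fun x hx hxe =>
    hdx x (by rw [p_comm, hxe]) (S.m2.ts.polar hf hx)
  -- the plane is stable
  have plane : ∀ v, (∀ x ∈ W1, polar Q x f = 0 → polar Q v x = 0) → (∀ x ∈ W2, polar Q x e = 0 → polar Q v x = 0) →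
      ∃ α β : F, v = α • e + β • f := by
    intro v hv1 hv2
    obtain ⟨a, ha, b, hb, rfl⟩ := S.dec v
    have h3 : ∃ α : F, a = α • e := by
      by_contra hcon
      push Not at hcon
      obtain ⟨y, hy, hey, hay⟩ := S.sep1 he ha hcon
      have := hv2 y hy (by rw [p_comm, hey])
      rw [p_add, hay, S.m2.ts.polar hb hy, add_zero] at this
      exact one_ne_zero this
    have h4 : ∃ β : F, b = β • f := by
      by_contra hcon
      push Not at hcon
      obtain ⟨y, hy, hey, hay⟩ := S.symm.sep1 hf hb hcon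
      have := hv1 y hy (by rw [p_comm, hey])
      rw [p_add, hay, S.m1.ts.polar ha hy, zero_add] at this
      exact one_ne_zero this
    obtain ⟨α, rfl⟩ := h3
    obtain ⟨β, rfl⟩ := h4
    exact ⟨α, β, rfl⟩
  have perp : ∀ v, polar Q v e = polar Q v e → ∀ x, d x = x → polar Q v x = 0 → polar Q (d v) x = 0 := by
    intro v _ x hx hvx
    have : polar Q (d v) (d x) = polar Q v x := O_polar hd v x
    rw [hx, hvx] at this
    exact this
  obtain ⟨α, β, hde⟩ := plane (d e)
    (fun x hx hxf => perp e rfl x (hd1 x hx hxf) (S.m1.ts.polar he hx))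
    (fun x hx hxe => perp e rfl x (hd2 x hx hxe) (by rw [p_comm, hxe]))
  obtain ⟨γ, δ, hdf⟩ := plane (d f)
    (fun x hx hxf => perp f rfl x (hd1 x hx hxf) (by rw [p_comm, hxf]))
    (fun x hx hxe => perp f rfl x (hd2 x hx hxe) (S.m2.ts.polar hf hx))
  have hαβ : α * β = 0 := by
    have h3 := mem_O.1 hd e
    rw [hde, Q_add, Q_smul, Q_smul, p_smul', p_smul, S.m1.ts e he, S.m2.ts f hf, hef] at h3
    linear_combination h3
  have hγδ : γ * δ = 0 := by
    have h3 := mem_O.1 hd f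
    rw [hdf, Q_add, Q_smul, Q_smul, p_smul', p_smul, S.m1.ts e he, S.m2.ts f hf, hef] at h3
    linear_combination h3
  have hprod : α * δ + β * γ = 1 := by
    have h3 : polar Q (d e) (d f) = polar Q e f := O_polar hd e f
    rw [hde, hdf, hef, p_add, p_add', p_add', p_smul, p_smul, p_smul, p_smul, p_smul', p_smul', p_smul', p_smul',
      hee, hff, hef, hfe] at h3
    linear_combination h3
  have split1 : ∀ x ∈ W1, d x = (x - polar Q x f • e) + polar Q x f • d e := by
    intro x hx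
    have h3 : d (x - polar Q x f • e) = x - polar Q x f • e :=
      hd1 _ (W1.sub_mem hx (W1.smul_mem _ he)) (by rw [p_sub, p_smul, hef]; ring)
    have h4 : x = (x - polar Q x f • e) + polar Q x f • e := by abel
    conv_lhs => rw [h4]
    rw [map_add, map_smul, h3]
  have split2 : ∀ x ∈ W2, d x = (x - polar Q x e • f) + polar Q x e • d f := by
    intro x hx
    have h3 : d (x - polar Q x e • f) = x - polar Q x e • f :=
      hd2 _ (W2.sub_mem hx (W2.smul_mem _ hf)) (by rw [p_sub, p_smul, hfe]; ring)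
    have h4 : x = (x - polar Q x e • f) + polar Q x e • f := by abel
    conv_lhs => rw [h4]
    rw [map_add, map_smul, h3]
  by_cases hβ : β = 0
  · -- `d` preserves both
    have hα : α ≠ 0 := by
      rintro rfl
      rw [hβ] at hprod
      simp at hprod
    have hδ : δ ≠ 0 := by
      rintro rfl
      rw [hβ] at hprod
      simp at hprod
    have hγ : γ = 0 := (mul_eq_zero.1 hγδ).resolve_right hδ
    rw [hβ, zero_smul, add_zero] at hde
    rw [hγ, zero_smul, zero_add] at hdf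
    have k1 : ∀ x ∈ W1, (s0 * d) x ∈ W2 := by
      intro x hx
      rw [LinearEquiv.mul_apply, split1 x hx, hde]
      exact h1 _ (W1.add_mem (W1.sub_mem hx (W1.smul_mem _ he)) (W1.smul_mem _ (W1.smul_mem _ he)))
    have k2 : ∀ x ∈ W2, (s0 * d) x ∈ W1 := by
      intro x hx
      rw [LinearEquiv.mul_apply, split2 x hx, hdf]
      exact h2 _ (W2.add_mem (W2.sub_mem hx (W2.smul_mem _ hf)) (W2.smul_mem _ (W2.smul_mem _ hf)))
    have hdd : finrank F W1 = finrank F W2 := by
      have := S.m1.dim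
      have := S.m2.dim
      omega
    refine ⟨s0 * d, S.stab _ hsd (Or.inr ⟨?_, ?_⟩), k1, k2⟩
    · apply Submodule.eq_of_le_of_finrank_eq
      · rintro _ ⟨x, hx, rfl⟩; exact k1 x hx
      · rw [← hdd]; exact LinearEquiv.finrank_map_eq (s0 * d) W1
    · apply Submodule.eq_of_le_of_finrank_eq
      · rintro _ ⟨x, hx, rfl⟩; exact k2 x hx
      · rw [hdd]; exact LinearEquiv.finrank_map_eq (s0 * d) W2
  · -- parity contradiction
    exfalso
    have hα : α = 0 := (mul_eq_zero.1 hαβ).resolve_right hβ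
    rw [hα, zero_smul, zero_add] at hde
    have hpar := parity S.nd (by have := S.dim; omega) hsd W1 W1 S.m1 S.m1
    rw [inf_idem, add_zero] at hpar
    have hint : (W1 ⊓ W1.map ((s0 * d : V ≃ₗ[F] V) : V →ₗ[F] V) : Submodule F V) = Submodule.span F {s0 f} := by
      apply le_antisymm
      · rintro _ ⟨hx1, x, hx, rfl⟩
        have h3 : (s0 * d) x = s0 (x - polar Q x f • e) + (polar Q x f * β) • s0 f := by
          rw [LinearEquiv.mul_apply, split1 x hx, hde, map_add, smul_smul, map_smul]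
        have h4 : s0 (x - polar Q x f • e) ∈ W2 := h1 _ (W1.sub_mem hx (W1.smul_mem _ he))
        have h6 : (s0 * d) x ∈ W1 := hx1
        have h7 : s0 (x - polar Q x f • e) ∈ W1 := by
          rw [h3] at h6
          have := W1.sub_mem h6 (W1.smul_mem (polar Q x f * β) (h2 f hf))
          rwa [add_sub_cancel_right] at this
        have h8 : s0 (x - polar Q x f • e) ∈ (W1 ⊓ W2 : Submodule F V) := ⟨h7, h4⟩
        rw [S.compl.inf_eq_bot, Submodule.mem_bot] at h8
        change (s0 * d) x ∈ _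
        rw [h3, h8, zero_add]
        exact Submodule.smul_mem _ _ (Submodule.mem_span_singleton_self _)
      · rw [Submodule.span_le, Set.singleton_subset_iff]
        refine ⟨h2 f hf, β⁻¹ • e, W1.smul_mem _ he, ?_⟩
        change (s0 * d) (β⁻¹ • e) = s0 f
        rw [LinearEquiv.mul_apply, map_smul, hde, smul_smul, inv_mul_cancel₀ hβ, one_smul]
    have hf0 : s0 f ≠ 0 := by
      intro h
      have : f = 0 := (map_eq_zero_iff s0 s0.injective).1 h
      rw [this, p_zero'] at hef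
      exact zero_ne_one hef
    rw [hint, finrank_span_singleton hf0] at hpar
    obtain ⟨c, hc⟩ := hk
    rw [hc] at hpar
    push_cast at hpar
    have h2' : (c : ZMod 2) + c = 0 := CharTwo.add_self_eq_zero _
    rw [h2'] at hpar
    exact one_ne_zero hpar

/-- an element of `Om Q` fixing `W1` but not permuting `W1`, `W2` -/
lemma exists_not_PP (hQ : ND Q) (h1 : MTS Q W1) (h2 : MTS Q W2) (hc : IsCompl W1 W2) (hd : 12 ≤ finrank F V) :
    ∃ g ∈ Om Q, Stab W1 g ∧ ¬ PP W1 W2 g := by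
  have S : Sit Q W1 W2 (Om Q) := ⟨hQ, h1, h2, hc, hd, fun g hg _ => hg, le_rfl⟩
  have h7 := S.seven
  obtain ⟨u, hu, hu0⟩ := (Submodule.ne_bot_iff W1).1 (by
    intro h
    rw [h, finrank_bot] at h7
    omega)
  obtain ⟨w, hw, hwu⟩ : ∃ w ∈ W1, ∀ c : F, w ≠ c • u := by
    by_contra hcon
    push Not at hcon
    have h3 : W1 ≤ Submodule.span F {u} := by
      intro x hx
      obtain ⟨c, hc⟩ := hcon x hx
      rw [Submodule.mem_span_singleton]
      exact ⟨c, hc.symm⟩
    have h4 := Submodule.finrank_mono h3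
    rw [finrank_span_singleton hu0] at h4
    omega
  obtain ⟨y, hy, huy, hwy⟩ := S.sep1 hu hw hwu
  obtain ⟨g, hg, hgx⟩ := full_Om hQ (by omega) (h1.ts u hu) w (h1.ts.polar hu hw)
  have hfix : ∀ x ∈ W1, g x = x := by
    intro x hx
    rw [hgx, sgF, h1.ts.polar hx hu, h1.ts.polar hx hw]; simp
  refine ⟨g, hg, stab_of fun x hx => by rw [hfix x hx]; exact hx, ?_⟩
  have hd12 : ∀ X : Submodule F V, X ≤ W1 → X ≤ W2 → X = ⊥ := by
    intro X hX1 hX2
    have : X ≤ ⊥ := by rw [← hc.inf_eq_bot]; exact le_inf hX1 hX2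
    exact le_bot_iff.1 this
  rintro (⟨-, hst⟩ | ⟨hm, -⟩)
  · have h3 := (hst y).1 hy
    rw [hgx, sgF, p_comm Q y u, huy, p_comm Q y w, hwy] at h3
    have h4 : u ∈ W2 := by
      have := W2.sub_mem hy h3
      have e : y - (y + (0 : F) • w - (1 + Q w * 0) • u) = u := by module
      rwa [e] at this
    have h5 : u ∈ (W1 ⊓ W2 : Submodule F V) := ⟨hu, h4⟩
    rw [hc.inf_eq_bot, Submodule.mem_bot] at h5
    exact hu0 h5
  · have h3 : W1 ≤ W2 := by
      rw [← hm]
      intro x hx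
      exact ⟨x, hx, hfix x hx⟩
    have h4 := hd12 W1 le_rfl h3
    rw [h4, finrank_bot] at h7
    omega

end H95.OAPair12
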