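import Cfsg.Agent.Lib.H95.O12All
import Cfsg.Agent.Lib.H95.OIs6
import Cfsg.Agent.Lib.H95.OAPair12
import Cfsg.Agent.Lib.H95.Bridge2

/-!
Maximality of geometric subgroups of the orthogonal groups in dimension twelve, plus type.
-/
set_option autoImplicit false

namespace H95.O12P

section
open Module QuadraticMap H48.QuadSplit H48.QuadWitt H95.OGeo H7.OA H7.OABridge H7.OAPar H7.OAParity H95.Bridge2 H95.OAPair12

variable {F V : Type*} [Field F] [AddCommGroup V] [Module F V] {Q : QuadraticForm F V}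
variable [FiniteDimensional F V]

lemma perm_iff {W1 W2 : Submodule F V} (h : finrank F W1 = finrank F W2) {g : V ≃ₗ[F] V} :
    Perm2' W1 W2 g ↔ PP W1 W2 g := by
  constructor
  · rintro (h1 | h1)
    · exact Or.inl ⟨stab_of h1.1, stab_of h1.2⟩
    · right
      constructor
      · apply Submodule.eq_of_le_of_finrank_eq
        · rintro _ ⟨x, hx, rfl⟩; exact h1.1 x hx
        · rw [← h]; exact LinearEquiv.finrank_map_eq g W1
      · apply Submodule.eq_of_le_of_finrank_eq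
        · rintro _ ⟨x, hx, rfl⟩; exact h1.2 x hx
        · rw [h]; exact LinearEquiv.finrank_map_eq g W2
  · rintro (h1 | h1)
    · exact Or.inl ⟨fun x hx => (h1.1 x).1 hx, fun x hx => (h1.2 x).1 hx⟩
    · refine Or.inr ⟨fun x hx => ?_, fun x hx => ?_⟩
      · rw [← h1.1]; exact ⟨x, hx, rfl⟩
      · rw [← h1.2]; exact ⟨x, hx, rfl⟩


end

section
open Module QuadraticMap H48.QuadSplit H95.OGeo H17.OrthAbs H95.OSie H95.OQd H95.OSmall H95.OIg
  H95.Bridge H95.OBridge H95.OImpB H95.OIf Cfsg Cfsg.Geo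
open scoped Matrix MatrixGroups

variable {ι : Type} [Fintype ι] [DecidableEq ι] {F : Type*} [Field F]

theorem max_planes [Fintype F] {Q' : QuadraticForm F (ι → F)} (hQ : ND Q')
    (hn : 12 ≤ Fintype.card ι) {t : ℕ} {D : Fin t → Submodule F (ι → F)}
    (hD : IsOrthogonalMDecomposition (⇑Q') 2 D)
    (hA : Fintype.card F ≠ 3 ∧ ((∀ i, IsPlusTypeOn (⇑Q') (D i)) → 7 ≤ Fintype.card F)) :
    IsMaximalIn (omegaGL (⇑Q')) (decompositionStabilizer D ⊓ omegaGL (⇑Q')) := by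
  have hk := hD.decomp.decomp.finrank_eq
  have ht := hD.decomp.decomp.two_le
  have : Nontrivial (Fin t) := Fin.nontrivial_iff_two_le.2 ht
  have hcard := card_eq hD.decomp.decomp
  have h1F : 1 < Fintype.card F := Fintype.one_lt_card
  obtain ⟨p, hp⟩ := exists_QD Q' D (fun i => nd_mem (hD.decomp.nondegenerate i))
    (fun i j hij u hu v hv => hD.decomp.orthogonal i j hij u hu v hv) hD.decomp.decomp.iSup_eq_top
  have hrep : ∀ i, ∀ e : F, e ≠ 0 → ∃ w ∈ D i, Q' w = e := by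
    intro i e he
    by_cases two : (2 : F) = 0
    · obtain ⟨a, ha, ha0⟩ := ex_ns' (hp.nd i) (by rw [hk]; omega)
      obtain ⟨c, hc⟩ := H95.OIe.scale two ha0 e
      exact ⟨c • a, (D i).smul_mem _ ha, hc⟩
    · exact rep two (hp.nd i) (by rw [hk]) e
  have hH : ∀ M : Subgroup ((ι → F) ≃ₗ[F] (ι → F)), M ≤ ⁅O Q', O Q'⁆ →
      (∀ g ∈ ⁅O Q', O Q'⁆, Pres D g → g ∈ M) → HG Q' D p M := fun M h1 h2 =>
    { hQ := hQ
      hn := by rw [Module.finrank_fintype_fun_eq_card]; omega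
      h := hp
      rep := hrep
      iso := hD.isometric
      M_le := h1.trans (omega_le_O Q')
      H_le := h2 }
  obtain ⟨hq3, hplus⟩ := hA
  have ht7 : 6 ≤ t := by omega
  have hty : ((∀ i, ∀ x ∈ D i, Q' x = 0 → x = 0) ∧ Nat.card F ≠ 3) ∨
      ((∀ i, ∃ e ∈ D i, e ≠ 0 ∧ Q' e = 0) ∧ 7 ≤ Nat.card F) := by
    rw [Nat.card_eq_fintype_card]
    by_cases hex : ∃ i, ∃ x ∈ D i, Q' x = 0 ∧ x ≠ 0
    · obtain ⟨i, x, hx, hx0, hxne⟩ := hex
      right
      have h3 := plus_of_sing (hk i) hx hxne hx0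
      have h4 : ∀ j, IsPlusTypeOn (⇑Q') (D j) := fun j => plus_iso (hD.isometric i j) h3
      refine ⟨fun j => ?_, hplus h4⟩
      obtain ⟨U, hU, hs, hd⟩ := h4 j
      rw [hk] at hd
      obtain ⟨y, hy, hy0⟩ := ex_ne (U := U) (by omega)
      exact ⟨y, hU hy, hy0, hs y hy⟩
    · push Not at hex
      exact Or.inl ⟨hex, hq3⟩
  apply max_of hk
  · exact H95.OIs.exists_not_pres3 (hH ⁅O Q', O Q'⁆ le_rfl fun g hg _ => hg)
      (i := ⟨0, by omega⟩) (l := ⟨1, by omega⟩) (m := ⟨2, by omega⟩) (by simp) (by simp) (by simp)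
  · intro M h1 h2 g hg hgp
    have hc7 : 6 ≤ Fintype.card (Fin t) := by rw [Fintype.card_fin]; exact ht7
    exact H95.OIs.HP.overgroup (p := p) ⟨hH M h1 h2, hk, hc7, hty⟩ hg hgp
end

section
open Cfsg Cfsg.Geo
variable {F : Type*} [Field F] [Fintype F]

theorem sing12 {n : ℕ} (hn : n = 12) (Q : (Fin n → F) → F) (hQ : IsNondegenerateQuadraticForm Q)
    (W : Submodule F (Fin n → F)) (hW0 : W ≠ ⊥) (hW : IsTotallySingularQuad Q W)
    (hdim : Module.finrank F W ≠ 5) :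
    IsMaximalIn (omegaGL Q) (subspaceStabilizer W ⊓ omegaGL Q) := by
  have hfr : Module.finrank F (Fin n → F) = n := by simp
  refine H7.OABridge.isMaximalIn_omegaGL (Q := H7.OABridge.ofFun hQ) rfl (H7.OABridge.mem_stab (W := W)) ?_ ?_
  · exact H7.OAPar.exists_not_stab (H7.OABridge.nd_ofFun hQ) (by omega) hW hW0
  · intro M h1 h2 h3
    refine H7.OAPar.maximal (H7.OABridge.nd_ofFun hQ) (by omega) hW ?_ h1 h2 h3
    intro U _ _
    omega

theorem pair12 {n : ℕ} (hn : n = 12) (Q : (Fin n → F) → F) (hQ : IsNondegenerateQuadraticForm Q)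
    (D : Fin 2 → Submodule F (Fin n → F)) (hD : IsMDecomposition 6 D)
    (hts : ∀ i, IsTotallySingularQuad Q (D i)) :
    IsMaximalIn (omegaGL Q) (decompositionStabilizer D ⊓ omegaGL Q) := by
  have hfr : Module.finrank F (Fin n → F) = n := by simp
  obtain ⟨q, rfl⟩ : ∃ q : QuadraticForm F (Fin n → F), ⇑q = Q := ⟨H7.OABridge.ofFun hQ, rfl⟩
  have hnd : H48.QuadSplit.ND q := H7.OABridge.nd_of rfl hQ
  have h0 : Module.finrank F (D 0) = 6 := hD.finrank_eq 0
  have h1 : Module.finrank F (D 1) = 6 := hD.finrank_eq 1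
  have m0 : H7.OAParity.MTS q (D 0) := ⟨hts 0, by omega⟩
  have m1 : H7.OAParity.MTS q (D 1) := ⟨hts 1, by omega⟩
  have hc : IsCompl (D 0) (D 1) := by
    refine ⟨?_, ?_⟩
    · exact hD.indep.pairwiseDisjoint (by decide : (0 : Fin 2) ≠ 1)
    · rw [codisjoint_iff]; exact H95.Bridge2.iSup_two D hD.iSup_eq_top
  have hP : ∀ g : (Fin n → F) ≃ₗ[F] (Fin n → F), H95.Bridge2.Perm2' (D 0) (D 1) g ↔ H95.OAPair12.PP (D 0) (D 1) g :=
    fun g => perm_iff (by omega)
  refine H7.OABridge.isMaximalIn_omegaGL (Q := q) rfl (P := H95.OAPair12.PP (D 0) (D 1))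
    (fun g => (H95.Bridge2.mem_decomp_two (by omega)).trans (hP _)) ?_ ?_
  · obtain ⟨g, hg, -, hgP⟩ := H95.OAPair12.exists_not_PP hnd m0 m1 hc (by omega)
    exact ⟨g, hg, hgP⟩
  · intro M h2 h3 h4
    have S : H95.OAPair12.Sit q (D 0) (D 1) M := ⟨hnd, m0, m1, hc, by omega, h2, h3⟩
    obtain ⟨s, hs, hs1, hs2⟩ := S.exists_swap (by rw [h0]; decide)
    exact S.maximal hs hs1 hs2 h4
end

end H95.O12P
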