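import Cfsg.Agent.Lib.H95.O12Ext

set_option autoImplicit false
set_option linter.unusedSectionVars false

/-!
Overgroups of orthogonal groups over a quadratic extension: four-dimensional spaces of minus type.
-/

namespace H95.O8Ext

open Module QuadraticMap H48.QuadSplit H95.OGeo H17.OrthAbs H95.OSie H7.OLow H7.ExtF H7.ExtO
open scoped commutatorElement

variable {F K V : Type*} [Field F] [Field K] [Algebra F K] [AddCommGroup V] [Module F V] [Module K V]
  [IsScalarTower F K V]
variable {R : QuadraticForm K V} {l0 : K →ₗ[F] F} {Q : QuadraticForm F V}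
variable [FiniteDimensional K V]

/-- elements of the small field are squares -/
lemma sq_of [Finite F] [FiniteDimensional F K] (h2 : (2 : K) ≠ 0) (hr : finrank F K = 2) (c : F) :
    ∃ μ : K, μ * μ = algebraMap F K c := by
  by_cases hc : c = 0
  · exact ⟨0, by rw [hc, map_zero, mul_zero]⟩
  have hK : Finite K := Module.finite_of_finite F
  have : Fintype F := Fintype.ofFinite F
  have : Fintype K := Fintype.ofFinite K
  have hcard : Fintype.card K = Fintype.card F ^ 2 := by
    have := Module.natCard_eq_pow_finrank (K := F) (V := K)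
    rwa [Nat.card_eq_fintype_card, Nat.card_eq_fintype_card, hr] at this
  have hchar : ringChar K ≠ 2 := fun h => h2 (by
    have h3 : ((2 : ℕ) : K) = 0 := (ringChar.spec K 2).2 (by rw [h])
    exact_mod_cast h3)
  have hoddK : Fintype.card K % 2 = 1 := FiniteField.odd_card_of_char_ne_two hchar
  have hoddF : Fintype.card F % 2 = 1 := by
    rcases Nat.mod_two_eq_zero_or_one (Fintype.card F) with h | h
    · rw [hcard, Nat.pow_mod, h] at hoddK
      norm_num at hoddK
    · exact h
  obtain ⟨m, hm⟩ : ∃ m, Fintype.card F = 2 * m + 1 := ⟨Fintype.card F / 2, by omega⟩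
  have hc0 : algebraMap F K c ≠ 0 := fun h => hc ((map_eq_zero (algebraMap F K)).1 h)
  have hsq : IsSquare (algebraMap F K c) := by
    rw [FiniteField.isSquare_iff hchar hc0]
    have h3 : Fintype.card K / 2 = (Fintype.card F - 1) * (m + 1) := by
      rw [hcard, hm]
      have : (2 * m + 1) ^ 2 = 2 * ((2 * m + 1 - 1) * (m + 1)) + 1 := by
        rw [Nat.add_sub_cancel]; ring
      omega
    rw [h3, pow_mul, ← map_pow, FiniteField.pow_card_sub_one_eq_one c hc, map_one, one_pow]
  obtain ⟨μ, hμ⟩ := hsq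
  exact ⟨μ, hμ.symm⟩

/-- the field is spanned by one and a further element -/
lemma span_two [FiniteDimensional F K] (hr : finrank F K = 2) {τ : K} (hτ : ∀ c : F, algebraMap F K c ≠ τ) (k : K) :
    ∃ a b : F, k = algebraMap F K a + algebraMap F K b * τ := by
  have hli : LinearIndependent F ![(1 : K), τ] := by
    rw [LinearIndependent.pair_iff' one_ne_zero]
    intro a ha
    apply hτ a
    rw [← ha, Algebra.smul_def, mul_one]
  have h1 : Submodule.span F (Set.range ![(1 : K), τ]) = ⊤ :=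
    hli.span_eq_top_of_card_eq_finrank (by rw [hr]; rfl)
  have h2 : k ∈ Submodule.span F (Set.range ![(1 : K), τ]) := by rw [h1]; trivial
  rw [Submodule.mem_span_range_iff_exists_fun] at h2
  obtain ⟨c, hc⟩ := h2
  rw [Fin.sum_univ_two] at hc
  refine ⟨c 0, c 1, ?_⟩
  rw [← hc]
  show c 0 • (1 : K) + c 1 • τ = _
  rw [Algebra.smul_def, Algebra.smul_def, mul_one]

/-- the perpendicular space, dimension four, minus type -/
lemma perp4 (h : OE R l0 Q) [Finite F] [FiniteDimensional F K] (h2 : (2 : K) ≠ 0) (hn : finrank K V = 4)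
    (hr : finrank F K = 2)
    (hmin : ∀ x y : V, x ≠ 0 → R x = 0 → R y = 0 → polar R x y = 0 → y ∈ ln F K x)
    {M : Subgroup (V ≃ₗ[F] V)} (hHM : HK F R ≤ M) {v : V}
    (hv : R v = 0) (hv0 : v ≠ 0) (hK : ∀ k : K, k • v ∈ sg Q M (h.Qs1 hv)) {w : V}
    (hwv : polar R w v = 0) (hwL : w ∉ ln F K v) (hw : w ∈ sg Q M (h.Qs1 hv))
    {z : V} (hz : polar R z v = 0) : z ∈ sg Q M (h.Qs1 hv) := by
  obtain ⟨v', w1, w2⟩ := h.partner hv hv0
  have w2' : polar R v' v = 1 := by rw [p_comm, w2]
  have hvv : polar R v v = 0 := by rw [p_self, hv, mul_zero]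
  have hv'v' : polar R v' v' = 0 := by rw [p_self, w1, mul_zero]
  -- anisotropic complement
  have an : ∀ y, polar R y v = 0 → polar R y v' = 0 → R y = 0 → y = 0 := by
    intro y h3 h4 h5
    obtain ⟨k, hk⟩ := mem_ln.1 (hmin v y hv0 hv h5 (by rw [p_comm, h3]))
    rw [← hk, p_smul, w2, mul_one] at h4
    rw [← hk, h4, zero_smul]
  obtain ⟨p, hp⟩ : ∃ p, p = w - polar R w v' • v := ⟨_, rfl⟩
  have p1 : polar R p v = 0 := by rw [hp, p_sub, p_smul, hwv, hvv]; ring
  have p2 : polar R p v' = 0 := by rw [hp, p_sub, p_smul, w2]; ring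
  have p0 : p ≠ 0 := by
    intro h0
    apply hwL
    rw [h0, eq_comm, sub_eq_zero] at hp
    exact mem_ln.2 ⟨_, hp.symm⟩
  have pR : R p ≠ 0 := fun h0 => p0 (an p p1 p2 h0)
  have pA : p ∈ sg Q M (h.Qs1 hv) := by rw [hp]; exact AddSubgroup.sub_mem _ hw (hK _)
  obtain ⟨p', q1, q2, q3, q4⟩ := ns3 h.nd h2 (by omega) hv (w := v') (by rw [w2]; exact one_ne_zero) pR p1 p2
  have q3' : polar R p p' = 0 := by rw [p_comm, q3]
  have p1' : polar R v p = 0 := by rw [p_comm, p1]
  have p2' : polar R v' p = 0 := by rw [p_comm, p2]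
  have q1' : polar R v p' = 0 := by rw [p_comm, q1]
  have q2' : polar R v' p' = 0 := by rw [p_comm, q2]
  -- decomposition
  have dec : ∀ y, polar R y v = 0 → ∃ a b c : K, y = a • v + b • p + c • p' := by
    have hli : LinearIndependent K ![v, v', p, p'] := by
      rw [Fintype.linearIndependent_iff]
      intro c hc
      rw [Fin.sum_univ_four] at hc
      have hc' : c 0 • v + c 1 • v' + c 2 • p + c 3 • p' = 0 := hc
      have k1 : c 1 = 0 := by
        have x1 : polar R (c 0 • v + c 1 • v' + c 2 • p + c 3 • p') v = 0 := by rw [hc', p_zero]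
        rw [p_add, p_add, p_add, p_smul, p_smul, p_smul, p_smul, hvv, w2', p1, q1] at x1
        linear_combination x1
      have k0 : c 0 = 0 := by
        have x1 : polar R (c 0 • v + c 1 • v' + c 2 • p + c 3 • p') v' = 0 := by rw [hc', p_zero]
        rw [p_add, p_add, p_add, p_smul, p_smul, p_smul, p_smul, hv'v', w2, p2, q2] at x1
        linear_combination x1
      have k2 : c 2 = 0 := by
        have x1 : polar R (c 0 • v + c 1 • v' + c 2 • p + c 3 • p') p = 0 := by rw [hc', p_zero]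
        rw [p_add, p_add, p_add, p_smul, p_smul, p_smul, p_smul, p1', p2', q3, p_self] at x1
        have : c 2 * (2 * R p) = 0 := by linear_combination x1
        exact (mul_eq_zero.1 this).resolve_right (mul_ne_zero h2 pR)
      have k3 : c 3 = 0 := by
        have x1 : polar R (c 0 • v + c 1 • v' + c 2 • p + c 3 • p') p' = 0 := by rw [hc', p_zero]
        rw [p_add, p_add, p_add, p_smul, p_smul, p_smul, p_smul, q1', q2', q3', p_self] at x1
        have : c 3 * (2 * R p') = 0 := by linear_combination x1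
        exact (mul_eq_zero.1 this).resolve_right (mul_ne_zero h2 q4)
      intro i
      fin_cases i
      exacts [k0, k1, k2, k3]
    have htop : Submodule.span K (Set.range ![v, v', p, p']) = ⊤ :=
      hli.span_eq_top_of_card_eq_finrank (by rw [hn]; rfl)
    intro y hy
    have h3 : y ∈ Submodule.span K (Set.range ![v, v', p, p']) := by rw [htop]; trivial
    rw [Submodule.mem_span_range_iff_exists_fun] at h3
    obtain ⟨c, hc⟩ := h3
    rw [Fin.sum_univ_four] at hc
    have hc' : y = c 0 • v + c 1 • v' + c 2 • p + c 3 • p' := hc.symm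
    have k1 : c 1 = 0 := by
      rw [hc', p_add, p_add, p_add, p_smul, p_smul, p_smul, p_smul, hvv, w2', p1, q1] at hy
      linear_combination hy
    exact ⟨c 0, c 2, c 3, by rw [hc', k1, zero_smul, add_zero]⟩
  -- the scalars
  obtain ⟨c, hc⟩ : ∃ c, c = R p' / R p := ⟨_, rfl⟩
  have hcR : R p' = c * R p := by rw [hc, div_mul_cancel₀ _ pR]
  have eR : R (p + p') = R p * (1 + c) := by rw [Q_add, q3', hcR]; ring
  have hc1 : 1 + c ≠ 0 := by
    intro h0
    have h3 : p + p' = 0 := an _ (by rw [p_add, p1, q1, add_zero]) (by rw [p_add, p2, q2, add_zero])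
      (by rw [eR, h0, mul_zero])
    have h4 : polar R (p + p') p = 0 := by rw [h3, p_zero]
    rw [p_add, p_self, q3, add_zero] at h4
    exact mul_ne_zero h2 pR h4
  have eR0 : R (p + p') ≠ 0 := by rw [eR]; exact mul_ne_zero pR hc1
  obtain ⟨ζ, hζ⟩ : ∃ ζ, ζ = 2 / (1 + c) := ⟨_, rfl⟩
  obtain ⟨x, hx⟩ : ∃ x, x = (1 - c) / (1 + c) := ⟨_, rfl⟩
  have hζ1 : ζ * (1 + c) = 2 := by rw [hζ, div_mul_cancel₀ _ hc1]
  have hx1 : x * (1 + c) = 1 - c := by rw [hx, div_mul_cancel₀ _ hc1]
  have hζ0 : ζ ≠ 0 := by rw [hζ]; exact div_ne_zero h2 hc1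
  have hxζ : x = 1 - c * ζ := by
    have : (x - (1 - c * ζ)) * (1 + c) = 0 := by linear_combination hx1 + c * hζ1
    exact sub_eq_zero.1 ((mul_eq_zero.1 this).resolve_right hc1)
  have hxζ' : 1 - ζ = -x := by
    have : (1 - ζ + x) * (1 + c) = 0 := by linear_combination hx1 - hζ1
    exact eq_neg_of_add_eq_zero_left ((mul_eq_zero.1 this).resolve_right hc1)
  have hxx : x * x + c * (ζ * ζ) = 1 := by
    have h3 : ζ = 1 + x := by linear_combination -hxζ'
    have h4 : c * ζ = 1 - x := by linear_combination hxζ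
    linear_combination ζ * h4 + (1 - x) * h3
  -- the rotation
  obtain ⟨re, hre⟩ : ∃ re, re = refl R (p + p') eR0 := ⟨_, rfl⟩
  obtain ⟨rp, hrp⟩ : ∃ rp, rp = refl R p pR := ⟨_, rfl⟩
  have repO : re ∈ O R := by rw [hre]; exact refl_mem_O _ _ _
  have rpO : rp ∈ O R := by rw [hrp]; exact refl_mem_O _ _ _
  have rpp : rp p = -p := by rw [hrp]; exact refl_self _ _ _
  have rpp' : rp p' = p' := by rw [hrp]; exact refl_fix _ _ _ _ q3'
  have rpv : rp v = v := by rw [hrp]; exact refl_fix _ _ _ _ p1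
  have rev : re v = v := by rw [hre]; exact refl_fix _ _ _ _ (by rw [p_add, p1, q1, add_zero])
  have hζR : (R (p + p'))⁻¹ * (2 * R p) = ζ := by
    rw [eR, hζ]; field_simp
  have hζR' : (R (p + p'))⁻¹ * (2 * R p') = c * ζ := by
    rw [hcR, ← hζR]; ring
  have rep : re p = -(x • p) - ζ • p' := by
    rw [hre, refl_apply, p_add, p_self, q3, add_zero, hζR]
    have : p - ζ • (p + p') = (1 - ζ) • p - ζ • p' := by module
    rw [this, hxζ']; module
  have rep' : re p' = -((c * ζ) • p) + x • p' := by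
    rw [hre, refl_apply, p_add, p_self, q3', zero_add, hζR']
    have : p' - (c * ζ) • (p + p') = (1 - c * ζ) • p' - (c * ζ) • p := by module
    rw [this, ← hxζ]; module
  obtain ⟨s, hs⟩ : ∃ s, s = ⁅re, rp⁆ := ⟨_, rfl⟩
  have hsH : rs F K V s ∈ HK F R := ⟨s, by rw [hs]; exact Subgroup.commutator_mem_commutator repO rpO, rfl⟩
  have hse : s = re * rp * re * rp := by
    rw [hs, commutatorElement_def]
    have e1 : re⁻¹ = re := by rw [hre]; exact refl_inv _ _ _
    have e2 : rp⁻¹ = rp := by rw [hrp]; exact refl_inv _ _ _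
    rw [e1, e2]
  have hsi : s⁻¹ = rp * re * rp * re := by
    rw [hse]
    have e1 : re⁻¹ = re := by rw [hre]; exact refl_inv _ _ _
    have e2 : rp⁻¹ = rp := by rw [hrp]; exact refl_inv _ _ _
    rw [mul_inv_rev, mul_inv_rev, mul_inv_rev, e1, e2]
    group
  have sv : s v = v := by
    rw [hse]
    simp only [LinearEquiv.mul_apply, rev, rpv]
  have sp : s p = (x * x - c * (ζ * ζ)) • p + (2 * x * ζ) • p' := by
    rw [hse]
    simp only [LinearEquiv.mul_apply, rpp, rpp', rep, rep', map_neg, map_sub, map_add, map_smul]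
    module
  have ssum : ∀ a b : K, s (a • p + b • p') + s⁻¹ (a • p + b • p') = (4 * (x * x) - 2) • (a • p + b • p') := by
    intro a b
    rw [hsi, hse]
    simp only [LinearEquiv.mul_apply, rpp, rpp', rep, rep', map_neg, map_sub, map_add, map_smul]
    have e1 : 4 * (x * x) - 2 = 2 * (x * x) - 2 * (c * (ζ * ζ)) := by linear_combination 2 * hxx
    rw [e1]
    module
  have hmove : ∀ g ∈ HK F R, g v = v → ∀ y ∈ sg Q M (h.Qs1 hv), g y ∈ sg Q M (h.Qs1 hv) := by
    intro g hg hgv y hy
    have h3 := sg_move (h.Qs1 hv) hy (hHM hg) (h.HK_O hg) hgv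
    have h4 := AddSubgroup.add_mem _ h3 hy
    rwa [sub_add_cancel] at h4
  -- scaling by the small field
  have hscale : ∀ (l : F) (y : V), polar R y v = 0 → polar R y v' = 0 → y ∈ sg Q M (h.Qs1 hv) →
      (algebraMap F K l) • y ∈ sg Q M (h.Qs1 hv) := by
    intro l y y1 y2 hy
    by_cases hl : l = 0
    · rw [hl, map_zero, zero_smul]; exact AddSubgroup.zero_mem _
    obtain ⟨μ, hμ⟩ := sq_of (F := F) (K := K) h2 hr l
    have hμ0 : μ ≠ 0 := by
      rintro rfl
      rw [mul_zero] at hμ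
      exact hl ((map_eq_zero (algebraMap F K)).1 hμ.symm)
    obtain ⟨t, ht, htx⟩ := H48.QuadWitt.exists_scaling (H48.QuadSplit.nd_iff.1 h.nd) v v' hv w1 w2 μ hμ0
    have htO : t ∈ O R := ht
    have hvv'R : R (v - v') = -1 := by rw [Q_sub, hv, w1, w2]; ring
    have hvv'0 : R (v - v') ≠ 0 := by rw [hvv'R]; exact neg_ne_zero.2 one_ne_zero
    obtain ⟨r, hrr⟩ : ∃ r, r = refl R (v - v') hvv'0 := ⟨_, rfl⟩
    have hrO : r ∈ O R := by rw [hrr]; exact refl_mem_O _ _ _
    have r1 : r v = v' := by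
      rw [hrr, refl_apply, hvv'R, p_sub, hvv, w2']
      have : v - ((-1 : K)⁻¹ * (0 - 1)) • (v - v') = v - (1 : K) • (v - v') := by norm_num
      rw [this]; module
    have r2 : r v' = v := by
      rw [hrr, refl_apply, hvv'R, p_sub, hv'v', w2]
      have : v' - ((-1 : K)⁻¹ * (1 - 0)) • (v - v') = v' + (1 : K) • (v - v') := by norm_num
      rw [this]; module
    have r3 : r y = y := by
      rw [hrr]; exact refl_fix _ _ _ _ (by rw [p_sub, p_comm R v, y1, p_comm R v', y2, sub_zero])
    have rinv : r⁻¹ = r := by rw [hrr]; exact refl_inv _ _ _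
    have t1 : t v = μ • v := by rw [htx, w2, hvv]; module
    have t2 : t v' = μ⁻¹ • v' := by rw [htx, hv'v', w2']; module
    have t3 : t y = y := by rw [htx, y1, y2]; module
    have ti : ∀ a b, t a = b → t⁻¹ b = a := by
      rintro a _ rfl; exact t.symm_apply_apply a
    have g1 : ⁅t, r⁆ v = (algebraMap F K l) • v := by
      rw [commutatorElement_def, rinv]
      simp only [LinearEquiv.mul_apply]
      have e1 : t⁻¹ v' = μ • v' := ti _ _ (by rw [map_smul, t2, smul_smul, mul_inv_cancel₀ hμ0, one_smul])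
      rw [r1, e1, map_smul, r2, map_smul, t1, smul_smul, hμ]
    have g2 : ⁅t, r⁆ y = y := by
      rw [commutatorElement_def, rinv]
      simp only [LinearEquiv.mul_apply]
      rw [r3, ti _ _ t3, r3, t3]
    have hgH : rs F K V ⁅t, r⁆ ∈ HK F R := ⟨⁅t, r⁆, Subgroup.commutator_mem_commutator htO hrO, rfl⟩
    have h3 := conj_mem' (hHM hgH) hy.2
    rw [sie_conj (h.Qs1 hv) hy.1 (h.HK_O hgH), rs_apply, rs_apply, g1, g2, algebraMap_smul,
      sie_smul (h.Qs1 hv) hy.1, ← algebraMap_smul K l y] at h3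
    refine ⟨?_, h3⟩
    have h4 : polar Q v y = 0 := hy.1
    show polar Q v ((algebraMap F K l) • y) = 0
    rw [algebraMap_smul, p_smul', h4, mul_zero]
  -- the trace is not in the small field
  have hτ : ∀ l : F, algebraMap F K l ≠ 4 * (x * x) - 2 := by
    intro l hl
    obtain ⟨μ, hμ⟩ := sq_of (F := F) (K := K) h2 hr (l - 2)
    rw [map_sub, map_ofNat, hl] at hμ
    -- -4 c ζ² = μ²
    have e1 : μ * μ = -(4 * (c * (ζ * ζ))) := by rw [hμ]; linear_combination 4 * hxx
    obtain ⟨κ, hκ⟩ : ∃ κ, κ = μ / (2 * ζ) := ⟨_, rfl⟩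
    have hκ' : κ * (2 * ζ) = μ := by rw [hκ, div_mul_cancel₀ _ (mul_ne_zero h2 hζ0)]
    have e2 : κ * κ = -c := by
      have : (κ * κ + c) * ((2 * ζ) * (2 * ζ)) = 0 := by
        have : (κ * (2 * ζ)) * (κ * (2 * ζ)) = -(4 * (c * (ζ * ζ))) := by rw [hκ', e1]
        linear_combination this
      exact eq_neg_of_add_eq_zero_left ((mul_eq_zero.1 this).resolve_right
        (mul_ne_zero (mul_ne_zero h2 hζ0) (mul_ne_zero h2 hζ0)))
    have e3 : κ • p + p' = 0 := an _ (by rw [p_add, p_smul, p1, q1]; ring) (by rw [p_add, p_smul, p2, q2]; ring)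
      (by rw [Q_add, Q_smul, p_smul, q3', hcR, e2]; ring)
    have e4 : polar R (κ • p + p') p' = 0 := by rw [e3, p_zero]
    rw [p_add, p_smul, q3', mul_zero, zero_add, p_self] at e4
    exact mul_ne_zero h2 q4 e4
  -- closed under the large field
  have hbig : ∀ a b : K, a • p + b • p' ∈ sg Q M (h.Qs1 hv) → ∀ k : K, k • (a • p + b • p') ∈ sg Q M (h.Qs1 hv) := by
    intro a b hy k
    obtain ⟨α, β, hk⟩ := span_two (F := F) (K := K) hr hτ k
    have y1 : polar R (a • p + b • p') v = 0 := by rw [p_add, p_smul, p_smul, p1, q1]; ring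
    have y2 : polar R (a • p + b • p') v' = 0 := by rw [p_add, p_smul, p_smul, p2, q2]; ring
    have h3 := hscale α _ y1 y2 hy
    have h4 : (4 * (x * x) - 2) • (a • p + b • p') ∈ sg Q M (h.Qs1 hv) := by
      rw [← ssum]
      refine AddSubgroup.add_mem _ ?_ ?_
      · have := hmove _ hsH (by rw [rs_apply, sv]) _ hy
        rwa [rs_apply] at this
      · have h5 : rs F K V s⁻¹ ∈ HK F R := by rw [map_inv]; exact (HK F R).inv_mem hsH
        have h6 : s⁻¹ v = v := by
          have : s⁻¹ (s v) = v := s.symm_apply_apply v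
          rwa [sv] at this
        have := hmove _ h5 (by rw [rs_apply, h6]) _ hy
        rwa [rs_apply] at this
    have h5 := hscale β _ (by rw [p_smul, y1, mul_zero]) (by rw [p_smul, y2, mul_zero]) h4
    have e1 : k • (a • p + b • p') = (algebraMap F K α) • (a • p + b • p') +
        (algebraMap F K β) • ((4 * (x * x) - 2) • (a • p + b • p')) := by
      rw [hk]; module
    rw [e1]
    exact AddSubgroup.add_mem _ h3 h5
  have hkp : ∀ k : K, k • p ∈ sg Q M (h.Qs1 hv) := by
    intro k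
    have := hbig 1 0 (by rw [one_smul, zero_smul, add_zero]; exact pA) k
    rwa [one_smul, zero_smul, add_zero] at this
  have hx0 : x ≠ 0 := by
    intro h0
    apply hτ (-2)
    rw [h0, map_neg, map_ofNat]; ring
  have hkp' : ∀ k : K, k • p' ∈ sg Q M (h.Qs1 hv) := by
    intro k
    have h3 := hmove _ hsH (by rw [rs_apply, sv]) _ pA
    rw [rs_apply, sp] at h3
    have h4 := AddSubgroup.sub_mem _ h3 (hkp (x * x - c * (ζ * ζ)))
    rw [add_sub_cancel_left] at h4
    have h5 := hbig 0 (2 * x * ζ) (by rw [zero_smul, zero_add]; exact h4) (k / (2 * x * ζ))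
    rwa [zero_smul, zero_add, smul_smul, div_mul_cancel₀ _ (mul_ne_zero (mul_ne_zero h2 hx0) hζ0)] at h5
  obtain ⟨a, b, d, hzd⟩ := dec z hz
  rw [hzd]
  exact AddSubgroup.add_mem _ (AddSubgroup.add_mem _ (hK a) (hkp b)) (hkp' d)

/-- overgroups of orthogonal groups over an extension field -/
theorem overgroup4 (h : OE R l0 Q) [Finite F] (h2 : (2 : F) ≠ 0) (hn4 : finrank K V = 4)
    [FiniteDimensional F V] [FiniteDimensional F K] (hr2 : finrank F K = 2)
    (hmin : ∀ x y : V, x ≠ 0 → R x = 0 → R y = 0 → polar R x y = 0 → y ∈ ln F K x) {M : Subgroup (V ≃ₗ[F] V)}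
    (hHM : HK F R ≤ M) (hMO : M ≤ O Q)
    (hM : ∃ g ∈ M, ∃ x : V, ∃ k : K, g (k • x) ∉ ln F K (g x)) : ⁅O Q, O Q⁆ ≤ M := by
  have hn : 4 ≤ finrank K V := by omega
  have hr : (finrank F K).Prime := by rw [hr2]; exact Nat.prime_two
  have hK : Finite K := Module.finite_of_finite F
  have h2K : (2 : K) ≠ 0 := by
    intro h0
    apply h2
    have h3 : algebraMap F K 2 = 0 := by rw [map_ofNat]; exact h0
    exact (map_eq_zero (algebraMap F K)).1 h3
  have hF3 : 3 ≤ Nat.card F := by
    by_contra hcon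
    push Not at hcon
    have h3 : Nat.card F = 2 := le_antisymm (by omega) Finite.one_lt_card
    have : Fintype F := Fintype.ofFinite F
    have h4 := FiniteField.pow_card (2 : F)
    rw [← Nat.card_eq_fintype_card, h3] at h4
    apply h2
    have h5 : (2 : F) * (2 - 1) = 0 := by linear_combination h4
    norm_num at h5
    exact h5
  have hKc : 3 < Nat.card K := by
    rw [Module.natCard_eq_pow_finrank (K := F) (V := K)]
    calc 3 < 3 ^ 2 := by norm_num
      _ ≤ Nat.card F ^ 2 := Nat.pow_le_pow_left hF3 2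
      _ ≤ Nat.card F ^ finrank F K := Nat.pow_le_pow_right (by omega) hr.two_le
  have ht := exists_t hKc
  obtain ⟨v, hv, hv0, D, hD, hDr, g, hg, hgD, u, hu, hgu, hwv⟩ := h.hyper h2K hn ht hr hHM hMO hM
  obtain ⟨ℓ, hℓ, hℓ0, hs⟩ := h.root h2K hn hHM hMO hv hv0 hD hDr hg hgD hu hgu hwv
  have hall : ∀ v' : V, R v' = 0 → ∀ k l : K, sie Q (k • v') (l • v') ∈ M := fun v' hv' k l =>
    h.allsie h2K hn hHM hv hℓ hℓ0 hs hv' k l
  have hfull : ∃ v, v ≠ 0 ∧ R v = 0 ∧ Full Q M v := by
    have hD0 : D ≠ ⊥ := by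
      rintro rfl
      rw [finrank_bot] at hDr
      have := hr.two_le
      omega
    obtain ⟨d, hd, hd0⟩ := (Submodule.ne_bot_iff D).1 hD0
    obtain ⟨k, hk⟩ := mem_ln.1 (hD hd)
    have hk0 : k ≠ 0 := by
      rintro rfl
      rw [zero_smul] at hk
      exact hd0 hk.symm
    have hRd : R d = 0 := by rw [← hk, Q_smul, hv, mul_zero]
    obtain ⟨l, hl⟩ := mem_ln.1 hu
    have hw : g u ∈ sg Q M (h.Qs1 hRd) := by
      have h4 : sie Q d u ∈ M := by rw [← hk, ← hl]; exact hall v hv k l
      have h5 : polar Q d u = 0 := by rw [← hk, ← hl]; exact h.Ps hv k l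
      have h6 := conj_mem' hg h4
      rw [sie_conj (h.Qs1 hRd) h5 (hMO hg), hgD d hd] at h6
      refine ⟨?_, h6⟩
      have := polar_map (hMO hg) d u
      rw [hgD d hd, h5] at this
      exact this
    have hwd : polar R (g u) d = 0 := by rw [← hk, p_smul', hwv, mul_zero]
    have hwL : g u ∉ ln F K d := by
      intro h4
      obtain ⟨m, hm⟩ := mem_ln.1 h4
      apply hgu
      rw [mem_ln]
      exact ⟨m * k, by rw [mul_smul, hk, hm]⟩
    exact ⟨d, hd0, hRd, h.full_of_perp h2K hn hHM hRd hd0 (fun z hz =>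
      perp4 h h2K hn4 hr2 hmin hHM hRd hd0 (fun k' => ⟨by
        show polar Q d (k' • d) = 0
        have := h.Ps hRd 1 k'
        rwa [one_smul] at this, by
        have := hall d hRd 1 k'
        rwa [one_smul] at this⟩) hwd hwL hw hz)⟩
  obtain ⟨v, hv0, hv, hfv⟩ := hfull
  obtain ⟨v', w1, w2⟩ := h.partner hv hv0
  obtain ⟨ρ, hρ⟩ : ∃ ρ : K, l0 ρ ≠ 0 := by
    by_contra hcon
    push Not at hcon
    exact h.l00 (LinearMap.ext hcon)
  have hρ0 : ρ ≠ 0 := by
    rintro rfl
    exact hρ (map_zero _)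
  have hv'0 : v' ≠ 0 := by
    rintro rfl
    rw [p_zero'] at w2
    exact zero_ne_one w2
  obtain ⟨t, ht, htv⟩ := trans_sing h.nd h2K hn hv (w := ρ • v') (by rw [Q_smul, w1, mul_zero]) hv0
    (smul_ne_zero hρ0 hv'0)
  have hTm : rs F K V t ∈ HK F R := ⟨t, ht, rfl⟩
  have hfv' := hfv.map (hHM hTm) (h.HK_O hTm)
  rw [rs_apply, htv] at hfv'
  have hnF : 7 ≤ finrank F V := by
    rw [← Module.finrank_mul_finrank F K V]
    rw [hr2, hn4]
    norm_num
  exact omega_le_of_full h.ndQ hnF hfv hfv' (by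
    rw [h.smulP, p_comm R v' v, w2, mul_one]; exact hρ)


end H95.O8Ext

namespace H95.O8Ext

open QuadraticMap H95.Bridge Module H7.ExtF H7.ExtO H7.ExtBr H95.OGeo H17.OrthAbs H48.QuadSplit H7.OLow H95.OSie
open scoped Matrix MatrixGroups
open Cfsg

/-- quadratic extension fields, dimension eight, minus type -/
theorem ext8 {F : Type*} [Field F] [Fintype F] {n : ℕ} (hn : n = 8) (Q : (Fin n → F) → F)
    (hQ : Cfsg.Geo.IsNondegenerateQuadraticForm Q) (hminus : ¬ Cfsg.Geo.IsPlusTypeOn Q ⊤) (hodd : Odd (Fintype.card F))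
    (K : Subalgebra F (Matrix (Fin n) (Fin n) F)) (hK : Cfsg.Geo.IsFieldSubalgebra 2 K)
    (hsa : Cfsg.Geo.IsSelfAdjointFor (QuadraticMap.polar Q) K) :
    Cfsg.Geo.IsMaximalIn (Cfsg.Geo.omegaGL Q) (Cfsg.Geo.subalgebraNormalizer K ⊓ Cfsg.Geo.omegaGL Q) := by
  obtain ⟨Q', hQ'def, hQ'⟩ := H95.OBridge.exists_quad hQ
  subst hQ'def
  have h2 : (2 : F) ≠ 0 := H95.OBridge.two_ne hodd
  have hV : finrank F (Fin n → F) = n := by
    rw [finrank_fintype_fun_eq_card]; simp
  obtain ⟨E, i1, i2, i3, i4, φ, h1, h2', h3, hEr⟩ := exists_model hK (by norm_num)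
  have : FiniteDimensional F E := Module.finite_of_finrank_pos (by rw [hEr]; norm_num)
  have : FiniteDimensional E (Fin n → F) := FiniteDimensional.right F E _
  have hfr := Module.finrank_mul_finrank F E (Fin n → F)
  rw [hEr, hV] at hfr
  obtain ⟨R, l0, h⟩ := exists_OE (F := F) (K := E) (V := Fin n → F) h2 hQ'
    (fun k x y => by rw [h1, h1]; exact hsa _ (h2' k) x y)
  have hk4 : finrank E (Fin n → F) = 4 := by omega
  have hk : 4 ≤ finrank E (Fin n → F) := by omega
  have hmin : ∀ x y : Fin n → F, x ≠ 0 → R x = 0 → R y = 0 → polar R x y = 0 → y ∈ ln F E x := by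
    intro x y hx0 hx hy hxy
    by_contra hyx
    apply hminus
    have hli : LinearIndependent E ![x, y] := by
      rw [LinearIndependent.pair_iff' hx0]
      intro a ha
      exact hyx (mem_ln.2 ⟨a, ha⟩)
    refine ⟨(Submodule.span E (Set.range ![x, y])).restrictScalars F, le_top, ?_, ?_⟩
    · intro w hw
      rw [Submodule.restrictScalars_mem, Submodule.mem_span_range_iff_exists_fun] at hw
      obtain ⟨c, hc⟩ := hw
      rw [Fin.sum_univ_two] at hc
      have hc' : c 0 • x + c 1 • y = w := hc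
      rw [← hc', h.hQ, Q_add, Q_smul, Q_smul, p_smul, p_smul', hx, hy, hxy]
      simp
    · have h5 : finrank E (Submodule.span E (Set.range ![x, y])) = 2 := by
        rw [finrank_span_eq_card hli]; simp
      have h6 : finrank F ((Submodule.span E (Set.range ![x, y])).restrictScalars F) =
          finrank F (Submodule.span E (Set.range ![x, y])) := rfl
      have h7 := Module.finrank_mul_finrank F E (Submodule.span E (Set.range ![x, y]))
      rw [hEr, h5] at h7
      rw [h6, finrank_top, hV]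
      omega
  have hsymm : ∀ x : (Fin n → F) ≃ₗ[F] (Fin n → F), toEq (Fin n) F ((toEq _ F).symm x) = x :=
    fun x => by rw [MulEquiv.apply_symm_apply]
  have hmem := H95.OBridge.mem_omegaGL Q'
  apply isMaximalIn_of
  · obtain ⟨g, hg, e, he⟩ := h.exists_not_semi h2 hk (by rw [hEr])
    refine ⟨(toEq _ F).symm g, ?_, ?_⟩
    · rw [hmem, hsymm]; exact hg
    · intro hn'
      obtain ⟨e', he'⟩ := semilin h1 h2' h3 hn' e
      obtain ⟨v, hv⟩ := he e'
      rw [hsymm] at he'
      exact hv (he' v)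
  · intro M hHM hMK ⟨g, hg, hgS⟩
    have hMO : M.map (toEq (Fin n) F).toMonoidHom ≤ O Q' := by
      rintro _ ⟨x, hx, rfl⟩
      exact omega_le_O Q' ((hmem x).1 (hMK hx))
    refine le_of_map hmem (overgroup4 h h2 hk4 hEr hmin ?_ hMO ?_)
    · intro x hx
      rw [mem_map_toEq]
      refine hHM ⟨?_, ?_⟩
      · exact comm_mem_normalizer h1 h2' h3 (fun v e => by rw [hsymm]; exact HK_smul hx e v)
      · exact (hmem _).2 (by rw [hsymm]; exact h.HK_om hx)
    · refine ⟨toEq _ F g, ⟨g, hg, rfl⟩, ?_⟩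
      by_contra hcon
      push Not at hcon
      exact hgS (mem_normalizer h1 h2' h3 (by omega) hcon)

end H95.O8Ext
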