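import Cfsg.Agent.Lib.H95.O8NdE
import Cfsg.Agent.Lib.H95.O8Ext
import Cfsg.Agent.Lib.H95.O8Pt
import Cfsg.Agent.Lib.H95.RatQBT
import Cfsg.Agent.Lib.H7.OAPar

/-!
Maximality of geometric subgroups of the orthogonal groups in dimension eight, minus type.
-/
set_option autoImplicit false

namespace H95.O8All

open Module QuadraticMap H48.QuadSplit H95.OGeo H17.OrthAbs H95.OSie H95.Bridge H95.OBridge Cfsg Cfsg.Geo
open scoped Matrix MatrixGroups

variable {F : Type*} [Field F] [Fintype F]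

theorem sing8 {n : ℕ} (hn : n = 8) (Q : (Fin n → F) → F) (hQ : IsNondegenerateQuadraticForm Q)
    (hminus : ¬ IsPlusTypeOn Q ⊤) (W : Submodule F (Fin n → F)) (hW0 : W ≠ ⊥) (hW : IsTotallySingularQuad Q W) :
    IsMaximalIn (omegaGL Q) (subspaceStabilizer W ⊓ omegaGL Q) := by
  have hfr : Module.finrank F (Fin n → F) = n := by simp
  refine H7.OABridge.isMaximalIn_omegaGL (Q := H7.OABridge.ofFun hQ) rfl (H7.OABridge.mem_stab (W := W)) ?_ ?_
  · exact H7.OAPar.exists_not_stab (H7.OABridge.nd_ofFun hQ) (by omega) hW hW0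
  · intro M h1 h2 h3
    refine H7.OAPar.maximal (H7.OABridge.nd_ofFun hQ) (by omega) hW ?_ h1 h2 h3
    intro U hU hU'
    exact absurd ⟨U, le_top, hU, by rw [hU', finrank_top]⟩ hminus

theorem point8 {n : ℕ} (hn : n = 8) (Q : (Fin n → F) → F) (hQ : IsNondegenerateQuadraticForm Q)
    (v : (Fin n → F)) (hv : Q v ≠ 0) :
    IsMaximalIn (omegaGL Q) (subspaceStabilizer (Submodule.span F {v}) ⊓ omegaGL Q) := by
  have hfr : Module.finrank F (Fin n → F) = n := by simp
  obtain ⟨q, rfl⟩ : ∃ q : QuadraticForm F (Fin n → F), ⇑q = Q := ⟨H7.OABridge.ofFun hQ, rfl⟩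
  have hnd : H48.QuadSplit.ND q := H7.OABridge.nd_of rfl hQ
  refine H7.OABridge.isMaximalIn_omegaGL rfl (H7.OABridge.mem_stab (W := Submodule.span F {v})) ?_ ?_
  · exact H95.O8Pt.exists_not_stab_point hnd (by omega) hv
  · intro M h1 h2 h3
    exact H95.O8Pt.max_point hnd (by omega) hv h1 h2 h3

theorem rat7 {n : ℕ} (hn : 7 ≤ n) (Q : (Fin n → F) → F) (hQ : IsNondegenerateQuadraticForm Q)
    (F₀ : Subfield F) (r : ℕ) (hr : r.Prime) (hcard : Fintype.card F = Nat.card F₀ ^ r)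
    (P : Matrix.GeneralLinearGroup (Fin n) F) (ζ : F) (hζ : ζ ≠ 0)
    (hP : IsQuadFormRationalStructure (fun v : Fin n → F => ζ * Q v) F₀ P) :
    IsMaximalIn (omegaGL Q) (subfieldSubgroup F₀ P ⊓ omegaGL Q) := by
  obtain ⟨Q', rfl, hnd⟩ := exists_quad hQ
  have hnd' : ND (ζ • Q') := by
    intro x hx
    apply hnd
    intro w
    have h1 := hx w
    rw [coeFn_smul, polar_smul, smul_eq_mul] at h1
    exact (mul_eq_zero.1 h1).resolve_left hζ
  have e : Cfsg.Geo.omegaGL (⇑Q') = Cfsg.Geo.omegaGL (⇑(ζ • Q')) := by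
    have e1 : Cfsg.isometryGroup F (⇑Q') = Cfsg.isometryGroup F (⇑(ζ • Q')) := by
      ext g
      rw [mem_iso, mem_iso, H17.OrthAbs.mem_O, H17.OrthAbs.mem_O]
      constructor
      · intro h x
        rw [coeFn_smul, Pi.smul_apply, Pi.smul_apply, h]
      · intro h x
        have h1 := h x
        rw [coeFn_smul, Pi.smul_apply, Pi.smul_apply, smul_eq_mul, smul_eq_mul] at h1
        exact mul_left_cancel₀ hζ h1
    rw [omegaGL_eq, omegaGL_eq, e1]
  rw [e]
  exact H95.RatQBT.rat_max hnd' (by rw [Fintype.card_fin]; omega) hr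
    (by rw [Nat.card_eq_fintype_card]; exact hcard) hP

end H95.O8All
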