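import Mathlib
import Cfsg.Agent.Lib.H95.UBasic

set_option autoImplicit false

/-!
Gleason's lemma for two unipotent elements acting on a plane.
-/

namespace H95.OGl

open Module H95.UBasic

variable {F V : Type*} [Field F] [AddCommGroup V] [Module F V]

theorem gleason_abs [Finite F] [FiniteDimensional F V] {x₁ x₂ : V ≃ₗ[F] V} {v w : V}
    (hli : LinearIndependent F ![v, w]) {a b : F} (ha : a ≠ 0) (hb : b ≠ 0) (h11 : x₁ v = v)
    (h12 : x₁ w = w + a • v) (h21 : x₂ w = w) (h22 : x₂ v = v + b • w) :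
    ∃ z ∈ Subgroup.closure {x₁, x₂}, ∃ c : F, c ≠ 0 ∧ z v = c • w := by
  classical
  have : Fintype F := Fintype.ofFinite F
  have : Finite V := Module.finite_of_finite F
  have : Fintype V := Fintype.ofFinite V
  obtain ⟨p, hp⟩ := CharP.exists F
  have hpp : Fact p.Prime := ⟨CharP.char_is_prime F p⟩
  have hpair := LinearIndependent.pair_iff.1 hli
  set E : Submodule F V := Submodule.span F {v, w} with hE
  have hvE : v ∈ E := Submodule.subset_span (by simp)
  have hwE : w ∈ E := Submodule.subset_span (by simp)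
  have hmemE : ∀ u ∈ E, ∃ s t : F, s • v + t • w = u := fun u hu => Submodule.mem_span_pair.1 hu
  have hxE1 : ∀ u ∈ E, x₁ u ∈ E := by
    intro u hu
    obtain ⟨s, t, rfl⟩ := hmemE u hu
    rw [map_add, map_smul, map_smul, h11, h12]
    exact E.add_mem (E.smul_mem _ hvE) (E.smul_mem _ (E.add_mem hwE (E.smul_mem _ hvE)))
  have hxE2 : ∀ u ∈ E, x₂ u ∈ E := by
    intro u hu
    obtain ⟨s, t, rfl⟩ := hmemE u hu
    rw [map_add, map_smul, map_smul, h21, h22]
    exact E.add_mem (E.smul_mem _ (E.add_mem hvE (E.smul_mem _ hwE))) (E.smul_mem _ hwE)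
  have hp1 : ∀ u ∈ E, (x₁ ^ p) u = u := by
    have h : ∀ (k : ℕ) (s t : F), (x₁ ^ k) (s • v + t • w) = s • v + t • w + (t * k * a) • v := by
      intro k s t
      induction k with
      | zero => simp
      | succ k ih =>
        rw [pow_succ', LinearEquiv.mul_apply, ih, map_add, map_add, map_smul, map_smul, map_smul,
          h11, h12]
        push_cast
        module
    intro u hu
    obtain ⟨s, t, rfl⟩ := hmemE u hu
    rw [h p s t, CharP.cast_eq_zero F p]; simp
  have hp2 : ∀ u ∈ E, (x₂ ^ p) u = u := by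
    have h : ∀ (k : ℕ) (s t : F), (x₂ ^ k) (s • v + t • w) = s • v + t • w + (s * k * b) • w := by
      intro k s t
      induction k with
      | zero => simp
      | succ k ih =>
        rw [pow_succ', LinearEquiv.mul_apply, ih, map_add, map_add, map_smul, map_smul, map_smul,
          h21, h22]
        push_cast
        module
    intro u hu
    obtain ⟨s, t, rfl⟩ := hmemE u hu
    rw [h p s t, CharP.cast_eq_zero F p]; simp
  set D : Subgroup (V ≃ₗ[F] V) := Subgroup.closure {x₁, x₂} with hD
  have hxD : x₁ ∈ D := Subgroup.subset_closure (by simp)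
  have hyD : x₂ ∈ D := Subgroup.subset_closure (by simp)
  have hDE : ∀ z ∈ D, ∀ u ∈ E, z u ∈ E := by
    intro z hz
    induction hz using Subgroup.closure_induction with
    | mem x hx =>
      rcases hx with rfl | rfl
      · exact hxE1
      · exact hxE2
    | one => exact fun u hu => hu
    | mul a b _ _ ha hb => exact fun u hu => ha _ (hb u hu)
    | inv a _ ha =>
      have hle : E.map (a : V →ₗ[F] V) ≤ E := by
        rintro _ ⟨x, hx, rfl⟩; exact ha x hx
      have heq : E.map (a : V →ₗ[F] V) = E :=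
        Submodule.eq_of_le_of_finrank_eq hle (LinearEquiv.finrank_map_eq a E)
      intro u hu
      rw [← heq] at hu
      obtain ⟨x, hx, rfl⟩ := hu
      have : a⁻¹ ((a : V →ₗ[F] V) x) = x := a.symm_apply_apply x
      rw [this]; exact hx
  by_contra hcon
  have hcon' : ∀ z ∈ D, ∀ c : F, c ≠ 0 → z v ≠ c • w := by
    intro z hz c hc h1
    exact hcon ⟨z, hz, c, hc, h1⟩
  let S : Set V := {u | ∃ z ∈ D, ∃ c : F, c ≠ 0 ∧ u = c • z v}
  have hSE : ∀ u ∈ S, u ∈ E := by
    rintro _ ⟨z, hz, c, -, rfl⟩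
    exact E.smul_mem c (hDE z hz v hvE)
  have hv0 : v ≠ 0 := hli.ne_zero 0
  have hw0 : w ≠ 0 := hli.ne_zero 1
  have hSne : ∀ u ∈ S, u ≠ 0 := by
    rintro _ ⟨z, hz, c, hc, rfl⟩
    exact smul_ne_zero hc (by simpa using hv0)
  have hSmul : ∀ g ∈ D, ∀ u ∈ S, g u ∈ S := by
    rintro g hg _ ⟨z, hz, c, hc, rfl⟩
    exact ⟨g * z, D.mul_mem hg hz, c, hc, by rw [map_smul]; rfl⟩
  have key : ∀ (x : V ≃ₗ[F] V), x ∈ D → (∀ u ∈ E, (x ^ p) u = u) →
      Nat.card S ≡ Nat.card {u : S // x (u : V) = u} [MOD p] := by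
    intro x hm hxp
    let f : Function.End S := fun u => ⟨x u, hSmul _ hm _ u.2⟩
    have hiter : ∀ (k : ℕ) (u : S), ((f ^ k) u : V) = (x ^ k) u := by
      intro k u
      induction k with
      | zero => rfl
      | succ k ih =>
        rw [pow_succ', pow_succ', LinearEquiv.mul_apply, ← ih]
        rfl
    have hfp : f ^ p ^ 1 = 1 := by
      funext u
      apply Subtype.ext
      rw [pow_one, hiter p u, hxp _ (hSE u u.2)]
      rfl
    have h3 := Equiv.Perm.card_fixedPoints_modEq (p := p) (n := 1) (f := f) hfp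
    rw [Nat.card_eq_fintype_card]
    refine h3.trans ?_
    rw [Nat.card_eq_fintype_card]
    have : Fintype.card f.fixedPoints = Fintype.card {u : S // x (u : V) = u} := by
      apply Fintype.card_congr
      apply Equiv.subtypeEquivRight
      intro u
      show f u = u ↔ _
      rw [Subtype.ext_iff]
    rw [this]
  have k1 := key x₁ hxD hp1
  have k2 := key x₂ hyD hp2
  have c1 : Nat.card {u : S // x₁ (u : V) = u} = Nat.card Fˣ := by
    symm
    refine Nat.card_congr (Equiv.ofBijective
      (fun c : Fˣ => ⟨⟨(c : F) • v, 1, D.one_mem, c, c.ne_zero, by simp⟩, by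
        show x₁ ((c : F) • v) = (c : F) • v
        rw [map_smul, h11]⟩) ⟨?_, ?_⟩)
    · intro c d hcd
      have : (c : F) • v = (d : F) • v := congrArg (fun u => ((u.1 : S) : V)) hcd
      have h3 : ((c : F) - d) • v = 0 := by rw [sub_smul, this, sub_self]
      exact Units.ext (sub_eq_zero.1 ((smul_eq_zero.1 h3).resolve_right hv0))
    · rintro ⟨⟨u, hu⟩, hu0⟩
      have hu0' : x₁ u = u := hu0
      obtain ⟨s, t, hst⟩ := hmemE u (hSE u hu)
      have ht : t = 0 := by
        rw [← hst, map_add, map_smul, map_smul, h11, h12] at hu0'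
        have h4 : (t * a) • v + (0 : F) • w = 0 := by
          have h5 : s • v + t • (w + a • v) - (s • v + t • w) = 0 := by rw [hu0', sub_self]
          rw [← h5]; module
        exact (mul_eq_zero.1 (hpair _ _ h4).1).resolve_right ha
      rw [ht, zero_smul, add_zero] at hst
      have hs : s ≠ 0 := by
        rintro rfl
        exact hSne u hu (by rw [← hst, zero_smul])
      exact ⟨Units.mk0 s hs, Subtype.ext (Subtype.ext hst)⟩
  have c2 : Nat.card {u : S // x₂ (u : V) = u} = 0 := by
    have : IsEmpty {u : S // x₂ (u : V) = u} := by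
      refine ⟨?_⟩
      rintro ⟨⟨u, hu⟩, hu0⟩
      have hu0' : x₂ u = u := hu0
      obtain ⟨s, t, hst⟩ := hmemE u (hSE u hu)
      have hs : s = 0 := by
        rw [← hst, map_add, map_smul, map_smul, h21, h22] at hu0'
        have h4 : (0 : F) • v + (s * b) • w = 0 := by
          have h5 : s • (v + b • w) + t • w - (s • v + t • w) = 0 := by rw [hu0', sub_self]
          rw [← h5]; module
        exact (mul_eq_zero.1 (hpair _ _ h4).2).resolve_right hb
      rw [hs, zero_smul, zero_add] at hst
      obtain ⟨z, hz, c, hc, e⟩ := hu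
      have ht : t ≠ 0 := by
        rintro rfl
        exact hSne u ⟨z, hz, c, hc, e⟩ (by rw [← hst, zero_smul])
      refine hcon' z hz (c⁻¹ * t) (mul_ne_zero (inv_ne_zero hc) ht) ?_
      rw [mul_smul, hst, e, smul_smul, inv_mul_cancel₀ hc, one_smul]
    exact Nat.card_of_isEmpty
  rw [c1] at k1
  rw [c2] at k2
  have k3 : Nat.card Fˣ ≡ 0 [MOD p] := k1.symm.trans k2
  have k4 : p ∣ Nat.card Fˣ := (Nat.modEq_zero_iff_dvd).1 k3
  have k5 : p ∣ Fintype.card F := by
    obtain ⟨n, -, hn⟩ := FiniteField.card F p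
    rw [hn]; exact dvd_pow_self p n.ne_zero
  have k6 : Nat.card Fˣ + 1 = Fintype.card F := by
    rw [Nat.card_eq_fintype_card, Fintype.card_units]
    have : 0 < Fintype.card F := Fintype.card_pos
    omega
  have k7 : p ∣ 1 := (Nat.dvd_add_right k4).1 (k6 ▸ k5)
  exact hpp.out.one_lt.ne' (Nat.dvd_one.1 k7)

end H95.OGl
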