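import Mathlib
import Cfsg.Agent.Lib.H95.OSie

set_option autoImplicit false

/-!
Stabilisers of totally singular subspaces in orthogonal groups.
-/

namespace H95.OPar

open Module QuadraticMap H48.QuadSplit H95.OGeo H17.OrthAbs H95.OSie

variable {F V : Type*} [Field F] [AddCommGroup V] [Module F V] {Q : QuadraticForm F V}
  [FiniteDimensional F V] [Finite F]

omit [FiniteDimensional F V] [Finite F] in
lemma ts_polar {W : Submodule F V} (hW : ∀ x ∈ W, Q x = 0) {x y : V} (hx : x ∈ W) (hy : y ∈ W) :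
    polar Q x y = 0 := by
  have := Q_add Q x y
  rw [hW _ (W.add_mem hx hy), hW x hx, hW y hy] at this
  simpa using this.symm

theorem exists_not (hQ : ND Q) (hn : 9 ≤ finrank F V) {W : Submodule F V} (hW0 : W ≠ ⊥)
    (hW : ∀ x ∈ W, Q x = 0) : ∃ g ∈ ⁅O Q, O Q⁆, ¬ ∀ x ∈ W, g x ∈ W := by
  obtain ⟨w, hw, hw0⟩ := Submodule.exists_mem_ne_zero_of_ne_bot hW0
  obtain ⟨w', hw', hw''⟩ := dual_val hQ (k := 1) (x := ![w]) (by omega) (by
    rw [linearIndependent_unique_iff]; simpa using hw0) ![1] 0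
  have e1 : polar Q w' w = 1 := hw'' 0
  have hw'0 : w' ≠ 0 := by rintro rfl; rw [p_zero] at e1; exact zero_ne_one e1
  obtain ⟨e, he, -, hew⟩ := trans_val hQ (M := ⁅O Q, O Q⁆) (by omega)
    (fun u hu => ⟨hu, fun y hy => sie_mem_omega hQ hn hu hy⟩) hw0 hw'0 (by rw [hW w hw, hw'])
  refine ⟨e, he, fun hcon => ?_⟩
  have h1 := hcon w hw
  rw [hew] at h1
  rw [ts_polar hW h1 hw] at e1
  exact zero_ne_one e1

theorem overgroup (hQ : ND Q) (hn : 9 ≤ finrank F V) {W : Submodule F V}
    (hW : ∀ x ∈ W, Q x = 0)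
    (hex : 2 * (finrank F W + 1) = finrank F V →
      ∀ T : Submodule F V, (∀ x ∈ T, Q x = 0) → 2 * finrank F T ≠ finrank F V)
    (M : Subgroup (V ≃ₗ[F] V)) (hMO : M ≤ O Q)
    (hM : ∀ x ∈ ⁅O Q, O Q⁆, (∀ w ∈ W, x w ∈ W) → x ∈ M) (hg : ∃ g ∈ M, ¬ ∀ w ∈ W, g w ∈ W) :
    ⁅O Q, O Q⁆ ≤ M := by
  have hWf : ∀ w ∈ W, Full Q M w := by
    intro w hw
    refine ⟨hW w hw, fun y hy => ?_⟩
    apply hM _ (sie_mem_omega hQ hn (hW w hw) hy)
    intro x hx
    rw [sie_apply (hW w hw) hy, ts_polar hW hx hw]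
    simp only [zero_smul, mul_zero, add_zero, sub_zero]
    exact W.sub_mem hx (W.smul_mem _ hw)
  obtain ⟨g, hgM, hgW⟩ := hg
  push Not at hgW
  obtain ⟨w, hw, hgw⟩ := hgW
  set x := g w with hx
  have hxf : Full Q M x := (hWf w hw).map hgM (hMO hgM)
  by_cases hxW : ∃ w' ∈ W, polar Q w' x ≠ 0
  · obtain ⟨w', hw', h1⟩ := hxW
    exact omega_le_of_full hQ (by omega) hxf (hWf w' hw') h1
  push Not at hxW
  -- a singular vector u
  obtain ⟨p, hp, hp'⟩ := sep hQ hgw
  obtain ⟨u, hu, hxu, huW⟩ : ∃ u, Q u = 0 ∧ polar Q x u = 1 ∧ ∀ s ∈ W, polar Q s u = 0 := by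
    refine ⟨(polar Q x p)⁻¹ • p - Q ((polar Q x p)⁻¹ • p) • x, ?_, ?_, fun s hs => ?_⟩
    · rw [Q_sub, Q_smul _ (Q _) x, hxf.1, p_smul' _ (Q _), p_comm Q _ x, p_smul', inv_mul_cancel₀ hp']
      ring
    · rw [p_sub', p_smul', p_smul' _ (Q _), p_self, hxf.1, inv_mul_cancel₀ hp']; ring
    · rw [p_sub', p_smul', p_smul', hp s hs, hxW s hs]; ring
  have hux : polar Q u x = 1 := by rw [p_comm, hxu]
  have hux0 : polar Q u u = 0 := by rw [p_self, hu, mul_zero]
  have hxx0 : polar Q x x = 0 := by rw [p_self, hxf.1, mul_zero]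
  -- a non-singular vector y
  obtain ⟨y, hyQ, hyW, hyx, hyu⟩ : ∃ y, Q y ≠ 0 ∧ (∀ s ∈ W, polar Q s y = 0) ∧ polar Q x y = 0 ∧
      polar Q u y = 0 := by
    by_contra hcon
    push Not at hcon
    have hxW' : x ∉ W := hgw
    have hx0 : x ≠ 0 := by rintro h0; rw [h0] at hxW'; exact hxW' W.zero_mem
    set L := W ⊔ Submodule.span F {x, u} with hL
    have hxL : x ∈ L := Submodule.mem_sup_right (Submodule.subset_span (by simp))
    have huL : u ∈ L := Submodule.mem_sup_right (Submodule.subset_span (by simp))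
    have hP : ∀ y ∈ orth Q L, Q y = 0 := by
      intro y hy
      by_contra hyQ
      exact hcon y hyQ (fun s hs => hy s (Submodule.mem_sup_left hs)) (hy x hxL) (hy u huL)
    have hPW : orth Q L ≤ W := by
      intro y hy
      have h1 : y ∈ orth Q (orth Q L) := fun z hz => ts_polar hP hz hy
      rw [orth_orth hQ] at h1
      obtain ⟨s, hs, t, ht, rfl⟩ := Submodule.mem_sup.1 h1
      obtain ⟨a, b, rfl⟩ := Submodule.mem_span_pair.1 ht
      have h2 := hy x hxL
      have h3 := hy u huL
      rw [p_add', p_add', p_smul', p_smul', hxx0, hxu, p_comm Q x s, hxW s hs] at h2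
      rw [p_add', p_add', p_smul', p_smul', hux0, hux, p_comm Q u s, huW s hs] at h3
      have hb : b = 0 := by linear_combination h2
      have ha : a = 0 := by linear_combination h3
      rw [ha, hb, zero_smul, zero_smul, add_zero, add_zero]
      exact hs
    have hd1 := finrank_orth hQ L
    have hd2 := Submodule.finrank_mono hPW
    have hd3 : finrank F L ≤ finrank F W + 2 := by
      have h4 := Submodule.finrank_add_le_finrank_add_finrank W (Submodule.span F {x, u})
      rw [← hL] at h4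
      have h5 : finrank F (Submodule.span F {x, u}) ≤ 2 := by
        have e : ({x, u} : Set V) = Set.range ![x, u] := by
          ext z; simp [or_comm]
        rw [e]
        have := finrank_range_le_card (R := F) ![x, u]
        rw [Fintype.card_fin] at this
        exact this
      omega
    set T := W ⊔ Submodule.span F {x} with hT
    have hTs : ∀ z ∈ T, Q z = 0 := by
      intro z hz
      obtain ⟨s, hs, t, ht, rfl⟩ := Submodule.mem_sup.1 hz
      obtain ⟨a, rfl⟩ := Submodule.mem_span_singleton.1 ht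
      rw [Q_add, Q_smul, p_smul', hW s hs, hxf.1, hxW s hs]; ring
    have hd4 : finrank F T = finrank F W + 1 := by
      have h4 := Submodule.finrank_sup_add_finrank_inf_eq W (Submodule.span F {x})
      have h5 : W ⊓ Submodule.span F {x} = ⊥ := by
        rw [eq_bot_iff]
        rintro z ⟨hz1, hz2⟩
        obtain ⟨a, rfl⟩ := Submodule.mem_span_singleton.1 hz2
        by_cases ha : a = 0
        · rw [ha, zero_smul]; exact Submodule.zero_mem _
        · exact absurd ((W.smul_mem_iff ha).1 hz1) hxW'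
      rw [h5, finrank_bot, finrank_span_singleton hx0, add_zero] at h4
      exact h4
    have hd5 : 2 * finrank F T ≤ finrank F V := by
      have h4 : T ≤ orth Q T := fun z hz w hw => ts_polar hTs hw hz
      have h5 := Submodule.finrank_mono h4
      have h6 := finrank_orth hQ T
      omega
    exact hex (by omega) T hTs (by omega)
  -- the Siegel element
  have hs : sie Q u y ∈ M := by
    apply hM _ (sie_mem_omega hQ hn hu hyu)
    intro z hz
    rw [sie_apply hu hyu, huW z hz, hyW z hz]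
    simpa using hz
  have h1 : sie Q u y x = x + y - Q y • u := by
    rw [sie_apply hu hyu, hxu, hyx, one_smul, zero_smul, sub_zero, mul_one]
  have h2 := hxf.map hs (sie_mem_O _ _ _)
  refine omega_le_of_full hQ (by omega) hxf h2 ?_
  rw [h1, p_comm, p_sub', p_add', p_smul', hxx0, hyx, hxu]
  simpa using hyQ

end H95.OPar
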