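import Mathlib
import Cfsg.Agent.Lib.H95.OPar

set_option autoImplicit false

/-!
Irreducibility of orthogonal groups (reflections and root elements).
-/

namespace H95.OIrr

open Module QuadraticMap H48.QuadSplit H95.OGeo H17.OrthAbs H95.OSie

variable {F V : Type*} [Field F] [AddCommGroup V] [Module F V] {Q : QuadraticForm F V}
  [FiniteDimensional F V]

/-- An invariant subspace is trivial, except for hyperbolic planes over small fields. -/
theorem irr (hQ : ND Q)
    (hex : finrank F V = 2 → (∀ a : F, a ≠ 0 → a * a = 1) → ∀ x, Q x = 0 → x = 0)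
    {Z : Submodule F V} (hZ0 : Z ≠ ⊥)
    (h1 : ∀ v, Q v ≠ 0 → ∀ z ∈ Z, z - ((Q v)⁻¹ * polar Q v z) • v ∈ Z)
    (h2 : ∀ a b, Q a = 0 → Q b = 0 → polar Q a b = 0 → ∀ z ∈ Z, sie Q a b z ∈ Z) : Z = ⊤ := by
  by_contra hZ
  have hfr := finrank_orth hQ Z
  have hlt : finrank F Z < finrank F V := Submodule.finrank_lt hZ
  have hpos : 0 < finrank F Z := by
    rw [Module.finrank_pos_iff, Submodule.nontrivial_iff_ne_bot]; exact hZ0
  have hZ'0 : orth Q Z ≠ ⊥ := by
    intro h0
    rw [h0, finrank_bot] at hfr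
    omega
  -- nonsingular vectors
  have key : ∀ v, Q v ≠ 0 → v ∈ Z ∨ v ∈ orth Q Z := by
    intro v hv
    by_cases hcon : v ∈ orth Q Z
    · exact Or.inr hcon
    · left
      rw [mem_orth] at hcon
      push Not at hcon
      obtain ⟨z, hz, hzv⟩ := hcon
      have h3 := h1 v hv z hz
      have h4 := (Submodule.sub_mem_iff_right Z hz).1 h3
      refine (Z.smul_mem_iff ?_).1 h4
      exact mul_ne_zero (inv_ne_zero hv) (by rw [p_comm]; exact hzv)
  -- the radical
  have hrad : ∀ r, r ∈ Z → r ∈ orth Q Z → r = 0 := by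
    intro r hr hr'
    by_contra hr0
    have k1 : ∀ v, Q v ≠ 0 → polar Q v r = 0 := by
      intro v hv
      rcases key v hv with h | h
      · exact hr' v h
      · rw [p_comm]; exact h r hr
    have hpr : polar Q r r = 0 := hr' r hr
    obtain ⟨v, hv⟩ := dual hQ (x := ![r]) (by
      rw [linearIndependent_unique_iff]; simpa using hr0) ![1]
    have hvr : polar Q v r = 1 := hv 0
    have k2 : ∀ w, polar Q w r = 0 → Q w + polar Q v w = 0 := by
      intro w hw
      have hQv : Q v = 0 := by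
        by_contra h; have := k1 v h; rw [hvr] at this; exact one_ne_zero this
      have hQvw : Q (v + w) = 0 := by
        by_contra h
        have := k1 (v + w) h
        rw [p_add, hvr, hw, add_zero] at this
        exact one_ne_zero this
      rw [Q_add, hQv, zero_add] at hQvw
      exact hQvw
    have hQv : Q v = 0 := by
      by_contra h; have := k1 v h; rw [hvr] at this; exact one_ne_zero this
    have k3 : Q r = -1 := by
      have := k2 r hpr
      rw [hvr] at this
      exact eq_neg_of_add_eq_zero_left this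
    have k4 : ∀ c : F, c ≠ 0 → c * c = 1 := by
      intro c hc
      have := k2 (c • r) (by rw [p_smul, hpr, mul_zero])
      rw [Q_smul, p_smul', hvr, k3] at this
      have h3 : c * (1 - c) = 0 := by linear_combination this
      rcases mul_eq_zero.1 h3 with h4 | h4
      · exact absurd h4 hc
      · have : c = 1 := (sub_eq_zero.1 h4).symm
        rw [this]; ring
    -- r^⊥ is totally isotropic
    have k5 : ∀ w w', polar Q w r = 0 → polar Q w' r = 0 → polar Q w w' = 0 := by
      intro w w' hw hw'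
      have e1 := k2 w hw
      have e2 := k2 w' hw'
      have e3 := k2 (w + w') (by rw [p_add, hw, hw', add_zero])
      rw [Q_add, p_add'] at e3
      linear_combination e3 - e1 - e2
    have k6 : orth Q (Submodule.span F {r}) ≤ Submodule.span F {r} := by
      intro w hw
      rw [← orth_orth hQ (Submodule.span F {r})]
      intro w' hw'
      have e1 := hw r (Submodule.mem_span_singleton_self r)
      have e2 := hw' r (Submodule.mem_span_singleton_self r)
      exact k5 w' w (by rw [p_comm]; exact e2) (by rw [p_comm]; exact e1)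
    have k7 := finrank_orth hQ (Submodule.span F {r})
    have k8 := Submodule.finrank_mono k6
    rw [finrank_span_singleton hr0] at k7 k8
    have hv0 : v = 0 := hex (by omega) k4 v hQv
    rw [hv0, p_zero] at hvr
    exact zero_ne_one hvr
  -- sums
  obtain ⟨z₀, hz₀, hz₀0⟩ := Submodule.exists_mem_ne_zero_of_ne_bot hZ0
  obtain ⟨y₀, hy₀, hy₀0⟩ := Submodule.exists_mem_ne_zero_of_ne_bot hZ'0
  have k1 : ∀ z ∈ Z, z ≠ 0 → ∀ y ∈ orth Q Z, y ≠ 0 → Q z + Q y = 0 := by
    intro z hz hz0 y hy hy0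
    have e1 : Q (z + y) = Q z + Q y := by rw [Q_add, hy z hz, add_zero]
    rw [← e1]
    by_contra h
    rcases key _ h with h3 | h3
    · have h4 := (Submodule.add_mem_iff_right Z hz).1 h3
      exact hy0 (hrad y h4 hy)
    · have h4 := (Submodule.add_mem_iff_left (orth Q Z) hy).1 h3
      exact hz0 (hrad z hz h4)
  set c := Q z₀ with hc
  have k2 : ∀ y ∈ orth Q Z, y ≠ 0 → Q y = -c := fun y hy hy0 =>
    eq_neg_of_add_eq_zero_right (k1 z₀ hz₀ hz₀0 y hy hy0)
  have k3 : ∀ z ∈ Z, z ≠ 0 → Q z = c := fun z hz hz0 => by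
    have e1 := k1 z hz hz0 y₀ hy₀ hy₀0
    rw [k2 y₀ hy₀ hy₀0] at e1
    linear_combination e1
  -- partners in Z and Z'
  have k4 : ∀ z ∈ Z, z ≠ 0 → ∃ w ∈ Z, polar Q z w ≠ 0 := by
    intro z hz hz0
    by_contra hcon
    push Not at hcon
    exact hz0 (hrad z hz (fun w hw => by rw [p_comm]; exact hcon w hw))
  have k4' : ∀ z ∈ orth Q Z, z ≠ 0 → ∃ w ∈ orth Q Z, polar Q z w ≠ 0 := by
    intro z hz hz0
    by_contra hcon
    push Not at hcon
    refine hz0 (hrad z ?_ hz)
    rw [← orth_orth hQ Z]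
    intro w hw
    rw [p_comm]; exact hcon w hw
  have hc0 : c ≠ 0 := by
    intro h0
    obtain ⟨w, hw, hw'⟩ := k4 z₀ hz₀ hz₀0
    have e1 : ∀ z ∈ Z, Q z = 0 := by
      intro z hz
      by_cases hz0 : z = 0
      · rw [hz0, map_zero]
      · rw [k3 z hz hz0, h0]
    exact hw' (H95.OPar.ts_polar e1 hz₀ hw)
  have k5 : ∀ a : F, a ≠ 0 → a * a = 1 := by
    intro a ha
    have e1 := k3 (a • z₀) (Z.smul_mem _ hz₀) (smul_ne_zero ha hz₀0)
    rw [Q_smul, ← hc] at e1
    exact mul_right_cancel₀ hc0 (by rw [e1, one_mul])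
  by_cases h2F : (2 : F) = 0
  · -- characteristic two
    have hc1 : c = 1 := by
      have e1 := k5 c hc0
      have e2 : (c - 1) * (c - 1) = 0 := by linear_combination e1 + (-c + 1) * h2F
      exact sub_eq_zero.1 (mul_self_eq_zero.1 e2)
    have hm1 : (-1 : F) = 1 := by linear_combination -h2F
    have hall : ∀ a : F, a ≠ 0 → a = 1 := by
      intro a ha
      have e1 := k5 a ha
      have e2 : (a - 1) * (a - 1) = 0 := by linear_combination e1 + (-a + 1) * h2F
      exact sub_eq_zero.1 (mul_self_eq_zero.1 e2)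
    obtain ⟨w, hw, hzw⟩ := k4 z₀ hz₀ hz₀0
    obtain ⟨x, hx, hyx⟩ := k4' y₀ hy₀ hy₀0
    have hw0 : w ≠ 0 := by rintro rfl; exact hzw (p_zero' _ _)
    have hx0 : x ≠ 0 := by rintro rfl; exact hyx (p_zero' _ _)
    have e1 := hall _ hzw
    have e2 := hall _ hyx
    have q1 : Q (z₀ + y₀) = 0 := by
      rw [Q_add, hy₀ z₀ hz₀, k2 y₀ hy₀ hy₀0, ← hc]; ring
    have q2 : Q (w + x) = 0 := by
      rw [Q_add, hx w hw, k2 x hx hx0, k3 w hw hw0]; ring
    have q3 : polar Q (z₀ + y₀) (w + x) = 0 := by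
      rw [p_add, p_add', p_add', e1, e2, hx z₀ hz₀, p_comm Q y₀ w, hy₀ w hw]
      linear_combination h2F
    have h3 := h2 _ _ q1 q2 q3 z₀ hz₀
    rw [sie_apply q1 q3, p_add', p_add', p_self, hy₀ z₀ hz₀, e1, hx z₀ hz₀, h2F, q2, zero_mul,
      zero_mul, zero_add, zero_smul, zero_smul, add_zero, add_zero, sub_zero, one_smul,
      sub_add_cancel_left] at h3
    have h4 : y₀ ∈ Z := (Z.neg_mem_iff).1 h3
    exact hy₀0 (hrad y₀ h4 hy₀)
  · -- odd characteristic: dimension one each
    have dim1 : ∀ T : Submodule F V, (∃ d : F, d ≠ 0 ∧ ∀ t ∈ T, t ≠ 0 → Q t = d) →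
        ∀ t ∈ T, t ≠ 0 → ∀ s ∈ T, ∃ a : F, s = a • t := by
      rintro T ⟨d, hd, hT⟩ t ht ht0 s hs
      by_contra hcon
      push Not at hcon
      have hli := H95.UBasic.pair_indep ht0 hcon
      rw [LinearIndependent.pair_iff] at hli
      have n0 : s ≠ 0 := fun h => hcon 0 (by rw [h, zero_smul])
      have n1 : t + s ≠ 0 := by
        intro h
        have := (hli 1 1 (by rw [one_smul, one_smul]; exact h)).1
        exact one_ne_zero this
      have n2 : t - s ≠ 0 := by
        intro h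
        have := (hli 1 (-1) (by rw [one_smul, neg_one_smul, ← sub_eq_add_neg]; exact h)).1
        exact one_ne_zero this
      have e1 := hT _ (T.add_mem ht hs) n1
      have e2 := hT _ (T.sub_mem ht hs) n2
      rw [Q_add, hT t ht ht0, hT s hs n0] at e1
      rw [Q_sub, hT t ht ht0, hT s hs n0] at e2
      have e3 : (2 : F) * d = 0 := by linear_combination e1 + e2
      rcases mul_eq_zero.1 e3 with h | h
      · exact h2F h
      · exact hd h
    have f1 : finrank F Z ≤ 1 :=
      finrank_le_one (⟨z₀, hz₀⟩ : Z) (fun w => by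
        obtain ⟨a, ha⟩ := dim1 Z ⟨c, hc0, k3⟩ z₀ hz₀ hz₀0 w w.2
        exact ⟨a, Subtype.ext ha.symm⟩)
    have f2 : finrank F (orth Q Z) ≤ 1 :=
      finrank_le_one (⟨y₀, hy₀⟩ : orth Q Z) (fun w => by
        obtain ⟨a, ha⟩ := dim1 (orth Q Z) ⟨-c, neg_ne_zero.2 hc0, k2⟩ y₀ hy₀ hy₀0 w w.2
        exact ⟨a, Subtype.ext ha.symm⟩)
    have hpos' : 0 < finrank F (orth Q Z) := by
      rw [Module.finrank_pos_iff, Submodule.nontrivial_iff_ne_bot]; exact hZ'0
    have h3 := hex (by omega) k5 (z₀ + y₀) (by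
      rw [Q_add, hy₀ z₀ hz₀, k2 y₀ hy₀ hy₀0, ← hc]; ring)
    have h4 : z₀ = -y₀ := eq_neg_of_add_eq_zero_left h3
    have h5 : z₀ ∈ orth Q Z := by rw [h4]; exact (orth Q Z).neg_mem hy₀
    exact hz₀0 (hrad z₀ hz₀ h5)

end H95.OIrr
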