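import Mathlib
import Cfsg.Agent.Lib.H95.OIrr

set_option autoImplicit false

/-!
Stabilisers of non-degenerate subspaces in orthogonal groups.
-/

namespace H95.ONd

open Module QuadraticMap H48.QuadSplit H95.OGeo H17.OrthAbs H95.OSie H95.UBasic
open scoped commutatorElement

variable {F V : Type*} [Field F] [AddCommGroup V] [Module F V] {Q : QuadraticForm F V}
  [FiniteDimensional F V] [Finite F] {U : Submodule F V}

omit [FiniteDimensional F V] [Finite F] in
lemma restr_apply (Q : QuadraticForm F V) (U : Submodule F V) (x : U) : Q.restrict U x = Q (x : V) := rfl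

/-! ### relative geometry -/

omit [Finite F] in
lemma rel_dual (hU : ND (Q.restrict U)) {k : ℕ} {x : Fin k → V} (hxU : ∀ i, x i ∈ U)
    (hx : LinearIndependent F x) (c : Fin k → F) : ∃ y ∈ U, ∀ i, polar Q y (x i) = c i := by
  have hli : LinearIndependent F (fun i => (⟨x i, hxU i⟩ : U)) := by
    apply LinearIndependent.of_comp U.subtype
    exact hx
  obtain ⟨y, hy⟩ := dual hU hli c
  exact ⟨y, y.2, hy⟩

lemma rel_dual_val (hU : ND (Q.restrict U)) {k : ℕ} (hk : 2 * k + 3 ≤ finrank F U) {x : Fin k → V}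
    (hxU : ∀ i, x i ∈ U) (hx : LinearIndependent F x) (c : Fin k → F) (a : F) :
    ∃ y ∈ U, Q y = a ∧ ∀ i, polar Q y (x i) = c i := by
  have hli : LinearIndependent F (fun i => (⟨x i, hxU i⟩ : U)) := by
    apply LinearIndependent.of_comp U.subtype
    exact hx
  obtain ⟨y, hy, hy'⟩ := dual_val hU hk hli c a
  exact ⟨y, y.2, hy, hy'⟩

lemma rel_hyp (hU : ND (Q.restrict U)) (h7 : 7 ≤ finrank F U) {a b : V} (ha : a ∈ U) (hb : b ∈ U) :
    ∃ e ∈ U, ∃ e' ∈ U, Q e = 0 ∧ Q e' = 0 ∧ polar Q e e' = 1 ∧ polar Q a e = 0 ∧ polar Q b e = 0 ∧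
      polar Q a e' = 0 ∧ polar Q b e' = 0 := by
  have hfr : finrank F (Submodule.span F (Set.range ![(⟨a, ha⟩ : U), ⟨b, hb⟩])) ≤ 2 := by
    have := finrank_range_le_card (R := F) ![(⟨a, ha⟩ : U), ⟨b, hb⟩]
    rw [Fintype.card_fin] at this
    exact this
  obtain ⟨e, he, e', he', h1, h2, h3⟩ := exists_hyp hU
    (L := Submodule.span F (Set.range ![(⟨a, ha⟩ : U), ⟨b, hb⟩])) (by omega)
  exact ⟨e, e.2, e', e'.2, h1, h2, h3, he _ (Submodule.subset_span ⟨0, rfl⟩),
    he _ (Submodule.subset_span ⟨1, rfl⟩), he' _ (Submodule.subset_span ⟨0, rfl⟩),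
    he' _ (Submodule.subset_span ⟨1, rfl⟩)⟩

/-- the subspace is spanned by singular vectors -/
lemma rel_span (hU : ND (Q.restrict U)) (h7 : 7 ≤ finrank F U) (S : Submodule F V)
    (hS : ∀ z ∈ U, Q z = 0 → z ∈ S) {y : V} (hy : y ∈ U) : y ∈ S := by
  have := span_val hU h7 (0 : U) (S.comap U.subtype) 0 (fun z hz _ => hS z z.2 hz) (y := ⟨y, hy⟩)
    (p_zero' _ _)
  exact this

omit [FiniteDimensional F V] [Finite F] in
lemma sie_fix {u y : V} (hu : u ∈ U) (hy : y ∈ U) (hu0 : Q u = 0) (huy : polar Q u y = 0) :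
    (∀ x ∈ orth Q U, sie Q u y x = x) ∧ ∀ x ∈ U, sie Q u y x ∈ U := by
  refine ⟨fun x hx => ?_, fun x hx => ?_⟩
  · rw [sie_apply hu0 huy, p_comm Q x u, p_comm Q x y, hx u hu, hx y hy]; simp
  · rw [sie_apply hu0 huy]
    exact U.sub_mem (U.sub_mem (U.add_mem hx (U.smul_mem _ hy)) (U.smul_mem _ hu)) (U.smul_mem _ hu)

lemma trans_rel (hU : ND (Q.restrict U)) (h7 : 7 ≤ finrank F U) {M : Subgroup (V ≃ₗ[F] V)}
    (hM : ∀ u ∈ U, ∀ y ∈ U, Q u = 0 → polar Q u y = 0 → sie Q u y ∈ M) {v w : V} (hvU : v ∈ U)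
    (hwU : w ∈ U) (hv0 : v ≠ 0) (hw0 : w ≠ 0) (hvw : Q v = Q w) :
    ∃ e ∈ M, e ∈ O Q ∧ e v = w ∧ (∀ x ∈ orth Q U, e x = x) ∧ ∀ x ∈ U, e x ∈ U := by
  have step : ∀ v w : V, v ∈ U → w ∈ U → Q v = Q w → LinearIndependent F ![v, w] →
      ∃ e ∈ M, e ∈ O Q ∧ e v = w ∧ (∀ x ∈ orth Q U, e x = x) ∧ ∀ x ∈ U, e x ∈ U := by
    intro v w hvU hwU hvw hli
    obtain ⟨u, huU, hu, hu'⟩ := rel_dual_val hU (k := 2) (by omega) (by
      intro i; fin_cases i
      · exact hvU
      · exact hwU) hli ![1, 1] 0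
    have h1 : polar Q v u = 1 := by rw [p_comm]; exact hu' 0
    have h2 : polar Q w u = 1 := by rw [p_comm]; exact hu' 1
    obtain ⟨h3, h4⟩ := sie_move hu h1 h2 hvw
    have h5 : w - v ∈ U := U.sub_mem hwU hvU
    exact ⟨_, hM u huU _ h5 hu h3, sie_mem_O _ _ _, h4, sie_fix huU h5 hu h3⟩
  by_cases hli : LinearIndependent F ![v, w]
  · exact step v w hvU hwU hvw hli
  · have hfr : finrank F (Submodule.span F (Set.range ![(⟨v, hvU⟩ : U)])) ≤ 1 := by
      have := finrank_range_le_card (R := F) ![(⟨v, hvU⟩ : U)]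
      rw [Fintype.card_fin] at this
      exact this
    obtain ⟨z, hz, -, hzT⟩ := perp_val hU (k := 0) (by omega) ![]
      (T := Submodule.span F (Set.range ![(⟨v, hvU⟩ : U)])) (by omega) (Q v)
    have hz' : Q (z : V) = Q v := hz
    have hw : ∃ c : F, w = c • v := by
      by_contra hcon
      push Not at hcon
      exact hli (pair_indep hv0 hcon)
    obtain ⟨c, rfl⟩ := hw
    have hzT' : ∀ a : F, (z : V) ≠ a • v := by
      intro a ha
      apply hzT
      have : z = a • (⟨v, hvU⟩ : U) := Subtype.ext ha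
      rw [this]
      exact Submodule.smul_mem _ _ (Submodule.subset_span ⟨0, rfl⟩)
    have l1 : LinearIndependent F ![v, (z : V)] := pair_indep hv0 hzT'
    have l2 : LinearIndependent F ![c • v, (z : V)] := pair_indep hw0 (fun a ha => hzT' (a * c) (by
      rw [ha, smul_smul]))
    have l2' : LinearIndependent F ![(z : V), c • v] := by
      have := l2.comp ![1, 0] (by decide)
      have e : ![c • v, (z : V)] ∘ ![1, 0] = ![(z : V), c • v] := by ext i; fin_cases i <;> rfl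
      rwa [e] at this
    obtain ⟨e1, h1, h2, h3, h4, h5⟩ := step v z hvU z.2 hz'.symm l1
    obtain ⟨e2, h6, h7, h8, h9, h10⟩ := step z (c • v) z.2 hwU (hz'.trans hvw) l2'
    refine ⟨e2 * e1, M.mul_mem h6 h1, (O Q).mul_mem h7 h2, ?_, ?_, ?_⟩
    · rw [LinearEquiv.mul_apply, h3, h8]
    · intro x hx; rw [LinearEquiv.mul_apply, h4 x hx, h9 x hx]
    · intro x hx; rw [LinearEquiv.mul_apply]; exact h10 _ (h5 x hx)

/-- products of two reflections of the same value -/
lemma refl_mul_mem (hQ : ND Q) (hn : 9 ≤ finrank F V) {v w : V} (hv : Q v ≠ 0) (hw : Q w ≠ 0)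
    (hvw : Q v = Q w) : H17.OrthAbs.refl Q v hv * H17.OrthAbs.refl Q w hw ∈ ⁅O Q, O Q⁆ := by
  have hv0 : v ≠ 0 := by rintro rfl; exact hv (map_zero Q)
  have hw0 : w ≠ 0 := by rintro rfl; exact hw (map_zero Q)
  obtain ⟨e, he, heO, hev⟩ := trans_val hQ (M := ⁅O Q, O Q⁆) (by omega)
    (fun u hu => ⟨hu, fun y hy => sie_mem_omega hQ hn hu hy⟩) hv0 hw0 hvw
  have h1 := conj_refl Q e heO v hv (by rw [heO]; exact hv)
  have h2 : H17.OrthAbs.refl Q w hw = e * H17.OrthAbs.refl Q v hv * e⁻¹ := by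
    rw [h1]
    ext x
    rw [refl_apply, refl_apply, hev]
  have h3 : H17.OrthAbs.refl Q v hv * H17.OrthAbs.refl Q w hw = ⁅H17.OrthAbs.refl Q v hv, e⁆ := by
    rw [h2, commutatorElement_def, refl_inv, mul_assoc, mul_assoc, mul_assoc]
  rw [h3]
  exact Subgroup.commutator_mem_commutator (refl_mem_O Q v hv) heO

theorem exists_not (hQ : ND Q) (hn : 9 ≤ finrank F V) (hU : ND (Q.restrict U))
    (h7 : 7 ≤ finrank F U) (hU1 : U ≠ ⊤) : ∃ g ∈ ⁅O Q, O Q⁆, ¬ ∀ x ∈ U, g x ∈ U := by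
  obtain ⟨u, huU, hu⟩ := rel_hyp hU h7 U.zero_mem U.zero_mem
  obtain ⟨u', hu'U, huQ, -, huu', -⟩ := hu
  have hu0 : u ≠ 0 := by rintro rfl; rw [p_zero] at huu'; exact zero_ne_one huu'
  have hU' : orth Q U ≠ ⊥ := by
    intro h0
    have h1 := finrank_orth hQ U
    rw [h0, finrank_bot, zero_add] at h1
    exact hU1 (Submodule.eq_top_of_finrank_eq h1)
  obtain ⟨z, hz, hz0⟩ := Submodule.exists_mem_ne_zero_of_ne_bot hU'
  obtain ⟨w, hw, hwQ, -⟩ := rel_dual_val hU (k := 0) (x := ![]) (by omega) (fun i => i.elim0)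
    linearIndependent_empty_type ![] (-Q z)
  have hzU : z ∉ U := by
    intro h
    have := (isCompl_orth hU).inf_eq_bot
    have h1 : z ∈ U ⊓ orth Q U := ⟨h, hz⟩
    rw [this] at h1
    exact hz0 ((Submodule.mem_bot F).1 h1)
  have hwz : w + z ∉ U := fun h => hzU ((U.add_mem_iff_right hw).1 h)
  have hwz0 : w + z ≠ 0 := fun h => hwz (by rw [h]; exact U.zero_mem)
  obtain ⟨e, he, -, heu⟩ := trans_val hQ (M := ⁅O Q, O Q⁆) (by omega)
    (fun u hu => ⟨hu, fun y hy => sie_mem_omega hQ hn hu hy⟩) hu0 hwz0 (by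
      rw [huQ, Q_add, hwQ, hz w hw]; ring)
  exact ⟨e, he, fun hcon => hwz (by rw [← heu]; exact hcon u huU)⟩

/-- Main theorem. -/
theorem overgroup (hQ : ND Q) (hn : 9 ≤ finrank F V) (hU : ND (Q.restrict U))
    (h7 : 7 ≤ finrank F U)
    (hirr : finrank F (orth Q U) = 2 → (∀ a : F, a ≠ 0 → a * a = 1) →
      ∀ x ∈ orth Q U, Q x = 0 → x = 0)
    (hns : ∀ g ∈ O Q, ¬ ∀ u ∈ U, g u ∈ orth Q U)
    (M : Subgroup (V ≃ₗ[F] V)) (hMO : M ≤ O Q)
    (hM : ∀ x ∈ ⁅O Q, O Q⁆, (∀ w ∈ U, x w ∈ U) → x ∈ M) (hg : ∃ g ∈ M, ¬ ∀ w ∈ U, g w ∈ U) :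
    ⁅O Q, O Q⁆ ≤ M := by
  have hcompl := isCompl_orth hU
  have hdisj : ∀ x, x ∈ U → x ∈ orth Q U → x = 0 := by
    intro x h1 h2
    have h3 : x ∈ U ⊓ orth Q U := ⟨h1, h2⟩
    rw [hcompl.inf_eq_bot] at h3
    exact (Submodule.mem_bot F).1 h3
  have hdec : ∀ x, ∃ a ∈ U, ∃ b ∈ orth Q U, x = a + b := by
    intro x
    have : x ∈ U ⊔ orth Q U := by rw [hcompl.sup_eq_top]; trivial
    obtain ⟨a, ha, b, hb, h⟩ := Submodule.mem_sup.1 this
    exact ⟨a, ha, b, hb, h.symm⟩
  have hU' : ND (Q.restrict (orth Q U)) := nd_orth hQ hU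
  -- Siegel elements in M
  have hMU : ∀ u ∈ U, ∀ y ∈ U, Q u = 0 → polar Q u y = 0 → sie Q u y ∈ M := fun u hu y hy h1 h2 =>
    hM _ (sie_mem_omega hQ hn h1 h2) (sie_fix hu hy h1 h2).2
  obtain ⟨g, hgM, hgU⟩ := hg
  have hgO := hMO hgM
  -- Step A
  obtain ⟨x, hxU, y, hyU, hx, hy, hxy, hlxy, hgx, hgxy⟩ : ∃ x ∈ U, ∃ y ∈ U, Q x = 0 ∧ Q y = 0 ∧
      polar Q x y = 0 ∧ LinearIndependent F ![x, y] ∧ g x ∉ U ∧
      (g x ∉ orth Q U ∨ g y ∉ orth Q U) := by
    by_contra hcon
    push Not at hcon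
    obtain ⟨x₀, hx₀U, hx₀, hgx₀⟩ : ∃ x₀ ∈ U, Q x₀ = 0 ∧ g x₀ ∉ U := by
      by_contra hcon2
      push Not at hcon2
      exact hgU fun w hw => rel_span hU h7 (U.comap (g : V →ₗ[F] V)) (fun z hz hz0 => hcon2 z hz hz0) hw
    have hx₀0 : x₀ ≠ 0 := by rintro rfl; rw [map_zero] at hgx₀; exact hgx₀ U.zero_mem
    refine hns g hgO fun u hu => ?_
    refine rel_span hU h7 ((orth Q U).comap (g : V →ₗ[F] V)) (fun z hz hzQ => ?_) hu
    by_cases hz0 : z = 0
    · rw [hz0]; exact Submodule.zero_mem _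
    obtain ⟨e, heU, e', he'U, h1, h2, h3, h4, h5, h6, h8⟩ := rel_hyp hU h7 hx₀U hz
    have l1 : LinearIndependent F ![x₀, e] := by
      apply pair_indep hx₀0
      intro a ha
      rw [ha, p_smul, h6, mul_zero] at h3
      exact zero_ne_one h3
    have l2 : LinearIndependent F ![z, e] := by
      apply pair_indep hz0
      intro a ha
      rw [ha, p_smul, h8, mul_zero] at h3
      exact zero_ne_one h3
    have l2' : LinearIndependent F ![e, z] := by
      have := l2.comp ![1, 0] (by decide)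
      have e : ![z, e] ∘ ![1, 0] = ![e, z] := by ext i; fin_cases i <;> rfl
      rwa [e] at this
    have he0 : e ≠ 0 := by rintro rfl; rw [p_zero] at h3; exact zero_ne_one h3
    obtain ⟨-, k1⟩ := hcon x₀ hx₀U e heU hx₀ h1 h4 l1 hgx₀
    have k2 : g e ∉ U := fun h => he0 (by
      have := hdisj _ h k1
      simpa using this)
    exact (hcon e heU z hz h1 hzQ (by rw [p_comm]; exact h5) l2' k2).2
  -- Step B
  have hsM := conj_mem' hgM (hMU x hxU y hyU hx hxy)
  rw [sie_conj hx hxy hgO] at hsM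
  set a := g x with ha
  set b := g y with hb
  have haQ : Q a = 0 := by rw [ha, hgO, hx]
  have hbQ : Q b = 0 := by rw [hb, hgO, hy]
  have habQ : polar Q a b = 0 := by rw [ha, hb, polar_map hgO, hxy]
  have hlab : LinearIndependent F ![a, b] := by
    have := hlxy.map' (g : V →ₗ[F] V) (LinearMap.ker_eq_bot.2 g.injective)
    have e : (g : V →ₗ[F] V) ∘ ![x, y] = ![a, b] := by ext i; fin_cases i <;> rfl
    rwa [e] at this
  obtain ⟨a₁, ha₁, a₂, ha₂, hae⟩ := hdec a
  obtain ⟨b₁, hb₁, b₂, hb₂, hbe⟩ := hdec b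
  have ha₂0 : a₂ ≠ 0 := by
    rintro rfl
    rw [add_zero] at hae
    rw [hae] at hgx
    exact hgx ha₁
  have hab₁ : a₁ ≠ 0 ∨ b₁ ≠ 0 := by
    by_contra hcon
    push Not at hcon
    rw [hcon.1, zero_add] at hae
    rw [hcon.2, zero_add] at hbe
    rw [hae, hbe] at hgxy
    rcases hgxy with h | h
    · exact h ha₂
    · exact h hb₂
  obtain ⟨e, heU, e', he'U, he, he', hee', hae0, hbe0, hae1, hbe1⟩ := rel_hyp hU h7 ha₁ hb₁
  have he0 : e ≠ 0 := by rintro rfl; rw [p_zero] at hee'; exact zero_ne_one hee'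
  obtain ⟨w, hwU, hwe, hz₂0⟩ : ∃ w ∈ U, polar Q w e = 0 ∧
      polar Q w a₁ • b₂ - polar Q w b₁ • a₂ ≠ 0 := by
    by_cases ha₁0 : a₁ = 0
    · have hb₁0 : b₁ ≠ 0 := hab₁.resolve_left (not_not.2 ha₁0)
      have l1 : LinearIndependent F ![b₁, e] := by
        apply pair_indep hb₁0
        intro a ha
        rw [ha, p_smul, hbe1, mul_zero] at hee'
        exact zero_ne_one hee'
      obtain ⟨w, hwU, hw⟩ := rel_dual hU (by
        intro i; fin_cases i
        · exact hb₁
        · exact heU) l1 ![1, 0]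
      have e1 : polar Q w b₁ = 1 := hw 0
      have e2 : polar Q w e = 0 := hw 1
      refine ⟨w, hwU, e2, ?_⟩
      rw [e1, ha₁0, p_zero', zero_smul, one_smul, zero_sub]
      exact neg_ne_zero.2 ha₂0
    · by_cases hli : LinearIndependent F ![a₁, b₁]
      · have l1 : LinearIndependent F ![e, a₁, b₁] := by
          refine linearIndependent_finCons.2 ⟨hli, fun h => ?_⟩
          have h1 : Submodule.span F (Set.range ![a₁, b₁]) ≤ LinearMap.ker ((bl Q).flip e') := by
            rw [Submodule.span_le]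
            rintro _ ⟨i, rfl⟩
            fin_cases i
            · exact hae1
            · exact hbe1
          have h2 : polar Q e e' = 0 := h1 h
          rw [h2] at hee'
          exact zero_ne_one hee'
        obtain ⟨c, hc⟩ : ∃ c : F, b₂ - c • a₂ ≠ 0 := by
          by_cases hb₂0 : b₂ = 0
          · exact ⟨1, by rw [hb₂0, one_smul, zero_sub]; exact neg_ne_zero.2 ha₂0⟩
          · exact ⟨0, by rwa [zero_smul, sub_zero]⟩
        obtain ⟨w, hwU, hw⟩ := rel_dual hU (by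
          intro i; fin_cases i
          · exact heU
          · exact ha₁
          · exact hb₁) l1 ![0, 1, c]
        have e1 : polar Q w e = 0 := hw 0
        have e2 : polar Q w a₁ = 1 := hw 1
        have e3 : polar Q w b₁ = c := hw 2
        exact ⟨w, hwU, e1, by rw [e2, e3, one_smul]; exact hc⟩
      · have : ∃ l : F, b₁ = l • a₁ := by
          by_contra hcon
          push Not at hcon
          exact hli (pair_indep ha₁0 hcon)
        obtain ⟨l, hl⟩ := this
        have l1 : LinearIndependent F ![a₁, e] := by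
          apply pair_indep ha₁0
          intro a ha
          rw [ha, p_smul, hae1, mul_zero] at hee'
          exact zero_ne_one hee'
        obtain ⟨w, hwU, hw⟩ := rel_dual hU (by
          intro i; fin_cases i
          · exact ha₁
          · exact heU) l1 ![1, 0]
        have e1 : polar Q w a₁ = 1 := hw 0
        have e2 : polar Q w e = 0 := hw 1
        refine ⟨w, hwU, e2, ?_⟩
        rw [hl, p_smul', e1, mul_one, one_smul]
        intro h0
        have h1 : (-l) • a + (1 : F) • b = 0 := by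
          rw [hae, hbe, hl]
          have h2 : b₂ = l • a₂ := sub_eq_zero.1 h0
          rw [h2]; module
        exact one_ne_zero ((LinearIndependent.pair_iff.1 hlab _ _ h1).2)
  set z₂ := polar Q w a₁ • b₂ - polar Q w b₁ • a₂ with hz₂
  have hz₂U' : z₂ ∈ orth Q U := Submodule.sub_mem _ (Submodule.smul_mem _ _ hb₂) (Submodule.smul_mem _ _ ha₂)
  have hew : polar Q e w = 0 := by rw [p_comm, hwe]
  have hwa : polar Q w a = polar Q w a₁ := by rw [hae, p_add', ha₂ w hwU, add_zero]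
  have hwb : polar Q w b = polar Q w b₁ := by rw [hbe, p_add', hb₂ w hwU, add_zero]
  have hea : polar Q e a = 0 := by rw [hae, p_add', ha₂ e heU, add_zero, p_comm, hae0]
  have heb : polar Q e b = 0 := by rw [hbe, p_add', hb₂ e heU, add_zero, p_comm, hbe0]
  have hsM' : sie Q e z₂ ∈ M := by
    have hse : sie Q a b e = e := by
      rw [sie_apply haQ habQ, hea, heb]; simp
    have h1 := comm_stab he hew (hMU e heU w hwU he hew) hsM (sie_mem_O _ _ _) hse
    set z₁ := polar Q w a₁ • b₁ - polar Q w b₁ • a₁ with hz₁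
    have e1 : sie Q a b w - w = z₁ + z₂ := by
      rw [sie_apply haQ habQ, hbQ, hwa, hwb, hz₁, hz₂]
      conv_lhs => rw [hae, hbe]
      module
    have hz₁U : z₁ ∈ U := Submodule.sub_mem _ (Submodule.smul_mem _ _ hb₁) (Submodule.smul_mem _ _ ha₁)
    have hez₁ : polar Q e z₁ = 0 := by
      rw [hz₁, p_sub', p_smul', p_smul', p_comm Q e b₁, p_comm Q e a₁, hae0, hbe0]; ring
    have hez₂ : polar Q e z₂ = 0 := hz₂U' e heU
    rw [e1] at h1
    have h2 := M.mul_mem h1 (M.inv_mem (hMU e heU z₁ hz₁U he hez₁))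
    rw [sie_inv he hez₁, sie_mul he (by rw [p_add', hez₁, hez₂, add_zero]) (by
      rw [p_neg', hez₁, neg_zero]), add_neg_cancel_comm] at h2
    exact h2
  -- Step D
  have hU'0 : ∀ u ∈ U, ∀ z ∈ orth Q U, polar Q u z = 0 := fun u hu z hz => hz u hu
  let Z : Submodule F (orth Q U) :=
    { carrier := {z | ∀ u ∈ U, Q u = 0 → sie Q u (z : V) ∈ M}
      add_mem' := by
        intro z z' hz hz' u hu hu0
        have := M.mul_mem (hz u hu hu0) (hz' u hu hu0)
        rwa [sie_mul hu0 (hU'0 u hu _ z.2) (hU'0 u hu _ z'.2)] at this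
      zero_mem' := by
        intro u hu hu0
        show sie Q u (0 : V) ∈ M
        rw [sie_zero hu0]; exact M.one_mem
      smul_mem' := by
        intro c z hz u hu hu0
        have := hz (c • u) (U.smul_mem _ hu) (by rw [Q_smul, hu0, mul_zero])
        rwa [sie_smul hu0 (hU'0 u hu _ z.2)] at this }
  have hZ0 : Z ≠ ⊥ := by
    intro h0
    have h1 : (⟨z₂, hz₂U'⟩ : orth Q U) ∈ Z := by
      intro u hu hu0
      show sie Q u z₂ ∈ M
      by_cases hu00 : u = 0
      · subst hu00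
        have : sie Q 0 z₂ = 1 := by
          ext x
          rw [sie_apply (map_zero Q) (p_zero _ _), p_zero']
          simp
        rw [this]; exact M.one_mem
      obtain ⟨k, hkM, hkO, hk1, hk2, -⟩ := trans_rel hU h7 hMU heU hu he0 hu00 (by rw [he, hu0])
      have := conj_mem' hkM hsM'
      rwa [sie_conj he (hU'0 e heU _ hz₂U') hkO, hk1, hk2 z₂ hz₂U'] at this
    rw [h0] at h1
    exact hz₂0 (congrArg Subtype.val ((Submodule.mem_bot F).1 h1))
  have hZ := H95.OIrr.irr hU' (fun h1 h2 x hx => Subtype.ext (hirr h1 h2 x x.2 hx)) hZ0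
    (by
      intro v hv z hz u hu hu0
      have hv' : Q (v : V) ≠ 0 := hv
      obtain ⟨w, hw, hwQ, -⟩ := rel_dual_val hU (k := 0) (x := ![]) (by omega) (fun i => i.elim0)
        linearIndependent_empty_type ![] (Q (v : V))
      have hw' : Q w ≠ 0 := by rw [hwQ]; exact hv'
      have hfixU : ∀ x ∈ U, H17.OrthAbs.refl Q (v : V) hv' x = x := fun x hx =>
        refl_fix Q _ hv' x (by rw [p_comm]; exact v.2 x hx)
      have hwU' : ∀ x ∈ U, H17.OrthAbs.refl Q w hw' x ∈ U := fun x hx => by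
        rw [refl_apply]; exact U.sub_mem hx (U.smul_mem _ hw)
      have hwfix : ∀ x ∈ orth Q U, H17.OrthAbs.refl Q w hw' x = x := fun x hx =>
        refl_fix Q _ hw' x (hx w hw)
      have hkM : H17.OrthAbs.refl Q (v : V) hv' * H17.OrthAbs.refl Q w hw' ∈ M := by
        apply hM _ (refl_mul_mem hQ hn hv' hw' hwQ.symm)
        intro x hx
        rw [LinearEquiv.mul_apply, hfixU _ (hwU' x hx)]
        exact hwU' x hx
      have hkO : H17.OrthAbs.refl Q (v : V) hv' * H17.OrthAbs.refl Q w hw' ∈ O Q :=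
        (O Q).mul_mem (refl_mem_O _ _ _) (refl_mem_O _ _ _)
      set u₁ := H17.OrthAbs.refl Q w hw' u with hu₁
      have hu₁U : u₁ ∈ U := hwU' u hu
      have hu₁Q : Q u₁ = 0 := by rw [hu₁, refl_mem_O Q w hw', hu0]
      have h1 := conj_mem' hkM (hz u₁ hu₁U hu₁Q)
      rw [sie_conj hu₁Q (hU'0 u₁ hu₁U _ z.2) hkO] at h1
      have e1 : (H17.OrthAbs.refl Q (v : V) hv' * H17.OrthAbs.refl Q w hw') u₁ = u := by
        rw [LinearEquiv.mul_apply, hu₁]
        have : H17.OrthAbs.refl Q w hw' (H17.OrthAbs.refl Q w hw' u) = u := by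
          rw [← LinearEquiv.mul_apply, refl_sq]; rfl
        rw [this, hfixU u hu]
      have e2 : (H17.OrthAbs.refl Q (v : V) hv' * H17.OrthAbs.refl Q w hw') (z : V) =
          ((z - (((Q.restrict (orth Q U)) v)⁻¹ * polar (Q.restrict (orth Q U)) v z) • v : orth Q U) : V) := by
        rw [LinearEquiv.mul_apply, hwfix _ z.2, refl_apply]
        rfl
      rw [e1, e2] at h1
      exact h1)
    (by
      intro c d hc hd hcd z hz u hu hu0
      have hc' : Q (c : V) = 0 := hc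
      have hcd' : polar Q (c : V) (d : V) = 0 := hcd
      have hfixU : ∀ x ∈ U, sie Q (c : V) (d : V) x = x := by
        intro x hx
        rw [sie_apply hc' hcd', c.2 x hx, d.2 x hx]; simp
      have hkM : sie Q (c : V) (d : V) ∈ M :=
        hM _ (sie_mem_omega hQ hn hc' hcd') (fun x hx => by rw [hfixU x hx]; exact hx)
      have h1 := conj_mem' hkM (hz u hu hu0)
      rw [sie_conj hu0 (hU'0 u hu _ z.2) (sie_mem_O _ _ _), hfixU u hu] at h1
      have e2 : sie Q (c : V) (d : V) (z : V) =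
          ((sie (Q.restrict (orth Q U)) c d z : orth Q U) : V) := by
        rw [sie_apply hc' hcd', sie_apply hc hcd]
        rfl
      rw [e2] at h1
      exact h1)
  -- Step E
  have hfull : ∀ u ∈ U, Q u = 0 → Full Q M u := by
    intro u hu hu0
    refine ⟨hu0, fun y hy => ?_⟩
    obtain ⟨y₁, hy₁, y₂, hy₂, rfl⟩ := hdec y
    have h2 := hU'0 u hu y₂ hy₂
    have h1 : polar Q u y₁ = 0 := by rwa [p_add', h2, add_zero] at hy
    have h3 : (⟨y₂, hy₂⟩ : orth Q U) ∈ Z := by rw [hZ]; trivial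
    rw [← sie_mul hu0 h1 h2]
    exact M.mul_mem (hMU u hu y₁ hy₁ hu0 h1) (h3 u hu hu0)
  exact omega_le_of_full hQ (by omega) (hfull e heU he) (hfull e' he'U he') (by
    rw [p_comm, hee']; exact one_ne_zero)

end H95.ONd
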