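import Mathlib
import Cfsg.Agent.Lib.H95.SpMax
import Cfsg.Agent.Lib.H95.ONd

set_option autoImplicit false

/-!
Orthogonal decompositions of quadratic spaces.
-/

namespace H95.OQd

open Module QuadraticMap H48.QuadSplit H95.OGeo H17.OrthAbs H95.OSie

variable {F V : Type*} [Field F] [AddCommGroup V] [Module F V]

/-- An orthogonal decomposition with its projections. -/
structure QD (Q : QuadraticForm F V) {ι : Type*} [Fintype ι] [DecidableEq ι]
    (D : ι → Submodule F V) (p : ι → V →ₗ[F] V) : Prop where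
  nd : ∀ i, ∀ v ∈ D i, (∀ w ∈ D i, polar Q v w = 0) → v = 0
  mem : ∀ i x, p i x ∈ D i
  self : ∀ i, ∀ x ∈ D i, p i x = x
  other : ∀ i j, i ≠ j → ∀ x ∈ D j, p i x = 0
  orth : ∀ i j, i ≠ j → ∀ u ∈ D i, ∀ v ∈ D j, polar Q u v = 0
  sum : ∀ x, ∑ i, p i x = x

variable {Q : QuadraticForm F V} {ι : Type*} [Fintype ι] [DecidableEq ι]
    {D : ι → Submodule F V} {p : ι → V →ₗ[F] V}

lemma exists_QD (Q : QuadraticForm F V) [FiniteDimensional F V]
    (D : ι → Submodule F V) (hnd : ∀ i, ∀ v ∈ D i, (∀ w ∈ D i, polar Q v w = 0) → v = 0)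
    (horth : ∀ i j, i ≠ j → ∀ u ∈ D i, ∀ v ∈ D j, polar Q u v = 0) (hsup : iSup D = ⊤) :
    ∃ p, QD Q D p := by
  obtain ⟨p, h⟩ := H95.SpMax.exists_OD (bl Q) D hnd horth hsup
  exact ⟨p, h.nd, h.mem, h.self, h.other, h.orth, h.sum⟩

/-- permuting the members -/
def Pres (D : ι → Submodule F V) (g : V ≃ₗ[F] V) : Prop :=
  ∃ σ : Equiv.Perm ι, ∀ i, ∀ x ∈ D i, g x ∈ D (σ i)

namespace QD

lemma ext (h : QD Q D p) {x y : V} (hxy : ∀ i, p i x = p i y) : x = y := by
  rw [← h.sum x, ← h.sum y]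
  exact Finset.sum_congr rfl fun i _ => hxy i

lemma pp (h : QD Q D p) (i j : ι) (x : V) : p i (p j x) = if i = j then p j x else 0 := by
  split_ifs with hij
  · subst hij; exact h.self _ _ (h.mem _ _)
  · exact h.other i j hij _ (h.mem _ _)

lemma pl (h : QD Q D p) (x : V) {i : ι} {u : V} (hu : u ∈ D i) : polar Q x u = polar Q (p i x) u := by
  have h1 : polar Q x u = (bl Q).flip u x := rfl
  rw [h1]
  conv_lhs => rw [← h.sum x]
  rw [map_sum, Finset.sum_eq_single i]
  · rfl
  · intro j _ hj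
    exact h.orth j i hj _ (h.mem _ _) _ hu
  · intro hi; exact absurd (Finset.mem_univ i) hi

lemma pr (h : QD Q D p) (x : V) {i : ι} {u : V} (hu : u ∈ D i) : polar Q u x = polar Q u (p i x) := by
  rw [p_comm, h.pl x hu, p_comm]

lemma psum (h : QD Q D p) (x y : V) : polar Q x y = ∑ i, polar Q (p i x) (p i y) := by
  have h1 : polar Q x y = bl Q x y := rfl
  rw [h1]
  conv_lhs => rw [← h.sum y]
  rw [map_sum]
  exact Finset.sum_congr rfl fun i _ => h.pl x (h.mem i y)

lemma Qsum (h : QD Q D p) (x : V) : Q x = ∑ i, Q (p i x) := by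
  have key : ∀ s : Finset ι, Q (∑ i ∈ s, p i x) = ∑ i ∈ s, Q (p i x) := by
    intro s
    induction s using Finset.induction_on with
    | empty => simp
    | insert i s hi ih =>
      rw [Finset.sum_insert hi, Finset.sum_insert hi, Q_add, ih]
      have : polar Q (p i x) (∑ j ∈ s, p j x) = 0 := by
        have h1 : polar Q (p i x) (∑ j ∈ s, p j x) = bl Q (p i x) (∑ j ∈ s, p j x) := rfl
        rw [h1, map_sum]
        apply Finset.sum_eq_zero
        intro j hj
        exact h.orth i j (fun e => hi (e ▸ hj)) _ (h.mem _ _) _ (h.mem _ _)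
      rw [this, add_zero]
  have := key Finset.univ
  rwa [h.sum] at this

lemma zero_iff (h : QD Q D p) {x : V} {i : ι} : p i x = 0 ↔ ∀ u ∈ D i, polar Q x u = 0 := by
  constructor
  · intro h0 u hu
    rw [h.pl x hu, h0, p_zero]
  · intro h0
    apply h.nd i _ (h.mem i x)
    intro w hw
    rw [← h.pl x hw, h0 w hw]

lemma mem_iff (h : QD Q D p) {x : V} {i : ι} : x ∈ D i ↔ ∀ j, j ≠ i → p j x = 0 := by
  constructor
  · intro hx j hj
    exact h.other j i hj x hx
  · intro h0
    have h1 := h.sum x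
    rw [Finset.sum_eq_single i (fun j _ hj => h0 j hj)
      (fun hi => absurd (Finset.mem_univ i) hi)] at h1
    rw [← h1]; exact h.mem i x

lemma disj (h : QD Q D p) {i j : ι} (hij : i ≠ j) {x : V} (h1 : x ∈ D i) (h2 : x ∈ D j) : x = 0 := by
  rw [← h.self i x h1]; exact h.other i j hij x h2

lemma exists_ne (h : QD Q D p) {x : V} (hx : Q x ≠ 0) : ∃ i, Q (p i x) ≠ 0 := by
  by_contra hcon
  push Not at hcon
  apply hx
  rw [h.Qsum]
  exact Finset.sum_eq_zero fun i _ => hcon i

lemma exists_other (h : QD Q D p) {x : V} {i : ι} (hx : x ∉ D i) : ∃ j, j ≠ i ∧ p j x ≠ 0 := by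
  by_contra hcon
  push Not at hcon
  exact hx (h.mem_iff.2 hcon)

lemma conj (h : QD Q D p) {g : V ≃ₗ[F] V} (hg : g ∈ O Q) :
    QD Q (fun i => (D i).map (g : V →ₗ[F] V))
      (fun i => (g : V →ₗ[F] V) ∘ₗ p i ∘ₗ ((g⁻¹ : V ≃ₗ[F] V) : V →ₗ[F] V)) := by
  have gi : ∀ x, g⁻¹ (g x) = x := fun x => g.symm_apply_apply x
  have gi' : ∀ x, g (g⁻¹ x) = x := fun x => g.apply_symm_apply x
  refine ⟨?_, ?_, ?_, ?_, ?_, ?_⟩
  · rintro i _ ⟨v, hv, rfl⟩ h0
    have : v = 0 := by
      apply h.nd i v hv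
      intro w hw
      have := h0 (g w) ⟨w, hw, rfl⟩
      rwa [LinearEquiv.coe_coe, polar_map hg] at this
    rw [this, map_zero]
  · intro i x
    exact ⟨_, h.mem i (g⁻¹ x), rfl⟩
  · rintro i _ ⟨v, hv, rfl⟩
    show g (p i (g⁻¹ (g v))) = g v
    rw [gi, h.self i v hv]
  · rintro i j hij _ ⟨v, hv, rfl⟩
    show g (p i (g⁻¹ (g v))) = 0
    rw [gi, h.other i j hij v hv, map_zero]
  · rintro i j hij _ ⟨u, hu, rfl⟩ _ ⟨v, hv, rfl⟩
    show polar Q (g u) (g v) = 0
    rw [polar_map hg]; exact h.orth i j hij u hu v hv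
  · intro x
    show ∑ i, g (p i (g⁻¹ x)) = x
    rw [← map_sum, h.sum, gi']

lemma pres_one (_ : QD Q D p) : Pres D (1 : V ≃ₗ[F] V) := ⟨1, fun _ _ hx => hx⟩

lemma pres_mul (_ : QD Q D p) {a b : V ≃ₗ[F] V} (ha : Pres D a) (hb : Pres D b) :
    Pres D (a * b) := by
  obtain ⟨σ, hσ⟩ := ha
  obtain ⟨τ, hτ⟩ := hb
  exact ⟨τ.trans σ, fun i x hx => hσ _ _ (hτ _ _ hx)⟩

lemma pres_inv (h : QD Q D p) {a : V ≃ₗ[F] V} (ha : Pres D a) : Pres D a⁻¹ := by
  obtain ⟨σ, hσ⟩ := ha
  refine ⟨σ.symm, fun i y hy => ?_⟩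
  have ai : a (a⁻¹ y) = y := a.apply_symm_apply y
  rw [h.mem_iff]
  intro j hj
  have h1 : a (p j (a⁻¹ y)) = 0 := by
    have h2 : p (σ j) (∑ l, a (p l (a⁻¹ y))) = a (p j (a⁻¹ y)) := by
      rw [map_sum, Finset.sum_eq_single j]
      · exact h.self _ _ (hσ j _ (h.mem _ _))
      · intro l _ hl
        exact h.other _ _ (fun e => hl (σ.injective e).symm) _ (hσ l _ (h.mem _ _))
      · intro hj; exact absurd (Finset.mem_univ j) hj
    rw [← h2, ← map_sum, h.sum, ai]
    apply h.other (σ j) i _ y hy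
    intro e
    apply hj
    rw [← e, Equiv.symm_apply_apply]
  exact (LinearEquiv.map_eq_zero_iff a).1 h1

lemma pres_sie (h : QD Q D p) {i : ι} {u y : V} (hu : u ∈ D i) (hy : y ∈ D i) (hu0 : Q u = 0)
    (huy : polar Q u y = 0) : Pres D (sie Q u y) := by
  refine ⟨1, fun j x hx => ?_⟩
  rw [Equiv.Perm.one_apply, sie_apply hu0 huy]
  by_cases hij : j = i
  · subst hij
    exact (D j).sub_mem ((D j).sub_mem ((D j).add_mem hx ((D j).smul_mem _ hy))
      ((D j).smul_mem _ hu)) ((D j).smul_mem _ hu)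
  · rw [h.orth j i hij x hx u hu, h.orth j i hij x hx y hy]
    simpa using hx

lemma pres_refl (h : QD Q D p) {i : ι} {u : V} (hu : u ∈ D i) (hu0 : Q u ≠ 0) :
    Pres D (refl Q u hu0) := by
  refine ⟨1, fun j x hx => ?_⟩
  rw [Equiv.Perm.one_apply, refl_apply]
  by_cases hij : j = i
  · subst hij
    exact (D j).sub_mem hx ((D j).smul_mem _ hu)
  · rw [p_comm, h.orth j i hij x hx u hu]
    simpa using hx

end QD

/-! ### Double reflections preserving a decomposition -/

lemma dbl_apply {w w' : V} (hw : Q w ≠ 0) (hw' : Q w' ≠ 0) (hww : polar Q w w' = 0) (x : V) :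
    (refl Q w hw * refl Q w' hw') x = x - ((Q w)⁻¹ * polar Q x w) • w -
      ((Q w')⁻¹ * polar Q x w') • w' := by
  rw [LinearEquiv.mul_apply, refl_apply, refl_apply, p_sub', p_smul', hww, mul_zero, sub_zero,
    p_comm Q w' x, p_comm Q w x]
  abel

lemma mem_of_two {w w' w'' z : V} (hli : LinearIndependent F ![w, w', w''])
    (h1 : z ∈ Submodule.span F {w, w'}) (h2 : z ∈ Submodule.span F {w, w''}) :
    ∃ c : F, z = c • w := by
  obtain ⟨a, b, hab⟩ := Submodule.mem_span_pair.1 h1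
  obtain ⟨c, d, hcd⟩ := Submodule.mem_span_pair.1 h2
  have h3 : ∑ i, ![a - c, b, -d] i • ![w, w', w''] i = 0 := by
    rw [Fin.sum_univ_three]
    show (a - c) • w + b • w' + (-d) • w'' = 0
    have : (a • w + b • w') - (c • w + d • w'') = 0 := by rw [hab, hcd, sub_self]
    rw [← this]; module
  have h4 := Fintype.linearIndependent_iff.1 hli _ h3 1
  have hb : b = 0 := h4
  exact ⟨a, by rw [← hab, hb, zero_smul, add_zero]⟩

/-- The components of `w` lie in the plane of the two vectors. -/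
lemma QD.comp_mem (h : QD Q D p) [FiniteDimensional F V] (hk : ∀ i, 3 ≤ finrank F (D i)) {w w' : V}
    (hw : Q w ≠ 0) (hw' : Q w' ≠ 0) (hww : polar Q w w' = 0) (hli : LinearIndependent F ![w, w'])
    (hb : Pres D (refl Q w hw * refl Q w' hw')) (j : ι) : p j w ∈ Submodule.span F {w, w'} := by
  obtain ⟨σ, hσ⟩ := hb
  set b := refl Q w hw * refl Q w' hw' with hbd
  set S := Submodule.span F {w, w'} with hS
  have hwS : w ∈ S := Submodule.subset_span (by simp)
  have hw'S : w' ∈ S := Submodule.subset_span (by simp)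
  have hbx : ∀ x, b x - x ∈ S := by
    intro x
    rw [hbd, dbl_apply hw hw' hww]
    have : x - ((Q w)⁻¹ * polar Q x w) • w - ((Q w')⁻¹ * polar Q x w') • w' - x =
        -(((Q w)⁻¹ * polar Q x w) • w) - ((Q w')⁻¹ * polar Q x w') • w' := by abel
    rw [this]
    exact S.sub_mem (S.neg_mem (S.smul_mem _ hwS)) (S.smul_mem _ hw'S)
  have hSd : finrank F S ≤ 2 := by
    have e : ({w, w'} : Set V) = Set.range ![w, w'] := by
      ext x; simp [or_comm]
    rw [hS, e]
    have := finrank_range_le_card (R := F) ![w, w']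
    rw [Fintype.card_fin] at this
    exact this
  have hσ1 : ∀ i, σ i = i := by
    intro i
    by_contra hne
    let φ : D i →ₗ[F] S :=
      { toFun := fun x => ⟨b x - x, hbx x⟩
        map_add' := fun x y => by
          apply Subtype.ext
          show b ((x : V) + y) - (x + y) = (b x - x) + (b y - y)
          rw [map_add]; abel
        map_smul' := fun c x => by
          apply Subtype.ext
          show b (c • (x : V)) - c • (x : V) = c • (b x - x)
          rw [map_smul, smul_sub] }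
    have hφ : Function.Injective φ := by
      rw [← LinearMap.ker_eq_bot, LinearMap.ker_eq_bot']
      intro x hx
      have h1 : b x - x = 0 := congrArg Subtype.val hx
      have h2 : (x : V) ∈ D (σ i) := by
        have := hσ i x x.2
        rwa [sub_eq_zero.1 h1] at this
      exact Subtype.ext (h.disj hne h2 x.2)
    have := LinearMap.finrank_le_finrank_of_injective hφ
    have := hk i
    omega
  have hX : ∀ i, p i w ≠ 0 → ∃ α β : F, α ≠ 0 ∧ α • w + β • w' ∈ D i := by
    intro i hi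
    obtain ⟨x, hx, hxw⟩ : ∃ x ∈ D i, polar Q x w ≠ 0 := by
      by_contra hcon
      push Not at hcon
      exact hi (h.zero_iff.2 fun u hu => by rw [p_comm]; exact hcon u hu)
    have h1 : b x ∈ D i := by
      have := hσ i x hx
      rwa [hσ1] at this
    have h2 := (D i).sub_mem hx h1
    rw [hbd, dbl_apply hw hw' hww] at h2
    refine ⟨(Q w)⁻¹ * polar Q x w, (Q w')⁻¹ * polar Q x w', mul_ne_zero (inv_ne_zero hw) hxw, ?_⟩
    have : x - (x - ((Q w)⁻¹ * polar Q x w) • w - ((Q w')⁻¹ * polar Q x w') • w') =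
      ((Q w)⁻¹ * polar Q x w) • w + ((Q w')⁻¹ * polar Q x w') • w' := by abel
    rwa [this] at h2
  by_cases hj : p j w = 0
  · rw [hj]; exact S.zero_mem
  by_cases hall : ∀ m, m ≠ j → p m w = 0
  · rw [h.self j w (h.mem_iff.2 hall)]; exact hwS
  push Not at hall
  obtain ⟨m, hmj, hm⟩ := hall
  obtain ⟨α, β, hα, h1⟩ := hX j hj
  obtain ⟨α', β', hα', h2⟩ := hX m hm
  have hdet : α * β' - α' * β ≠ 0 := by
    intro h0
    have h3 : α' • (α • w + β • w') = α • (α' • w + β' • w') := by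
      have e : α' • (α • w + β • w') - α • (α' • w + β' • w') = -((α * β' - α' * β) • w') := by
        module
      rw [h0, zero_smul, neg_zero] at e
      exact sub_eq_zero.1 e
    have h4 : α' • (α • w + β • w') = 0 :=
      h.disj hmj (by rw [h3]; exact (D m).smul_mem _ h2) ((D j).smul_mem _ h1)
    have h5 := (smul_eq_zero.1 h4).resolve_left hα'
    exact hα (LinearIndependent.pair_iff.1 hli _ _ h5).1
  have h3 : (α * β' - α' * β) • w = β' • (α • w + β • w') - β • (α' • w + β' • w') := by module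
  have h4 := congrArg (p j) h3
  rw [map_sub, map_smul, map_smul, map_smul, h.self j _ h1, h.other j m hmj.symm _ h2, smul_zero,
    sub_zero] at h4
  have h5 : p j w = (α * β' - α' * β)⁻¹ • β' • (α • w + β • w') := by
    rw [← h4, smul_smul, inv_mul_cancel₀ hdet, one_smul]
  rw [h5]
  exact S.smul_mem _ (S.smul_mem _ (S.add_mem (S.smul_mem _ hwS) (S.smul_mem _ hw'S)))

end H95.OQd
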