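import Mathlib
import Cfsg.Agent.Lib.H95.ONd

set_option autoImplicit false

/-!
Small-dimensional quadratic spaces over finite fields of odd characteristic.
-/

namespace H95.OSmall

open Module QuadraticMap H48.QuadSplit H95.OGeo H17.OrthAbs

section field

variable {F : Type*} [Field F] [Finite F]

lemma diag_rep (h2 : (2 : F) ≠ 0) {α β : F} (hα : α ≠ 0) (hβ : β ≠ 0) (e : F) :
    ∃ X Y : F, α * (X * X) + β * (Y * Y) = e := by
  have : Fintype F := Fintype.ofFinite F
  let f : Polynomial F := Polynomial.C α * Polynomial.X ^ 2 + Polynomial.C 0 * Polynomial.X +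
    Polynomial.C (-e)
  let g : Polynomial F := Polynomial.C β * Polynomial.X ^ 2 + Polynomial.C 0 * Polynomial.X +
    Polynomial.C 0
  have hf : f.degree = 2 := Polynomial.degree_quadratic hα
  have hg : g.degree = 2 := Polynomial.degree_quadratic hβ
  have hodd : Fintype.card F % 2 = 1 := by
    have h1 := FiniteField.even_card_iff_char_two (F := F)
    have h3 : ringChar F ≠ 2 := by
      intro h
      apply h2
      have := ringChar.Nat.cast_ringChar (R := F)
      rw [h] at this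
      exact_mod_cast this
    have h4 : ¬ Fintype.card F % 2 = 0 := fun h => h3 (h1.2 h)
    omega
  obtain ⟨a, b, hab⟩ := FiniteField.exists_root_sum_quadratic hf hg hodd
  refine ⟨a, b, ?_⟩
  simp only [f, g, Polynomial.eval_add, Polynomial.eval_mul, Polynomial.eval_C,
    Polynomial.eval_pow, Polynomial.eval_X] at hab
  linear_combination hab

lemma sq_roots (F : Type*) [Field F] [Finite F] (a : F) :
    ∃ S : Finset F, S.card ≤ 2 ∧ ∀ l, l * l = a → l ∈ S := by
  classical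
  by_cases ha : ∃ t : F, t * t = a
  · obtain ⟨t, ht⟩ := ha
    refine ⟨{t, -t}, Finset.card_le_two, fun l hl => ?_⟩
    have h1 : (l - t) * (l + t) = 0 := by linear_combination hl - ht
    rcases mul_eq_zero.1 h1 with h | h
    · simp [sub_eq_zero.1 h]
    · simp [eq_neg_of_add_eq_zero_left h]
  · exact ⟨∅, by simp, fun l hl => absurd ⟨l, hl⟩ ha⟩

lemma avoid (S : Finset F) (hS : S.card < Nat.card F) : ∃ l, l ∉ S := by
  classical
  have : Fintype F := Fintype.ofFinite F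
  by_contra hcon
  push Not at hcon
  have : S = Finset.univ := Finset.eq_univ_iff_forall.2 hcon
  rw [this, Finset.card_univ, Nat.card_eq_fintype_card] at hS
  exact lt_irrefl _ hS

/-- a nonzero element whose square avoids a value -/
lemma exists_sq_ne (h5 : 5 ≤ Nat.card F) (a : F) : ∃ l : F, l ≠ 0 ∧ l * l ≠ a := by
  classical
  obtain ⟨S, hS, hS'⟩ := sq_roots F a
  obtain ⟨l, hl⟩ := avoid (insert 0 S) (by
    have := Finset.card_insert_le (0 : F) S
    omega)
  simp only [Finset.mem_insert, not_or] at hl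
  exact ⟨l, hl.1, fun h => hl.2 (hS' l h)⟩

lemma diag_rep' (h2 : (2 : F) ≠ 0) (h5 : 5 ≤ Nat.card F) {α β : F} (hα : α ≠ 0) (hβ : β ≠ 0)
    {e : F} (he : e ≠ 0) : ∃ X Y : F, X ≠ 0 ∧ α * (X * X) + β * (Y * Y) = e := by
  obtain ⟨X, Y, hXY⟩ := diag_rep h2 hα hβ e
  by_cases hX : X = 0
  · subst hX
    have hY : Y ≠ 0 := by
      rintro rfl
      apply he
      rw [← hXY]; ring
    obtain ⟨l, hl, hl'⟩ := exists_sq_ne h5 (-(α / β))
    have hd : α + β * (l * l) ≠ 0 := by
      intro h0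
      apply hl'
      field_simp
      linear_combination h0
    refine ⟨-(2 * β * Y * l) / (α + β * (l * l)), Y * (α - β * (l * l)) / (α + β * (l * l)), ?_, ?_⟩
    · refine div_ne_zero (neg_ne_zero.2 ?_) hd
      exact mul_ne_zero (mul_ne_zero (mul_ne_zero h2 hβ) hY) hl
    · rw [← hXY, div_mul_div_comm, div_mul_div_comm, ← mul_div_assoc, ← mul_div_assoc, ← add_div,
        div_eq_iff (mul_ne_zero hd hd)]
      ring
  · exact ⟨X, Y, hX, hXY⟩

end field

variable {F V : Type*} [Field F] [AddCommGroup V] [Module F V] {Q : QuadraticForm F V}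

/-- the vectors of `U` orthogonal to `a` -/
def pc (Q : QuadraticForm F V) (U : Submodule F V) (a : V) : Submodule F V :=
  U ⊓ LinearMap.ker (bl Q a)

lemma mem_pc {U : Submodule F V} {a x : V} : x ∈ pc Q U a ↔ x ∈ U ∧ polar Q a x = 0 := by
  rw [pc, Submodule.mem_inf, LinearMap.mem_ker]; rfl

/-- relative non-degeneracy -/
def NDs (Q : QuadraticForm F V) (U : Submodule F V) : Prop :=
  ∀ v ∈ U, (∀ w ∈ U, polar Q v w = 0) → v = 0

variable [FiniteDimensional F V]

lemma pc_rank (U : Submodule F V) (a : V) : finrank F U ≤ finrank F (pc Q U a) + 1 := by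
  let φ : U →ₗ[F] F := (bl Q a).comp U.subtype
  have h1 := LinearMap.finrank_range_add_finrank_ker φ
  have h2 : finrank F (LinearMap.range φ) ≤ 1 := by
    have := Submodule.finrank_le (LinearMap.range φ)
    rwa [finrank_self] at this
  have h3 : finrank F (LinearMap.ker φ) ≤ finrank F (pc Q U a) := by
    have h4 : (LinearMap.ker φ).map U.subtype ≤ pc Q U a := by
      rintro _ ⟨x, hx, rfl⟩
      exact mem_pc.2 ⟨x.2, hx⟩
    have h5 := Submodule.finrank_mono h4
    rwa [Submodule.finrank_map_subtype_eq] at h5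
  omega

lemma pc_nd (h2 : (2 : F) ≠ 0) {U : Submodule F V} (hU : NDs Q U) {a : V} (ha : a ∈ U)
    (ha0 : Q a ≠ 0) : NDs Q (pc Q U a) := by
  intro v hv h
  obtain ⟨hvU, hva⟩ := mem_pc.1 hv
  apply hU v hvU
  intro w hw
  have h3 : polar Q a a ≠ 0 := by rw [p_self]; exact mul_ne_zero h2 ha0
  have h4 := h (w - (polar Q a w / polar Q a a) • a) (mem_pc.2 ⟨U.sub_mem hw (U.smul_mem _ ha), by
    rw [p_sub', p_smul', div_mul_cancel₀ _ h3, sub_self]⟩)
  rwa [p_sub', p_smul', p_comm Q v a, hva, mul_zero, sub_zero] at h4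

omit [FiniteDimensional F V] in
lemma iso_of_sing {S : Submodule F V} (h : ∀ x ∈ S, Q x = 0) {x y : V} (hx : x ∈ S) (hy : y ∈ S) :
    polar Q x y = 0 := by
  have := Q_add Q x y
  rw [h _ (S.add_mem hx hy), h x hx, h y hy] at this
  simpa using this.symm

omit [FiniteDimensional F V] in
lemma ex_ns {U : Submodule F V} (hU : NDs Q U) {x : V} (hx : x ∈ U) (hx0 : x ≠ 0) :
    ∃ a ∈ U, Q a ≠ 0 := by
  by_contra hcon
  push Not at hcon
  exact hx0 (hU x hx fun w hw => iso_of_sing hcon hx hw)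

omit [FiniteDimensional F V] in
lemma ex_ne [FiniteDimensional F V] {U : Submodule F V} (h : 1 ≤ finrank F U) : ∃ x ∈ U, x ≠ 0 := by
  apply Submodule.exists_mem_ne_zero_of_ne_bot
  rintro rfl
  rw [finrank_bot] at h
  omega

lemma ex_ns' {U : Submodule F V} (hU : NDs Q U) (h : 1 ≤ finrank F U) : ∃ a ∈ U, Q a ≠ 0 := by
  obtain ⟨x, hx, hx0⟩ := ex_ne h
  exact ex_ns hU hx hx0

variable [Finite F]

/-- orthogonal nonsingular vectors -/
lemma ex_two (h2 : (2 : F) ≠ 0) {U : Submodule F V} (hU : NDs Q U) (h : 2 ≤ finrank F U) :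
    ∃ a ∈ U, ∃ b ∈ U, Q a ≠ 0 ∧ Q b ≠ 0 ∧ polar Q a b = 0 := by
  obtain ⟨a, ha, ha0⟩ := ex_ns' hU (by omega)
  have h3 := pc_rank (Q := Q) U a
  obtain ⟨b, hb, hb0⟩ := ex_ns' (pc_nd h2 hU ha ha0) (by omega)
  exact ⟨a, ha, b, (mem_pc.1 hb).1, ha0, hb0, (mem_pc.1 hb).2⟩

omit [FiniteDimensional F V] in
lemma rep_pair (h2 : (2 : F) ≠ 0) {a b : V} (ha : Q a ≠ 0) (hb : Q b ≠ 0) (hab : polar Q a b = 0)
    (e : F) : ∃ α β : F, Q (α • a + β • b) = e := by
  obtain ⟨X, Y, h⟩ := diag_rep h2 ha hb e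
  refine ⟨X, Y, ?_⟩
  rw [Q_add, Q_smul, Q_smul, p_smul, p_smul', hab, ← h]; ring

/-- representation of values -/
lemma rep (h2 : (2 : F) ≠ 0) {U : Submodule F V} (hU : NDs Q U) (h : 2 ≤ finrank F U) (e : F) :
    ∃ w ∈ U, Q w = e := by
  obtain ⟨a, ha, b, hb, ha0, hb0, hab⟩ := ex_two h2 hU h
  obtain ⟨α, β, he⟩ := rep_pair h2 ha0 hb0 hab e
  exact ⟨_, U.add_mem (U.smul_mem _ ha) (U.smul_mem _ hb), he⟩

omit [Finite F] in
/-- relative separation -/
lemma sepU {U : Submodule F V} (hU : NDs Q U) {S : Submodule F V} {y : V} (hyU : y ∈ U)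
    (hy : y ∉ S) : ∃ z ∈ U, (∀ s ∈ S, s ∈ U → polar Q s z = 0) ∧ polar Q y z ≠ 0 := by
  have hnd : ND (Q.restrict U) := by
    intro x hx
    apply Subtype.ext
    exact hU x x.2 fun w hw => hx ⟨w, hw⟩
  obtain ⟨w, hw, hw'⟩ := sep hnd (S := S.comap U.subtype) (y := ⟨y, hyU⟩) hy
  exact ⟨w, w.2, fun s hs hsU => hw ⟨s, hsU⟩ hs, hw'⟩

omit [Finite F] in
lemma partner {U : Submodule F V} (hU : NDs Q U) {z : V} (hz : z ∈ U) (hz0 : z ≠ 0) :
    ∃ y ∈ U, polar Q y z = 1 := by
  obtain ⟨y, hy, h⟩ : ∃ y ∈ U, polar Q y z ≠ 0 := by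
    by_contra hcon
    push Not at hcon
    exact hz0 (hU z hz fun w hw => by rw [p_comm]; exact hcon w hw)
  exact ⟨(polar Q y z)⁻¹ • y, U.smul_mem _ hy, by rw [p_smul, inv_mul_cancel₀ h]⟩

omit [Finite F] in
lemma partner_val {U : Submodule F V} (hU : NDs Q U) {z : V} (hz : z ∈ U) (hz0 : z ≠ 0)
    (hzQ : Q z = 0) (e : F) : ∃ y ∈ U, polar Q y z = 1 ∧ Q y = e := by
  obtain ⟨y, hy, hyz⟩ := partner hU hz hz0
  refine ⟨y + (e - Q y) • z, U.add_mem hy (U.smul_mem _ hz), ?_, ?_⟩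
  · rw [p_add, p_smul, p_self, hzQ, hyz]; ring
  · rw [Q_add, Q_smul, p_smul', hzQ, hyz]; ring

/-- Vectors of a given value span. -/
lemma span_val3 (h2 : (2 : F) ≠ 0) {U : Submodule F V} (hU : NDs Q U) (h : 3 ≤ finrank F U) (e : F)
    (S : Submodule F V) (hS : ∀ w ∈ U, Q w = e → w ∈ S) : U ≤ S := by
  intro y hy
  by_contra hyS
  obtain ⟨z, hz, hz', hz''⟩ := sepU hU hy hyS
  have hz0 : z ≠ 0 := by rintro rfl; rw [p_zero'] at hz''; exact hz'' rfl
  by_cases hzQ : Q z = 0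
  · obtain ⟨w, hw, h3, h4⟩ := partner_val hU hz hz0 hzQ e
    have := hz' w (hS w hw h4) hw
    rw [h3] at this
    exact one_ne_zero this
  · have h3 := pc_rank (Q := Q) U z
    obtain ⟨t, ht, ht'⟩ := rep h2 (pc_nd h2 hU hz hzQ) (by omega) (e - Q z)
    obtain ⟨htU, htz⟩ := mem_pc.1 ht
    have := hz' (z + t) (hS _ (U.add_mem hz htU) (by rw [Q_add, ht', htz]; ring)) (U.add_mem hz htU)
    rw [p_add, p_self, p_comm Q t, htz, add_zero] at this
    exact mul_ne_zero h2 hzQ this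

lemma span_val2 (h2 : (2 : F) ≠ 0) (h5 : 5 ≤ Nat.card F) {U : Submodule F V} (hU : NDs Q U)
    (h : 2 ≤ finrank F U) {e : F} (he : e ≠ 0)
    (S : Submodule F V) (hS : ∀ w ∈ U, Q w = e → w ∈ S) : U ≤ S := by
  intro y hy
  by_contra hyS
  obtain ⟨z, hz, hz', hz''⟩ := sepU hU hy hyS
  have hz0 : z ≠ 0 := by rintro rfl; rw [p_zero'] at hz''; exact hz'' rfl
  by_cases hzQ : Q z = 0
  · obtain ⟨w, hw, h3, h4⟩ := partner_val hU hz hz0 hzQ e
    have := hz' w (hS w hw h4) hw
    rw [h3] at this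
    exact one_ne_zero this
  · have h3 := pc_rank (Q := Q) U z
    obtain ⟨t, ht, htQ⟩ := ex_ns' (pc_nd h2 hU hz hzQ) (by omega)
    obtain ⟨htU, htz⟩ := mem_pc.1 ht
    obtain ⟨X, Y, hX, hXY⟩ := diag_rep' h2 h5 hzQ htQ he
    have hm : X • z + Y • t ∈ U := U.add_mem (U.smul_mem _ hz) (U.smul_mem _ htU)
    have := hz' _ (hS _ hm (by rw [Q_add, Q_smul, Q_smul, p_smul, p_smul', htz, ← hXY]; ring)) hm
    rw [p_add, p_smul, p_smul, p_self, p_comm Q t, htz, mul_zero, add_zero] at this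
    exact mul_ne_zero hX (mul_ne_zero h2 hzQ) this

/-- two independent vectors of a given value from spanning -/
lemma two_of_span {U : Submodule F V} (h : 2 ≤ finrank F U) {P : V → Prop}
    (hS : ∀ S : Submodule F V, (∀ w ∈ U, P w → w ∈ S) → U ≤ S) :
    ∃ w ∈ U, ∃ w' ∈ U, P w ∧ P w' ∧ LinearIndependent F ![w, w'] := by
  obtain ⟨w, hw, hwP, hw0⟩ : ∃ w ∈ U, P w ∧ w ≠ 0 := by
    by_contra hcon
    push Not at hcon
    have h1 := hS ⊥ (fun w hw hP => by rw [hcon w hw hP]; exact Submodule.zero_mem _)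
    have h3 := Submodule.finrank_mono h1
    rw [finrank_bot] at h3
    omega
  obtain ⟨w', hw', hwP', hw0'⟩ : ∃ w' ∈ U, P w' ∧ w' ∉ Submodule.span F {w} := by
    by_contra hcon
    push Not at hcon
    have h1 := hS (Submodule.span F {w}) (fun w hw hP => hcon w hw hP)
    have h3 := Submodule.finrank_mono h1
    rw [finrank_span_singleton hw0] at h3
    omega
  refine ⟨w, hw, w', hw', hwP, hwP', H95.UBasic.pair_indep hw0 fun l hl => hw0' ?_⟩
  rw [hl]
  exact Submodule.smul_mem _ _ (Submodule.mem_span_singleton_self w)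

/-- Two independent vectors of given value orthogonal to a given vector. -/
lemma two_val (h2 : (2 : F) ≠ 0) {U : Submodule F V} (hU : NDs Q U) (h : 4 ≤ finrank F U) {x : V}
    (hx : x ∈ U) {c : F} (hc : c ≠ 0) : ∃ w ∈ U, ∃ w' ∈ U, polar Q x w = 0 ∧ polar Q x w' = 0 ∧
      Q w = c ∧ Q w' = c ∧ LinearIndependent F ![w, w'] := by
  have hrad : ∀ y ∈ U, (∀ z ∈ pc Q U x, polar Q y z = 0) → y ∈ Submodule.span F {x} := by
    intro y hy hyS
    by_contra hcon
    obtain ⟨z, hz, hz', hz''⟩ := sepU hU hy hcon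
    exact hz'' (hyS z (mem_pc.2 ⟨hz, hz' x (Submodule.mem_span_singleton_self x) hx⟩))
  have hsp : finrank F (Submodule.span F {x}) ≤ 1 := by
    have := finrank_span_le_card (R := F) ({x} : Set V)
    simpa using this
  have hS := pc_rank (Q := Q) U x
  -- first vector
  obtain ⟨a, ha, ha0⟩ : ∃ a ∈ pc Q U x, Q a ≠ 0 := by
    by_contra hcon
    push Not at hcon
    have h3 : pc Q U x ≤ Submodule.span F {x} := fun y hy =>
      hrad y (mem_pc.1 hy).1 fun z hz => iso_of_sing hcon hy hz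
    have := Submodule.finrank_mono h3
    omega
  obtain ⟨haU, hxa⟩ := mem_pc.1 ha
  have hSa := pc_rank (Q := Q) (pc Q U x) a
  have haa : polar Q a a ≠ 0 := by rw [p_self]; exact mul_ne_zero h2 ha0
  obtain ⟨b, hb, hb0⟩ : ∃ b ∈ pc Q (pc Q U x) a, Q b ≠ 0 := by
    by_contra hcon
    push Not at hcon
    have h3 : pc Q (pc Q U x) a ≤ Submodule.span F {x} := by
      intro y hy
      obtain ⟨hyS, hay⟩ := mem_pc.1 hy
      refine hrad y (mem_pc.1 hyS).1 fun z hz => ?_
      have h4 : z - (polar Q a z / polar Q a a) • a ∈ pc Q (pc Q U x) a :=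
        mem_pc.2 ⟨(pc Q U x).sub_mem hz ((pc Q U x).smul_mem _ ha), by
          rw [p_sub', p_smul', div_mul_cancel₀ _ haa, sub_self]⟩
      have h5 := iso_of_sing hcon hy h4
      rwa [p_sub', p_smul', p_comm Q y a, hay, mul_zero, sub_zero] at h5
    have := Submodule.finrank_mono h3
    omega
  obtain ⟨hbS, hab⟩ := mem_pc.1 hb
  obtain ⟨hbU, hxb⟩ := mem_pc.1 hbS
  have hSab := pc_rank (Q := Q) (pc Q (pc Q U x) a) b
  obtain ⟨z, hz, hz0⟩ := ex_ne (U := pc Q (pc Q (pc Q U x) a) b) (by omega)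
  obtain ⟨hzSa, hbz⟩ := mem_pc.1 hz
  obtain ⟨hzS, haz⟩ := mem_pc.1 hzSa
  obtain ⟨hzU, hxz⟩ := mem_pc.1 hzS
  have hbb : polar Q b b ≠ 0 := by rw [p_self]; exact mul_ne_zero h2 hb0
  obtain ⟨α, β, h3⟩ := rep_pair h2 ha0 hb0 hab c
  obtain ⟨α', β', h4⟩ := rep_pair h2 ha0 hb0 hab (c - Q z)
  have hw0 : α • a + β • b ≠ 0 := by
    intro h0
    rw [h0, map_zero] at h3
    exact hc h3.symm
  refine ⟨α • a + β • b, U.add_mem (U.smul_mem _ haU) (U.smul_mem _ hbU), z + (α' • a + β' • b),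
    U.add_mem hzU (U.add_mem (U.smul_mem _ haU) (U.smul_mem _ hbU)), ?_, ?_, h3, ?_, ?_⟩
  · rw [p_add', p_smul', p_smul', hxa, hxb]; ring
  · rw [p_add', p_add', p_smul', p_smul', hxa, hxb, hxz]; ring
  · rw [Q_add, h4, p_add', p_smul', p_smul', p_comm Q z a, haz, p_comm Q z b, hbz]; ring
  · rw [LinearIndependent.pair_iff]
    intro s t hst
    have e1 := congrArg (polar Q a) hst
    have e2 := congrArg (polar Q b) hst
    simp only [p_add', p_smul', hab, haz, hbz, p_comm Q b a, mul_zero, add_zero, zero_add,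
      p_zero'] at e1 e2
    have f1 : s * α + t * α' = 0 := by
      have : (s * α + t * α') * polar Q a a = 0 := by linear_combination e1
      exact (mul_eq_zero.1 this).resolve_right haa
    have f2 : s * β + t * β' = 0 := by
      have : (s * β + t * β') * polar Q b b = 0 := by linear_combination e2
      exact (mul_eq_zero.1 this).resolve_right hbb
    have e3 : t • z = 0 := by
      have : s • (α • a + β • b) + t • (z + (α' • a + β' • b)) =
        t • z + (s * α + t * α') • a + (s * β + t * β') • b := by module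
      rw [this, f1, f2, zero_smul, zero_smul, add_zero, add_zero] at hst
      exact hst
    have ht : t = 0 := (smul_eq_zero.1 e3).resolve_right hz0
    rw [ht, zero_smul, add_zero] at hst
    exact ⟨(smul_eq_zero.1 hst).resolve_right hw0, ht⟩

end H95.OSmall
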