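import Mathlib
import Cfsg.Agent.Lib.H95.OQd
import Cfsg.Agent.Lib.H95.OSmall

set_option autoImplicit false

/-!
Overgroups of stabilisers of orthogonal decompositions in orthogonal groups (odd characteristic).
-/

namespace H95.OImp

open Module QuadraticMap H48.QuadSplit H95.OGeo H17.OrthAbs H95.OSie H95.OQd H95.OSmall
open scoped commutatorElement

variable {F V : Type*} [Field F] [AddCommGroup V] [Module F V] {Q : QuadraticForm F V}

lemma omega_conj {g w : V ≃ₗ[F] V} (hg : g ∈ O Q) (hw : w ∈ ⁅O Q, O Q⁆) :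
    g * w * g⁻¹ ∈ ⁅O Q, O Q⁆ := by
  have h1 : g * w * g⁻¹ = ⁅g, w⁆ * w := by rw [commutatorElement_def]; group
  rw [h1]
  exact Subgroup.mul_mem _ (Subgroup.commutator_mem_commutator hg (omega_le_O Q hw)) hw

/-- Adjusting an isometry by one supported on a subspace. -/
theorem adj [FiniteDimensional F V] [Finite F] (hQ : ND Q) (hn : 9 ≤ finrank F V)
    {U : Submodule F V} (hrep : ∀ e : F, e ≠ 0 → ∃ w ∈ U, Q w = e) {g : V ≃ₗ[F] V} (hg : g ∈ O Q) :
    ∃ k ∈ O Q, (∀ x ∈ U, k x ∈ U) ∧ (∀ x, (∀ u ∈ U, polar Q u x = 0) → k x = x) ∧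
      g * k ∈ ⁅O Q, O Q⁆ := by
  have : Fintype F := Fintype.ofFinite F
  let G : Subgroup (V ≃ₗ[F] V) :=
    { carrier := {k | k ∈ O Q ∧ (∀ x, k x ∈ U ↔ x ∈ U) ∧
        (∀ x, (∀ u ∈ U, polar Q u x = 0) → k x = x)}
      mul_mem' := by
        rintro a b ⟨ha, ha1, ha2⟩ ⟨hb, hb1, hb2⟩
        exact ⟨(O Q).mul_mem ha hb, fun x => by rw [LinearEquiv.mul_apply, ha1, hb1],
          fun x hx => by rw [LinearEquiv.mul_apply, hb2 x hx, ha2 x hx]⟩
      one_mem' := ⟨(O Q).one_mem, fun x => Iff.rfl, fun x _ => rfl⟩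
      inv_mem' := by
        rintro a ⟨ha, ha1, ha2⟩
        have ai : ∀ x, a (a⁻¹ x) = x := fun x => a.apply_symm_apply x
        have ai' : ∀ x, a⁻¹ (a x) = x := fun x => a.symm_apply_apply x
        refine ⟨(O Q).inv_mem ha, fun x => by rw [← ha1, ai], fun x hx => ?_⟩
        have h1 := congrArg (a⁻¹ : V ≃ₗ[F] V) (ha2 x hx)
        rw [ai'] at h1
        exact h1.symm }
  let N : Subgroup (V ≃ₗ[F] V) :=
    { carrier := {h | h ∈ O Q ∧ ∃ k ∈ G, h * k ∈ ⁅O Q, O Q⁆}
      mul_mem' := by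
        rintro a b ⟨ha, k, hk, hak⟩ ⟨hb, l, hl, hbl⟩
        refine ⟨(O Q).mul_mem ha hb, l * k, G.mul_mem hl hk, ?_⟩
        have h1 := Subgroup.mul_mem _ (omega_conj ha hbl) hak
        have e : a * (b * l) * a⁻¹ * (a * k) = a * b * (l * k) := by group
        rwa [e] at h1
      one_mem' := ⟨(O Q).one_mem, 1, G.one_mem, by simp⟩
      inv_mem' := by
        rintro a ⟨ha, k, hk, hak⟩
        refine ⟨(O Q).inv_mem ha, k⁻¹, G.inv_mem hk, ?_⟩
        have h1 := omega_conj hk.1 (Subgroup.inv_mem _ hak)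
        have e : k * (a * k)⁻¹ * k⁻¹ = a⁻¹ * k⁻¹ := by group
        rwa [e] at h1 }
  have hN : O Q ≤ N := by
    apply H17.OrthGenTwoB.O_le_of_refl_mem (Or.inr (by omega)) Q (nd_iff.1 hQ)
    intro v hv
    obtain ⟨w, hw, hwv⟩ := hrep (Q v) hv
    have hw0 : Q w ≠ 0 := by rw [hwv]; exact hv
    refine ⟨refl_mem_O Q v hv, refl Q w hw0, ⟨refl_mem_O Q w hw0, fun x => ?_, fun x hx => ?_⟩,
      H95.ONd.refl_mul_mem hQ hn hv hw0 hwv.symm⟩
    · rw [refl_apply]
      exact ⟨fun h => by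
        have := U.add_mem h (U.smul_mem ((Q w)⁻¹ * polar Q w x) hw)
        rwa [sub_add_cancel] at this, fun h => U.sub_mem h (U.smul_mem _ hw)⟩
    · rw [refl_apply, hx w hw]; simp
  obtain ⟨-, k, hk, hgk⟩ := hN hg
  exact ⟨k, hk.1, fun x hx => (hk.2.1 x).2 hx, hk.2.2, hgk⟩

/-- product of reflections in `x` and `x - s` -/
lemma refl_mul_sub {x s : V} (hx : Q x ≠ 0) (hs : Q s = 0) (hxs : polar Q x s = 0)
    (hx' : Q (x - s) ≠ 0) : refl Q x hx * refl Q (x - s) hx' = sie Q s (-((Q x)⁻¹ • x)) := by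
  have e0 : Q (x - s) = Q x := by rw [Q_sub, hs, hxs]; ring
  have hsx : polar Q s x = 0 := by rw [p_comm, hxs]
  ext z
  rw [LinearEquiv.mul_apply, refl_apply, refl_apply,
    sie_apply hs (by rw [p_neg', p_smul', hsx, mul_zero, neg_zero]), e0, Q_neg, Q_smul, p_neg',
    p_smul', p_sub', p_smul', p_sub', p_self, hxs, p_sub, p_comm Q x z, p_comm Q s z]
  have e1 : (Q x)⁻¹ * (Q x)⁻¹ * Q x = (Q x)⁻¹ := by field_simp
  have e2 : (Q x)⁻¹ * (polar Q z x - (Q x)⁻¹ * (polar Q z x - polar Q z s) * (2 * Q x - 0)) =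
      (Q x)⁻¹ * (2 * polar Q z s - polar Q z x) := by field_simp; ring
  rw [e1, e2]
  module

variable {ι : Type*} [Fintype ι] [DecidableEq ι] {D : ι → Submodule F V} {p : ι → V →ₗ[F] V}

/-- Swapping two isometric members. -/
lemma exists_swap (h : QD Q D p) {i j : ι} (hij : i ≠ j) (e : D i ≃ₗ[F] D j)
    (he : ∀ w : D i, Q (e w : V) = Q (w : V)) :
    ∃ g ∈ O Q, (∀ x ∈ D i, g x ∈ D j) ∧ (∀ x ∈ D j, g x ∈ D i) ∧
      ∀ l, l ≠ i → l ≠ j → ∀ x ∈ D l, g x = x := by
  let E : V →ₗ[F] V := (D j).subtype ∘ₗ (e : D i →ₗ[F] D j) ∘ₗ (p i).codRestrict (D i) (h.mem i)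
  let E' : V →ₗ[F] V := (D i).subtype ∘ₗ (e.symm : D j →ₗ[F] D i) ∘ₗ
    (p j).codRestrict (D j) (h.mem j)
  have hE : ∀ x, E x = e ⟨p i x, h.mem i x⟩ := fun x => rfl
  have hE' : ∀ x, E' x = e.symm ⟨p j x, h.mem j x⟩ := fun x => rfl
  have hEm : ∀ x, E x ∈ D j := fun x => (e ⟨p i x, h.mem i x⟩).2
  have hEm' : ∀ x, E' x ∈ D i := fun x => (e.symm ⟨p j x, h.mem j x⟩).2
  have hEE : ∀ x, E (E' x) = p j x := by
    intro x
    rw [hE]
    have : (⟨p i (E' x), h.mem i _⟩ : D i) = e.symm ⟨p j x, h.mem j x⟩ :=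
      Subtype.ext (h.self i _ (hEm' x))
    rw [this, LinearEquiv.apply_symm_apply]
  have hEE' : ∀ x, E' (E x) = p i x := by
    intro x
    rw [hE']
    have : (⟨p j (E x), h.mem j _⟩ : D j) = e ⟨p i x, h.mem i x⟩ :=
      Subtype.ext (h.self j _ (hEm x))
    rw [this, LinearEquiv.symm_apply_apply]
  let f : V →ₗ[F] V := LinearMap.id - p i - p j + E + E'
  have hf : ∀ x, f x = x - p i x - p j x + E x + E' x := fun x => rfl
  have hpf : ∀ l x, p l (f x) = if l = i then E' x else if l = j then E x else p l x := by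
    intro l x
    rw [hf]
    simp only [map_add, map_sub, h.pp]
    by_cases hl : l = i
    · subst hl
      simp [hij, h.self _ _ (hEm' x), h.other _ _ hij _ (hEm x)]
    · by_cases hlj : l = j
      · subst hlj
        simp [hl, h.self _ _ (hEm x), h.other _ _ hl _ (hEm' x)]
      · simp [hl, hlj, h.other _ _ hl _ (hEm' x), h.other _ _ hlj _ (hEm x)]
  have hEf : ∀ x, E (f x) = p j x := by
    intro x
    have : E (f x) = E (E' x) := by
      rw [hE, hE]
      congr 2
      apply Subtype.ext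
      show p i (f x) = p i (E' x)
      rw [hpf, if_pos rfl, h.self _ _ (hEm' x)]
    rw [this, hEE]
  have hEf' : ∀ x, E' (f x) = p i x := by
    intro x
    have : E' (f x) = E' (E x) := by
      rw [hE', hE']
      congr 2
      apply Subtype.ext
      show p j (f x) = p j (E x)
      rw [hpf, if_neg hij.symm, if_pos rfl, h.self _ _ (hEm x)]
    rw [this, hEE']
  have hinv : Function.Involutive f := by
    intro x
    apply h.ext
    intro l
    rw [hpf l (f x), hEf, hEf', hpf l x]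
    by_cases hl : l = i
    · subst hl; simp
    · by_cases hlj : l = j
      · subst hlj; simp [hl]
      · simp [hl, hlj]
  let g : V ≃ₗ[F] V := LinearEquiv.ofInvolutive f hinv
  have hg : ∀ x, g x = f x := fun x => rfl
  refine ⟨g, ?_, ?_, ?_, ?_⟩
  · intro x
    rw [hg, h.Qsum (f x), h.Qsum x]
    have h1 : ∀ l, Q (p l (f x)) = (fun m => Q (p m x)) (Equiv.swap i j l) := by
      intro l
      rw [hpf]
      by_cases hl : l = i
      · subst hl
        simp only [if_true, Equiv.swap_apply_left]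
        rw [hE', ← he, LinearEquiv.apply_symm_apply]
      · by_cases hlj : l = j
        · subst hlj
          simp only [hl, if_true, if_false, Equiv.swap_apply_right]
          rw [hE, he]
        · simp only [hl, hlj, if_false, Equiv.swap_apply_of_ne_of_ne hl hlj]
    rw [Finset.sum_congr rfl (fun l _ => h1 l)]
    exact Equiv.sum_comp (Equiv.swap i j) (fun m => Q (p m x))
  · intro x hx
    rw [hg, h.mem_iff]
    intro l hl
    rw [hpf]
    by_cases hli : l = i
    · rw [if_pos hli, hE']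
      have : (⟨p j x, h.mem j x⟩ : D j) = 0 := Subtype.ext (h.other j i hij.symm x hx)
      rw [this, map_zero]; rfl
    · rw [if_neg hli, if_neg hl, h.other l i hli x hx]
  · intro x hx
    rw [hg, h.mem_iff]
    intro l hl
    rw [hpf, if_neg hl]
    by_cases hlj : l = j
    · rw [if_pos hlj, hE]
      have : (⟨p i x, h.mem i x⟩ : D i) = 0 := Subtype.ext (h.other i j hij x hx)
      rw [this, map_zero]; rfl
    · rw [if_neg hlj, h.other l j hlj x hx]
  · intro l hli hlj x hx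
    rw [hg, hf, h.other i l hli.symm x hx, h.other j l hlj.symm x hx, hE, hE']
    have e1 : (⟨p j x, h.mem j x⟩ : D j) = 0 := Subtype.ext (h.other j l hlj.symm x hx)
    have e2 : (⟨p i x, h.mem i x⟩ : D i) = 0 := Subtype.ext (h.other i l hli.symm x hx)
    rw [e1, e2, map_zero, map_zero]
    simp

end H95.OImp
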