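import Mathlib
import Cfsg.Agent.Lib.H95.OImp

set_option autoImplicit false

/-!
Overgroups of stabilisers of orthogonal decompositions in orthogonal groups (odd characteristic),
second part: a vector with good reflection property gives everything.
-/

namespace H95.OImp

open Module QuadraticMap H48.QuadSplit H95.OGeo H17.OrthAbs H95.OSie H95.OQd H95.OSmall
open scoped commutatorElement

variable {F V : Type*} [Field F] [AddCommGroup V] [Module F V] {Q : QuadraticForm F V}
  {ι : Type*} [Fintype ι] [DecidableEq ι] {D : ι → Submodule F V} {p : ι → V →ₗ[F] V}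

/-- the standing hypotheses -/
structure Hyp (Q : QuadraticForm F V) (D : ι → Submodule F V) (p : ι → V →ₗ[F] V)
    (M : Subgroup (V ≃ₗ[F] V)) : Prop where
  two : (2 : F) ≠ 0
  hQ : ND Q
  hn : 9 ≤ finrank F V
  h : QD Q D p
  hk : ∀ i, 3 ≤ finrank F (D i)
  iso : ∀ i j, ∃ e : D i ≃ₗ[F] D j, ∀ w : D i, Q (e w : V) = Q (w : V)
  M_le : M ≤ O Q
  H_le : ∀ g ∈ ⁅O Q, O Q⁆, Pres D g → g ∈ M

variable {M : Subgroup (V ≃ₗ[F] V)} [FiniteDimensional F V] [Finite F]

namespace Hyp

lemma nds (H : Hyp Q D p M) (i : ι) : NDs Q (D i) := H.h.nd i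

lemma sie_mem (H : Hyp Q D p M) {i : ι} {u y : V} (hu : u ∈ D i) (hy : y ∈ D i) (hu0 : Q u = 0)
    (huy : polar Q u y = 0) : sie Q u y ∈ M :=
  H.H_le _ (sie_mem_omega H.hQ H.hn hu0 huy) (H.h.pres_sie hu hy hu0 huy)

lemma dbl_mem (H : Hyp Q D p M) {i j : ι} {w w' : V} (hw : w ∈ D i) (hw' : w' ∈ D j)
    (h0 : Q w ≠ 0) (h0' : Q w' ≠ 0) (he : Q w = Q w') : refl Q w h0 * refl Q w' h0' ∈ M :=
  H.H_le _ (H95.ONd.refl_mul_mem H.hQ H.hn h0 h0' he)
    (H.h.pres_mul (H.h.pres_refl hw h0) (H.h.pres_refl hw' h0'))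

lemma swap_mem (H : Hyp Q D p M) {i l m : ι} (hl : l ≠ i) (hm : m ≠ i) (hlm : l ≠ m) :
    ∃ π ∈ M, (∀ x ∈ D i, π x = x) ∧ ∀ x ∈ D m, π x ∈ D l := by
  obtain ⟨e, he⟩ := H.iso l m
  obtain ⟨g, hg, h1, h2, h3⟩ := exists_swap H.h hlm e he
  obtain ⟨k, hk, hk1, hk2, hk3⟩ := adj H.hQ H.hn (U := D l) (g := g)
    (fun e _ => rep H.two (H.nds l) (by have := H.hk l; omega) e) hg
  have hkx : ∀ j, j ≠ l → ∀ x ∈ D j, k x = x := fun j hj x hx =>
    hk2 x fun u hu => H.h.orth l j hj.symm u hu x hx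
  refine ⟨g * k, H.H_le _ hk3 ⟨Equiv.swap l m, fun j x hx => ?_⟩, fun x hx => ?_, fun x hx => ?_⟩
  · rw [LinearEquiv.mul_apply]
    by_cases hj : j = l
    · subst hj
      rw [Equiv.swap_apply_left]
      exact h1 _ (hk1 x hx)
    · rw [hkx j hj x hx]
      by_cases hj' : j = m
      · subst hj'
        rw [Equiv.swap_apply_right]
        exact h2 x hx
      · rw [Equiv.swap_apply_of_ne_of_ne hj hj', h3 j hj hj' x hx]; exact hx
  · rw [LinearEquiv.mul_apply, hkx i hl.symm x hx, h3 i hl.symm hm.symm x hx]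
  · rw [LinearEquiv.mul_apply, hkx m hlm.symm x hx]; exact h2 x hx

/-- relative irreducibility -/
lemma irr (two : (2 : F) ≠ 0) {U W : Submodule F V} (hU : NDs Q U) (h3 : 3 ≤ finrank F U) {x : V}
    (hx : ∃ u ∈ U, polar Q x u ≠ 0)
    (hW : ∀ u ∈ U, ∀ y ∈ U, Q u = 0 → polar Q u y = 0 →
      polar Q x u • y - (polar Q x y + Q y * polar Q x u) • u ∈ W) : U ≤ W := by
  -- singular vectors not orthogonal to x
  have key : ∀ u ∈ U, Q u = 0 → polar Q x u ≠ 0 → ∀ y ∈ U, polar Q u y = 0 → y ∈ W := by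
    intro u hu hu0 hxu
    have hune : u ≠ 0 := by rintro rfl; rw [p_zero'] at hxu; exact hxu rfl
    obtain ⟨y, hy, hyu, hyQ⟩ : ∃ y ∈ U, polar Q u y = 0 ∧ Q y ≠ 0 := by
      have hr := pc_rank (Q := Q) U u
      by_contra hcon
      push Not at hcon
      have hsing : ∀ z ∈ pc Q U u, Q z = 0 := fun z hz => hcon z (mem_pc.1 hz).1 (mem_pc.1 hz).2
      have hle : pc Q U u ≤ Submodule.span F {u} := by
        intro z hz
        by_contra hzs
        obtain ⟨v, hv, hv1, hv2⟩ := sepU hU (mem_pc.1 hz).1 hzs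
        have hv3 : v ∈ pc Q U u :=
          mem_pc.2 ⟨hv, hv1 u (Submodule.mem_span_singleton_self u) hu⟩
        exact hv2 (iso_of_sing hsing hz hv3)
      have h4 := Submodule.finrank_mono hle
      rw [finrank_span_singleton hune] at h4
      omega
    have e1 := hW u hu y hy hu0 hyu
    have e2 := hW u hu (-y) (U.neg_mem hy) hu0 (by rw [p_neg', hyu, neg_zero])
    rw [Q_neg, p_neg'] at e2
    have e3 := W.add_mem e1 e2
    have e4 : polar Q x u • y - (polar Q x y + Q y * polar Q x u) • u +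
        (polar Q x u • -y - (-polar Q x y + Q y * polar Q x u) • u) =
        (-(2 * (Q y * polar Q x u))) • u := by module
    rw [e4] at e3
    have huW : u ∈ W := (W.smul_mem_iff (neg_ne_zero.2 (mul_ne_zero two (mul_ne_zero hyQ hxu)))).1 e3
    intro z hz hzu
    have e5 := hW u hu z hz hu0 hzu
    have e6 := W.add_mem e5 (W.smul_mem (polar Q x z + Q z * polar Q x u) huW)
    rw [sub_add_cancel] at e6
    exact (W.smul_mem_iff hxu).1 e6
  -- a singular vector not orthogonal to x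
  obtain ⟨u, hu, hu0, hxu⟩ : ∃ u ∈ U, Q u = 0 ∧ polar Q x u ≠ 0 := by
    by_contra hcon
    push Not at hcon
    obtain ⟨v, hv, hv'⟩ := hx
    have := span_val3 two hU h3 0 (LinearMap.ker (bl Q x)) (fun w hw hw0 => hcon w hw hw0) hv
    exact hv' this
  have hune : u ≠ 0 := by rintro rfl; rw [p_zero'] at hxu; exact hxu rfl
  obtain ⟨v, hv, hvu, hv0⟩ := partner_val hU hu hune hu0 0
  obtain ⟨u', hu', hu'0, hxu', huu'⟩ : ∃ u' ∈ U, Q u' = 0 ∧ polar Q x u' ≠ 0 ∧ polar Q u u' ≠ 0 := by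
    by_cases hxv : polar Q x v = 0
    · have hr := pc_rank (Q := Q) U u
      have hr' := pc_rank (Q := Q) (pc Q U u) v
      obtain ⟨t, ht, htQ⟩ : ∃ t ∈ pc Q (pc Q U u) v, Q t ≠ 0 := by
        by_contra hcon
        push Not at hcon
        obtain ⟨t, ht, ht0⟩ := ex_ne (U := pc Q (pc Q U u) v) (by omega)
        apply ht0
        obtain ⟨ht1, hvt⟩ := mem_pc.1 ht
        obtain ⟨htU, hut⟩ := mem_pc.1 ht1
        apply hU t htU
        intro w hw
        have hw' : w - polar Q w v • u - polar Q w u • v ∈ pc Q (pc Q U u) v := by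
          refine mem_pc.2 ⟨mem_pc.2 ⟨U.sub_mem (U.sub_mem hw (U.smul_mem _ hu)) (U.smul_mem _ hv),
            ?_⟩, ?_⟩
          · rw [p_sub', p_sub', p_smul', p_smul', p_self, hu0, p_comm Q u v, hvu, p_comm Q u w]; ring
          · rw [p_sub', p_sub', p_smul', p_smul', p_self, hv0, hvu, p_comm Q v w]; ring
        have h5 := iso_of_sing hcon ht hw'
        rwa [p_sub', p_sub', p_smul', p_smul', p_comm Q t u, p_comm Q t v, hut, hvt, mul_zero,
          mul_zero, sub_zero, sub_zero] at h5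
      obtain ⟨ht1, hvt⟩ := mem_pc.1 ht
      obtain ⟨htU, hut⟩ := mem_pc.1 ht1
      have hcand : ∀ c : F, Q (v + c • t - (c * c * Q t) • u) = 0 ∧
          polar Q u (v + c • t - (c * c * Q t) • u) = 1 ∧
          polar Q x (v + c • t - (c * c * Q t) • u) = c * polar Q x t - c * c * Q t * polar Q x u := by
        intro c
        refine ⟨?_, ?_, ?_⟩
        · rw [Q_sub, Q_add, Q_smul, Q_smul, hv0, hu0, p_smul', p_smul', p_add, p_smul, hvt, hvu,
            p_comm Q t u, hut]; ring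
        · rw [p_sub', p_add', p_smul', p_smul', p_self, hu0, hut, p_comm Q u v, hvu]; ring
        · rw [p_sub', p_add', p_smul', p_smul', hxv]; ring
      by_cases h1 : polar Q x t - Q t * polar Q x u = 0
      · obtain ⟨c1, c2, c3⟩ := hcand (-1)
        refine ⟨_, U.sub_mem (U.add_mem hv (U.smul_mem _ htU)) (U.smul_mem _ hu), c1, ?_, ?_⟩
        · rw [c3]
          intro h6
          have : 2 * (Q t * polar Q x u) = 0 := by linear_combination -h6 - h1
          exact mul_ne_zero two (mul_ne_zero htQ hxu) this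
        · rw [c2]; exact one_ne_zero
      · obtain ⟨c1, c2, c3⟩ := hcand 1
        refine ⟨_, U.sub_mem (U.add_mem hv (U.smul_mem _ htU)) (U.smul_mem _ hu), c1, ?_, ?_⟩
        · rw [c3]
          intro h6
          apply h1
          linear_combination h6
        · rw [c2]; exact one_ne_zero
    · exact ⟨v, hv, hv0, hxv, by rw [p_comm, hvu]; exact one_ne_zero⟩
  have hu'W : u' ∈ W := key u' hu' hu'0 hxu' u' hu' (by rw [p_self, hu'0, mul_zero])
  intro z hz
  have h7 : z - (polar Q u z / polar Q u u') • u' ∈ W := by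
    apply key u hu hu0 hxu _ (U.sub_mem hz (U.smul_mem _ hu'))
    rw [p_sub', p_smul', div_mul_cancel₀ _ huu', sub_self]
  have h8 := W.add_mem h7 (W.smul_mem (polar Q u z / polar Q u u') hu'W)
  rwa [sub_add_cancel] at h8

/-- From Siegel elements to everything. -/
theorem omega_of_sie (H : Hyp Q D p M) {x s : V} {i l : ι} (hs : s ∈ D i) (hs0 : s ≠ 0)
    (hsQ : Q s = 0) (hsx : polar Q s x = 0) (hil : l ≠ i) (hl : p l x ≠ 0)
    (hM : ∀ c : F, sie Q s (c • x) ∈ M) : ⁅O Q, O Q⁆ ≤ M := by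
  -- the set of good vectors
  let S : Submodule F V :=
    { carrier := {y | polar Q s y = 0 ∧ ∀ c : F, sie Q s (c • y) ∈ M}
      add_mem' := by
        rintro a b ⟨h1, h2⟩ ⟨h3, h4⟩
        refine ⟨by rw [p_add', h1, h3, add_zero], fun c => ?_⟩
        rw [smul_add, ← sie_mul hsQ (by rw [p_smul', h1, mul_zero]) (by rw [p_smul', h3, mul_zero])]
        exact M.mul_mem (h2 c) (h4 c)
      zero_mem' := by
        refine ⟨p_zero' _ _, fun c => ?_⟩
        rw [smul_zero, sie_zero hsQ]; exact M.one_mem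
      smul_mem' := by
        rintro c a ⟨h1, h2⟩
        refine ⟨by rw [p_smul', h1, mul_zero], fun d => ?_⟩
        rw [smul_smul]; exact h2 _ }
  have hcomm : ∀ y ∈ S, ∀ g ∈ M, g s = s → g y - y ∈ S := by
    rintro y ⟨h1, h2⟩ g hg hgs
    refine ⟨?_, fun c => ?_⟩
    · have := polar_map (H.M_le hg) s y
      rw [hgs, h1] at this
      rw [p_sub', this, h1, sub_zero]
    · have h3 := comm_stab hsQ (by rw [p_smul', h1, mul_zero]) (h2 c) hg (H.M_le hg) hgs
      rwa [map_smul, ← smul_sub] at h3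
  have hxS : x ∈ S := ⟨hsx, hM⟩
  have hDl : D l ≤ S := by
    apply irr H.two (H.nds l) (H.hk l) (x := x)
    · by_contra hcon
      push Not at hcon
      exact hl (H.h.zero_iff.2 hcon)
    · intro u hu y hy hu0 huy
      have h1 := hcomm x hxS _ (H.sie_mem hu hy hu0 huy) (by
        rw [sie_apply hu0 huy, H.h.orth i l hil.symm s hs u hu, H.h.orth i l hil.symm s hs y hy]
        simp)
      rw [sie_apply hu0 huy] at h1
      have e : x + polar Q x u • y - polar Q x y • u - (Q y * polar Q x u) • u - x =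
        polar Q x u • y - (polar Q x y + Q y * polar Q x u) • u := by module
      rwa [e] at h1
  have hDi : ∀ y ∈ D i, polar Q s y = 0 → y ∈ S := fun y hy hsy =>
    ⟨hsy, fun c => H.sie_mem hs ((D i).smul_mem _ hy) hsQ (by rw [p_smul', hsy, mul_zero])⟩
  have hDm : ∀ m, m ≠ i → D m ≤ S := by
    intro m hm y hy
    by_cases hlm : l = m
    · subst hlm; exact hDl hy
    obtain ⟨π, hπ, h1, h2⟩ := H.swap_mem hil hm hlm
    have hπO := H.M_le hπ
    have hyS := hDl (h2 y hy)
    have hsi : π⁻¹ s = s := by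
      have := congrArg (π⁻¹ : V ≃ₗ[F] V) (h1 s hs)
      rw [show π⁻¹ (π s) = s from π.symm_apply_apply s] at this
      exact this.symm
    refine ⟨H.h.orth i m hm.symm s hs y hy, fun c => ?_⟩
    have h3 := conj_mem' (M.inv_mem hπ) (hyS.2 c)
    rw [sie_conj hsQ (by rw [p_smul', hyS.1, mul_zero]) ((O Q).inv_mem hπO), hsi, map_smul,
      show π⁻¹ (π y) = y from π.symm_apply_apply y] at h3
    exact h3
  have hfull : Full Q M s := by
    refine ⟨hsQ, fun y hy => ?_⟩
    have hyS : y ∈ S := by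
      rw [← H.h.sum y]
      apply Submodule.sum_mem
      intro m _
      by_cases hm : m = i
      · subst hm
        exact hDi _ (H.h.mem _ _) (by rw [← H.h.pr y hs, hy])
      · exact hDm m hm (H.h.mem _ _)
    have := hyS.2 1
    rwa [one_smul] at this
  -- a second full vector
  obtain ⟨s', hs', hss', hs'Q⟩ := partner_val (H.nds i) hs hs0 hsQ 0
  have hQu : Q (s - s') = -1 := by
    rw [Q_sub, hsQ, hs'Q, p_comm, hss']; ring
  have hu0 : Q (s - s') ≠ 0 := by rw [hQu]; exact neg_ne_zero.2 one_ne_zero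
  obtain ⟨e, he⟩ := H.iso i l
  have hdi : s - s' ∈ D i := (D i).sub_mem hs hs'
  have hQw : Q (e ⟨s - s', hdi⟩ : V) = Q (s - s') := he _
  have hw0 : Q (e ⟨s - s', hdi⟩ : V) ≠ 0 := by rw [hQw]; exact hu0
  have hg := H.dbl_mem hdi (e ⟨s - s', hdi⟩).2 hu0 hw0 hQw.symm
  have hgs : (refl Q (s - s') hu0 * refl Q (e ⟨s - s', hdi⟩ : V) hw0) s = s' := by
    rw [LinearEquiv.mul_apply, refl_apply Q (e ⟨s - s', hdi⟩ : V), H.h.orth l i hil _
      (e ⟨s - s', hdi⟩).2 s hs, mul_zero, zero_smul, sub_zero, refl_apply, p_sub, p_self, hsQ, hss',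
      hQu]
    have : ((-1 : F))⁻¹ * (2 * 0 - 1) = 1 := by
      rw [inv_neg, inv_one]; ring
    rw [this, one_smul]; abel
  have hfull' := hfull.map hg (H.M_le hg)
  rw [hgs] at hfull'
  exact omega_le_of_full H.hQ (by have := H.hn; omega) hfull hfull' (by rw [hss']; exact one_ne_zero)

/-- From a vector with the reflection property to everything. -/
theorem omega_of_vec (H : Hyp Q D p M) {x s : V} (hx : Q x ≠ 0)
    (hR : ∀ m ∈ M, ∀ h0 : Q (m x) ≠ 0, refl Q x hx * refl Q (m x) h0 ∈ M)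
    {i l : ι} (hs : s ∈ D i) (hs0 : s ≠ 0) (hsQ : Q s = 0) (hsx : polar Q s x = 0)
    (hxs : p i x ∉ Submodule.span F {s}) (hil : l ≠ i) (hl : p l x ≠ 0) : ⁅O Q, O Q⁆ ≤ M := by
  obtain ⟨y, hy, hsy, hxy⟩ := sepU (H.nds i) (H.h.mem i x) hxs
  have hsy' : polar Q s y = 0 := hsy s (Submodule.mem_span_singleton_self s) hs
  rw [← H.h.pl x hy] at hxy
  refine H.omega_of_sie hs hs0 hsQ hsx hil hl fun c => ?_
  set μ := -(c * Q x) / polar Q x y with hμ
  have hm := H.sie_mem hs ((D i).smul_mem μ hy) hsQ (by rw [p_smul', hsy', mul_zero])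
  have hxs' : polar Q x s = 0 := by rw [p_comm, hsx]
  have e1 : sie Q s (μ • y) x = x - (-(c * Q x)) • s := by
    rw [sie_apply hsQ (by rw [p_smul', hsy', mul_zero]), hxs', p_smul', hμ, div_mul_cancel₀ _ hxy]
    simp
  have e2 : Q (x - (-(c * Q x)) • s) = Q x := by
    rw [Q_sub, Q_smul, hsQ, p_smul', hxs']; ring
  have h1 := hR _ hm (by rw [e1, e2]; exact hx)
  have h2 : refl Q x hx * refl Q (sie Q s (μ • y) x) (by rw [e1, e2]; exact hx) =
      sie Q ((-(c * Q x)) • s) (-((Q x)⁻¹ • x)) := by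
    have h3 := refl_mul_sub hx (s := (-(c * Q x)) • s) (by rw [Q_smul, hsQ, mul_zero])
      (by rw [p_smul', hxs', mul_zero]) (by rw [e2]; exact hx)
    rw [← h3]
    congr 1
    ext z
    rw [refl_apply, refl_apply, e1]
  rw [h2, sie_smul hsQ (by rw [p_neg', p_smul', hsx, mul_zero, neg_zero]), smul_neg, smul_smul,
    ← neg_smul] at h1
  have e3 : -(-(c * Q x) * (Q x)⁻¹) = c := by field_simp
  rwa [e3] at h1

end Hyp

end H95.OImp
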