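import Mathlib
import Cfsg.Agent.Lib.H95.OImp2

set_option autoImplicit false

/-!
Overgroups of stabilisers of orthogonal decompositions in orthogonal groups (odd characteristic),
third part: the combinatorial part for members of dimension at least four.
-/

namespace H95.OImp

open Module QuadraticMap H48.QuadSplit H95.OGeo H17.OrthAbs H95.OSie H95.OQd H95.OSmall
open scoped commutatorElement

variable {F V : Type*} [Field F] [AddCommGroup V] [Module F V] {Q : QuadraticForm F V}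
  {ι : Type*} [Fintype ι] [DecidableEq ι] {D : ι → Submodule F V} {p : ι → V →ₗ[F] V}

lemma refl_conj {v : V} (hv : Q v ≠ 0) {g : V ≃ₗ[F] V} (hg : g ∈ O Q) (h : Q (g v) ≠ 0) :
    g * refl Q v hv * g⁻¹ = refl Q (g v) h := by
  ext x
  have h1 : g (g⁻¹ x) = x := g.apply_symm_apply x
  have h2 : polar Q v (g⁻¹ x) = polar Q (g v) x := by
    rw [← polar_map hg, h1]
  rw [LinearEquiv.mul_apply, LinearEquiv.mul_apply, refl_apply, refl_apply, map_sub, map_smul, h1,
    h2, hg]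

variable {M : Subgroup (V ≃ₗ[F] V)} [FiniteDimensional F V] [Finite F]

lemma finrank_iso (H : Hyp Q D p M) (i j : ι) : finrank F (D i) = finrank F (D j) := by
  obtain ⟨e, -⟩ := H.iso i j
  exact e.finrank_eq

/-- a map sending the vectors of value `c` of each member into members permutes the members -/
lemma pres_of_norm (H : Hyp Q D p M) (hcase : (∀ i, 4 ≤ finrank F (D i)) ∨ 5 ≤ Nat.card F)
    {c : F} (hc : c ≠ 0) {g : V ≃ₗ[F] V} (hg : g ∈ O Q)
    (hall : ∀ i, ∀ v ∈ D i, Q v = c → ∃ j, g v ∈ D j) : Pres D g := by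
  have key : ∀ i, ∃ j, ∀ x ∈ D i, g x ∈ D j := by
    intro i
    have hk := H.hk i
    obtain ⟨v, hv, hvc⟩ := rep H.two (H.nds i) (by omega) c
    obtain ⟨j, hj⟩ := hall i v hv hvc
    have key1 : ∀ w ∈ D i, Q w = c → polar Q v w ≠ 0 → g w ∈ D j := by
      intro w hw hwc hvw
      obtain ⟨l, hl⟩ := hall i w hw hwc
      by_cases hlj : l = j
      · rw [← hlj]; exact hl
      · exfalso
        apply hvw
        rw [← polar_map hg]
        exact H.h.orth j l (Ne.symm hlj) _ hj _ hl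
    have hUnd := pc_nd H.two (H.nds i) hv (by rw [hvc]; exact hc)
    have hUr := pc_rank (Q := Q) (D i) v
    have h2c : 2 * c ≠ 0 := mul_ne_zero H.two hc
    have hU : pc Q (D i) v ≤ (D j).comap (g : V →ₗ[F] V) := by
      rcases hcase with h4 | h5
      · have := h4 i
        apply span_val3 H.two hUnd (by omega) 0
        intro w hw hw0
        obtain ⟨hw1, hw2⟩ := mem_pc.1 hw
        have h1 : g (v + w) ∈ D j := by
          apply key1 _ ((D i).add_mem hv hw1)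
          · rw [Q_add, hvc, hw0, hw2]; ring
          · rw [p_add', p_self, hvc, hw2, add_zero]; exact h2c
        rw [map_add] at h1
        exact ((D j).add_mem_iff_right hj).1 h1
      · obtain ⟨α, hα0, hα1⟩ := exists_sq_ne h5 (1 : F)
        apply span_val2 H.two h5 hUnd (by omega) (e := c * (1 - α * α))
          (mul_ne_zero hc (sub_ne_zero.2 (Ne.symm hα1)))
        intro w hw hw0
        obtain ⟨hw1, hw2⟩ := mem_pc.1 hw
        have h1 : g (α • v + w) ∈ D j := by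
          apply key1 _ ((D i).add_mem ((D i).smul_mem _ hv) hw1)
          · rw [Q_add, Q_smul, hvc, hw0, p_smul, hw2]; ring
          · rw [p_add', p_smul', p_self, hvc, hw2, add_zero]; exact mul_ne_zero hα0 h2c
        rw [map_add, map_smul] at h1
        exact ((D j).add_mem_iff_right ((D j).smul_mem _ hj)).1 h1
    refine ⟨j, fun x hx => ?_⟩
    have h1 : x - (polar Q v x / (2 * c)) • v ∈ pc Q (D i) v := by
      refine mem_pc.2 ⟨(D i).sub_mem hx ((D i).smul_mem _ hv), ?_⟩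
      rw [p_sub', p_smul', p_self, hvc, div_mul_cancel₀ _ h2c, sub_self]
    have h2 : g (x - (polar Q v x / (2 * c)) • v) ∈ D j := hU h1
    rw [map_sub, map_smul] at h2
    exact ((D j).sub_mem_iff_left ((D j).smul_mem _ hj)).1 h2
  choose f hf using key
  have hinj : Function.Injective f := by
    intro a b hab
    by_contra hne
    have hmap : ∀ i, (D i).map (g : V →ₗ[F] V) = D (f i) := by
      intro i
      apply Submodule.eq_of_le_of_finrank_eq
      · rintro _ ⟨x, hx, rfl⟩; exact hf i x hx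
      · rw [LinearEquiv.finrank_map_eq]; exact finrank_iso H _ _
    obtain ⟨x, hx, hx0⟩ := ex_ne (U := D a) (by have := H.hk a; omega)
    have h1 : g x ∈ (D b).map (g : V →ₗ[F] V) := by
      rw [hmap b, ← hab]; exact hf a x hx
    obtain ⟨y, hy, hyx⟩ := h1
    have : y = x := g.injective hyx
    exact hx0 (H.h.disj hne hx (this ▸ hy))
  exact ⟨Equiv.ofBijective f (Finite.injective_iff_bijective.1 hinj), hf⟩

/-! ### Vectors whose reflection is congruent to a normalising one -/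

/-- `refl v` is congruent to `refl u` modulo `M` -/
def Rv (Q : QuadraticForm F V) (M : Subgroup (V ≃ₗ[F] V)) {u : V} (hu : Q u ≠ 0) (v : V) : Prop :=
  ∃ h : Q v ≠ 0, Q v = Q u ∧ refl Q v h * refl Q u hu ∈ M

variable {u : V} {hu : Q u ≠ 0}

lemma Rv_map (H : Hyp Q D p M) (hn : ∀ m ∈ M, refl Q u hu * m * (refl Q u hu)⁻¹ ∈ M) {m : V ≃ₗ[F] V}
    (hm : m ∈ M) {v : V} (hv : Rv Q M hu v) : Rv Q M hu (m v) := by
  obtain ⟨h1, h2, h3⟩ := hv
  have hmO := H.M_le hm
  have h4 : Q (m v) ≠ 0 := by rw [hmO]; exact h1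
  refine ⟨h4, by rw [hmO, h2], ?_⟩
  rw [← refl_conj h1 hmO h4]
  have e : m * refl Q v h1 * m⁻¹ * refl Q u hu =
      m * (refl Q v h1 * refl Q u hu) * ((refl Q u hu) * m⁻¹ * (refl Q u hu)⁻¹) := by
    have e1 : (refl Q u hu) * (refl Q u hu) = 1 := refl_sq Q u hu
    rw [refl_inv]
    calc m * refl Q v h1 * m⁻¹ * refl Q u hu = m * refl Q v h1 * 1 * m⁻¹ * refl Q u hu := by group
      _ = _ := by rw [← e1]; group
  rw [e]
  exact M.mul_mem (M.mul_mem hm h3) (hn _ (M.inv_mem hm))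

lemma Rv_refl {v w : V} (hv : Rv Q M hu v) (hw : Rv Q M hu w)
    (hv0 : Q v ≠ 0) : Rv Q M hu (refl Q v hv0 w) := by
  obtain ⟨h1, h2, h3⟩ := hv
  obtain ⟨h4, h5, h6⟩ := hw
  have h7 : Q (refl Q v hv0 w) ≠ 0 := by rw [refl_mem_O Q v hv0]; exact h4
  refine ⟨h7, by rw [refl_mem_O Q v hv0, h5], ?_⟩
  rw [← refl_conj h4 (refl_mem_O Q v hv0) h7]
  have e : refl Q v hv0 * refl Q w h4 * (refl Q v hv0)⁻¹ * refl Q u hu =
      (refl Q v hv0 * refl Q u hu) * (refl Q w h4 * refl Q u hu)⁻¹ *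
        (refl Q v hv0 * refl Q u hu) := by
    rw [mul_inv_rev, refl_inv, refl_inv, refl_inv]
    have e1 : (refl Q u hu) * (refl Q u hu) = 1 := refl_sq Q u hu
    calc refl Q v hv0 * refl Q w h4 * refl Q v hv0 * refl Q u hu =
        refl Q v hv0 * 1 * refl Q w h4 * refl Q v hv0 * refl Q u hu := by group
      _ = _ := by rw [← e1]; group
  rw [e]
  exact M.mul_mem (M.mul_mem h3 (M.inv_mem h6)) h3

lemma Rv_hR (H : Hyp Q D p M) (hn : ∀ m ∈ M, refl Q u hu * m * (refl Q u hu)⁻¹ ∈ M) {x : V}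
    (hx : Rv Q M hu x) (hx0 : Q x ≠ 0) : ∀ m ∈ M, ∀ h0 : Q (m x) ≠ 0,
      refl Q x hx0 * refl Q (m x) h0 ∈ M := by
  intro m hm h0
  obtain ⟨h1, h2, h3⟩ := hx
  obtain ⟨h4, h5, h6⟩ := Rv_map H hn hm ⟨h1, h2, h3⟩
  have h7 := M.mul_mem h3 (M.inv_mem h6)
  rw [mul_inv_rev, refl_inv, refl_inv] at h7
  have e1 : (refl Q u hu) * (refl Q u hu) = 1 := refl_sq Q u hu
  have e : refl Q x h1 * refl Q u hu * (refl Q u hu * refl Q (m x) h4) =
      refl Q x hx0 * refl Q (m x) h0 := by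
    calc refl Q x h1 * refl Q u hu * (refl Q u hu * refl Q (m x) h4) =
        refl Q x h1 * (refl Q u hu * refl Q u hu) * refl Q (m x) h4 := by group
      _ = _ := by rw [e1, mul_one]
  rwa [e] at h7

lemma Rv_mem (H : Hyp Q D p M) {i₀ i : ι} (hu' : u ∈ D i₀) {v : V} (hv : v ∈ D i) (hvu : Q v = Q u) :
    Rv Q M hu v :=
  ⟨by rw [hvu]; exact hu, hvu, H.dbl_mem hv hu' (by rw [hvu]; exact hu) hu hvu⟩

lemma exists_sing (two : (2 : F) ≠ 0) {U : Submodule F V} (hU : NDs Q U) (h : 3 ≤ finrank F U) :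
    ∃ s ∈ U, s ≠ 0 ∧ Q s = 0 := by
  by_contra hcon
  push Not at hcon
  have h1 := span_val3 two hU h 0 ⊥ (fun w hw hw0 => by
    by_contra hne
    exact hcon w hw (fun h0 => hne ((Submodule.mem_bot F).2 h0)) hw0)
  rw [le_bot_iff] at h1
  rw [h1, finrank_bot] at h
  omega

/-- Part A for members of dimension at least four. -/
theorem partA4 (H : Hyp Q D p M) (h4 : ∀ i, 4 ≤ finrank F (D i)) {i₀ : ι} (hu' : u ∈ D i₀)
    (hn : ∀ m ∈ M, refl Q u hu * m * (refl Q u hu)⁻¹ ∈ M) {g : V ≃ₗ[F] V} (hg : g ∈ M)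
    (hgp : ¬ Pres D g) : ⁅O Q, O Q⁆ ≤ M := by
  have hgO := H.M_le hg
  obtain ⟨i, v, hv, hvc, hvj⟩ : ∃ i, ∃ v ∈ D i, Q v = Q u ∧ ∀ j, g v ∉ D j := by
    by_contra hcon
    push Not at hcon
    exact hgp (pres_of_norm H (Or.inl h4) hu hgO hcon)
  have hx := Rv_map H hn hg (Rv_mem (hu := hu) H hu' hv hvc)
  have hx0 : Q (g v) ≠ 0 := by rw [hgO, hvc]; exact hu
  obtain ⟨j, hj⟩ := H.h.exists_ne hx0
  have hUnd := pc_nd H.two (H.nds j) (H.h.mem j (g v)) hj
  have hUr := pc_rank (Q := Q) (D j) (p j (g v))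
  obtain ⟨s, hs, hs0, hsQ⟩ := exists_sing H.two hUnd (by have := h4 j; omega)
  obtain ⟨hs1, hs2⟩ := mem_pc.1 hs
  obtain ⟨l, hlj, hl⟩ := H.h.exists_other (hvj j)
  refine H.omega_of_vec hx0 (Rv_hR H hn hx hx0) hs1 hs0 hsQ ?_ ?_ hlj hl
  · rw [H.h.pr _ hs1, p_comm, hs2]
  · intro hmem
    obtain ⟨c, hc⟩ := Submodule.mem_span_singleton.1 hmem
    apply hj
    rw [← hc, Q_smul, hsQ, mul_zero]

/-- the second condition -/
def Star (Q : QuadraticForm F V) (D : ι → Submodule F V) (M : Subgroup (V ≃ₗ[F] V)) (c : F) : Prop :=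
  ∀ m ∈ M, ∀ i j, ∀ v ∈ D i, Q v = c → m v ∈ D j → Pres D m

/-- A vector of a member orthogonal to a vector of another good decomposition lies in a member of it. -/
lemma mem_conj_of (H : Hyp Q D p M) {c : F} (hstar : Star Q D M c) {g : V ≃ₗ[F] V} (hg : g ∈ M)
    {i₀ : ι} {v : V} (hv : v ∈ D i₀) (hvc : Q v = c) {i l : ι} (hil : l ≠ i) {w w' w'' : V}
    (hw : w ∈ D i) (hw' : w' ∈ D l) (hw'' : w'' ∈ D l) (hwx : polar Q (g v) w = 0)
    (hwx' : polar Q (g v) w' = 0) (hwx'' : polar Q (g v) w'' = 0) (hw0 : Q w ≠ 0)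
    (e1 : Q w' = Q w) (e2 : Q w'' = Q w) (hli : LinearIndependent F ![w', w'']) :
    ∃ j, g⁻¹ w ∈ D j := by
  have hgO := H.M_le hg
  have ggi : ∀ x, g (g⁻¹ x) = x := fun x => g.apply_symm_apply x
  have hD' := H.h.conj hgO
  have hk' : ∀ i, 3 ≤ finrank F ((D i).map (g : V →ₗ[F] V)) := fun i => by
    rw [LinearEquiv.finrank_map_eq]; exact H.hk i
  have hwne : w ≠ 0 := by rintro rfl; exact hw0 (QuadraticMap.map_zero Q)
  have hli3 : LinearIndependent F ![w, w', w''] := by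
    rw [Fintype.linearIndependent_iff]
    intro a ha
    rw [Fin.sum_univ_three] at ha
    have ha' : a 0 • w + a 1 • w' + a 2 • w'' = 0 := ha
    have h1 := congrArg (p i) ha'
    rw [map_add, map_add, map_smul, map_smul, map_smul, H.h.self i w hw, H.h.other i l hil.symm _ hw',
      H.h.other i l hil.symm _ hw'', smul_zero, smul_zero, add_zero, add_zero, map_zero] at h1
    have h2 : a 0 = 0 := (smul_eq_zero.1 h1).resolve_right hwne
    rw [h2, zero_smul, zero_add] at ha'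
    obtain ⟨h3, h4⟩ := LinearIndependent.pair_iff.1 hli _ _ ha'
    intro k
    fin_cases k
    · exact h2
    · exact h3
    · exact h4
  have hpair : ∀ y ∈ D l, y ≠ 0 → LinearIndependent F ![w, y] := by
    intro y hy hy0
    rw [LinearIndependent.pair_iff]
    intro a b hab
    have h1 := congrArg (p i) hab
    rw [map_add, map_smul, map_smul, H.h.self i w hw, H.h.other i l hil.symm _ hy, smul_zero, add_zero,
      map_zero] at h1
    have h2 : a = 0 := (smul_eq_zero.1 h1).resolve_right hwne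
    rw [h2, zero_smul, zero_add] at hab
    exact ⟨h2, (smul_eq_zero.1 hab).resolve_right hy0⟩
  have hcomp : ∀ y ∈ D l, polar Q (g v) y = 0 → Q y = Q w → ∀ j,
      g (p j (g⁻¹ w)) ∈ Submodule.span F {w, y} := by
    intro y hy hyx hyQ j
    have hy0 : Q y ≠ 0 := by rw [hyQ]; exact hw0
    have hyne : y ≠ 0 := by rintro rfl; exact hy0 (QuadraticMap.map_zero Q)
    have hwy : polar Q w y = 0 := H.h.orth i l hil.symm w hw y hy
    have hb := H.dbl_mem hw hy hw0 hy0 hyQ.symm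
    set b := refl Q w hw0 * refl Q y hy0 with hbd
    have hbx : b (g v) = g v := by
      rw [hbd, dbl_apply hw0 hy0 hwy, hwx, hyx]; simp
    have h1 : g⁻¹ * b * g ∈ M := M.mul_mem (M.mul_mem (M.inv_mem hg) hb) hg
    have h2 : Pres D (g⁻¹ * b * g) := by
      apply hstar _ h1 i₀ i₀ v hv hvc
      rw [LinearEquiv.mul_apply, LinearEquiv.mul_apply, hbx]
      have : g⁻¹ (g v) = v := g.symm_apply_apply v
      rw [this]; exact hv
    obtain ⟨σ, hσ⟩ := h2
    have h3 : Pres (fun i => (D i).map (g : V →ₗ[F] V)) b := by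
      refine ⟨σ, ?_⟩
      rintro a _ ⟨z, hz, rfl⟩
      refine ⟨(g⁻¹ * b * g) z, hσ a z hz, ?_⟩
      rw [LinearEquiv.coe_coe, LinearEquiv.mul_apply, LinearEquiv.mul_apply, ggi]
    exact hD'.comp_mem hk' hw0 hy0 hwy (hpair y hy hyne) h3 j
  have hsum : ∑ j, g (p j (g⁻¹ w)) = w := hD'.sum w
  obtain ⟨j, hj⟩ : ∃ j, g (p j (g⁻¹ w)) ≠ 0 := by
    by_contra hcon
    push Not at hcon
    apply hwne
    rw [← hsum]
    exact Finset.sum_eq_zero fun j _ => hcon j
  obtain ⟨a, ha⟩ := mem_of_two hli3 (hcomp w' hw' hwx' e1 j) (hcomp w'' hw'' hwx'' e2 j)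
  have ha0 : a ≠ 0 := by
    rintro rfl
    rw [zero_smul] at ha
    exact hj ha
  refine ⟨j, ?_⟩
  have h5 : g (p j (g⁻¹ w)) = g (a • g⁻¹ w) := by rw [ha, map_smul, ggi]
  have h6 : p j (g⁻¹ w) = a • g⁻¹ w := g.injective h5
  have h7 : a • g⁻¹ w ∈ D j := by rw [← h6]; exact H.h.mem j _
  exact ((D j).smul_mem_iff ha0).1 h7

/-- Part B for members of dimension at least four. -/
theorem partB4 (H : Hyp Q D p M) [Nontrivial ι] (h4 : ∀ i, 4 ≤ finrank F (D i)) {c : F} (hc : c ≠ 0)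
    (hstar : Star Q D M c) {g : V ≃ₗ[F] V} (hg : g ∈ M) : Pres D g := by
  have hgO := H.M_le hg
  obtain ⟨i, l, hil⟩ := exists_pair_ne ι
  obtain ⟨v, hv, hvc⟩ := rep H.two (H.nds i) (by have := h4 i; omega) c
  obtain ⟨w, hw, -, -, hw1, -, hw2, -, -⟩ := two_val H.two (H.nds i) (h4 i) (H.h.mem i (g v)) hc
  obtain ⟨w', hw', w'', hw'', a1, a2, a3, a4, a5⟩ :=
    two_val H.two (H.nds l) (h4 l) (H.h.mem l (g v)) hc
  obtain ⟨j, hj⟩ := mem_conj_of H hstar hg hv hvc hil.symm hw hw' hw'' (by rw [H.h.pl _ hw, hw1])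
    (by rw [H.h.pl _ hw', a1]) (by rw [H.h.pl _ hw'', a2]) (by rw [hw2]; exact hc)
    (by rw [a3, hw2]) (by rw [a4, hw2]) a5
  have h1 : Pres D g⁻¹ := hstar _ (M.inv_mem hg) i j w hw hw2 hj
  have := H.h.pres_inv h1
  rwa [inv_inv] at this

/-- The combination of the two parts. -/
theorem combine (H : Hyp Q D p M) (hM : M ≤ ⁅O Q, O Q⁆) {c : F} (hc : c ≠ 0)
    (hA : ∀ (M' : Subgroup (V ≃ₗ[F] V)), Hyp Q D p M' → ∀ (i₀ : ι) (u : V) (hu : Q u ≠ 0), u ∈ D i₀ →
      Q u = c → (∀ m ∈ M', refl Q u hu * m * (refl Q u hu)⁻¹ ∈ M') →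
      ∀ g ∈ M', ¬ Pres D g → ⁅O Q, O Q⁆ ≤ M')
    (hB : Star Q D M c → ∀ g ∈ M, Pres D g) {g : V ≃ₗ[F] V} (hg : g ∈ M) (hgp : ¬ Pres D g) :
    ⁅O Q, O Q⁆ ≤ M := by
  by_cases hstar : Star Q D M c
  · exact absurd (hB hstar g hg) hgp
  unfold Star at hstar
  push Not at hstar
  obtain ⟨m, hm, i, j, v, hv, hvc, hmv, hmp⟩ := hstar
  have hv0 : Q v ≠ 0 := by rw [hvc]; exact hc
  have hmO := H.M_le hm
  set r := refl Q v hv0 with hr
  have hrO : r ∈ O Q := refl_mem_O Q v hv0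
  have hrr : r * r = 1 := refl_sq Q v hv0
  have hri : r⁻¹ = r := refl_inv Q v hv0
  let M₀ : Subgroup (V ≃ₗ[F] V) := M ⊓ M.comap (MulAut.conj r).toMonoidHom
  have hM₀ : ∀ x, x ∈ M₀ ↔ x ∈ M ∧ r * x * r⁻¹ ∈ M := fun x => Iff.rfl
  have H₀ : Hyp Q D p M₀ :=
    { two := H.two
      hQ := H.hQ
      hn := H.hn
      h := H.h
      hk := H.hk
      iso := H.iso
      M_le := fun x hx => H.M_le hx.1
      H_le := fun x hx hxp => by
        refine (hM₀ x).2 ⟨H.H_le x hx hxp, H.H_le _ (omega_conj hrO hx) ?_⟩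
        have hrp : Pres D r := H.h.pres_refl hv hv0
        exact H.h.pres_mul (H.h.pres_mul hrp hxp) (H.h.pres_inv hrp) }
  have hmv0 : Q (m v) ≠ 0 := by rw [hmO]; exact hv0
  have hmM₀ : m ∈ M₀ := by
    refine (hM₀ m).2 ⟨hm, ?_⟩
    have e1 : m * r * m⁻¹ = refl Q (m v) hmv0 := refl_conj hv0 hmO hmv0
    have e2 : r * m * r⁻¹ = r * refl Q (m v) hmv0 * m := by
      rw [← e1, hri]; group
    rw [e2]
    exact M.mul_mem (H.dbl_mem hv hmv hv0 hmv0 (by rw [hmO])) hm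
  have hnorm : ∀ x ∈ M₀, r * x * r⁻¹ ∈ M₀ := by
    intro x hx
    obtain ⟨h1, h2⟩ := (hM₀ x).1 hx
    refine (hM₀ _).2 ⟨h2, ?_⟩
    have e : r * (r * x * r⁻¹) * r⁻¹ = x := by
      rw [hri]
      calc r * (r * x * r) * r = (r * r) * x * (r * r) := by group
        _ = x := by rw [hrr]; group
    rw [e]; exact h1
  exact (hA M₀ H₀ i v hv0 hv hvc hnorm m hmM₀ hmp).trans inf_le_left

end H95.OImp
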