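import Mathlib
import Cfsg.Agent.Lib.H95.OImp3

set_option autoImplicit false

/-!
Overgroups of stabilisers of orthogonal decompositions in orthogonal groups: the part which does
not depend on the characteristic.
-/

namespace H95.OIg

open Module QuadraticMap H48.QuadSplit H95.OGeo H17.OrthAbs H95.OSie H95.OQd H95.OSmall
open H95.OImp (refl_conj Rv Rv_refl exists_swap adj omega_conj refl_mul_sub)
open scoped commutatorElement

variable {F V : Type*} [Field F] [AddCommGroup V] [Module F V] {Q : QuadraticForm F V}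
  {ι : Type*} [Fintype ι] [DecidableEq ι] {D : ι → Submodule F V} {p : ι → V →ₗ[F] V}

/-- the standing hypotheses -/
structure HG (Q : QuadraticForm F V) (D : ι → Submodule F V) (p : ι → V →ₗ[F] V)
    (M : Subgroup (V ≃ₗ[F] V)) : Prop where
  hQ : ND Q
  hn : 9 ≤ finrank F V
  h : QD Q D p
  rep : ∀ i, ∀ e : F, e ≠ 0 → ∃ w ∈ D i, Q w = e
  iso : ∀ i j, ∃ e : D i ≃ₗ[F] D j, ∀ w : D i, Q (e w : V) = Q (w : V)
  M_le : M ≤ O Q
  H_le : ∀ g ∈ ⁅O Q, O Q⁆, Pres D g → g ∈ M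

variable {M : Subgroup (V ≃ₗ[F] V)} [FiniteDimensional F V] [Finite F]

namespace HG

lemma nds (H : HG Q D p M) (i : ι) : NDs Q (D i) := H.h.nd i

lemma sie_mem (H : HG Q D p M) {i : ι} {u y : V} (hu : u ∈ D i) (hy : y ∈ D i) (hu0 : Q u = 0)
    (huy : polar Q u y = 0) : sie Q u y ∈ M :=
  H.H_le _ (sie_mem_omega H.hQ H.hn hu0 huy) (H.h.pres_sie hu hy hu0 huy)

lemma dbl_mem (H : HG Q D p M) {i j : ι} {w w' : V} (hw : w ∈ D i) (hw' : w' ∈ D j)
    (h0 : Q w ≠ 0) (h0' : Q w' ≠ 0) (he : Q w = Q w') : refl Q w h0 * refl Q w' h0' ∈ M :=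
  H.H_le _ (H95.ONd.refl_mul_mem H.hQ H.hn h0 h0' he)
    (H.h.pres_mul (H.h.pres_refl hw h0) (H.h.pres_refl hw' h0'))

/-- an element of `M` exchanging two members up to an isometry and fixing all the others
pointwise -/
lemma swap_mem (H : HG Q D p M) {l m : ι} (hlm : l ≠ m) :
    ∃ π ∈ M, (∀ j, j ≠ l → j ≠ m → ∀ x ∈ D j, π x = x) ∧ (∀ x ∈ D m, π x ∈ D l) ∧
      ∀ x ∈ D l, π x ∈ D m := by
  obtain ⟨e, he⟩ := H.iso l m
  obtain ⟨g, hg, h1, h2, h3⟩ := exists_swap H.h hlm e he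
  obtain ⟨k, hk, hk1, hk2, hk3⟩ := adj H.hQ H.hn (U := D l) (g := g)
    (fun e he => H.rep l e he) hg
  have hkx : ∀ j, j ≠ l → ∀ x ∈ D j, k x = x := fun j hj x hx =>
    hk2 x fun u hu => H.h.orth l j hj.symm u hu x hx
  refine ⟨g * k, H.H_le _ hk3 ⟨Equiv.swap l m, fun j x hx => ?_⟩, fun j hjl hjm x hx => ?_,
    fun x hx => ?_, fun x hx => ?_⟩
  · rw [LinearEquiv.mul_apply]
    by_cases hj : j = l
    · subst hj
      rw [Equiv.swap_apply_left]
      exact h1 _ (hk1 x hx)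
    · rw [hkx j hj x hx]
      by_cases hj' : j = m
      · subst hj'
        rw [Equiv.swap_apply_right]
        exact h2 x hx
      · rw [Equiv.swap_apply_of_ne_of_ne hj hj', h3 j hj hj' x hx]; exact hx
  · rw [LinearEquiv.mul_apply, hkx j hjl x hx, h3 j hjl hjm x hx]
  · rw [LinearEquiv.mul_apply, hkx m hlm.symm x hx]; exact h2 x hx
  · rw [LinearEquiv.mul_apply]; exact h1 _ (hk1 x hx)

omit [Finite F] [FiniteDimensional F V] in
lemma finrank_iso (H : HG Q D p M) (i j : ι) : finrank F (D i) = finrank F (D j) := by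
  obtain ⟨e, -⟩ := H.iso i j
  exact e.finrank_eq

/-- a map sending each member into a member permutes the members -/
lemma pres_of_all (H : HG Q D p M) (hpos : ∀ i, ∃ x ∈ D i, x ≠ 0) {g : V ≃ₗ[F] V}
    (key : ∀ i, ∃ j, ∀ x ∈ D i, g x ∈ D j) : Pres D g := by
  choose f hf using key
  have hinj : Function.Injective f := by
    intro a b hab
    by_contra hne
    have hmap : ∀ i, (D i).map (g : V →ₗ[F] V) = D (f i) := by
      intro i
      apply Submodule.eq_of_le_of_finrank_eq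
      · rintro _ ⟨x, hx, rfl⟩; exact hf i x hx
      · rw [LinearEquiv.finrank_map_eq]; exact H.finrank_iso _ _
    obtain ⟨x, hx, hx0⟩ := hpos a
    have h1 : g x ∈ (D b).map (g : V →ₗ[F] V) := by
      rw [hmap b, ← hab]; exact hf a x hx
    obtain ⟨y, hy, hyx⟩ := h1
    have : y = x := g.injective hyx
    exact hx0 (H.h.disj hne hx (this ▸ hy))
  exact ⟨Equiv.ofBijective f (Finite.injective_iff_bijective.1 hinj), hf⟩

/-! ### Vectors whose reflection is congruent to a normalising one -/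

variable {u : V} {hu : Q u ≠ 0}

lemma Rv_map (H : HG Q D p M) (hn : ∀ m ∈ M, refl Q u hu * m * (refl Q u hu)⁻¹ ∈ M) {m : V ≃ₗ[F] V}
    (hm : m ∈ M) {v : V} (hv : Rv Q M hu v) : Rv Q M hu (m v) := by
  obtain ⟨h1, h2, h3⟩ := hv
  have hmO := H.M_le hm
  have h4 : Q (m v) ≠ 0 := by rw [hmO]; exact h1
  refine ⟨h4, by rw [hmO, h2], ?_⟩
  rw [← refl_conj h1 hmO h4]
  have e : m * refl Q v h1 * m⁻¹ * refl Q u hu =
      m * (refl Q v h1 * refl Q u hu) * ((refl Q u hu) * m⁻¹ * (refl Q u hu)⁻¹) := by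
    have e1 : (refl Q u hu) * (refl Q u hu) = 1 := refl_sq Q u hu
    rw [refl_inv]
    calc m * refl Q v h1 * m⁻¹ * refl Q u hu = m * refl Q v h1 * 1 * m⁻¹ * refl Q u hu := by group
      _ = _ := by rw [← e1]; group
  rw [e]
  exact M.mul_mem (M.mul_mem hm h3) (hn _ (M.inv_mem hm))

lemma Rv_hR (H : HG Q D p M) (hn : ∀ m ∈ M, refl Q u hu * m * (refl Q u hu)⁻¹ ∈ M) {x : V}
    (hx : Rv Q M hu x) (hx0 : Q x ≠ 0) : ∀ m ∈ M, ∀ h0 : Q (m x) ≠ 0,
      refl Q x hx0 * refl Q (m x) h0 ∈ M := by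
  intro m hm h0
  obtain ⟨h1, h2, h3⟩ := hx
  obtain ⟨h4, h5, h6⟩ := H.Rv_map hn hm ⟨h1, h2, h3⟩
  have h7 := M.mul_mem h3 (M.inv_mem h6)
  rw [mul_inv_rev, refl_inv, refl_inv] at h7
  have e1 : (refl Q u hu) * (refl Q u hu) = 1 := refl_sq Q u hu
  have e : refl Q x h1 * refl Q u hu * (refl Q u hu * refl Q (m x) h4) =
      refl Q x hx0 * refl Q (m x) h0 := by
    calc refl Q x h1 * refl Q u hu * (refl Q u hu * refl Q (m x) h4) =
        refl Q x h1 * (refl Q u hu * refl Q u hu) * refl Q (m x) h4 := by group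
      _ = _ := by rw [e1, mul_one]
  rwa [e] at h7

lemma Rv_mem (H : HG Q D p M) {i₀ i : ι} (hu' : u ∈ D i₀) {v : V} (hv : v ∈ D i) (hvu : Q v = Q u) :
    Rv Q M hu v :=
  ⟨by rw [hvu]; exact hu, hvu, H.dbl_mem hv hu' (by rw [hvu]; exact hu) hu hvu⟩

omit [FiniteDimensional F V] [Finite F] in
/-- two good vectors -/
lemma Rv_two {x y : V} (hx : Rv Q M hu x) (hy : Rv Q M hu y) (hx0 : Q x ≠ 0) (hy0 : Q y ≠ 0) :
    refl Q x hx0 * refl Q y hy0 ∈ M := by
  obtain ⟨h1, h2, h3⟩ := hx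
  obtain ⟨h4, h5, h6⟩ := hy
  have h7 := M.mul_mem h3 (M.inv_mem h6)
  rw [mul_inv_rev, refl_inv, refl_inv] at h7
  have e1 : (refl Q u hu) * (refl Q u hu) = 1 := refl_sq Q u hu
  have e : refl Q x h1 * refl Q u hu * (refl Q u hu * refl Q y h4) =
      refl Q x hx0 * refl Q y hy0 := by
    calc refl Q x h1 * refl Q u hu * (refl Q u hu * refl Q y h4) =
        refl Q x h1 * (refl Q u hu * refl Q u hu) * refl Q y h4 := by group
      _ = _ := by rw [e1, mul_one]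
  rwa [e] at h7

end HG

/-- the second condition -/
def Star (Q : QuadraticForm F V) (D : ι → Submodule F V) (M : Subgroup (V ≃ₗ[F] V)) (c : F) : Prop :=
  ∀ m ∈ M, ∀ i j, ∀ v ∈ D i, Q v = c → m v ∈ D j → Pres D m

/-- The combination of the two parts. -/
theorem combine (H : HG Q D p M) {c : F} (hc : c ≠ 0)
    (hA : ∀ (M' : Subgroup (V ≃ₗ[F] V)), HG Q D p M' → ∀ (i₀ : ι) (u : V) (hu : Q u ≠ 0), u ∈ D i₀ →
      Q u = c → (∀ m ∈ M', refl Q u hu * m * (refl Q u hu)⁻¹ ∈ M') →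
      ∀ g ∈ M', ¬ Pres D g → ⁅O Q, O Q⁆ ≤ M') : Star Q D M c ∨ ⁅O Q, O Q⁆ ≤ M := by
  by_cases hstar : Star Q D M c
  · exact Or.inl hstar
  right
  unfold Star at hstar
  push Not at hstar
  obtain ⟨m, hm, i, j, v, hv, hvc, hmv, hmp⟩ := hstar
  have hv0 : Q v ≠ 0 := by rw [hvc]; exact hc
  have hmO := H.M_le hm
  set r := refl Q v hv0 with hr
  have hrO : r ∈ O Q := refl_mem_O Q v hv0
  have hrr : r * r = 1 := refl_sq Q v hv0
  have hri : r⁻¹ = r := refl_inv Q v hv0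
  let M₀ : Subgroup (V ≃ₗ[F] V) := M ⊓ M.comap (MulAut.conj r).toMonoidHom
  have hM₀ : ∀ x, x ∈ M₀ ↔ x ∈ M ∧ r * x * r⁻¹ ∈ M := fun x => Iff.rfl
  have H₀ : HG Q D p M₀ :=
    { hQ := H.hQ
      hn := H.hn
      h := H.h
      rep := H.rep
      iso := H.iso
      M_le := fun x hx => H.M_le hx.1
      H_le := fun x hx hxp => by
        refine (hM₀ x).2 ⟨H.H_le x hx hxp, H.H_le _ (omega_conj hrO hx) ?_⟩
        have hrp : Pres D r := H.h.pres_refl hv hv0
        exact H.h.pres_mul (H.h.pres_mul hrp hxp) (H.h.pres_inv hrp) }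
  have hmv0 : Q (m v) ≠ 0 := by rw [hmO]; exact hv0
  have hmM₀ : m ∈ M₀ := by
    refine (hM₀ m).2 ⟨hm, ?_⟩
    have e1 : m * r * m⁻¹ = refl Q (m v) hmv0 := refl_conj hv0 hmO hmv0
    have e2 : r * m * r⁻¹ = r * refl Q (m v) hmv0 * m := by
      rw [← e1, hri]; group
    rw [e2]
    exact M.mul_mem (H.dbl_mem hv hmv hv0 hmv0 (by rw [hmO])) hm
  have hnorm : ∀ x ∈ M₀, r * x * r⁻¹ ∈ M₀ := by
    intro x hx
    obtain ⟨h1, h2⟩ := (hM₀ x).1 hx
    refine (hM₀ _).2 ⟨h2, ?_⟩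
    have e : r * (r * x * r⁻¹) * r⁻¹ = x := by
      rw [hri]
      calc r * (r * x * r) * r = (r * r) * x * (r * r) := by group
        _ = x := by rw [hrr]; group
    rw [e]; exact h1
  exact (hA M₀ H₀ i v hv0 hv hvc hnorm m hmM₀ hmp).trans inf_le_left

/-! ### The space of good vectors of a singular vector -/

/-- the set of `z` orthogonal to `s` with `sie s z ∈ M`, an additive subgroup -/
def SA (Q : QuadraticForm F V) (M : Subgroup (V ≃ₗ[F] V)) {s : V} (hs : Q s = 0) : AddSubgroup V where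
  carrier := {z | polar Q s z = 0 ∧ sie Q s z ∈ M}
  add_mem' := by
    rintro a b ⟨h1, h2⟩ ⟨h3, h4⟩
    refine ⟨by rw [p_add', h1, h3, add_zero], ?_⟩
    rw [← sie_mul hs h1 h3]
    exact M.mul_mem h2 h4
  zero_mem' := by
    refine ⟨p_zero' _ _, ?_⟩
    rw [sie_zero hs]; exact M.one_mem
  neg_mem' := by
    rintro a ⟨h1, h2⟩
    refine ⟨by rw [p_neg', h1, neg_zero], ?_⟩
    rw [← sie_inv hs h1]
    exact M.inv_mem h2

omit [FiniteDimensional F V] [Finite F] in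
lemma mem_SA {s : V} (hs : Q s = 0) {z : V} : z ∈ SA Q M hs ↔ polar Q s z = 0 ∧ sie Q s z ∈ M :=
  Iff.rfl

omit [FiniteDimensional F V] [Finite F] in
lemma SA_comm {s : V} (hs : Q s = 0) (hM : M ≤ O Q) {z : V} (hz : z ∈ SA Q M hs) {g : V ≃ₗ[F] V}
    (hg : g ∈ M) (hgs : g s = s) : g z - z ∈ SA Q M hs := by
  obtain ⟨h1, h2⟩ := (mem_SA hs).1 hz
  refine (mem_SA hs).2 ⟨?_, comm_stab hs h1 h2 hg (hM hg) hgs⟩
  have := polar_map (hM hg) s z
  rw [hgs, h1] at this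
  rw [p_sub', this, h1, sub_zero]

omit [FiniteDimensional F V] [Finite F] in
lemma SA_map {s : V} (hs : Q s = 0) (hM : M ≤ O Q) {z : V} (hz : z ∈ SA Q M hs) {g : V ≃ₗ[F] V}
    (hg : g ∈ M) (hgs : g s = s) : g z ∈ SA Q M hs := by
  have := (SA Q M hs).add_mem (SA_comm hs hM hz hg hgs) hz
  rwa [sub_add_cancel] at this

omit [FiniteDimensional F V] [Finite F] in
lemma SA_self {s : V} (hs : Q s = 0) (c : F) : c • s ∈ SA Q M hs := by
  refine (mem_SA hs).2 ⟨by rw [p_smul', p_self, hs]; ring, ?_⟩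
  have h1 := sie_add_u hs (p_zero' Q s) c
  rw [zero_add, sie_zero hs] at h1
  rw [h1]; exact M.one_mem

end H95.OIg
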