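import Mathlib
import Cfsg.Agent.Lib.H95.OIg

set_option autoImplicit false

/-!
Overgroups of stabilisers of orthogonal decompositions in orthogonal groups: members of dimension
at least four, in particular in characteristic two.
-/

namespace H95.OIe

open Module QuadraticMap H48.QuadSplit H95.OGeo H17.OrthAbs H95.OSie H95.OQd H95.OSmall H95.OIg
open H95.OImp (refl_conj Rv Rv_refl exists_swap adj omega_conj refl_mul_sub)
open scoped commutatorElement

variable {F V : Type*} [Field F] [AddCommGroup V] [Module F V] {Q : QuadraticForm F V}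
  [FiniteDimensional F V]

lemma pc_rank' {U : Submodule F V} {a : V} {k : ℕ} (h : k + 1 ≤ finrank F U) :
    k ≤ finrank F (pc Q U a) := by
  have := pc_rank (Q := Q) U a
  omega

/-- the radical of the orthogonal of a vector -/
lemma pc_rad {U : Submodule F V} (hU : NDs Q U) {x y : V} (hy : y ∈ U)
    (h : ∀ z ∈ pc Q U x, polar Q y z = 0) (hx : x ∈ U) : y ∈ Submodule.span F {x} := by
  by_contra hcon
  obtain ⟨z, hz, hz', hz''⟩ := sepU hU hy hcon
  exact hz'' (h z (mem_pc.2 ⟨hz, hz' x (Submodule.mem_span_singleton_self x) hx⟩))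

omit [FiniteDimensional F V] in
lemma span_le_one (x : V) : finrank F (Submodule.span F {x}) ≤ 1 := by
  have := finrank_span_le_card (R := F) ({x} : Set V)
  simpa using this

/-- two non-orthogonal vectors in the orthogonal of a vector -/
lemma pc_pair {U : Submodule F V} (hU : NDs Q U) (h3 : 3 ≤ finrank F U) {x : V} (hx : x ∈ U) :
    ∃ y ∈ pc Q U x, ∃ y' ∈ pc Q U x, polar Q y y' ≠ 0 := by
  by_contra hcon
  push Not at hcon
  have h1 : pc Q U x ≤ Submodule.span F {x} := fun y hy =>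
    pc_rad hU (mem_pc.1 hy).1 (fun z hz => hcon y hy z hz) hx
  have h2 := Submodule.finrank_mono h1
  have h3 := span_le_one (F := F) x
  have h4 := pc_rank (Q := Q) U x
  omega

/-- a nonsingular vector in the orthogonal of a vector -/
lemma pc_ns {U : Submodule F V} (hU : NDs Q U) (h3 : 3 ≤ finrank F U) {x : V} (hx : x ∈ U) :
    ∃ y ∈ pc Q U x, Q y ≠ 0 := by
  obtain ⟨y, hy, y', hy', h⟩ := pc_pair hU h3 hx
  by_contra hcon
  push Not at hcon
  exact h (iso_of_sing hcon hy hy')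

/-- singular vectors span -/
lemma sing_span {U : Submodule F V} (hU : NDs Q U) {s : V} (hs : s ∈ U) (hs0 : s ≠ 0)
    (hsQ : Q s = 0) (S : Submodule F V) (hS : ∀ z ∈ U, Q z = 0 → z ∈ S) : U ≤ S := by
  obtain ⟨t, ht, hts, htQ⟩ := partner_val hU hs hs0 hsQ 0
  have key : ∀ z ∈ U, polar Q s z = 0 → polar Q t z = 0 → z ∈ S := by
    intro z hz hsz htz
    have h1 : s + z - Q z • t ∈ S := by
      apply hS _ (U.sub_mem (U.add_mem hs hz) (U.smul_mem _ ht))
      rw [Q_sub, Q_add, Q_smul, p_smul', p_add, hsQ, htQ, hsz, p_comm Q z t, htz, p_comm Q s t, hts]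
      ring
    have h2 := S.add_mem (S.sub_mem h1 (hS s hs hsQ)) (S.smul_mem (Q z) (hS t ht htQ))
    have e : s + z - Q z • t - s + Q z • t = z := by abel
    rwa [e] at h2
  intro z hz
  have h1 : z - polar Q z t • s - polar Q z s • t ∈ S := by
    apply key _ (U.sub_mem (U.sub_mem hz (U.smul_mem _ hs)) (U.smul_mem _ ht))
    · rw [p_sub', p_sub', p_smul', p_smul', p_self, hsQ, p_comm Q s t, hts, p_comm Q s z]; ring
    · rw [p_sub', p_sub', p_smul', p_smul', p_self, htQ, hts, p_comm Q t z]; ring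
  have h2 := S.add_mem (S.add_mem h1 (S.smul_mem (polar Q z s) (hS t ht htQ)))
    (S.smul_mem (polar Q z t) (hS s hs hsQ))
  have e : z - polar Q z t • s - polar Q z s • t + polar Q z s • t + polar Q z t • s = z := by abel
  rwa [e] at h2

variable [Finite F]

/-- relative irreducibility -/
lemma irr {U W : Submodule F V} (hU : NDs Q U) (h4 : 4 ≤ finrank F U) {x : V}
    (hx : ∃ u ∈ U, polar Q x u ≠ 0)
    (hW : ∀ u ∈ U, ∀ y ∈ U, Q u = 0 → polar Q u y = 0 →
      polar Q x u • y - (polar Q x y + Q y * polar Q x u) • u ∈ W) : U ≤ W := by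
  -- singular vectors not orthogonal to x
  have key : ∀ u ∈ U, Q u = 0 → polar Q x u ≠ 0 → ∀ y ∈ U, polar Q u y = 0 → y ∈ W := by
    intro u hu hu0 hxu
    obtain ⟨y, hy, y', hy', hyy⟩ := pc_pair hU (by omega) hu
    obtain ⟨hyU, hyu⟩ := mem_pc.1 hy
    obtain ⟨hyU', hyu'⟩ := mem_pc.1 hy'
    have e1 := hW u hu y hyU hu0 hyu
    have e2 := hW u hu y' hyU' hu0 hyu'
    have e3 := hW u hu (y + y') (U.add_mem hyU hyU') hu0 (by rw [p_add', hyu, hyu', add_zero])
    have e4 := W.sub_mem e3 (W.add_mem e1 e2)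
    rw [Q_add, p_add'] at e4
    have e5 : polar Q x u • (y + y') - (polar Q x y + polar Q x y' +
        (Q y + Q y' + polar Q y y') * polar Q x u) • u -
        (polar Q x u • y - (polar Q x y + Q y * polar Q x u) • u +
          (polar Q x u • y' - (polar Q x y' + Q y' * polar Q x u) • u)) =
        (-(polar Q y y' * polar Q x u)) • u := by module
    rw [e5] at e4
    have huW : u ∈ W := (W.smul_mem_iff (neg_ne_zero.2 (mul_ne_zero hyy hxu))).1 e4
    intro z hz hzu
    have e5 := hW u hu z hz hu0 hzu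
    have e6 := W.add_mem e5 (W.smul_mem (polar Q x z + Q z * polar Q x u) huW)
    rw [sub_add_cancel] at e6
    exact (W.smul_mem_iff hxu).1 e6
  -- a singular vector not orthogonal to x
  obtain ⟨u, hu, hu0, hxu⟩ : ∃ u ∈ U, Q u = 0 ∧ polar Q x u ≠ 0 := by
    by_contra hcon
    push Not at hcon
    obtain ⟨v, hv, hv'⟩ := hx
    obtain ⟨s, hs, hs0, hsQ⟩ := OGeo.exists_sing Q (U := U) (by omega)
    have := sing_span hU hs hs0 hsQ (LinearMap.ker (bl Q x)) (fun w hw hw0 => hcon w hw hw0) hv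
    exact hv' this
  have hune : u ≠ 0 := by rintro rfl; rw [p_zero'] at hxu; exact hxu rfl
  obtain ⟨v, hv, hvu, hv0⟩ := partner_val hU hu hune hu0 0
  obtain ⟨u', hu', hu'0, hxu', huu'⟩ : ∃ u' ∈ U, Q u' = 0 ∧ polar Q x u' ≠ 0 ∧ polar Q u u' ≠ 0 := by
    by_cases hxv : polar Q x v = 0
    · by_contra hcon
      push Not at hcon
      have hT : ∀ t ∈ U, polar Q u t = 0 → polar Q v t = 0 → polar Q x t = Q t * polar Q x u := by
        intro t ht hut hvt
        by_contra hne
        have hm : v + t - Q t • u ∈ U := U.sub_mem (U.add_mem hv ht) (U.smul_mem _ hu)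
        have h1 : Q (v + t - Q t • u) = 0 := by
          rw [Q_sub, Q_add, Q_smul, hv0, hu0, p_smul', p_add, hvt, hvu, p_comm Q t u, hut]; ring
        have h2 : polar Q u (v + t - Q t • u) = 1 := by
          rw [p_sub', p_add', p_smul', p_self, hu0, hut, p_comm Q u v, hvu]; ring
        have h3 : polar Q x (v + t - Q t • u) = polar Q x t - Q t * polar Q x u := by
          rw [p_sub', p_add', p_smul', hxv]; ring
        have h4 := hcon _ hm h1 (by rw [h3]; exact sub_ne_zero.2 hne)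
        rw [h2] at h4
        exact one_ne_zero h4
      have hTT : ∀ t ∈ U, polar Q u t = 0 → polar Q v t = 0 → ∀ t' ∈ U, polar Q u t' = 0 →
          polar Q v t' = 0 → polar Q t t' = 0 := by
        intro t ht h1 h2 t' ht' h3 h4
        have h5 := hT _ (U.add_mem ht ht') (by rw [p_add', h1, h3, add_zero])
          (by rw [p_add', h2, h4, add_zero])
        rw [p_add', hT t ht h1 h2, hT t' ht' h3 h4, Q_add] at h5
        have h6 : polar Q t t' * polar Q x u = 0 := by linear_combination -h5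
        exact (mul_eq_zero.1 h6).resolve_right hxu
      have hr := pc_rank (Q := Q) U u
      have hr' := pc_rank (Q := Q) (pc Q U u) v
      obtain ⟨t, ht, ht0⟩ := ex_ne (U := pc Q (pc Q U u) v) (by omega)
      obtain ⟨ht1, hvt⟩ := mem_pc.1 ht
      obtain ⟨htU, hut⟩ := mem_pc.1 ht1
      apply ht0
      apply hU t htU
      intro w hw
      have h7 := hTT t htU hut hvt (w - polar Q w v • u - polar Q w u • v)
        (U.sub_mem (U.sub_mem hw (U.smul_mem _ hu)) (U.smul_mem _ hv))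
        (by rw [p_sub', p_sub', p_smul', p_smul', p_self, hu0, p_comm Q u v, hvu, p_comm Q u w]; ring)
        (by rw [p_sub', p_sub', p_smul', p_smul', p_self, hv0, hvu, p_comm Q v w]; ring)
      rwa [p_sub', p_sub', p_smul', p_smul', p_comm Q t u, p_comm Q t v, hut, hvt, mul_zero,
        mul_zero, sub_zero, sub_zero] at h7
    · exact ⟨v, hv, hv0, hxv, by rw [p_comm, hvu]; exact one_ne_zero⟩
  have hu'W : u' ∈ W := key u' hu' hu'0 hxu' u' hu' (by rw [p_self, hu'0, mul_zero])
  intro z hz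
  have h7 : z - (polar Q u z / polar Q u u') • u' ∈ W := by
    apply key u hu hu0 hxu _ (U.sub_mem hz (U.smul_mem _ hu'))
    rw [p_sub', p_smul', div_mul_cancel₀ _ huu', sub_self]
  have h8 := W.add_mem h7 (W.smul_mem (polar Q u z / polar Q u u') hu'W)
  rwa [sub_add_cancel] at h8

variable {ι : Type*} [Fintype ι] [DecidableEq ι] {D : ι → Submodule F V} {p : ι → V →ₗ[F] V}
  {M : Subgroup (V ≃ₗ[F] V)}

/-- The end of the argument: a full vector in a member of the decomposition suffices. -/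
theorem omega_of_full (H : HG Q D p M) {s : V} {i l : ι} (hs : s ∈ D i) (hs0 : s ≠ 0)
    (hil : l ≠ i) (hfull : Full Q M s) : ⁅O Q, O Q⁆ ≤ M := by
  have hsQ := hfull.1
  obtain ⟨s', hs', hss', hs'Q⟩ := partner_val (H.nds i) hs hs0 hsQ 0
  have hQu : Q (s - s') = -1 := by
    rw [Q_sub, hsQ, hs'Q, p_comm, hss']; ring
  have hu0 : Q (s - s') ≠ 0 := by rw [hQu]; exact neg_ne_zero.2 one_ne_zero
  obtain ⟨e, he⟩ := H.iso i l
  have hdi : s - s' ∈ D i := (D i).sub_mem hs hs'
  have hQw : Q (e ⟨s - s', hdi⟩ : V) = Q (s - s') := he _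
  have hw0 : Q (e ⟨s - s', hdi⟩ : V) ≠ 0 := by rw [hQw]; exact hu0
  have hg := H.dbl_mem hdi (e ⟨s - s', hdi⟩).2 hu0 hw0 hQw.symm
  have hgs : (refl Q (s - s') hu0 * refl Q (e ⟨s - s', hdi⟩ : V) hw0) s = s' := by
    rw [LinearEquiv.mul_apply, refl_apply Q (e ⟨s - s', hdi⟩ : V), H.h.orth l i hil _
      (e ⟨s - s', hdi⟩).2 s hs, mul_zero, zero_smul, sub_zero, refl_apply, p_sub, p_self, hsQ, hss',
      hQu]
    have : ((-1 : F))⁻¹ * (2 * 0 - 1) = 1 := by
      rw [inv_neg, inv_one]; ring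
    rw [this, one_smul]; abel
  have hfull' := hfull.map hg (H.M_le hg)
  rw [hgs] at hfull'
  exact omega_le_of_full H.hQ (by have := H.hn; omega) hfull hfull' (by rw [hss']; exact one_ne_zero)

/-- From Siegel elements to everything. -/
theorem omega_of_sie (H : HG Q D p M) (h4 : ∀ i, 4 ≤ finrank F (D i)) {x s : V} {i l : ι}
    (hs : s ∈ D i) (hs0 : s ≠ 0)
    (hsQ : Q s = 0) (hsx : polar Q s x = 0) (hil : l ≠ i) (hl : p l x ≠ 0)
    (hM : ∀ c : F, sie Q s (c • x) ∈ M) : ⁅O Q, O Q⁆ ≤ M := by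
  -- the set of good vectors
  let S : Submodule F V :=
    { carrier := {y | polar Q s y = 0 ∧ ∀ c : F, sie Q s (c • y) ∈ M}
      add_mem' := by
        rintro a b ⟨h1, h2⟩ ⟨h3, h4⟩
        refine ⟨by rw [p_add', h1, h3, add_zero], fun c => ?_⟩
        rw [smul_add, ← sie_mul hsQ (by rw [p_smul', h1, mul_zero]) (by rw [p_smul', h3, mul_zero])]
        exact M.mul_mem (h2 c) (h4 c)
      zero_mem' := by
        refine ⟨p_zero' _ _, fun c => ?_⟩
        rw [smul_zero, sie_zero hsQ]; exact M.one_mem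
      smul_mem' := by
        rintro c a ⟨h1, h2⟩
        refine ⟨by rw [p_smul', h1, mul_zero], fun d => ?_⟩
        rw [smul_smul]; exact h2 _ }
  have hcomm : ∀ y ∈ S, ∀ g ∈ M, g s = s → g y - y ∈ S := by
    rintro y ⟨h1, h2⟩ g hg hgs
    refine ⟨?_, fun c => ?_⟩
    · have := polar_map (H.M_le hg) s y
      rw [hgs, h1] at this
      rw [p_sub', this, h1, sub_zero]
    · have h3 := comm_stab hsQ (by rw [p_smul', h1, mul_zero]) (h2 c) hg (H.M_le hg) hgs
      rwa [map_smul, ← smul_sub] at h3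
  have hxS : x ∈ S := ⟨hsx, hM⟩
  have hDl : D l ≤ S := by
    apply irr (H.nds l) (h4 l) (x := x)
    · by_contra hcon
      push Not at hcon
      exact hl (H.h.zero_iff.2 hcon)
    · intro u hu y hy hu0 huy
      have h1 := hcomm x hxS _ (H.sie_mem hu hy hu0 huy) (by
        rw [sie_apply hu0 huy, H.h.orth i l hil.symm s hs u hu, H.h.orth i l hil.symm s hs y hy]
        simp)
      rw [sie_apply hu0 huy] at h1
      have e : x + polar Q x u • y - polar Q x y • u - (Q y * polar Q x u) • u - x =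
        polar Q x u • y - (polar Q x y + Q y * polar Q x u) • u := by module
      rwa [e] at h1
  have hDi : ∀ y ∈ D i, polar Q s y = 0 → y ∈ S := fun y hy hsy =>
    ⟨hsy, fun c => H.sie_mem hs ((D i).smul_mem _ hy) hsQ (by rw [p_smul', hsy, mul_zero])⟩
  have hDm : ∀ m, m ≠ i → D m ≤ S := by
    intro m hm y hy
    by_cases hlm : l = m
    · subst hlm; exact hDl hy
    obtain ⟨π, hπ, h1, h2, -⟩ := H.swap_mem hlm
    have hπO := H.M_le hπ
    have hyS := hDl (h2 y hy)
    have hsi : π⁻¹ s = s := by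
      have := congrArg (π⁻¹ : V ≃ₗ[F] V) (h1 i hil.symm hm.symm s hs)
      rw [show π⁻¹ (π s) = s from π.symm_apply_apply s] at this
      exact this.symm
    refine ⟨H.h.orth i m hm.symm s hs y hy, fun c => ?_⟩
    have h3 := conj_mem' (M.inv_mem hπ) (hyS.2 c)
    rw [sie_conj hsQ (by rw [p_smul', hyS.1, mul_zero]) ((O Q).inv_mem hπO), hsi, map_smul,
      show π⁻¹ (π y) = y from π.symm_apply_apply y] at h3
    exact h3
  have hfull : Full Q M s := by
    refine ⟨hsQ, fun y hy => ?_⟩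
    have hyS : y ∈ S := by
      rw [← H.h.sum y]
      apply Submodule.sum_mem
      intro m _
      by_cases hm : m = i
      · subst hm
        exact hDi _ (H.h.mem _ _) (by rw [← H.h.pr y hs, hy])
      · exact hDm m hm (H.h.mem _ _)
    have := hyS.2 1
    rwa [one_smul] at this
  exact omega_of_full H hs hs0 hil hfull

/-- From a vector with the reflection property to everything. -/
theorem omega_of_vec (H : HG Q D p M) (h4 : ∀ i, 4 ≤ finrank F (D i)) {x s : V} (hx : Q x ≠ 0)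
    (hR : ∀ m ∈ M, ∀ h0 : Q (m x) ≠ 0, refl Q x hx * refl Q (m x) h0 ∈ M)
    {i l : ι} (hs : s ∈ D i) (hs0 : s ≠ 0) (hsQ : Q s = 0) (hsx : polar Q s x = 0)
    (hxs : p i x ∉ Submodule.span F {s}) (hil : l ≠ i) (hl : p l x ≠ 0) : ⁅O Q, O Q⁆ ≤ M := by
  obtain ⟨y, hy, hsy, hxy⟩ := sepU (H.nds i) (H.h.mem i x) hxs
  have hsy' : polar Q s y = 0 := hsy s (Submodule.mem_span_singleton_self s) hs
  rw [← H.h.pl x hy] at hxy
  refine omega_of_sie H h4 hs hs0 hsQ hsx hil hl fun c => ?_
  set μ := -(c * Q x) / polar Q x y with hμ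
  have hm := H.sie_mem hs ((D i).smul_mem μ hy) hsQ (by rw [p_smul', hsy', mul_zero])
  have hxs' : polar Q x s = 0 := by rw [p_comm, hsx]
  have e1 : sie Q s (μ • y) x = x - (-(c * Q x)) • s := by
    rw [sie_apply hsQ (by rw [p_smul', hsy', mul_zero]), hxs', p_smul', hμ, div_mul_cancel₀ _ hxy]
    simp
  have e2 : Q (x - (-(c * Q x)) • s) = Q x := by
    rw [Q_sub, Q_smul, hsQ, p_smul', hxs']; ring
  have h1 := hR _ hm (by rw [e1, e2]; exact hx)
  have h2 : refl Q x hx * refl Q (sie Q s (μ • y) x) (by rw [e1, e2]; exact hx) =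
      sie Q ((-(c * Q x)) • s) (-((Q x)⁻¹ • x)) := by
    have h3 := refl_mul_sub hx (s := (-(c * Q x)) • s) (by rw [Q_smul, hsQ, mul_zero])
      (by rw [p_smul', hxs', mul_zero]) (by rw [e2]; exact hx)
    rw [← h3]
    congr 1
    ext z
    rw [refl_apply, refl_apply, e1]
  rw [h2, sie_smul hsQ (by rw [p_neg', p_smul', hsx, mul_zero, neg_zero]), smul_neg, smul_smul,
    ← neg_smul] at h1
  have e3 : -(-(c * Q x) * (Q x)⁻¹) = c := by field_simp
  rwa [e3] at h1

/-- A vector of a member orthogonal to a vector of another good decomposition lies in a member of it. -/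
lemma mem_conj_of (H : HG Q D p M) (hk : ∀ i, 3 ≤ finrank F (D i)) {c : F} (hstar : Star Q D M c)
    {g : V ≃ₗ[F] V} (hg : g ∈ M)
    {i₀ : ι} {v : V} (hv : v ∈ D i₀) (hvc : Q v = c) {i l : ι} (hil : l ≠ i) {w w' w'' : V}
    (hw : w ∈ D i) (hw' : w' ∈ D l) (hw'' : w'' ∈ D l) (hwx : polar Q (g v) w = 0)
    (hwx' : polar Q (g v) w' = 0) (hwx'' : polar Q (g v) w'' = 0) (hw0 : Q w ≠ 0)
    (e1 : Q w' = Q w) (e2 : Q w'' = Q w) (hli : LinearIndependent F ![w', w'']) :
    ∃ j, g⁻¹ w ∈ D j := by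
  have hgO := H.M_le hg
  have ggi : ∀ x, g (g⁻¹ x) = x := fun x => g.apply_symm_apply x
  have hD' := H.h.conj hgO
  have hk' : ∀ i, 3 ≤ finrank F ((D i).map (g : V →ₗ[F] V)) := fun i => by
    rw [LinearEquiv.finrank_map_eq]; exact hk i
  have hwne : w ≠ 0 := by rintro rfl; exact hw0 (QuadraticMap.map_zero Q)
  have hli3 : LinearIndependent F ![w, w', w''] := by
    rw [Fintype.linearIndependent_iff]
    intro a ha
    rw [Fin.sum_univ_three] at ha
    have ha' : a 0 • w + a 1 • w' + a 2 • w'' = 0 := ha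
    have h1 := congrArg (p i) ha'
    rw [map_add, map_add, map_smul, map_smul, map_smul, H.h.self i w hw, H.h.other i l hil.symm _ hw',
      H.h.other i l hil.symm _ hw'', smul_zero, smul_zero, add_zero, add_zero, map_zero] at h1
    have h2 : a 0 = 0 := (smul_eq_zero.1 h1).resolve_right hwne
    rw [h2, zero_smul, zero_add] at ha'
    obtain ⟨h3, h4⟩ := LinearIndependent.pair_iff.1 hli _ _ ha'
    intro k
    fin_cases k
    · exact h2
    · exact h3
    · exact h4
  have hpair : ∀ y ∈ D l, y ≠ 0 → LinearIndependent F ![w, y] := by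
    intro y hy hy0
    rw [LinearIndependent.pair_iff]
    intro a b hab
    have h1 := congrArg (p i) hab
    rw [map_add, map_smul, map_smul, H.h.self i w hw, H.h.other i l hil.symm _ hy, smul_zero, add_zero,
      map_zero] at h1
    have h2 : a = 0 := (smul_eq_zero.1 h1).resolve_right hwne
    rw [h2, zero_smul, zero_add] at hab
    exact ⟨h2, (smul_eq_zero.1 hab).resolve_right hy0⟩
  have hcomp : ∀ y ∈ D l, polar Q (g v) y = 0 → Q y = Q w → ∀ j,
      g (p j (g⁻¹ w)) ∈ Submodule.span F {w, y} := by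
    intro y hy hyx hyQ j
    have hy0 : Q y ≠ 0 := by rw [hyQ]; exact hw0
    have hyne : y ≠ 0 := by rintro rfl; exact hy0 (QuadraticMap.map_zero Q)
    have hwy : polar Q w y = 0 := H.h.orth i l hil.symm w hw y hy
    have hb := H.dbl_mem hw hy hw0 hy0 hyQ.symm
    set b := refl Q w hw0 * refl Q y hy0 with hbd
    have hbx : b (g v) = g v := by
      rw [hbd, dbl_apply hw0 hy0 hwy, hwx, hyx]; simp
    have h1 : g⁻¹ * b * g ∈ M := M.mul_mem (M.mul_mem (M.inv_mem hg) hb) hg
    have h2 : Pres D (g⁻¹ * b * g) := by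
      apply hstar _ h1 i₀ i₀ v hv hvc
      rw [LinearEquiv.mul_apply, LinearEquiv.mul_apply, hbx]
      have : g⁻¹ (g v) = v := g.symm_apply_apply v
      rw [this]; exact hv
    obtain ⟨σ, hσ⟩ := h2
    have h3 : Pres (fun i => (D i).map (g : V →ₗ[F] V)) b := by
      refine ⟨σ, ?_⟩
      rintro a _ ⟨z, hz, rfl⟩
      refine ⟨(g⁻¹ * b * g) z, hσ a z hz, ?_⟩
      rw [LinearEquiv.coe_coe, LinearEquiv.mul_apply, LinearEquiv.mul_apply, ggi]
    exact hD'.comp_mem hk' hw0 hy0 hwy (hpair y hy hyne) h3 j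
  have hsum : ∑ j, g (p j (g⁻¹ w)) = w := hD'.sum w
  obtain ⟨j, hj⟩ : ∃ j, g (p j (g⁻¹ w)) ≠ 0 := by
    by_contra hcon
    push Not at hcon
    apply hwne
    rw [← hsum]
    exact Finset.sum_eq_zero fun j _ => hcon j
  obtain ⟨a, ha⟩ := mem_of_two hli3 (hcomp w' hw' hwx' e1 j) (hcomp w'' hw'' hwx'' e2 j)
  have ha0 : a ≠ 0 := by
    rintro rfl
    rw [zero_smul] at ha
    exact hj ha
  refine ⟨j, ?_⟩
  have h5 : g (p j (g⁻¹ w)) = g (a • g⁻¹ w) := by rw [ha, map_smul, ggi]
  have h6 : p j (g⁻¹ w) = a • g⁻¹ w := g.injective h5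
  have h7 : a • g⁻¹ w ∈ D j := by rw [← h6]; exact H.h.mem j _
  exact ((D j).smul_mem_iff ha0).1 h7

/-- some element of `Ω` does not permute the members -/
theorem exists_not_pres (H : HG Q D p M) {i l : ι} (hil : i ≠ l) {s : V} (hs : s ∈ D i)
    (hs0 : s ≠ 0) (hsQ : Q s = 0) : ∃ g ∈ ⁅O Q, O Q⁆, ¬ Pres D g := by
  obtain ⟨y, hy, hy1⟩ := H.rep l 1 one_ne_zero
  have hy0 : Q y ≠ 0 := by rw [hy1]; exact one_ne_zero
  obtain ⟨x, hx, hxs⟩ := partner (H.nds i) hs hs0
  have hsy : polar Q s y = 0 := H.h.orth i l hil s hs y hy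
  refine ⟨sie Q s y, sie_mem_omega H.hQ H.hn hsQ hsy, ?_⟩
  rintro ⟨σ, hσ⟩
  have h1 := hσ i x hx
  rw [sie_apply hsQ hsy, hxs, H.h.orth i l hil x hx y hy, zero_smul, sub_zero, one_smul,
    mul_one] at h1
  have hyne : y ≠ 0 := fun h => hy0 (by rw [h, QuadraticMap.map_zero])
  have e1 : p i (x + y - Q y • s) = x - Q y • s := by
    rw [map_sub, map_add, map_smul, H.h.self i x hx, H.h.other i l hil y hy, H.h.self i s hs, add_zero]
  have e2 : p l (x + y - Q y • s) = y := by
    rw [map_sub, map_add, map_smul, H.h.other l i hil.symm x hx, H.h.self l y hy,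
      H.h.other l i hil.symm s hs, smul_zero, sub_zero, zero_add]
  have h2 : σ i = l := by
    by_contra hne
    rw [H.h.other l (σ i) (Ne.symm hne) _ h1] at e2
    exact hyne e2.symm
  rw [h2] at h1
  rw [H.h.other i l hil _ h1] at e1
  have h3 : polar Q (x - Q y • s) s = 0 := by rw [← e1, p_zero]
  rw [p_sub, p_smul, p_self, hsQ, hxs] at h3
  apply one_ne_zero (α := F)
  linear_combination h3

end H95.OIe
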