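import Mathlib
import Cfsg.Agent.Lib.H95.OImp3

set_option autoImplicit false

/-!
Overgroups of stabilisers of orthogonal decompositions in orthogonal groups (odd characteristic),
fourth part: members of dimension three.
-/

namespace H95.OImp

open Module QuadraticMap H48.QuadSplit H95.OGeo H17.OrthAbs H95.OSie H95.OQd H95.OSmall
open scoped commutatorElement

variable {F V : Type*} [Field F] [AddCommGroup V] [Module F V] {Q : QuadraticForm F V}
  {ι : Type*} [Fintype ι] [DecidableEq ι] {D : ι → Submodule F V} {p : ι → V →ₗ[F] V}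

lemma refl_smul_vec {v : V} (hv : Q v ≠ 0) {c : F} (hc : c ≠ 0) (h : Q (c • v) ≠ 0) :
    refl Q (c • v) h = refl Q v hv := by
  ext x
  rw [refl_apply, refl_apply, Q_smul, p_smul, smul_smul]
  congr 2
  field_simp

lemma polar_iso {U W : Submodule F V} (e : U ≃ₗ[F] W) (he : ∀ w : U, Q (e w : V) = Q (w : V))
    (a b : U) : polar Q (e a : V) (e b : V) = polar Q (a : V) (b : V) := by
  have h1 : ((e (a + b) : W) : V) = (e a : V) + (e b : V) := by rw [map_add]; rfl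
  have h2 := he (a + b)
  rw [h1] at h2
  have h3 : ((a + b : U) : V) = (a : V) + b := rfl
  rw [polar, polar, h2, h3, he, he]

lemma classes [Finite F] (two : (2 : F) ≠ 0) {c c₀ : F} (hc : c ≠ 0) (hc₀ : c₀ ≠ 0)
    (hcc : ∀ l : F, l * l * c₀ ≠ c) {a : F} (ha : a ≠ 0) :
    (∃ l, l ≠ 0 ∧ a = l * l * c₀) ∨ ∃ l, l ≠ 0 ∧ a = l * l * c := by
  classical
  have : Fintype F := Fintype.ofFinite F
  by_cases h1 : IsSquare (a / c₀)
  · obtain ⟨l, hl⟩ := h1
    left
    refine ⟨l, ?_, by rw [← hl, div_mul_cancel₀ _ hc₀]⟩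
    rintro rfl
    rw [mul_zero, div_eq_zero_iff] at hl
    exact hl.elim ha hc₀
  · right
    have h2 : ¬ IsSquare (c / c₀) := by
      rintro ⟨l, hl⟩
      exact hcc l (by rw [← hl, div_mul_cancel₀ _ hc₀])
    have ha0 : a / c₀ ≠ 0 := div_ne_zero ha hc₀
    have hb0 : c / c₀ ≠ 0 := div_ne_zero hc hc₀
    have hchar : ringChar F ≠ 2 := fun h => two (by
      have := ringChar.spec F 2
      have h3 : ((2 : ℕ) : F) = 0 := this.2 (by rw [h])
      exact_mod_cast h3)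
    have e1 : quadraticChar F (a / c₀) = -1 := quadraticChar_neg_one_iff_not_isSquare.2 h1
    have e2 : quadraticChar F (c / c₀) = -1 := quadraticChar_neg_one_iff_not_isSquare.2 h2
    have e3 : quadraticChar F ((a / c₀) * (c / c₀)) = 1 := by
      rw [map_mul, e1, e2]; norm_num
    have e4 : IsSquare ((a / c₀) * (c / c₀)) :=
      (quadraticChar_one_iff_isSquare (mul_ne_zero ha0 hb0)).1 e3
    obtain ⟨l, hl⟩ := e4
    refine ⟨l * c₀ / c, ?_, ?_⟩
    · have : l ≠ 0 := by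
        rintro rfl
        rw [mul_zero] at hl
        exact mul_ne_zero ha0 hb0 hl
      exact div_ne_zero (mul_ne_zero this hc₀) hc
    · have h5 : a * c = l * l * (c₀ * c₀) := by
        have : (a / c₀) * (c / c₀) * (c₀ * c₀) = a * c := by field_simp
        rw [← this, hl]
      field_simp
      rw [h5]; ring

section Three

variable [FiniteDimensional F V] [Finite F] {U : Submodule F V}

lemma span_perp (hU : NDs Q U) (h3 : finrank F U = 3) {s w z : V} (hs : s ∈ U) (hs0 : s ≠ 0)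
    (hsQ : Q s = 0) (hw : w ∈ U) (hw0 : Q w ≠ 0) (hsw : polar Q s w = 0) (hz : z ∈ U)
    (hsz : polar Q s z = 0) : ∃ α β : F, z = α • s + β • w := by
  have hli : LinearIndependent F ![s, w] := by
    rw [LinearIndependent.pair_iff]
    intro a b hab
    have h1 : Q (a • s + b • w) = 0 := by rw [hab, QuadraticMap.map_zero]
    rw [Q_add, Q_smul, Q_smul, hsQ, p_smul, p_smul', hsw] at h1
    have h2 : b * b * Q w = 0 := by linear_combination h1
    have h3 : b = 0 := by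
      rcases mul_eq_zero.1 h2 with h | h
      · exact mul_self_eq_zero.1 h
      · exact absurd h hw0
    rw [h3, zero_smul, add_zero] at hab
    exact ⟨(smul_eq_zero.1 hab).resolve_right hs0, h3⟩
  have hle : Submodule.span F {s, w} ≤ pc Q U s := by
    rw [Submodule.span_le]
    intro y hy
    rcases hy with rfl | hy
    · exact mem_pc.2 ⟨hs, by rw [p_self, hsQ, mul_zero]⟩
    · rw [Set.mem_singleton_iff] at hy
      subst hy
      exact mem_pc.2 ⟨hw, hsw⟩
  have hlt : finrank F (pc Q U s) < finrank F U := by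
    apply Submodule.finrank_lt_finrank_of_lt
    refine lt_of_le_of_ne (fun y hy => (mem_pc.1 hy).1) ?_
    intro h
    apply hs0
    apply hU s hs
    intro y hy
    rw [← h] at hy
    exact (mem_pc.1 hy).2
  have hrk : finrank F (Submodule.span F {s, w}) = 2 := by
    have e : ({s, w} : Set V) = Set.range ![s, w] := by
      ext x; simp [or_comm]
    rw [e, finrank_span_eq_card hli]; simp
  have heq := Submodule.eq_of_le_of_finrank_le hle (by omega)
  have h1 : z ∈ Submodule.span F {s, w} := by rw [heq]; exact mem_pc.2 ⟨hz, hsz⟩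
  obtain ⟨a, b, hab⟩ := Submodule.mem_span_pair.1 h1
  exact ⟨a, b, hab.symm⟩

/-- the class of the orthogonal complement of singular vectors -/
def N2 (Q : QuadraticForm F V) (U : Submodule F V) (c₀ : F) : Prop :=
  ∀ s ∈ U, s ≠ 0 → Q s = 0 → ∃ w ∈ U, polar Q s w = 0 ∧ Q w = c₀

lemma exists_perp_ns (hU : NDs Q U) {s : V} (hs : s ∈ U) (hs0 : s ≠ 0) (h3 : 3 ≤ finrank F U) :
    ∃ y ∈ U, polar Q s y = 0 ∧ Q y ≠ 0 := by
  have hr := pc_rank (Q := Q) U s
  by_contra hcon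
  push Not at hcon
  have hsing : ∀ z ∈ pc Q U s, Q z = 0 := fun z hz => hcon z (mem_pc.1 hz).1 (mem_pc.1 hz).2
  have hle : pc Q U s ≤ Submodule.span F {s} := by
    intro z hz
    by_contra hzs
    obtain ⟨v, hv, hv1, hv2⟩ := sepU hU (mem_pc.1 hz).1 hzs
    have hv3 : v ∈ pc Q U s :=
      mem_pc.2 ⟨hv, hv1 s (Submodule.mem_span_singleton_self s) hs⟩
    exact hv2 (iso_of_sing hsing hz hv3)
  have h4 := Submodule.finrank_mono hle
  rw [finrank_span_singleton hs0] at h4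
  omega

lemma N2_of (hU : NDs Q U) (h3 : finrank F U = 3) {s₁ w₁ : V} (hs₁ : s₁ ∈ U) (hs₁0 : s₁ ≠ 0)
    (hs₁Q : Q s₁ = 0) (hw₁ : w₁ ∈ U) (hsw : polar Q s₁ w₁ = 0) (hw₁0 : Q w₁ ≠ 0) :
    N2 Q U (Q w₁) := by
  intro s hs hs0 hsQ
  by_cases hss : polar Q s₁ s = 0
  · obtain ⟨α, β, hαβ⟩ := span_perp hU h3 hs₁ hs₁0 hs₁Q hw₁ hw₁0 hsw hs hss
    refine ⟨w₁, hw₁, ?_, rfl⟩
    have h1 : Q s = β * β * Q w₁ := by
      rw [hαβ, Q_add, Q_smul, Q_smul, hs₁Q, p_smul, p_smul', hsw]; ring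
    rw [hsQ] at h1
    have h2 : β = 0 := by
      rcases mul_eq_zero.1 h1.symm with h | h
      · exact mul_self_eq_zero.1 h
      · exact absurd h hw₁0
    rw [hαβ, h2, zero_smul, add_zero, p_smul, hsw, mul_zero]
  · have h1 : Q (s₁ - s) ≠ 0 := by
      rw [Q_sub, hs₁Q, hsQ]
      intro h
      apply hss
      linear_combination -h
    have h2 : refl Q (s₁ - s) h1 s₁ = s := refl_sub Q s₁ s (by rw [hs₁Q, hsQ]) h1
    refine ⟨refl Q (s₁ - s) h1 w₁, ?_, ?_, ?_⟩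
    · rw [refl_apply]
      exact U.sub_mem hw₁ (U.smul_mem _ (U.sub_mem hs₁ hs))
    · have := polar_map (refl_mem_O Q _ h1) s₁ w₁
      rw [h2] at this
      rw [this, hsw]
    · exact refl_mem_O Q _ h1 w₁

lemma N2_iso {W : Submodule F V} {c₀ : F} (h : N2 Q U c₀) (e : U ≃ₗ[F] W)
    (he : ∀ w : U, Q (e w : V) = Q (w : V)) : N2 Q W c₀ := by
  intro s hs hs0 hsQ
  have e1 : (e (e.symm ⟨s, hs⟩) : V) = s := by rw [LinearEquiv.apply_symm_apply]
  obtain ⟨w, hw, hw1, hw2⟩ := h (e.symm ⟨s, hs⟩ : U) (e.symm ⟨s, hs⟩).2 (by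
    intro h0
    have : e.symm ⟨s, hs⟩ = 0 := Subtype.ext h0
    rw [this, map_zero] at e1
    exact hs0 e1.symm) (by rw [← he, e1, hsQ])
  refine ⟨e ⟨w, hw⟩, (e ⟨w, hw⟩).2, ?_, by rw [he]; exact hw2⟩
  have := polar_iso e he (e.symm ⟨s, hs⟩) ⟨w, hw⟩
  rw [e1] at this
  rw [this]; exact hw1

/-- vectors of the good class are orthogonal to singular vectors -/
lemma N1 (two : (2 : F) ≠ 0) (hU : NDs Q U) (h3 : finrank F U = 3) {c₀ : F} (hc₀ : c₀ ≠ 0)
    (h : N2 Q U c₀) {a : V} (ha : a ∈ U) {l : F} (hl : l ≠ 0) (hal : Q a = l * l * c₀) :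
    ∃ s ∈ U, s ≠ 0 ∧ Q s = 0 ∧ polar Q s a = 0 := by
  obtain ⟨s₁, hs₁, hs₁0, hs₁Q⟩ := exists_sing two hU (by omega)
  obtain ⟨w₁, hw₁, hsw, hw₁Q⟩ := h s₁ hs₁ hs₁0 hs₁Q
  have ha0 : Q a ≠ 0 := by rw [hal]; exact mul_ne_zero (mul_ne_zero hl hl) hc₀
  have hQb : Q (l • w₁) = Q a := by rw [Q_smul, hw₁Q, hal]
  have hQb' : Q (l • w₁) = Q (-a) := by rw [hQb, Q_neg]
  have hb : l • w₁ ∈ U := U.smul_mem _ hw₁
  have hsb : polar Q s₁ (l • w₁) = 0 := by rw [p_smul', hsw, mul_zero]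
  by_cases h1 : Q (l • w₁ - a) = 0
  · have h2 : Q (l • w₁ - -a) ≠ 0 := by
      intro h2
      rw [Q_sub, hQb] at h1
      rw [Q_sub, Q_neg, p_neg', hQb] at h2
      apply mul_ne_zero (mul_ne_zero two two) ha0
      linear_combination h1 + h2
    have h3 : refl Q _ h2 (l • w₁) = -a := refl_sub Q _ _ hQb' h2
    refine ⟨refl Q _ h2 s₁, ?_, ?_, ?_, ?_⟩
    · rw [refl_apply]
      exact U.sub_mem hs₁ (U.smul_mem _ (U.sub_mem hb (U.neg_mem ha)))
    · exact fun h0 => hs₁0 ((LinearEquiv.map_eq_zero_iff _).1 h0)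
    · rw [refl_mem_O Q _ h2, hs₁Q]
    · have h4 := polar_map (refl_mem_O Q _ h2) s₁ (l • w₁)
      rw [h3, hsb, p_neg'] at h4
      exact neg_eq_zero.1 h4
  · have h3 : refl Q _ h1 (l • w₁) = a := refl_sub Q _ _ hQb h1
    refine ⟨refl Q _ h1 s₁, ?_, ?_, ?_, ?_⟩
    · rw [refl_apply]
      exact U.sub_mem hs₁ (U.smul_mem _ (U.sub_mem hb ha))
    · exact fun h0 => hs₁0 ((LinearEquiv.map_eq_zero_iff _).1 h0)
    · rw [refl_mem_O Q _ h1, hs₁Q]
    · have h4 := polar_map (refl_mem_O Q _ h1) s₁ (l • w₁)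
      rwa [h3, hsb] at h4

/-- vectors of the other class have anisotropic complement -/
lemma N3 (hU : NDs Q U) (h3 : finrank F U = 3) {c₀ : F} (hc₀ : c₀ ≠ 0)
    (h : N2 Q U c₀) {a : V} (ha : a ∈ U) (hal : ∀ l : F, l * l * c₀ ≠ Q a) {s : V} (hs : s ∈ U)
    (hsQ : Q s = 0) (hsa : polar Q s a = 0) : s = 0 := by
  by_contra hs0
  obtain ⟨w, hw, hsw, hwQ⟩ := h s hs hs0 hsQ
  obtain ⟨α, β, hαβ⟩ := span_perp hU h3 hs hs0 hsQ hw (by rw [hwQ]; exact hc₀) hsw ha hsa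
  apply hal β
  rw [hαβ, Q_add, Q_smul, Q_smul, hsQ, p_smul, p_smul', hsw, hwQ]; ring

end Three

end H95.OImp
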