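import Mathlib
import Cfsg.Agent.Lib.H95.OImp4

set_option autoImplicit false

/-!
Overgroups of stabilisers of orthogonal decompositions in orthogonal groups (odd characteristic),
fifth part: members of dimension three, and the final theorem.
-/

namespace H95.OImp

open Module QuadraticMap H48.QuadSplit H95.OGeo H17.OrthAbs H95.OSie H95.OQd H95.OSmall
open scoped commutatorElement

variable {F V : Type*} [Field F] [AddCommGroup V] [Module F V] {Q : QuadraticForm F V}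
  {ι : Type*} [Fintype ι] [DecidableEq ι] {D : ι → Submodule F V} {p : ι → V →ₗ[F] V}

variable {M : Subgroup (V ≃ₗ[F] V)} [FiniteDimensional F V] [Finite F]

/-- the standing hypotheses for members of dimension three -/
structure Hyp3 (Q : QuadraticForm F V) (D : ι → Submodule F V) (p : ι → V →ₗ[F] V)
    (M : Subgroup (V ≃ₗ[F] V)) (c₀ c : F) : Prop extends Hyp Q D p M where
  h3 : ∀ i, finrank F (D i) = 3
  q5 : 5 ≤ Nat.card F
  c₀0 : c₀ ≠ 0
  n2 : ∀ i, N2 Q (D i) c₀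
  c0 : c ≠ 0
  hcc : ∀ l : F, l * l * c₀ ≠ c

variable {c₀ c : F} {u : V} {hu : Q u ≠ 0}

lemma Rv_member [Nontrivial ι] (H : Hyp3 Q D p M c₀ c)
    (hn : ∀ m ∈ M, refl Q u hu * m * (refl Q u hu)⁻¹ ∈ M) (huc : Q u = c) {i₀ : ι} (hu' : u ∈ D i₀)
    {x : V} (hx : Rv Q M hu x) {i : ι} {w : V} (hw : w ∈ D i) (hw0 : Q w ≠ 0) :
    Rv Q M hu (refl Q w hw0 x) := by
  have H' := H.toHyp
  -- if there is a partner
  have key : ∀ l, l ≠ i → ∀ y ∈ D l, Q y = Q w → polar Q y x = 0 → Rv Q M hu (refl Q w hw0 x) := by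
    intro l hl y hy hyQ hyx
    have hy0 : Q y ≠ 0 := by rw [hyQ]; exact hw0
    have h1 := Rv_map H' hn (H'.dbl_mem hw hy hw0 hy0 hyQ.symm) hx
    rwa [LinearEquiv.mul_apply, refl_apply Q y, hyx, mul_zero, zero_smul, sub_zero] at h1
  obtain ⟨l, hl⟩ := exists_ne i
  have h3 := H.h3 l
  have hnd := H'.nds l
  by_cases hxl : Q (p l x) = 0
  · by_cases hxl0 : p l x = 0
    · obtain ⟨y, hy, hyQ⟩ := rep H'.two hnd (by omega) (Q w)
      exact key l hl y hy hyQ (by rw [H'.h.pr x hy, hxl0, p_zero'])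
    · rcases classes H'.two H.c0 H.c₀0 H.hcc hw0 with ⟨a, ha, haw⟩ | ⟨a, ha, haw⟩
      · obtain ⟨y, hy, hy1, hyQ⟩ := H.n2 l (p l x) (H'.h.mem l x) hxl0 hxl
        refine key l hl (a • y) ((D l).smul_mem _ hy) (by rw [Q_smul, hyQ, haw]) ?_
        rw [p_smul, H'.h.pr x hy, p_comm, hy1, mul_zero]
      · have h4 : Q (a⁻¹ • w) = Q u := by
          rw [Q_smul, haw, huc]; field_simp
        have h5 := Rv_mem (hu := hu) H' hu' ((D i).smul_mem a⁻¹ hw) h4
        have h6 : Q (a⁻¹ • w) ≠ 0 := by rw [h4]; exact hu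
        have h7 := Rv_refl h5 hx h6
        rwa [refl_smul_vec hw0 (inv_ne_zero ha) h6] at h7
  · have hUnd := pc_nd H'.two hnd (H'.h.mem l x) hxl
    have hUr := pc_rank (Q := Q) (D l) (p l x)
    obtain ⟨y, hy, hyQ⟩ := rep H'.two hUnd (by omega) (Q w)
    obtain ⟨hy1, hy2⟩ := mem_pc.1 hy
    exact key l hl y hy1 hyQ (by rw [H'.h.pr x hy1, p_comm, hy2])

lemma exists_one (H : Hyp3 Q D p M c₀ c) {i : ι} {x : V} (hx : x ∈ D i) (hx0 : x ≠ 0) (e : F) :
    ∃ w ∈ D i, polar Q w x = 1 ∧ Q w = e := by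
  have H' := H.toHyp
  have h3 := H.h3 i
  by_cases hxQ : Q x = 0
  · exact partner_val (H'.nds i) hx hx0 hxQ e
  · have hUnd := pc_nd H'.two (H'.nds i) hx hxQ
    have hUr := pc_rank (Q := Q) (D i) x
    obtain ⟨z, hz, hzQ⟩ := rep H'.two hUnd (by omega) (e - 1 / (4 * Q x))
    obtain ⟨hz1, hz2⟩ := mem_pc.1 hz
    have h2 := H'.two
    have h4 : (4 : F) ≠ 0 := by
      have : (4 : F) = 2 * 2 := by norm_num
      rw [this]; exact mul_ne_zero h2 h2
    refine ⟨(1 / (2 * Q x)) • x + z, (D i).add_mem ((D i).smul_mem _ hx) hz1, ?_, ?_⟩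
    · rw [p_add, p_smul, p_self, p_comm, hz2]
      field_simp
      ring
    · rw [Q_add, Q_smul, hzQ, p_smul, hz2]
      field_simp
      ring

/-- scaling the other components -/
lemma Rv_scale [Nontrivial ι] (H : Hyp3 Q D p M c₀ c)
    (hn : ∀ m ∈ M, refl Q u hu * m * (refl Q u hu)⁻¹ ∈ M) (huc : Q u = c) {i₀ : ι} (hu' : u ∈ D i₀)
    {x : V} (hx : Rv Q M hu x) {i : ι} (hxi : p i x ≠ 0) {τ : F} (hτ : τ ≠ 0) :
    ∃ y, Rv Q M hu y ∧ (∀ l, l ≠ i → p l y = (τ - 1) • p l x) ∧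
      Q (p i y) = c - (τ - 1) * (τ - 1) * (c - Q (p i x)) := by
  have H' := H.toHyp
  have hc := H.c0
  obtain ⟨w, hw, hwx, hwQ⟩ := exists_one H (H'.h.mem i x) hxi (1 / (c * τ))
  have hw0 : Q w ≠ 0 := by rw [hwQ]; exact one_div_ne_zero (mul_ne_zero hc hτ)
  have h1 := Rv_member H hn huc hu' hx hw hw0
  have hwx' : polar Q w x = 1 := by rw [H'.h.pr x hw, hwx]
  have e1 : refl Q w hw0 x = x - (c * τ) • w := by
    rw [refl_apply, hwx', hwQ, one_div, inv_inv, mul_one]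
  rw [e1] at h1
  obtain ⟨h2, h3, -⟩ := id h1
  have hxQ : Q x = c := by obtain ⟨-, h, -⟩ := hx; rw [h, huc]
  have h4 := Rv_refl h1 hx h2
  rw [huc] at h3
  have e2 : refl Q (x - (c * τ) • w) h2 x = x - (2 - τ) • (x - (c * τ) • w) := by
    rw [refl_apply, h3, p_sub, p_self, p_smul, hwx', hxQ]
    congr 2
    field_simp
  rw [e2] at h4
  refine ⟨_, h4, fun l hl => ?_, ?_⟩
  · rw [map_sub, map_smul, map_sub, map_smul, H'.h.other l i hl w hw, smul_zero, sub_zero]
    module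
  · have e3 : p i (x - (2 - τ) • (x - (c * τ) • w)) =
        (τ - 1) • p i x + ((2 - τ) * (c * τ)) • w := by
      rw [map_sub, map_smul, map_sub, map_smul, H'.h.self i w hw]
      module
    rw [e3, Q_add, Q_smul, Q_smul, p_smul, p_smul', p_comm, hwx, hwQ]
    field_simp
    ring

/-- Part A for members of dimension three. -/
theorem partA3 [Nontrivial ι] (H : Hyp3 Q D p M c₀ c) {i₀ : ι} (hu' : u ∈ D i₀) (huc : Q u = c)
    (hn : ∀ m ∈ M, refl Q u hu * m * (refl Q u hu)⁻¹ ∈ M) {g : V ≃ₗ[F] V} (hg : g ∈ M)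
    (hgp : ¬ Pres D g) : ⁅O Q, O Q⁆ ≤ M := by
  have H' := H.toHyp
  have hgO := H'.M_le hg
  have hc := H.c0
  obtain ⟨i, v, hv, hvc, hvj⟩ : ∃ i, ∃ v ∈ D i, Q v = Q u ∧ ∀ j, g v ∉ D j := by
    by_contra hcon
    push Not at hcon
    exact hgp (pres_of_norm H' (Or.inr H.q5) hu hgO hcon)
  have hx := Rv_map H' hn hg (Rv_mem (hu := hu) H' hu' hv hvc)
  -- final step
  have final : ∀ x, Rv Q M hu x → ∀ i l, l ≠ i → p l x ≠ 0 → ∀ a : F, a ≠ 0 →
      Q (p i x) = a * a * c₀ → ⁅O Q, O Q⁆ ≤ M := by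
    intro x hx i l hli hl a ha hai
    obtain ⟨s, hs, hs0, hsQ, hsx⟩ := N1 H'.two (H'.nds i) (H.h3 i) H.c₀0 (H.n2 i) (H'.h.mem i x) ha hai
    obtain ⟨hx0, -, -⟩ := id hx
    refine H'.omega_of_vec hx0 (Rv_hR H' hn hx hx0) hs hs0 hsQ ?_ ?_ hli hl
    · rw [H'.h.pr x hs, hsx]
    · intro hmem
      obtain ⟨b, hb⟩ := Submodule.mem_span_singleton.1 hmem
      have : Q (p i x) = 0 := by rw [← hb, Q_smul, hsQ, mul_zero]
      rw [hai] at this
      exact mul_ne_zero (mul_ne_zero ha ha) H.c₀0 this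
  -- scaling step
  have scale : ∀ x, Rv Q M hu x → ∀ i l, l ≠ i → p l x ≠ 0 → p i x ≠ 0 → Q (p i x) ≠ c →
      ⁅O Q, O Q⁆ ≤ M := by
    intro x hx i l hli hl hi hic
    obtain ⟨X, Y, hX, hXY⟩ := diag_rep' H'.two H.q5 (α := c) (β := -(c - Q (p i x))) hc
      (neg_ne_zero.2 (sub_ne_zero.2 (Ne.symm hic))) H.c₀0
    have hY : Y ≠ 0 := by
      rintro rfl
      apply H.hcc X⁻¹
      rw [← hXY]; field_simp; ring
    obtain ⟨σ, hσ0, hσ1, hσ⟩ : ∃ σ : F, σ ≠ 0 ∧ σ ≠ -1 ∧ σ * σ = Y * Y / (X * X) := by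
      by_cases h1 : Y / X = -1
      · refine ⟨-(Y / X), neg_ne_zero.2 (div_ne_zero hY hX), ?_, by field_simp⟩
        rw [h1, neg_neg]
        intro h2
        apply H'.two
        linear_combination h2
      · exact ⟨Y / X, div_ne_zero hY hX, h1, by field_simp⟩
    obtain ⟨y, hy, hy1, hy2⟩ := Rv_scale H hn huc hu' hx hi (τ := σ + 1) (fun h => hσ1 (by
      linear_combination h))
    have e1 : σ + 1 - 1 = σ := by ring
    rw [e1] at hy1 hy2
    apply final y hy i l hli (a := X⁻¹) _ (inv_ne_zero hX)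
    · rw [hy2, hσ]
      field_simp
      linear_combination hXY
    · rw [hy1 l hli]; exact smul_ne_zero hσ0 hl
  obtain ⟨hgv0, hgvQ, -⟩ := id hx
  obtain ⟨i₁, hi₁⟩ := H'.h.exists_ne hgv0
  have hi₁' : p i₁ (g v) ≠ 0 := fun h => hi₁ (by rw [h, QuadraticMap.map_zero])
  obtain ⟨l, hli, hl⟩ := H'.h.exists_other (hvj i₁)
  by_cases hic : Q (p i₁ (g v)) = c
  · by_cases hlc : Q (p l (g v)) = c
    · obtain ⟨α, hα0, hα⟩ := exists_sq_ne H.q5 (1 / 4 : F)
      have hUnd := pc_nd H'.two (H'.nds i₁) (H'.h.mem i₁ (g v)) hi₁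
      have hUr := pc_rank (Q := Q) (D i₁) (p i₁ (g v))
      obtain ⟨z, hz, hzQ⟩ := rep H'.two hUnd (by have := H.h3 i₁; omega) (c * (1 - α * α))
      obtain ⟨hz1, hz2⟩ := mem_pc.1 hz
      set x := g v with hxd
      set w := α • p i₁ x + z with hwd
      have hw : w ∈ D i₁ := (D i₁).add_mem ((D i₁).smul_mem _ (H'.h.mem _ _)) hz1
      have hwQ : Q w = c := by
        rw [hwd, Q_add, Q_smul, hzQ, p_smul, hz2, hic]; ring
      have hwx : polar Q x w = 2 * α * c := by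
        rw [H'.h.pl x hw, hwd, p_add', p_smul', p_self, hz2, hic]; ring
      have h1 := Rv_mem (hu := hu) H' hu' hw (by rw [hwQ, huc])
      have hxQ : Q x = c := by rw [hgvQ, huc]
      have h2 := Rv_refl hx h1 hgv0
      have e1 : refl Q x hgv0 w = w - (2 * α) • x := by
        rw [refl_apply, hxQ, hwx]
        congr 2
        field_simp
      rw [e1] at h2
      have e2 : p l (w - (2 * α) • x) = (-(2 * α)) • p l x := by
        rw [map_sub, map_smul, H'.h.other l i₁ hli w hw, zero_sub, neg_smul]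
      have e3 : p i₁ (w - (2 * α) • x) = z - α • p i₁ x := by
        rw [map_sub, map_smul, H'.h.self i₁ w hw, hwd]; module
      have h2α : -(2 * α) ≠ 0 := neg_ne_zero.2 (mul_ne_zero H'.two hα0)
      refine scale _ h2 l i₁ hli.symm ?_ ?_ ?_
      · rw [e3]
        intro h0
        have : Q (z - α • p i₁ x) = 0 := by rw [h0, QuadraticMap.map_zero]
        rw [Q_sub, Q_smul, hzQ, p_smul', p_comm, hz2, hic] at this
        apply hc
        linear_combination this
      · rw [e2]; exact smul_ne_zero h2α hl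
      · rw [e2, Q_smul, hlc]
        intro h0
        apply hα
        have h5 : 4 * (α * α) = 1 := by
          apply mul_right_cancel₀ hc
          linear_combination h0
        have h4 : (4 : F) ≠ 0 := by
          have : (4 : F) = 2 * 2 := by norm_num
          rw [this]; exact mul_ne_zero H'.two H'.two
        rw [eq_div_iff h4, mul_comm]; exact h5
    · exact scale _ hx l i₁ hli.symm hi₁' hl hlc
  · exact scale _ hx i₁ l hli hl hi₁' hic

/-- Part B for members of dimension three. -/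
theorem partB3 [Nontrivial ι] (H : Hyp3 Q D p M c₀ c) (hstar : Star Q D M c) {g : V ≃ₗ[F] V}
    (hg : g ∈ M) : Pres D g := by
  have H' := H.toHyp
  have hgO := H'.M_le hg
  have hc := H.c0
  by_contra hgp
  -- a vector of value `c` with this property gives a contradiction
  have fin : ∀ i, ∀ w ∈ D i, Q w = c → ∀ j, g⁻¹ w ∈ D j → False := by
    intro i w hw hwQ j hj
    have h1 : Pres D g⁻¹ := hstar _ (M.inv_mem hg) i j w hw hwQ hj
    have := H'.h.pres_inv h1
    rw [inv_inv] at this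
    exact hgp this
  obtain ⟨i₀, -, -⟩ := exists_pair_ne ι
  obtain ⟨v, hv, hvc⟩ := rep H'.two (H'.nds i₀) (by have := H.h3 i₀; omega) c
  set x := g v with hxd
  have hxQ : Q x = c := by rw [hxd, hgO, hvc]
  -- the good spaces
  have good : ∀ i, (p i x = 0 ∨ Q (p i x) ≠ 0) → ∃ U : Submodule F V, NDs Q U ∧ 2 ≤ finrank F U ∧
      ∀ y ∈ U, y ∈ D i ∧ polar Q x y = 0 := by
    intro i hi
    have h3 := H.h3 i
    rcases hi with hi | hi
    · exact ⟨D i, H'.nds i, by omega, fun y hy => ⟨hy, by rw [H'.h.pl x hy, hi, p_zero]⟩⟩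
    · have hUr := pc_rank (Q := Q) (D i) (p i x)
      refine ⟨pc Q (D i) (p i x), pc_nd H'.two (H'.nds i) (H'.h.mem i x) hi, by omega, fun y hy => ?_⟩
      obtain ⟨h1, h2⟩ := mem_pc.1 hy
      exact ⟨h1, by rw [H'.h.pl x h1, h2]⟩
  by_cases hI : ∃ i l, l ≠ i ∧ (p i x = 0 ∨ Q (p i x) ≠ 0) ∧ (p l x = 0 ∨ Q (p l x) ≠ 0)
  · obtain ⟨i, l, hli, hi, hl⟩ := hI
    obtain ⟨U, hU1, hU2, hU3⟩ := good i hi
    obtain ⟨W, hW1, hW2, hW3⟩ := good l hl
    obtain ⟨w, hw, hwQ⟩ := rep H'.two hU1 hU2 c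
    obtain ⟨w', hw', w'', hw'', e1, e2, e3⟩ := two_of_span hW2 (P := fun z => Q z = c)
      (fun S hS => span_val2 H'.two H.q5 hW1 hW2 hc S hS)
    obtain ⟨j, hj⟩ := mem_conj_of H' hstar hg hv hvc hli (hU3 w hw).1 (hW3 w' hw').1
      (hW3 w'' hw'').1 (hU3 w hw).2 (hW3 w' hw').2 (hW3 w'' hw'').2 (by rw [hwQ]; exact hc)
      (by rw [hwQ]; exact e1) (by rw [hwQ]; exact e2) e3
    exact fin i w (hU3 w hw).1 hwQ j hj
  · push Not at hI
    obtain ⟨i, hi⟩ := H'.h.exists_ne (x := x) (by rw [hxQ]; exact hc)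
    have hoth : ∀ l, l ≠ i → p l x ≠ 0 ∧ Q (p l x) = 0 := fun l hl => by
      have := hI i l hl (Or.inr hi)
      exact this
    have hiQ : Q (p i x) = c := by
      rw [← hxQ, H'.h.Qsum x, Finset.sum_eq_single i]
      · intro l _ hl; exact (hoth l hl).2
      · intro h; exact absurd (Finset.mem_univ i) h
    obtain ⟨l, hl⟩ := exists_ne i
    obtain ⟨hl0, hlQ⟩ := hoth l hl
    obtain ⟨w₀, hw₀, hw₀1, hw₀Q⟩ := H.n2 l (p l x) (H'.h.mem l x) hl0 hlQ
    have hlself : p l (p l x) = p l x := H'.h.self l _ (H'.h.mem l x)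
    have hli : LinearIndependent F ![w₀, w₀ + p l x] := by
      rw [LinearIndependent.pair_iff]
      intro a b hab
      have h0 : (a + b) • w₀ + b • p l x = 0 := by rw [← hab]; module
      have h1 : Q ((a + b) • w₀ + b • p l x) = 0 := by rw [h0, QuadraticMap.map_zero]
      rw [Q_add, Q_smul, Q_smul, hlQ, p_smul, p_smul', p_comm, hw₀1, hw₀Q] at h1
      have h2 : (a + b) * (a + b) * c₀ = 0 := by linear_combination h1
      have h3 : a + b = 0 := by
        rcases mul_eq_zero.1 h2 with h | h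
        · exact mul_self_eq_zero.1 h
        · exact absurd h H.c₀0
      rw [h3, zero_smul, zero_add] at h0
      have h4 := (smul_eq_zero.1 h0).resolve_right hl0
      rw [h4, add_zero] at h3
      exact ⟨h3, h4⟩
    -- T
    have hUr := pc_rank (Q := Q) (D i) (p i x)
    have hTnd := pc_nd H'.two (H'.nds i) (H'.h.mem i x) hi
    have hT2 : 2 ≤ finrank F (pc Q (D i) (p i x)) := by have := H.h3 i; omega
    have haniso : ∀ s ∈ pc Q (D i) (p i x), Q s = 0 → s = 0 := by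
      intro s hs hsQ
      obtain ⟨h1, h2⟩ := mem_pc.1 hs
      exact N3 (H'.nds i) (H.h3 i) H.c₀0 (H.n2 i) (H'.h.mem i x) (by rw [hiQ]; exact H.hcc) h1 hsQ
        (by rw [p_comm, h2])
    have hmemj : ∀ w ∈ pc Q (D i) (p i x), Q w = c₀ → ∃ j, g⁻¹ w ∈ D j := by
      intro w hw hwQ
      obtain ⟨h1, h2⟩ := mem_pc.1 hw
      refine mem_conj_of H' hstar hg hv hvc hl h1 hw₀ ((D l).add_mem hw₀ (H'.h.mem l x))
        (by rw [H'.h.pl _ h1, h2]) (by rw [H'.h.pl _ hw₀, hw₀1]) ?_ (by rw [hwQ]; exact H.c₀0)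
        (by rw [hw₀Q, hwQ]) ?_ hli
      · rw [H'.h.pl _ ((D l).add_mem hw₀ (H'.h.mem l x)), p_add', hw₀1, p_self, hlQ]; ring
      · rw [Q_add, hw₀Q, hlQ, p_comm, hw₀1, hwQ]; ring
    obtain ⟨w₁, hw₁, hw₁Q⟩ := rep H'.two hTnd hT2 c₀
    obtain ⟨j, hj⟩ := hmemj w₁ hw₁ hw₁Q
    -- a vector orthogonal to `w₁`
    have hw₁0 : Q w₁ ≠ 0 := by rw [hw₁Q]; exact H.c₀0
    have hZr := pc_rank (Q := Q) (pc Q (D i) (p i x)) w₁
    obtain ⟨z, hz, hz0⟩ := ex_ne (U := pc Q (pc Q (D i) (p i x)) w₁) (by omega)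
    obtain ⟨hz1, hz2⟩ := mem_pc.1 hz
    have hzQ : Q z ≠ 0 := fun h => hz0 (haniso z hz1 h)
    obtain ⟨lam, hlam0, hlam⟩ := exists_sq_ne H.q5 (c₀ / Q z)
    have hyT : w₁ + lam • z ∈ pc Q (D i) (p i x) :=
      Submodule.add_mem _ hw₁ (Submodule.smul_mem _ _ hz1)
    have hyQ : Q (w₁ + lam • z) = c₀ + lam * lam * Q z := by
      rw [Q_add, Q_smul, p_smul', hz2, hw₁Q]; ring
    have hy0 : Q (w₁ + lam • z) ≠ 0 := by
      intro h
      have h1 := haniso _ hyT h
      have h2 : polar Q w₁ (w₁ + lam • z) = 0 := by rw [h1, p_zero']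
      rw [p_add', p_self, p_smul', hz2, hw₁Q] at h2
      exact mul_ne_zero H'.two H.c₀0 (by linear_combination h2)
    set w₂ := refl Q (w₁ + lam • z) hy0 w₁ with hw₂
    have hpyw : polar Q (w₁ + lam • z) w₁ = 2 * c₀ := by
      rw [p_add, p_self, p_smul, p_comm Q z, hz2, hw₁Q]; ring
    have e2 : w₂ = w₁ - ((c₀ + lam * lam * Q z)⁻¹ * (2 * c₀)) • (w₁ + lam • z) := by
      rw [hw₂, refl_apply, hyQ, hpyw]
    have hw₂T : w₂ ∈ pc Q (D i) (p i x) := by
      rw [e2]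
      exact Submodule.sub_mem _ hw₁ (Submodule.smul_mem _ _ hyT)
    have hw₂Q : Q w₂ = c₀ := by rw [hw₂, refl_mem_O Q _ hy0, hw₁Q]
    obtain ⟨j', hj'⟩ := hmemj w₂ hw₂T hw₂Q
    have hne : polar Q w₁ w₂ ≠ 0 := by
      rw [e2, p_sub', p_smul', p_comm Q w₁ (w₁ + lam • z), hpyw, p_self, hw₁Q]
      rw [hyQ] at hy0
      intro h
      have h5 : 2 * c₀ * (c₀ + lam * lam * Q z) = 2 * c₀ * (2 * c₀) := by
        have h6 := inv_mul_cancel₀ hy0
        linear_combination (c₀ + lam * lam * Q z) * h + 4 * c₀ * c₀ * h6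
      have h7 := mul_left_cancel₀ (mul_ne_zero H'.two H.c₀0) h5
      apply hlam
      rw [eq_div_iff hzQ]
      linear_combination h7
    have hjj : j' = j := by
      by_contra hjj
      apply hne
      have hgiO : g⁻¹ ∈ O Q := (O Q).inv_mem hgO
      rw [← polar_map hgiO]
      exact H'.h.orth j j' (Ne.symm hjj) _ hj _ hj'
    rw [hjj] at hj'
    -- all of T
    have hall : ∀ y ∈ pc Q (D i) (p i x), g⁻¹ y ∈ D j := by
      intro y hy
      -- y is a combination of w₁ and z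
      have hli2 : finrank F (pc Q (D i) (p i x)) < finrank F (D i) := by
        apply Submodule.finrank_lt_finrank_of_lt
        refine lt_of_le_of_ne (fun y hy => (mem_pc.1 hy).1) ?_
        intro h
        have h1 : p i x ∈ pc Q (D i) (p i x) := by rw [h]; exact H'.h.mem i x
        have h2 := (mem_pc.1 h1).2
        rw [p_self] at h2
        exact mul_ne_zero H'.two hi h2
      have hliw : LinearIndependent F ![w₁, w₂] := by
        rw [LinearIndependent.pair_iff]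
        intro a b hab
        have h1 : polar Q z (a • w₁ + b • w₂) = 0 := by rw [hab, p_zero']
        have hzw : polar Q z w₂ ≠ 0 := by
          rw [e2, p_sub', p_smul', p_add', p_smul', p_self, p_comm Q z w₁, hz2]
          rw [hyQ] at hy0
          have : (0 : F) - (c₀ + lam * lam * Q z)⁻¹ * (2 * c₀) * (0 + lam * (2 * Q z)) =
            -((c₀ + lam * lam * Q z)⁻¹ * (2 * c₀) * (lam * (2 * Q z))) := by ring
          rw [this]
          exact neg_ne_zero.2 (mul_ne_zero (mul_ne_zero (inv_ne_zero hy0)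
            (mul_ne_zero H'.two H.c₀0)) (mul_ne_zero hlam0 (mul_ne_zero H'.two hzQ)))
        rw [p_add', p_smul', p_smul', p_comm Q z w₁, hz2, mul_zero, zero_add] at h1
        have h2 := (mul_eq_zero.1 h1).resolve_right hzw
        rw [h2, zero_smul, add_zero] at hab
        have hw₁ne : w₁ ≠ 0 := fun h => hw₁0 (by rw [h, QuadraticMap.map_zero])
        exact ⟨(smul_eq_zero.1 hab).resolve_right hw₁ne, h2⟩
      have hle : Submodule.span F {w₁, w₂} ≤ pc Q (D i) (p i x) := by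
        rw [Submodule.span_le]
        intro y hy
        rcases hy with rfl | hy
        · exact hw₁
        · rw [Set.mem_singleton_iff] at hy
          subst hy; exact hw₂T
      have hrk : finrank F (Submodule.span F {w₁, w₂}) = 2 := by
        have e : ({w₁, w₂} : Set V) = Set.range ![w₁, w₂] := by
          ext x; simp [or_comm]
        rw [e, finrank_span_eq_card hliw]; simp
      have heq := Submodule.eq_of_le_of_finrank_le hle (by have := H.h3 i; omega)
      rw [← heq] at hy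
      obtain ⟨a, b, rfl⟩ := Submodule.mem_span_pair.1 hy
      rw [map_add, map_smul, map_smul]
      exact (D j).add_mem ((D j).smul_mem _ hj) ((D j).smul_mem _ hj')
    obtain ⟨w, hw, hwQ⟩ := rep H'.two hTnd hT2 c
    exact fin i w (mem_pc.1 hw).1 hwQ j (hall w hw)

lemma exists_nonclass (two : (2 : F) ≠ 0) {c₀ : F} (hc₀ : c₀ ≠ 0) :
    ∃ c : F, c ≠ 0 ∧ ∀ l : F, l * l * c₀ ≠ c := by
  have hchar : ringChar F ≠ 2 := fun h => two (by
      have := ringChar.spec F 2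
      have h3 : ((2 : ℕ) : F) = 0 := this.2 (by rw [h])
      exact_mod_cast h3)
  obtain ⟨a, ha⟩ := FiniteField.exists_nonsquare hchar
  have ha0 : a ≠ 0 := by rintro rfl; exact ha ⟨0, by simp⟩
  refine ⟨a * c₀, mul_ne_zero ha0 hc₀, fun l hl => ha ⟨l, ?_⟩⟩
  exact (mul_right_cancel₀ hc₀ hl).symm

/-- **Main theorem** (odd characteristic, members of dimension at least three): overgroups in `Ω` of
the stabiliser of an orthogonal decomposition. -/
theorem overgroup3 [Nontrivial ι] (H : Hyp Q D p M) (hM : M ≤ ⁅O Q, O Q⁆)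
    (hcase : (∀ i, 4 ≤ finrank F (D i)) ∨ (5 ≤ Nat.card F ∧ ∀ i, finrank F (D i) = 3))
    {g : V ≃ₗ[F] V} (hg : g ∈ M) (hgp : ¬ Pres D g) : ⁅O Q, O Q⁆ ≤ M := by
  rcases hcase with h4 | ⟨h5, h3⟩
  · exact combine H hM (c := 1) one_ne_zero (fun M' H' i₀ u hu hui _ hn g hg hgp =>
      partA4 H' h4 hui hn hg hgp) (fun hstar g hg => partB4 H h4 one_ne_zero hstar hg) hg hgp
  · obtain ⟨i₀, -, -⟩ := exists_pair_ne ι
    obtain ⟨s, hs, hs0, hsQ⟩ := exists_sing H.two (H.nds i₀) (H.hk i₀)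
    obtain ⟨w, hw, hsw, hwQ⟩ := exists_perp_ns (H.nds i₀) hs hs0 (H.hk i₀)
    have hN := N2_of (H.nds i₀) (h3 i₀) hs hs0 hsQ hw hsw hwQ
    have hN' : ∀ i, N2 Q (D i) (Q w) := fun i => by
      obtain ⟨e, he⟩ := H.iso i₀ i
      exact N2_iso hN e he
    obtain ⟨c, hc, hcc⟩ := exists_nonclass H.two hwQ
    exact combine H hM hc (fun M' H' i₀ u hu hui huc hn g hg hgp =>
      partA3 (c₀ := Q w) (c := c) ⟨H', h3, h5, hwQ, hN', hc, hcc⟩ hui huc hn hg hgp)
      (fun hstar g hg => partB3 (c₀ := Q w) ⟨H, h3, h5, hwQ, hN', hc, hcc⟩ hstar hg) hg hgp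

/-- some element of `Ω` does not permute the members -/
theorem exists_not_pres [Nontrivial ι] (H : Hyp Q D p M) :
    ∃ g ∈ ⁅O Q, O Q⁆, ¬ Pres D g := by
  obtain ⟨i, l, hil⟩ := exists_pair_ne ι
  obtain ⟨s, hs, hs0, hsQ⟩ := exists_sing H.two (H.nds i) (H.hk i)
  obtain ⟨y, hy, hy0⟩ := ex_ns' (H.nds l) (by have := H.hk l; omega)
  obtain ⟨x, hx, hxs⟩ := partner (H.nds i) hs hs0
  have hsy : polar Q s y = 0 := H.h.orth i l hil s hs y hy
  refine ⟨sie Q s y, sie_mem_omega H.hQ H.hn hsQ hsy, ?_⟩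
  rintro ⟨σ, hσ⟩
  have h1 := hσ i x hx
  rw [sie_apply hsQ hsy, hxs, H.h.orth i l hil x hx y hy, zero_smul, sub_zero, one_smul,
    mul_one] at h1
  have hyne : y ≠ 0 := fun h => hy0 (by rw [h, QuadraticMap.map_zero])
  have e1 : p i (x + y - Q y • s) = x - Q y • s := by
    rw [map_sub, map_add, map_smul, H.h.self i x hx, H.h.other i l hil y hy, H.h.self i s hs, add_zero]
  have e2 : p l (x + y - Q y • s) = y := by
    rw [map_sub, map_add, map_smul, H.h.other l i hil.symm x hx, H.h.self l y hy,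
      H.h.other l i hil.symm s hs, smul_zero, sub_zero, zero_add]
  have h2 : σ i = l := by
    by_contra hne
    rw [H.h.other l (σ i) (Ne.symm hne) _ h1] at e2
    exact hyne e2.symm
  rw [h2] at h1
  rw [H.h.other i l hil _ h1] at e1
  have h3 : polar Q (x - Q y • s) s = 0 := by rw [← e1, p_zero]
  rw [p_sub, p_smul, p_self, hsQ, hxs] at h3
  apply one_ne_zero (α := F)
  linear_combination h3

end H95.OImp
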