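import Mathlib
import Cfsg.Agent.Lib.H95.OImp5
import Cfsg.Agent.Lib.H95.OBridge

set_option autoImplicit false

/-!
Translation of the maximality of stabilisers of orthogonal decompositions.
-/

namespace H95.OImpB

open Module QuadraticMap H48.QuadSplit H95.OGeo H17.OrthAbs H95.OSie H95.OQd H95.OSmall H95.OImp
  H95.Bridge H95.OBridge Cfsg Cfsg.Geo
open scoped Matrix MatrixGroups

variable {ι : Type} [Fintype ι] [DecidableEq ι] {F : Type*} [Field F]

lemma mem_stab_iff {t k : ℕ} {D : Fin t → Submodule F (ι → F)} (hk : ∀ i, finrank F (D i) = k)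
    {g : GL ι F} : g ∈ decompositionStabilizer D ↔ Pres D (toEq ι F g) := by
  rw [mem_decompositionStabilizer]
  constructor
  · rintro ⟨σ, hσ⟩
    refine ⟨σ, fun i x hx => ?_⟩
    rw [← hσ i]
    exact ⟨x, hx, rfl⟩
  · rintro ⟨σ, hσ⟩
    refine ⟨σ, fun i => ?_⟩
    apply Submodule.eq_of_le_of_finrank_eq
    · rintro _ ⟨x, hx, rfl⟩; exact hσ i x hx
    · rw [LinearEquiv.finrank_map_eq, hk, hk]

theorem max_of {Q' : QuadraticForm F (ι → F)} {t k : ℕ} {D : Fin t → Submodule F (ι → F)}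
    (hk : ∀ i, finrank F (D i) = k) (h1 : ∃ g ∈ ⁅O Q', O Q'⁆, ¬ Pres D g)
    (h2 : ∀ M : Subgroup ((ι → F) ≃ₗ[F] (ι → F)), M ≤ ⁅O Q', O Q'⁆ →
      (∀ g ∈ ⁅O Q', O Q'⁆, Pres D g → g ∈ M) → ∀ g ∈ M, ¬ Pres D g → ⁅O Q', O Q'⁆ ≤ M) :
    IsMaximalIn (omegaGL (⇑Q')) (decompositionStabilizer D ⊓ omegaGL (⇑Q')) := by
  apply isMaximalIn_of
  · obtain ⟨g, hg, hgp⟩ := h1
    refine ⟨(toEq _ F).symm g, ?_, ?_⟩
    · rw [mem_omegaGL, MulEquiv.apply_symm_apply]; exact hg
    · rw [mem_stab_iff hk, MulEquiv.apply_symm_apply]; exact hgp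
  · intro M hHM hMK ⟨g, hg, hgS⟩
    apply le_of_map (fun g => mem_omegaGL Q' g)
    apply h2 (M.map (toEq _ F).toMonoidHom) _ _ (toEq _ F g) ⟨g, hg, rfl⟩
      (fun h => hgS ((mem_stab_iff hk).2 h))
    · rintro _ ⟨x, hx, rfl⟩
      exact (mem_omegaGL Q' x).1 (hMK hx)
    · intro x hx hxp
      rw [mem_map_toEq]
      apply hHM
      refine ⟨?_, ?_⟩
      · exact (mem_stab_iff hk).2 (by rw [MulEquiv.apply_symm_apply]; exact hxp)
      · exact (mem_omegaGL Q' _).2 (by rw [MulEquiv.apply_symm_apply]; exact hx)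

lemma nd_mem {Q' : QuadraticForm F (ι → F)} {W : Submodule F (ι → F)}
    (h : IsNondegenerateOn (QuadraticMap.polar Q') W) :
    ∀ v ∈ W, (∀ w ∈ W, polar Q' v w = 0) → v = 0 := by
  intro v hv h0
  by_contra hne
  obtain ⟨x, hx, hx'⟩ := (h v hv hne).2
  exact hx' (h0 x hx)

lemma card_eq {t k : ℕ} {D : Fin t → Submodule F (ι → F)} (hD : IsMDecomposition k D) :
    Fintype.card ι = t * k := by
  have h1 := (DirectSum.isInternal_submodule_of_iSupIndep_of_iSup_eq_top hD.indep hD.iSup_eq_top)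
  have h2 := h1.collectedBasis (fun i => Module.finBasis F (D i))
  have h3 := Module.finrank_eq_card_basis h2
  rw [Module.finrank_fintype_fun_eq_card, Fintype.card_sigma] at h3
  simp only [Fintype.card_fin, hD.finrank_eq, Finset.sum_const, Finset.card_univ, smul_eq_mul] at h3
  exact h3

/-- odd characteristic, members of dimension at least three -/
theorem max_odd3 [Fintype F] {Q' : QuadraticForm F (ι → F)} (hQ : ND Q') (two : (2 : F) ≠ 0)
    (hn : 9 ≤ Fintype.card ι) {t k : ℕ} {D : Fin t → Submodule F (ι → F)}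
    (hD : IsOrthogonalMDecomposition (⇑Q') k D)
    (hcase : 4 ≤ k ∨ (5 ≤ Nat.card F ∧ k = 3)) :
    IsMaximalIn (omegaGL (⇑Q')) (decompositionStabilizer D ⊓ omegaGL (⇑Q')) := by
  have hk := hD.decomp.decomp.finrank_eq
  have ht := hD.decomp.decomp.two_le
  have : Nontrivial (Fin t) := Fin.nontrivial_iff_two_le.2 ht
  obtain ⟨p, hp⟩ := exists_QD Q' D (fun i => nd_mem (hD.decomp.nondegenerate i))
    (fun i j hij u hu v hv => hD.decomp.orthogonal i j hij u hu v hv) hD.decomp.decomp.iSup_eq_top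
  have hH : ∀ M : Subgroup ((ι → F) ≃ₗ[F] (ι → F)), M ≤ ⁅O Q', O Q'⁆ →
      (∀ g ∈ ⁅O Q', O Q'⁆, Pres D g → g ∈ M) → Hyp Q' D p M := fun M h1 h2 =>
    { two := two
      hQ := hQ
      hn := by rw [Module.finrank_fintype_fun_eq_card]; exact hn
      h := hp
      hk := fun i => by rw [hk]; omega
      iso := hD.isometric
      M_le := h1.trans (omega_le_O Q')
      H_le := h2 }
  apply max_of hk
  · exact exists_not_pres (hH ⁅O Q', O Q'⁆ le_rfl fun g hg _ => hg)
  · intro M h1 h2 g hg hgp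
    refine overgroup3 (hH M h1 h2) h1 ?_ hg hgp
    rcases hcase with h | h
    · exact Or.inl fun i => by rw [hk]; exact h
    · exact Or.inr ⟨h.1, fun i => by rw [hk]; exact h.2⟩

end H95.OImpB
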