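import Mathlib
import Cfsg.Agent.Lib.H95.OIe
import Cfsg.Agent.Lib.H95.OImpB

set_option autoImplicit false

/-!
Overgroups of stabilisers of orthogonal decompositions in orthogonal groups of characteristic two:
members of dimension at least four.
-/

namespace H95.OIe

open Module QuadraticMap H48.QuadSplit H95.OGeo H17.OrthAbs H95.OSie H95.OQd H95.OSmall H95.OIg
open H95.OImp (refl_conj Rv Rv_refl exists_swap adj omega_conj refl_mul_sub)
open scoped commutatorElement

variable {F V : Type*} [Field F] [AddCommGroup V] [Module F V] {Q : QuadraticForm F V}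
  [FiniteDimensional F V] [Finite F]

omit [FiniteDimensional F V] in
/-- every element of a finite field of characteristic two is a square -/
lemma sq_surj (two : (2 : F) = 0) (e : F) : ∃ a : F, a * a = e := by
  have : Fintype F := Fintype.ofFinite F
  have h1 : ringChar F = 2 := by
    have h2 : (ringChar F) ∣ 2 := ringChar.dvd (by exact_mod_cast two)
    exact (Nat.dvd_prime Nat.prime_two).1 h2 |>.resolve_left CharP.ringChar_ne_one
  obtain ⟨a, ha⟩ := FiniteField.isSquare_of_char_two h1 e
  exact ⟨a, ha.symm⟩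

omit [FiniteDimensional F V] in
lemma scale (two : (2 : F) = 0) {v : V} (hv : Q v ≠ 0) (e : F) : ∃ a : F, Q (a • v) = e := by
  obtain ⟨a, ha⟩ := sq_surj two (e / Q v)
  exact ⟨a, by rw [Q_smul, ha, div_mul_cancel₀ _ hv]⟩

omit [Finite F] in
/-- two independent nonsingular vectors orthogonal to a vector -/
lemma pc_two_ns {U : Submodule F V} (hU : NDs Q U) (h4 : 4 ≤ finrank F U) {x : V} (hx : x ∈ U) :
    ∃ y ∈ pc Q U x, ∃ y' ∈ pc Q U x, Q y ≠ 0 ∧ Q y' ≠ 0 ∧ LinearIndependent F ![y, y'] := by
  obtain ⟨y, hy, hy0⟩ := pc_ns hU (by omega) hx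
  have hyne : y ≠ 0 := by rintro rfl; exact hy0 (QuadraticMap.map_zero Q)
  by_contra hcon
  have hall : ∀ z ∈ pc Q U x, z ∉ Submodule.span F {y} → Q z = 0 := by
    intro z hz hzy
    by_contra hz0
    refine hcon ⟨y, hy, z, hz, hy0, hz0, H95.UBasic.pair_indep hyne fun l hl => hzy ?_⟩
    rw [hl]
    exact Submodule.smul_mem _ _ (Submodule.mem_span_singleton_self y)
  have h1 : pc Q (pc Q U x) y ≤ Submodule.span F {y} := by
    intro z hz
    by_contra hzy
    obtain ⟨hz1, hyz⟩ := mem_pc.1 hz
    have h2 := hall z hz1 hzy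
    have h3 : z + y ∉ Submodule.span F {y} := fun h =>
      hzy (((Submodule.span F {y}).add_mem_iff_left (Submodule.mem_span_singleton_self y)).1 h)
    have h4 := hall (z + y) ((pc Q U x).add_mem hz1 hy) h3
    rw [Q_add, h2, p_comm Q z y, hyz, zero_add, add_zero] at h4
    exact hy0 h4
  have h2 := Submodule.finrank_mono h1
  have h3 := span_le_one (F := F) y
  have h5 := pc_rank (Q := Q) U x
  have h6 := pc_rank (Q := Q) (pc Q U x) y
  omega

omit [Finite F] in
/-- nonsingular vectors span -/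
lemma ns_span {U : Submodule F V} (hU : NDs Q U) (h3 : 3 ≤ finrank F U)
    (S : Submodule F V) (hS : ∀ z ∈ U, Q z ≠ 0 → z ∈ S) : U ≤ S := by
  intro z hz
  by_cases hzQ : Q z = 0
  · obtain ⟨y, hy, hy0⟩ := pc_ns hU h3 hz
    obtain ⟨hyU, hzy⟩ := mem_pc.1 hy
    have h1 := hS y hyU hy0
    have h2 := hS (z + y) (U.add_mem hz hyU) (by
      rw [Q_add, hzQ, hzy, zero_add, add_zero]; exact hy0)
    exact (S.add_mem_iff_left h1).1 h2
  · exact hS z hz hzQ

variable {ι : Type*} [Fintype ι] [DecidableEq ι] {D : ι → Submodule F V} {p : ι → V →ₗ[F] V}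
  {M : Subgroup (V ≃ₗ[F] V)}

omit [FiniteDimensional F V] in
lemma two_elem {a : F} (hc : Nat.card F = 2) (ha : a ≠ 0) : a = 1 := by
  by_contra hne
  have : Fintype F := Fintype.ofFinite F
  classical
  have h1 : ({0, 1, a} : Finset F).card = 3 := by
    rw [Finset.card_eq_three]
    exact ⟨0, 1, a, zero_ne_one, Ne.symm ha, Ne.symm hne, rfl⟩
  have h2 := Finset.card_le_univ ({0, 1, a} : Finset F)
  rw [h1, ← Nat.card_eq_fintype_card, hc] at h2
  omega

/-- the images of two nonsingular vectors of one member lie in the same member -/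
lemma same (H : HG Q D p M) (two : (2 : F) = 0) {i : ι} (h4 : 4 ≤ finrank F (D i))
    (hex : Nat.card F = 2 → finrank F (D i) = 4 → ∀ a ∈ D i, ∀ b ∈ D i, Q a = 0 → Q b = 0 →
      polar Q a b = 0 → ¬ LinearIndependent F ![a, b]) {g : V ≃ₗ[F] V} (hg : g ∈ O Q)
    (hall : ∀ v ∈ D i, Q v ≠ 0 → ∃ j, g v ∈ D j) {v w : V} (hv : v ∈ D i) (hw : w ∈ D i)
    (hv0 : Q v ≠ 0) (hw0 : Q w ≠ 0) {j j' : ι} (hj : g v ∈ D j) (hj' : g w ∈ D j') : j = j' := by
  have hcancel : ∀ a b : F, a + b = 0 → a = b := fun a b hab => by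
    linear_combination hab - b * two
  have hcancel' : ∀ a : F, a + a = 0 := fun a => by linear_combination a * two
  -- orthogonality
  have horth : ∀ x ∈ D i, ∀ y ∈ D i, ∀ a b, g x ∈ D a → g y ∈ D b → a ≠ b → polar Q x y = 0 := by
    intro x hx y hy a b ha hb hab
    rw [← polar_map hg]
    exact H.h.orth a b hab _ ha _ hb
  have hgne : ∀ x : V, Q x ≠ 0 → g x ≠ 0 := by
    intro x hx h0
    rw [LinearEquiv.map_eq_zero_iff] at h0
    exact hx (by rw [h0, QuadraticMap.map_zero])
  by_contra hne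
  have hvw := horth v hv w hw j j' hj hj' hne
  have hvne : v ≠ 0 := by rintro rfl; exact hv0 (QuadraticMap.map_zero Q)
  have hwne : w ≠ 0 := by rintro rfl; exact hw0 (QuadraticMap.map_zero Q)
  -- combinations are singular
  have hcomb : ∀ a b : F, a ≠ 0 → b ≠ 0 → Q (a • v + b • w) = 0 := by
    intro a b ha hb
    by_contra hQ
    obtain ⟨l, hl⟩ := hall _ ((D i).add_mem ((D i).smul_mem _ hv) ((D i).smul_mem _ hw)) hQ
    rw [map_add, map_smul, map_smul] at hl
    have h1 : p j (a • g v + b • g w) = a • g v := by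
      rw [map_add, map_smul, map_smul, H.h.self j _ hj, H.h.other j j' hne _ hj', smul_zero, add_zero]
    have h2 : p j' (a • g v + b • g w) = b • g w := by
      rw [map_add, map_smul, map_smul, H.h.self j' _ hj', H.h.other j' j (Ne.symm hne) _ hj,
        smul_zero, zero_add]
    by_cases hlj : l = j
    · subst hlj
      rw [H.h.other j' l (Ne.symm hne) _ hl] at h2
      exact smul_ne_zero hb (hgne w hw0) h2.symm
    · rw [H.h.other j l (Ne.symm hlj) _ hl] at h1
      exact smul_ne_zero ha (hgne v hv0) h1.symm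
  have h11 := hcomb 1 1 one_ne_zero one_ne_zero
  rw [one_smul, one_smul, Q_add, hvw, add_zero] at h11
  have hvwQ : Q v = Q w := hcancel _ _ h11
  have hcard : Nat.card F = 2 := by
    have hall1 : ∀ a : F, a ≠ 0 → a = 1 := by
      intro a ha
      have h1 := hcomb a 1 ha one_ne_zero
      rw [one_smul, Q_add, Q_smul, p_smul, hvw, mul_zero, add_zero, hvwQ] at h1
      have h2 : (a * a + 1) * Q w = 0 := by linear_combination h1
      have h3 := (mul_eq_zero.1 h2).resolve_right hw0
      have h4 : (a + 1) * (a + 1) = 0 := by linear_combination h3 + a * two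
      have h5 := mul_self_eq_zero.1 h4
      exact hcancel _ _ h5
    have : Fintype F := Fintype.ofFinite F
    classical
    have h1 : (Finset.univ : Finset F) = {0, 1} := by
      ext a
      simp only [Finset.mem_univ, Finset.mem_insert, Finset.mem_singleton, true_iff]
      by_cases ha : a = 0
      · exact Or.inl ha
      · exact Or.inr (hall1 a ha)
    rw [Nat.card_eq_fintype_card, ← Finset.card_univ, h1, Finset.card_pair zero_ne_one]
  have h1' : ∀ a : F, a ≠ 0 → a = 1 := fun a ha => two_elem hcard ha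
  have hv1 := h1' _ hv0
  have hw1 := h1' _ hw0
  -- vectors orthogonal to both
  have hT : ∀ z ∈ D i, polar Q v z = 0 → polar Q w z = 0 → Q z ≠ 0 → z = v ∨ z = w := by
    intro z hz hvz hwz hz0
    by_contra hcon
    push Not at hcon
    have hz1 := h1' _ hz0
    obtain ⟨m, hm⟩ := hall z hz hz0
    have h5 : Q (z + v + w) ≠ 0 := by
      rw [Q_add, Q_add, p_add, hz1, hv1, hw1, p_comm Q z v, hvz, p_comm Q z w, hwz, hvw]
      have : (1 : F) + 1 + 0 + 1 + (0 + 0) = 1 := by linear_combination two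
      rw [this]; exact one_ne_zero
    obtain ⟨l, hl⟩ := hall _ ((D i).add_mem ((D i).add_mem hz hv) hw) h5
    rw [map_add, map_add] at hl
    have nz1 : g z + g v ≠ 0 := by
      rw [← map_add]
      intro h0
      rw [LinearEquiv.map_eq_zero_iff] at h0
      apply hcon.1
      have : v + v = 0 := by
        have := congrArg (fun a : F => a • v) (hcancel' 1)
        simpa [add_smul] using this
      calc z = z + v + -v := by abel
        _ = -v := by rw [h0, zero_add]
        _ = v := neg_eq_of_add_eq_zero_left this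
    have nz2 : g z + g w ≠ 0 := by
      rw [← map_add]
      intro h0
      rw [LinearEquiv.map_eq_zero_iff] at h0
      apply hcon.2
      have : w + w = 0 := by
        have := congrArg (fun a : F => a • w) (hcancel' 1)
        simpa [add_smul] using this
      calc z = z + w + -w := by abel
        _ = -w := by rw [h0, zero_add]
        _ = w := neg_eq_of_add_eq_zero_left this
    -- components
    by_cases hmj : m = j
    · subst hmj
      have c1 : p m (g z + g v + g w) = g z + g v := by
        rw [map_add, map_add, H.h.self m _ hm, H.h.self m _ hj, H.h.other m j' hne _ hj', add_zero]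
      have c2 : p j' (g z + g v + g w) = g w := by
        rw [map_add, map_add, H.h.other j' m (Ne.symm hne) _ hm, H.h.other j' m (Ne.symm hne) _ hj,
          H.h.self j' _ hj', add_zero, zero_add]
      by_cases hlm : l = m
      · subst hlm
        rw [H.h.other j' l (Ne.symm hne) _ hl] at c2
        exact hgne w hw0 c2.symm
      · rw [H.h.other m l (Ne.symm hlm) _ hl] at c1
        exact nz1 c1.symm
    · by_cases hmj' : m = j'
      · subst hmj'
        have c1 : p m (g z + g v + g w) = g z + g w := by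
          rw [map_add, map_add, H.h.self m _ hm, H.h.other m j hmj _ hj, H.h.self m _ hj', add_zero]
        have c2 : p j (g z + g v + g w) = g v := by
          rw [map_add, map_add, H.h.other j m hne _ hm, H.h.self j _ hj,
            H.h.other j m hne _ hj', add_zero, zero_add]
        by_cases hlj : l = j
        · subst hlj
          rw [H.h.other m l hmj _ hl] at c1
          exact nz2 c1.symm
        · rw [H.h.other j l (Ne.symm hlj) _ hl] at c2
          exact hgne v hv0 c2.symm
      · have c1 : p m (g z + g v + g w) = g z := by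
          rw [map_add, map_add, H.h.self m _ hm, H.h.other m j hmj _ hj, H.h.other m j' hmj' _ hj',
            add_zero, add_zero]
        have c2 : p j (g z + g v + g w) = g v := by
          rw [map_add, map_add, H.h.other j m (Ne.symm hmj) _ hm, H.h.self j _ hj,
            H.h.other j j' hne _ hj', add_zero, zero_add]
        by_cases hlj : l = j
        · subst hlj
          rw [H.h.other m l hmj _ hl] at c1
          exact hgne z hz0 c1.symm
        · rw [H.h.other j l (Ne.symm hlj) _ hl] at c2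
          exact hgne v hv0 c2.symm
  have hvv : polar Q v v = 0 := by rw [p_self, two, zero_mul]
  have hww : polar Q w w = 0 := by rw [p_self, two, zero_mul]
  have hlivw : LinearIndependent F ![v, w] := by
    apply H95.UBasic.pair_indep hvne
    intro l hl
    apply hne
    have hl0 : l ≠ 0 := by rintro rfl; rw [zero_smul] at hl; exact hwne hl
    rw [h1' l hl0, one_smul] at hl
    subst hl
    by_contra hjj
    exact hgne _ hv0 (H.h.disj hjj hj hj')
  -- the orthogonal of v and w is spanned by them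
  have hTle : pc Q (pc Q (D i) v) w ≤ Submodule.span F (Set.range ![v, w]) := by
    intro z hz
    obtain ⟨hz1, hwz⟩ := mem_pc.1 hz
    obtain ⟨hzi, hvz⟩ := mem_pc.1 hz1
    have hvS : v ∈ Submodule.span F (Set.range ![v, w]) := Submodule.subset_span ⟨0, rfl⟩
    have hwS : w ∈ Submodule.span F (Set.range ![v, w]) := Submodule.subset_span ⟨1, rfl⟩
    by_cases hz0 : Q z = 0
    · have h5 : Q (z + v) ≠ 0 := by
        rw [Q_add, hz0, p_comm Q z v, hvz, zero_add, add_zero]; exact hv0
      have h6 := hT (z + v) ((D i).add_mem hzi hv) (by rw [p_add', hvz, hvv, add_zero])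
        (by rw [p_add', hwz, p_comm Q w v, hvw, add_zero]) h5
      rcases h6 with h6 | h6
      · have : z = 0 := by
          have := congrArg (fun a => a - v) h6
          simpa using this
        rw [this]; exact Submodule.zero_mem _
      · have : z = w - v := by rw [← h6]; abel
        rw [this]; exact Submodule.sub_mem _ hwS hvS
    · rcases hT z hzi hvz hwz hz0 with h6 | h6
      · rw [h6]; exact hvS
      · rw [h6]; exact hwS
  have hr1 := pc_rank (Q := Q) (D i) v
  have hr2 := pc_rank (Q := Q) (pc Q (D i) v) w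
  have hr3 := Submodule.finrank_mono hTle
  have hr4 : finrank F (Submodule.span F (Set.range ![v, w])) ≤ 2 := by
    have := finrank_range_le_card (R := F) ![v, w]
    rw [Fintype.card_fin] at this
    exact this
  have hdim : finrank F (D i) = 4 := by omega
  -- a totally singular plane
  obtain ⟨z, hz, hzvw⟩ : ∃ z ∈ D i, polar Q z v = 1 ∧ polar Q z w = 1 := by
    obtain ⟨z, hz, h⟩ := H95.ONd.rel_dual (Q := Q) (U := D i) (fun a ha => Subtype.ext
      (H.h.nd i a a.2 fun w hw => ha ⟨w, hw⟩)) (x := ![v, w]) (by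
        intro a; fin_cases a
        · exact hv
        · exact hw) hlivw ![1, 1]
    exact ⟨z, hz, h 0, h 1⟩
  have hz0 : Q z = 0 := by
    by_contra hz0
    obtain ⟨m, hm⟩ := hall z hz hz0
    have h5 : m = j := by
      by_contra hmj
      have := horth z hz v hv m j hm hj hmj
      rw [hzvw.1] at this
      exact one_ne_zero this
    have h6 : m = j' := by
      by_contra hmj
      have := horth z hz w hw m j' hm hj' hmj
      rw [hzvw.2] at this
      exact one_ne_zero this
    exact hne (h5.symm.trans h6)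
  have hvwS : Q (v + w) = 0 := by rw [Q_add, hvw, hv1, hw1]; linear_combination two
  have hzvw' : polar Q z (v + w) = 0 := by rw [p_add', hzvw.1, hzvw.2]; linear_combination two
  refine hex hcard hdim z hz (v + w) ((D i).add_mem hv hw) hz0 hvwS hzvw' ?_
  rw [LinearIndependent.pair_iff]
  intro a b hab
  have e1 := congrArg (polar Q v) hab
  rw [p_add', p_smul', p_smul', p_add', hvv, hvw, p_zero', p_comm Q v z, hzvw.1] at e1
  have ha : a = 0 := by linear_combination e1
  rw [ha, zero_smul, zero_add, smul_add] at hab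
  obtain ⟨h7, -⟩ := LinearIndependent.pair_iff.1 hlivw _ _ hab
  exact ⟨ha, h7⟩

/-- a map sending nonsingular vectors of each member into members permutes the members -/
lemma pres_of_norm (H : HG Q D p M) (two : (2 : F) = 0) (h4 : ∀ i, 4 ≤ finrank F (D i))
    (hex : Nat.card F = 2 → ∀ i, finrank F (D i) = 4 → ∀ a ∈ D i, ∀ b ∈ D i, Q a = 0 → Q b = 0 →
      polar Q a b = 0 → ¬ LinearIndependent F ![a, b]) {c : F} (hc : c ≠ 0) {g : V ≃ₗ[F] V}
    (hg : g ∈ O Q) (hall : ∀ i, ∀ v ∈ D i, Q v = c → ∃ j, g v ∈ D j) : Pres D g := by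
  have hall' : ∀ i, ∀ v ∈ D i, Q v ≠ 0 → ∃ j, g v ∈ D j := by
    intro i v hv hv0
    obtain ⟨a, ha⟩ := scale two hv0 c
    obtain ⟨j, hj⟩ := hall i _ ((D i).smul_mem a hv) ha
    have ha0 : a ≠ 0 := by
      rintro rfl
      rw [zero_smul, QuadraticMap.map_zero] at ha
      exact hc ha.symm
    rw [map_smul] at hj
    exact ⟨j, ((D j).smul_mem_iff ha0).1 hj⟩
  have hpos : ∀ i, ∃ x ∈ D i, x ≠ 0 := fun i => ex_ne (by have := h4 i; omega)
  refine H.pres_of_all hpos fun i => ?_
  obtain ⟨v, hv, hvc⟩ := H.rep i c hc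
  have hv0 : Q v ≠ 0 := by rw [hvc]; exact hc
  obtain ⟨j, hj⟩ := hall' i v hv hv0
  refine ⟨j, fun x hx => ?_⟩
  have h1 : D i ≤ (D j).comap (g : V →ₗ[F] V) := by
    apply ns_span (H.nds i) (by have := h4 i; omega)
    intro w hw hw0
    obtain ⟨j', hj'⟩ := hall' i w hw hw0
    have := same H two (h4 i) (fun h => hex h i) hg (hall' i) hv hw hv0 hw0 hj hj'
    subst this
    exact hj'
  exact h1 hx

/-- Part A. -/
theorem partA (H : HG Q D p M) (two : (2 : F) = 0) (h4 : ∀ i, 4 ≤ finrank F (D i))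
    (hex : Nat.card F = 2 → ∀ i, finrank F (D i) = 4 → ∀ a ∈ D i, ∀ b ∈ D i, Q a = 0 → Q b = 0 →
      polar Q a b = 0 → ¬ LinearIndependent F ![a, b]) {i₀ : ι} {u : V} {hu : Q u ≠ 0}
    (hu' : u ∈ D i₀)
    (hn : ∀ m ∈ M, refl Q u hu * m * (refl Q u hu)⁻¹ ∈ M) {g : V ≃ₗ[F] V} (hg : g ∈ M)
    (hgp : ¬ Pres D g) : ⁅O Q, O Q⁆ ≤ M := by
  have hgO := H.M_le hg
  obtain ⟨i, v, hv, hvc, hvj⟩ : ∃ i, ∃ v ∈ D i, Q v = Q u ∧ ∀ j, g v ∉ D j := by
    by_contra hcon
    push Not at hcon
    exact hgp (pres_of_norm H two h4 hex hu hgO hcon)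
  have hx := H.Rv_map hn hg (H.Rv_mem (hu := hu) hu' hv hvc)
  have hx0 : Q (g v) ≠ 0 := by rw [hgO, hvc]; exact hu
  obtain ⟨j, hj⟩ := H.h.exists_ne hx0
  have hUr := pc_rank (Q := Q) (D j) (p j (g v))
  obtain ⟨s, hs, hs0, hsQ⟩ := OGeo.exists_sing Q (U := pc Q (D j) (p j (g v)))
    (by have := h4 j; omega)
  obtain ⟨hs1, hs2⟩ := mem_pc.1 hs
  obtain ⟨l, hlj, hl⟩ := H.h.exists_other (hvj j)
  refine omega_of_vec H h4 hx0 (H.Rv_hR hn hx hx0) hs1 hs0 hsQ ?_ ?_ hlj hl
  · rw [H.h.pr _ hs1, p_comm, hs2]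
  · intro hmem
    obtain ⟨c, hc⟩ := Submodule.mem_span_singleton.1 hmem
    apply hj
    rw [← hc, Q_smul, hsQ, mul_zero]

/-- Part B. -/
theorem partB (H : HG Q D p M) [Nontrivial ι] (two : (2 : F) = 0) (h4 : ∀ i, 4 ≤ finrank F (D i))
    {c : F} (hc : c ≠ 0) (hstar : Star Q D M c) {g : V ≃ₗ[F] V} (hg : g ∈ M) : Pres D g := by
  have hgO := H.M_le hg
  obtain ⟨i, l, hil⟩ := exists_pair_ne ι
  obtain ⟨v, hv, hvc⟩ := H.rep i c hc
  obtain ⟨w₀, hw₀, hw₀0⟩ := pc_ns (H.nds i) (by have := h4 i; omega) (H.h.mem i (g v))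
  obtain ⟨y, hy, y', hy', hy0, hy0', hli⟩ := pc_two_ns (H.nds l) (h4 l) (H.h.mem l (g v))
  obtain ⟨a, ha⟩ := scale two hw₀0 c
  obtain ⟨b, hb⟩ := scale two hy0 c
  obtain ⟨b', hb'⟩ := scale two hy0' c
  have hb0 : b ≠ 0 := by
    rintro rfl
    rw [zero_smul, QuadraticMap.map_zero] at hb
    exact hc hb.symm
  have hb0' : b' ≠ 0 := by
    rintro rfl
    rw [zero_smul, QuadraticMap.map_zero] at hb'
    exact hc hb'.symm
  obtain ⟨hw1, hw2⟩ := mem_pc.1 hw₀
  obtain ⟨hy1, hy2⟩ := mem_pc.1 hy
  obtain ⟨hy1', hy2'⟩ := mem_pc.1 hy'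
  obtain ⟨j, hj⟩ := mem_conj_of H (fun i => by have := h4 i; omega) hstar hg hv hvc hil.symm
    ((D i).smul_mem a hw1) ((D l).smul_mem b hy1) ((D l).smul_mem b' hy1')
    (by rw [p_smul', H.h.pl _ hw1, hw2, mul_zero])
    (by rw [p_smul', H.h.pl _ hy1, hy2, mul_zero])
    (by rw [p_smul', H.h.pl _ hy1', hy2', mul_zero]) (by rw [ha]; exact hc)
    (by rw [ha, hb]) (by rw [ha, hb']) (by
      rw [LinearIndependent.pair_iff] at hli ⊢
      intro s t hst
      rw [smul_smul, smul_smul] at hst
      obtain ⟨h5, h6⟩ := hli _ _ hst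
      exact ⟨(mul_eq_zero.1 h5).resolve_right hb0, (mul_eq_zero.1 h6).resolve_right hb0'⟩)
  have h1 : Pres D g⁻¹ := hstar _ (M.inv_mem hg) i j (a • w₀) ((D i).smul_mem a hw1) ha hj
  have := H.h.pres_inv h1
  rwa [inv_inv] at this

/-- Overgroups, characteristic two, members of dimension at least four. -/
theorem overgroup (H : HG Q D p M) [Nontrivial ι] (two : (2 : F) = 0)
    (h4 : ∀ i, 4 ≤ finrank F (D i))
    (hex : Nat.card F = 2 → ∀ i, finrank F (D i) = 4 → ∀ a ∈ D i, ∀ b ∈ D i, Q a = 0 → Q b = 0 →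
      polar Q a b = 0 → ¬ LinearIndependent F ![a, b]) {g : V ≃ₗ[F] V} (hg : g ∈ M)
    (hgp : ¬ Pres D g) : ⁅O Q, O Q⁆ ≤ M := by
  rcases combine H (c := 1) one_ne_zero (fun M' H' i₀ u hu hu' _ hn g hg hgp =>
    partA H' two h4 hex hu' hn hg hgp) with h | h
  · exact absurd (partB H two h4 one_ne_zero h hg) hgp
  · exact h

end H95.OIe
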