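import Mathlib
import Cfsg.Agent.Lib.H95.OIe2

set_option autoImplicit false

/-!
Quadratic planes over finite fields: reflections and subgroups stable under reflections.
-/

namespace H95.OIp

open Module QuadraticMap H48.QuadSplit H95.OGeo H17.OrthAbs H95.OSie H95.OQd H95.OSmall H95.OIg
open H95.OIe (sq_surj scale)

section field

variable {F : Type*} [Field F] [Finite F]

/-- a subring of a finite field is closed under inverses -/
lemma inv_mem (K : Subring F) {a : F} (ha : a ∈ K) : a⁻¹ ∈ K := by
  have : Fintype F := Fintype.ofFinite F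
  by_cases h0 : a = 0
  · rw [h0, inv_zero]; exact K.zero_mem
  · have h1 := FiniteField.pow_card_sub_one_eq_one a h0
    have h2 : 2 ≤ Fintype.card F := Fintype.one_lt_card
    have h3 : a⁻¹ = a ^ (Fintype.card F - 2) := by
      apply inv_eq_of_mul_eq_one_right
      rw [← pow_succ', show Fintype.card F - 2 + 1 = Fintype.card F - 1 by omega]
      exact h1
    rw [h3]
    exact K.pow_mem ha _

/-- odd characteristic -/
lemma ring_top_odd (two : (2 : F) ≠ 0) (K : Subring F) {k : F} (hk : k ≠ 0)
    (h : ∀ ε : F, 1 + ε * ε * k ≠ 0 → 4 / (1 + ε * ε * k) ∈ K) (a : F) : a ∈ K := by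
  have h4 : (4 : F) ≠ 0 := by
    have : (4 : F) = 2 * 2 := by norm_num
    rw [this]; exact mul_ne_zero two two
  have h4K : (4 : F) ∈ K := by
    have := h 0 (by simp)
    simpa using this
  have h1 : ∀ ε : F, ε * ε * k ∈ K := by
    intro ε
    by_cases h0 : 1 + ε * ε * k = 0
    · have : ε * ε * k = -1 := by linear_combination h0
      rw [this]; exact K.neg_mem K.one_mem
    · have h2 := inv_mem K (K.mul_mem (h ε h0) (inv_mem K h4K))
      have h3 : (4 / (1 + ε * ε * k) * 4⁻¹)⁻¹ = 1 + ε * ε * k := by
        field_simp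
      rw [h3] at h2
      have h5 := K.sub_mem h2 K.one_mem
      rwa [add_sub_cancel_left] at h5
  have hkK : k ∈ K := by have := h1 1; simpa using this
  have h2 : ∀ ε : F, ε * ε ∈ K := by
    intro ε
    have := K.mul_mem (h1 ε) (inv_mem K hkK)
    rwa [mul_assoc, mul_inv_cancel₀ hk, mul_one] at this
  have h5 := K.mul_mem (K.sub_mem (h2 (a + 1)) (h2 (a - 1))) (inv_mem K h4K)
  have h6 : ((a + 1) * (a + 1) - (a - 1) * (a - 1)) * 4⁻¹ = a := by
    field_simp; ring
  rwa [h6] at h5

/-- characteristic two -/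
lemma ring_top_two (two : (2 : F) = 0) (K : Subring F) {k : F}
    (h : ∀ η : F, k + η + η * η ∈ K)
    (hty : (∀ η : F, k + η + η * η ≠ 0) ∨ 7 ≤ Nat.card F) (a : F) : a ∈ K := by
  classical
  have hkK : k ∈ K := by have := h 0; simpa using this
  have h1 : ∀ η : F, η + η * η ∈ K := by
    intro η
    have := K.sub_mem (h η) hkK
    rwa [show k + η + η * η - k = η + η * η by ring] at this
  by_contra hcon
  have hid : ∀ b ∈ K, b = 0 ∨ b = 1 := by
    intro b hb
    by_contra hb'
    push Not at hb'
    have hb1 : b * b - b ≠ 0 := by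
      have : b * b - b = b * (b - 1) := by ring
      rw [this]
      exact mul_ne_zero hb'.1 (sub_ne_zero.2 hb'.2)
    apply hcon
    -- (b^2 - b) x ∈ K for all x
    have h2 := K.sub_mem (K.mul_mem (K.mul_mem hb hb) (h1 (a / (b * b - b))))
      (h1 (b * (a / (b * b - b))))
    have h3 : b * b * (a / (b * b - b) + a / (b * b - b) * (a / (b * b - b))) -
        (b * (a / (b * b - b)) + b * (a / (b * b - b)) * (b * (a / (b * b - b)))) = a := by
      have e : b * b * (a / (b * b - b) + a / (b * b - b) * (a / (b * b - b))) -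
        (b * (a / (b * b - b)) + b * (a / (b * b - b)) * (b * (a / (b * b - b)))) =
        (b * b - b) * (a / (b * b - b)) := by ring
      rw [e, mul_div_cancel₀ _ hb1]
    rwa [h3] at h2
  have ha0 : a ≠ 0 := by rintro rfl; exact hcon K.zero_mem
  have ha1 : a ≠ 1 := by rintro rfl; exact hcon K.one_mem
  have h2 : ∀ η : F, η ≠ 0 → η ≠ 1 → η + η * η = 1 := by
    intro η h0 h1'
    refine (hid _ (h1 η)).resolve_left ?_
    have : η + η * η = η * (η - 1) + η * 2 := by ring
    rw [this, two, mul_zero, add_zero]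
    exact mul_ne_zero h0 (sub_ne_zero.2 h1')
  rcases hty with hty | hty
  · rcases hid k hkK with hk | hk
    · have := hty 0
      rw [hk] at this
      simp at this
    · have := hty a
      rw [add_assoc, h2 a ha0 ha1, hk] at this
      apply this
      linear_combination two
  · obtain ⟨θ, hθ⟩ := avoid ({0, 1, a, a + 1} : Finset F) (by
      have := Finset.card_le_four (a := (0 : F)) (b := 1) (c := a) (d := a + 1)
      omega)
    simp only [Finset.mem_insert, Finset.mem_singleton, not_or] at hθ
    obtain ⟨t0, t1, ta, ta1⟩ := hθ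
    have h3 := h2 θ t0 t1
    have h4 := h2 a ha0 ha1
    have h5 : (θ - a) * (θ - a - 1) = 0 := by
      linear_combination h3 - h4 + (a * a - a * θ - θ + a) * two
    rcases mul_eq_zero.1 h5 with h6 | h6
    · exact ta (sub_eq_zero.1 h6)
    · exact ta1 (by linear_combination h6)

end field

variable {F V : Type*} [Field F] [AddCommGroup V] [Module F V] {Q : QuadraticForm F V}
  [FiniteDimensional F V] [Finite F]

/-- the conditions on the type of a plane and the order of the field -/
def Ty (Q : QuadraticForm F V) (U : Submodule F V) : Prop :=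
  ((∀ x ∈ U, Q x = 0 → x = 0) ∧ Nat.card F ≠ 3) ∨ 7 ≤ Nat.card F

omit [Finite F] in
/-- in odd characteristic the orthogonal of a nonsingular vector in a plane -/
lemma perp_plane (two : (2 : F) ≠ 0) {U : Submodule F V} (hU : NDs Q U) (h2 : 2 ≤ finrank F U) {s : V}
    (hs : s ∈ U) (hs0 : Q s ≠ 0) : ∃ z ∈ U, polar Q s z = 0 ∧ Q z ≠ 0 := by
  have h3 := pc_rank (Q := Q) U s
  obtain ⟨z, hz, hz0⟩ := ex_ns' (pc_nd two hU hs hs0) (by omega)
  exact ⟨z, (mem_pc.1 hz).1, (mem_pc.1 hz).2, hz0⟩

/-- another vector of the same value -/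
lemma f1 {U : Submodule F V} (hU : NDs Q U) (h2 : 2 ≤ finrank F U) (hty : Ty Q U) {s : V}
    (hs : s ∈ U) (hs0 : Q s ≠ 0) :
    ∃ w ∈ U, Q w = Q s ∧ polar Q s w ≠ 0 ∧ Q (s - w) ≠ 0 ∧ Q (s + w) ≠ 0 := by
  classical
  by_cases two : (2 : F) = 0
  · -- characteristic two
    have hsne : s ≠ 0 := by rintro rfl; exact hs0 (QuadraticMap.map_zero Q)
    obtain ⟨v, hv, hvs, hv0⟩ : ∃ v ∈ U, polar Q v s = 1 ∧ Q v ≠ 0 := by
      obtain ⟨v, hv, hvs⟩ := partner hU hs hsne
      rcases hty with hty | hty
      · refine ⟨v, hv, hvs, fun h0 => ?_⟩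
        have := hty.1 v hv h0
        rw [this, p_zero] at hvs
        exact zero_ne_one hvs
      · by_cases hv0 : Q v = 0
        · obtain ⟨l, hl⟩ := avoid ({0, (Q s)⁻¹} : Finset F) (by
            have := Finset.card_le_two (a := (0 : F)) (b := (Q s)⁻¹)
            omega)
          simp only [Finset.mem_insert, Finset.mem_singleton, not_or] at hl
          refine ⟨v + l • s, U.add_mem hv (U.smul_mem _ hs), ?_, ?_⟩
          · rw [p_add, p_smul, p_self, hvs, two]; ring
          · rw [Q_add, Q_smul, p_smul', hvs, hv0]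
            intro h0
            have h1 : l * (l * Q s + 1) = 0 := by linear_combination h0
            rcases mul_eq_zero.1 h1 with h1 | h1
            · exact hl.1 h1
            · apply hl.2
              field_simp
              linear_combination h1 - two
        · exact ⟨v, hv, hvs, hv0⟩
    have hsv : polar Q s v = 1 := by rw [p_comm]; exact hvs
    have e1 : polar Q s (s - (Q v)⁻¹ • v) = -(Q v)⁻¹ := by
      rw [p_sub', p_smul', p_self, hsv, two]; ring
    have hne : -(Q v)⁻¹ ≠ 0 := neg_ne_zero.2 (inv_ne_zero hv0)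
    have e2 : Q (s - (Q v)⁻¹ • v) = Q s := by
      rw [Q_sub, Q_smul, p_smul', hsv]; field_simp; ring
    refine ⟨s - (Q v)⁻¹ • v, U.sub_mem hs (U.smul_mem _ hv), e2, ?_, ?_, ?_⟩
    · rw [e1]; exact hne
    · rw [Q_sub, e1, e2]
      have : Q s + Q s - -(Q v)⁻¹ = Q s * 2 - -(Q v)⁻¹ := by ring
      rw [this, two, mul_zero, zero_sub]
      exact neg_ne_zero.2 hne
    · rw [Q_add, e1, e2]
      have : Q s + Q s + -(Q v)⁻¹ = Q s * 2 + -(Q v)⁻¹ := by ring
      rw [this, two, mul_zero, zero_add]
      exact hne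
  · -- odd characteristic
    obtain ⟨z, hz, hsz, hz0⟩ := perp_plane two hU h2 hs hs0
    set m := Q s with hm
    set n := Q z with hn
    obtain ⟨ε, hε0, h1, h3⟩ : ∃ ε : F, ε ≠ 0 ∧ ε * ε * n - m ≠ 0 ∧ m + ε * ε * n ≠ 0 := by
      obtain ⟨S, hS, hS'⟩ := sq_roots F (m / n)
      obtain ⟨T, hT, hT'⟩ := sq_roots F (-m / n)
      have key1 : ∀ ε : F, ε ∉ S → ε * ε * n - m ≠ 0 := by
        intro ε hε h0
        apply hε
        apply hS'
        field_simp
        linear_combination h0
      have key2 : ∀ ε : F, ε ∉ T → m + ε * ε * n ≠ 0 := by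
        intro ε hε h0
        apply hε
        apply hT'
        field_simp
        linear_combination h0
      rcases hty with ⟨hty, hc⟩ | hty
      · have hodd : 5 ≤ Nat.card F := by
          have : Fintype F := Fintype.ofFinite F
          have h4 : Nat.card F ≠ 4 := by
            intro h4
            have h5 := FiniteField.cast_card_eq_zero F
            rw [← Nat.card_eq_fintype_card, h4] at h5
            have h6 : (2 : F) * 2 = 0 := by rw [← h5]; norm_num
            exact two (mul_self_eq_zero.1 h6)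
          have h5 : Nat.card F ≠ 2 := by
            intro h4
            have h5 := FiniteField.cast_card_eq_zero F
            rw [← Nat.card_eq_fintype_card, h4] at h5
            exact two (by exact_mod_cast h5)
          have h6 : 1 < Nat.card F := Finite.one_lt_card
          omega
        obtain ⟨ε, hε⟩ := avoid (insert 0 S) (by
          have := Finset.card_insert_le (0 : F) S
          omega)
        simp only [Finset.mem_insert, not_or] at hε
        refine ⟨ε, hε.1, key1 ε hε.2, fun h0 => ?_⟩
        have h6 : Q (s + ε • z) = 0 := by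
          rw [Q_add, Q_smul, p_smul', hsz]; linear_combination h0
        have h7 := hty _ (U.add_mem hs (U.smul_mem _ hz)) h6
        have h8 := congrArg (polar Q s) h7
        rw [p_add', p_smul', hsz, p_self, p_zero', mul_zero, add_zero] at h8
        exact mul_ne_zero two hs0 h8
      · obtain ⟨ε, hε⟩ := avoid (insert 0 (S ∪ T)) (by
          have h1 := Finset.card_insert_le (0 : F) (S ∪ T)
          have h2 := Finset.card_union_le S T
          omega)
        simp only [Finset.mem_insert, Finset.mem_union, not_or] at hε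
        exact ⟨ε, hε.1, key1 ε hε.2.1, key2 ε hε.2.2⟩
    set d := m + ε * ε * n with hd
    have e0 : polar Q s (((ε * ε * n - m) / d) • s - (2 * m * ε / d) • z) =
        2 * m * (ε * ε * n - m) / d := by
      rw [p_sub', p_smul', p_smul', hsz, p_self, ← hm]; ring
    have e1 : Q (((ε * ε * n - m) / d) • s - (2 * m * ε / d) • z) = m := by
      rw [Q_sub, Q_smul, Q_smul, p_smul', p_smul, hsz, ← hm, ← hn]
      field_simp
      rw [hd]
      ring
    refine ⟨((ε * ε * n - m) / d) • s - (2 * m * ε / d) • z,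
      U.sub_mem (U.smul_mem _ hs) (U.smul_mem _ hz), e1, ?_, ?_, ?_⟩
    · rw [e0]
      exact div_ne_zero (mul_ne_zero (mul_ne_zero two hs0) h1) h3
    · rw [Q_sub, e1, e0, ← hm]
      have : m + m - 2 * m * (ε * ε * n - m) / d = 2 * m * (2 * m) / d := by
        field_simp
        rw [hd]
        ring
      rw [this]
      exact div_ne_zero (mul_ne_zero (mul_ne_zero two hs0) (mul_ne_zero two hs0)) h3
    · rw [Q_add, e1, e0, ← hm]
      have : m + m + 2 * m * (ε * ε * n - m) / d = 2 * m * (2 * (ε * ε) * n) / d := by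
        field_simp
        rw [hd]
        ring
      rw [this]
      exact div_ne_zero (mul_ne_zero (mul_ne_zero two hs0)
        (mul_ne_zero (mul_ne_zero two (mul_ne_zero hε0 hε0)) hz0)) h3

omit [FiniteDimensional F V] [Finite F] in
lemma indep_of {s w : V} (hw : Q w = Q s) (h1 : Q (s - w) ≠ 0) (h2 : Q (s + w) ≠ 0) :
    LinearIndependent F ![s, w] := by
  have hs : s ≠ 0 := by
    rintro rfl
    rw [QuadraticMap.map_zero] at hw
    rw [zero_add] at h2
    exact h2 hw
  apply H95.UBasic.pair_indep hs
  rintro l rfl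
  rw [Q_smul] at hw
  have e1 : Q (s - l • s) = (1 - l) * (1 - l) * Q s := by
    rw [← Q_smul]; congr 1; module
  have e2 : Q (s + l • s) = (1 + l) * (1 + l) * Q s := by
    rw [← Q_smul]; congr 1; module
  rw [e1] at h1
  rw [e2] at h2
  have h3 : Q s ≠ 0 := fun h => h1 (by rw [h, mul_zero])
  have h4 : (l * l - 1) * Q s = 0 := by linear_combination hw
  have h5 := (mul_eq_zero.1 h4).resolve_right h3
  have h6 : (1 - l) * (1 + l) = 0 := by linear_combination -h5
  rcases mul_eq_zero.1 h6 with h7 | h7
  · rw [h7] at h1; simp at h1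
  · rw [h7] at h2; simp at h2

omit [FiniteDimensional F V] [Finite F] in
/-- an additive group stable under reflections contains the multiples -/
lemma refl_comp {A : AddSubgroup V} {U : Submodule F V}
    (hst : ∀ w ∈ U, ∀ h : Q w ≠ 0, ∀ z ∈ U, z ∈ A → refl Q w h z ∈ A) {w z : V} (hw : w ∈ U)
    (hw0 : Q w ≠ 0) (hz : z ∈ U) (hzA : z ∈ A) : ((Q w)⁻¹ * polar Q w z) • w ∈ A := by
  have h1 := A.sub_mem hzA (hst w hw hw0 z hz hzA)
  rwa [refl_apply, sub_sub_cancel] at h1

/-- the whole line of a nonsingular vector -/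
lemma line_mem {A : AddSubgroup V} {U : Submodule F V} (hU : NDs Q U) (h2 : 2 ≤ finrank F U)
    (hty : Ty Q U)
    (hst : ∀ w ∈ U, ∀ h : Q w ≠ 0, ∀ z ∈ U, z ∈ A → refl Q w h z ∈ A) {w : V} (hw : w ∈ U)
    (hw0 : Q w ≠ 0) {b : F} (hb : b ≠ 0) (hbA : b • w ∈ A) (a : F) : a • w ∈ A := by
  -- the multiplier ring
  let K : Subring F :=
    { carrier := {k | ∀ b : F, b • w ∈ A → (k * b) • w ∈ A}
      mul_mem' := fun {x y} hx hy b hb => by
        rw [mul_assoc]; exact hx _ (hy _ hb)
      one_mem' := fun b hb => by rwa [one_mul]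
      add_mem' := fun {x y} hx hy b hb => by
        rw [add_mul, add_smul]; exact A.add_mem (hx _ hb) (hy _ hb)
      zero_mem' := fun b hb => by rw [zero_mul, zero_smul]; exact A.zero_mem
      neg_mem' := fun {x} hx b hb => by
        rw [neg_mul, neg_smul]; exact A.neg_mem (hx _ hb) }
  have hK : ∀ w' ∈ U, Q w' ≠ 0 → polar Q w w' * polar Q w w' / (Q w * Q w') ∈ K := by
    intro w' hw' hw0' b hb
    have h1 := refl_comp hst hw' hw0' (U.smul_mem b hw) hb
    have h3 := refl_comp hst hw hw0 (U.smul_mem _ hw') h1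
    rw [p_smul', p_smul', p_comm Q w' w] at h3
    have e : (Q w)⁻¹ * ((Q w')⁻¹ * (b * polar Q w w') * polar Q w w') =
      polar Q w w' * polar Q w w' / (Q w * Q w') * b := by
      field_simp
    rwa [e] at h3
  have hall : ∀ k : F, k ∈ K := by
    by_cases two : (2 : F) = 0
    · have hwne : w ≠ 0 := by rintro rfl; exact hw0 (QuadraticMap.map_zero Q)
      obtain ⟨v, hv, hvw⟩ := partner hU hw hwne
      have hform : ∀ η : F, Q w * Q (v + (η / Q w) • w) = Q w * Q v + η + η * η := by
        intro η
        rw [Q_add, Q_smul, p_smul', hvw]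
        field_simp
        ring
      apply ring_top_two two K (k := Q w * Q v)
      · intro η
        by_cases h0 : Q (v + (η / Q w) • w) = 0
        · rw [← hform, h0, mul_zero]; exact K.zero_mem
        · have h1 := hK (v + (η / Q w) • w) (U.add_mem hv (U.smul_mem _ hw)) h0
          have h3 : polar Q w (v + (η / Q w) • w) = 1 := by
            rw [p_add', p_smul', p_self, p_comm, hvw, two]; ring
          rw [h3, one_mul] at h1
          have h4 := inv_mem K h1
          rw [one_div, inv_inv, hform] at h4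
          exact h4
      · rcases hty with hty | hty
        · left
          intro η h0
          rw [← hform] at h0
          have h1 := (mul_eq_zero.1 h0).resolve_left hw0
          have h3 := hty.1 _ (U.add_mem hv (U.smul_mem _ hw)) h1
          have h4 : polar Q (v + (η / Q w) • w) w = polar Q 0 w := by rw [h3]
          rw [p_add, p_smul, p_self, hvw, p_zero, two] at h4
          apply one_ne_zero (α := F)
          linear_combination h4
        · exact Or.inr hty
    · obtain ⟨z, hz, hwz, hz0⟩ := perp_plane two hU h2 hw hw0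
      apply ring_top_odd two K (k := Q z / Q w) (div_ne_zero hz0 hw0)
      intro ε hε
      have h1 : Q (w + ε • z) = Q w * (1 + ε * ε * (Q z / Q w)) := by
        rw [Q_add, Q_smul, p_smul', hwz]; field_simp; ring
      have h3 := hK (w + ε • z) (U.add_mem hw (U.smul_mem _ hz)) (by
        rw [h1]; exact mul_ne_zero hw0 hε)
      have h4 : polar Q w (w + ε • z) = 2 * Q w := by
        rw [p_add', p_smul', p_self, hwz]; ring
      rw [h4, h1] at h3
      have e : 2 * Q w * (2 * Q w) / (Q w * (Q w * (1 + ε * ε * (Q z / Q w)))) =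
        4 / (1 + ε * ε * (Q z / Q w)) := by
        rw [div_eq_div_iff (mul_ne_zero hw0 (mul_ne_zero hw0 hε)) hε]
        ring
      rwa [e] at h3
  have h1 := hall (a / b) b hbA
  rwa [div_mul_cancel₀ _ hb] at h1

/-- an additive group stable under the reflections of a plane -/
theorem plane_irr {A : AddSubgroup V} {U : Submodule F V} (hU : NDs Q U) (h2 : finrank F U = 2)
    (hty : Ty Q U)
    (hst : ∀ w ∈ U, ∀ h : Q w ≠ 0, ∀ z ∈ U, z ∈ A → refl Q w h z ∈ A) {z : V} (hz : z ∈ U)
    (hzA : z ∈ A) (hz0 : z ≠ 0) : ∀ x ∈ U, x ∈ A := by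
  -- nonsingular vectors span
  have hspan : ∀ S : Submodule F V, (∀ w ∈ U, Q w ≠ 0 → w ∈ S) → U ≤ S := by
    intro S hS
    obtain ⟨a, ha, ha0⟩ := ex_ns' hU (by omega)
    obtain ⟨b, hb, hba, -, h3, h4⟩ := f1 hU (by omega) hty ha ha0
    have hli := indep_of hba h3 h4
    have haS := hS a ha ha0
    have hbS := hS b hb (by rw [hba]; exact ha0)
    have h5 : Submodule.span F (Set.range ![a, b]) = U := by
      apply Submodule.eq_of_le_of_finrank_eq
      · rw [Submodule.span_le]
        rintro _ ⟨i, rfl⟩
        fin_cases i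
        · exact ha
        · exact hb
      · rw [finrank_span_eq_card hli, Fintype.card_fin, h2]
    rw [← h5, Submodule.span_le]
    rintro _ ⟨i, rfl⟩
    fin_cases i
    · exact haS
    · exact hbS
  -- lines
  have hline : ∀ w ∈ U, Q w ≠ 0 → ∀ x ∈ U, x ∈ A → polar Q w x ≠ 0 → ∀ a : F, a • w ∈ A := by
    intro w hw hw0 x hx hxA hwx a
    exact line_mem hU (by omega) hty hst hw hw0 (mul_ne_zero (inv_ne_zero hw0) hwx)
      (refl_comp hst hw hw0 hx hxA) a
  obtain ⟨w, hw, hw0, hwz⟩ : ∃ w ∈ U, Q w ≠ 0 ∧ polar Q w z ≠ 0 := by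
    by_contra hcon
    push Not at hcon
    have h3 := hspan (LinearMap.ker (bl Q z)) (fun w hw hw0 => by
      rw [LinearMap.mem_ker, bl_apply, p_comm]; exact hcon w hw hw0)
    exact hz0 (hU z hz fun x hx => h3 hx)
  have hwA := hline w hw hw0 z hz hzA hwz
  obtain ⟨b, hb, hbw, hwb, h3, h4⟩ := f1 hU (by omega) hty hw hw0
  have hbA := hline b hb (by rw [hbw]; exact hw0) w hw (by simpa using hwA 1)
    (by rw [p_comm]; exact hwb)
  have hli := indep_of hbw h3 h4
  have h5 : Submodule.span F (Set.range ![w, b]) = U := by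
    apply Submodule.eq_of_le_of_finrank_eq
    · rw [Submodule.span_le]
      rintro _ ⟨i, rfl⟩
      fin_cases i
      · exact hw
      · exact hb
    · rw [finrank_span_eq_card hli, Fintype.card_fin, h2]
  intro x hx
  rw [← h5] at hx
  have h6 : Set.range ![w, b] = {w, b} := by
    ext x; simp [or_comm]
  rw [h6] at hx
  obtain ⟨α, β, rfl⟩ := Submodule.mem_span_pair.1 hx
  exact A.add_mem (hwA α) (hbA β)

end H95.OIp
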