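import Mathlib
import Cfsg.Agent.Lib.H95.OIp1

set_option autoImplicit false

/-!
Overgroups of stabilisers of orthogonal decompositions into planes: basic elements of the
stabiliser and the analysis of Siegel elements.
-/

namespace H95.OIp

open Module QuadraticMap H48.QuadSplit H95.OGeo H17.OrthAbs H95.OSie H95.OQd H95.OSmall H95.OIg
open H95.OIe (sq_surj scale omega_of_full)
open H95.OImp (refl_conj Rv Rv_refl exists_swap adj omega_conj refl_mul_sub)
open scoped commutatorElement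

variable {F V : Type*} [Field F] [AddCommGroup V] [Module F V] {Q : QuadraticForm F V}
  {ι : Type*} [Fintype ι] [DecidableEq ι] {D : ι → Submodule F V} {p : ι → V →ₗ[F] V}

/-- the standing hypotheses for planes -/
structure HP (Q : QuadraticForm F V) (D : ι → Submodule F V) (p : ι → V →ₗ[F] V)
    (M : Subgroup (V ≃ₗ[F] V)) : Prop where
  hg : HG Q D p M
  dim : ∀ i, finrank F (D i) = 2
  card : 7 ≤ Fintype.card ι
  ty : ((∀ i, ∀ x ∈ D i, Q x = 0 → x = 0) ∧ Nat.card F ≠ 3) ∨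
    ((∀ i, ∃ e ∈ D i, e ≠ 0 ∧ Q e = 0) ∧ 7 ≤ Nat.card F)

lemma fix_of (h : QD Q D p) {g : V ≃ₗ[F] V} {l : ι} (hg : ∀ j, j ≠ l → ∀ x ∈ D j, g x = x) {s : V}
    (hs : p l s = 0) : g s = s := by
  conv_lhs => rw [← h.sum s]
  rw [map_sum]
  conv_rhs => rw [← h.sum s]
  apply Finset.sum_congr rfl
  intro j _
  by_cases hj : j = l
  · subst hj; rw [hs, map_zero]
  · exact hg j hj _ (h.mem j s)

lemma fix_of2 (h : QD Q D p) {g : V ≃ₗ[F] V} {l m : ι}
    (hg : ∀ j, j ≠ l → j ≠ m → ∀ x ∈ D j, g x = x) {s : V}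
    (hs : p l s = 0) (hs' : p m s = 0) : g s = s := by
  conv_lhs => rw [← h.sum s]
  rw [map_sum]
  conv_rhs => rw [← h.sum s]
  apply Finset.sum_congr rfl
  intro j _
  by_cases hj : j = l
  · subst hj; rw [hs, map_zero]
  · by_cases hj' : j = m
    · subst hj'; rw [hs', map_zero]
    · exact hg j hj hj' _ (h.mem j s)

/-- an element moving only one component -/
lemma act_one (h : QD Q D p) {g : V ≃ₗ[F] V} {l : ι} (hg : ∀ j, j ≠ l → ∀ x ∈ D j, g x = x) (s : V) :
    g s = s + (g (p l s) - p l s) := by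
  have h1 := fix_of h hg (s := s - p l s) (by rw [map_sub, h.pp, if_pos rfl, sub_self])
  rw [map_sub] at h1
  rw [show g s = (g s - g (p l s)) + g (p l s) by abel, h1]
  abel

variable {M : Subgroup (V ≃ₗ[F] V)} [FiniteDimensional F V] [Finite F]

namespace HP

omit [FiniteDimensional F V] [Finite F] in
lemma typ (H : HP Q D p M) (i : ι) : Ty Q (D i) := by
  rcases H.ty with h | h
  · exact Or.inl ⟨h.1 i, h.2⟩
  · exact Or.inr h.2

omit [FiniteDimensional F V] [Finite F] in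
lemma card_of_sing (H : HP Q D p M) {i : ι} {e : V} (he : e ∈ D i) (he0 : e ≠ 0) (heQ : Q e = 0) :
    7 ≤ Nat.card F := by
  rcases H.ty with h | h
  · exact absurd (h.1 i e he heQ) he0
  · exact h.2

lemma nds (H : HP Q D p M) (i : ι) : NDs Q (D i) := H.hg.h.nd i

omit [FiniteDimensional F V] [Finite F] in
/-- a free index -/
lemma free (H : HP Q D p M) (S : Finset ι) (hS : S.card < 7) : ∃ m, m ∉ S := by
  by_contra hcon
  push Not at hcon
  have h1 : S = Finset.univ := Finset.eq_univ_iff_forall.2 hcon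
  have := H.card
  rw [h1, Finset.card_univ] at hS
  omega

/-- a rotation in a member -/
lemma rot (H : HP Q D p M) {l : ι} {v : V} (hv : v ∈ D l) (hv0 : Q v ≠ 0) :
    ∃ a ∈ M, (∀ j, j ≠ l → ∀ x ∈ D j, a x = x) ∧ (∀ x ∈ D l, a x ∈ D l) ∧ (∀ x, a x - x ∈ D l) ∧
      Q (v - a v) ≠ 0 ∧ LinearIndependent F ![v, a v] ∧ a * a ≠ 1 := by
  obtain ⟨w, hw, hwv, hvw, h1, h2⟩ := f1 (H.nds l) (H.dim l).ge (H.typ l) hv hv0
  have hli := indep_of hwv h1 h2
  have hw0 : Q w ≠ 0 := by rw [hwv]; exact hv0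
  set P := polar Q v w with hP
  have hav : (refl Q w hw0 * refl Q v hv0) v = -v + ((Q v)⁻¹ * P) • w := by
    rw [LinearEquiv.mul_apply, refl_self, map_neg, refl_apply, p_comm Q w v, hwv, ← hP]
    abel
  have haw : (refl Q w hw0 * refl Q v hv0) w = -w + ((Q v)⁻¹ * P) • (-v + ((Q v)⁻¹ * P) • w) := by
    rw [LinearEquiv.mul_apply, refl_apply Q v, ← hP, map_sub, map_smul, refl_self, refl_apply,
      p_comm Q w v, hwv, ← hP]
    module
  have hne : (Q v)⁻¹ * P ≠ 0 := mul_ne_zero (inv_ne_zero hv0) hvw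
  refine ⟨refl Q w hw0 * refl Q v hv0, H.hg.dbl_mem hw hv hw0 hv0 hwv, fun j hj x hx => ?_,
    fun x hx => ?_, fun x => ?_, ?_, ?_, fun h0 => ?_⟩
  · rw [LinearEquiv.mul_apply, refl_apply Q v, H.hg.h.orth l j hj.symm v hv x hx, mul_zero,
      zero_smul, sub_zero, refl_apply, H.hg.h.orth l j hj.symm w hw x hx, mul_zero, zero_smul,
      sub_zero]
  · rw [LinearEquiv.mul_apply, refl_apply Q v, refl_apply]
    exact (D l).sub_mem ((D l).sub_mem hx ((D l).smul_mem _ hv)) ((D l).smul_mem _ hw)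
  · rw [LinearEquiv.mul_apply, refl_apply Q v, refl_apply]
    have e : ∀ a b : V, x - a - b - x = -a - b := fun a b => by abel
    rw [e]
    exact (D l).sub_mem ((D l).neg_mem ((D l).smul_mem _ hv)) ((D l).smul_mem _ hw)
  · rw [hav]
    have e1 : Q (v - (-v + ((Q v)⁻¹ * P) • w)) = (Q v)⁻¹ * (Q (v - w) * Q (v + w)) := by
      rw [Q_sub, Q_add, Q_sub, Q_add, Q_neg, Q_smul, p_smul', p_neg, p_add', p_neg', p_smul',
        p_self, hwv, ← hP]
      field_simp
      ring
    rw [e1]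
    exact mul_ne_zero (inv_ne_zero hv0) (mul_ne_zero h1 h2)
  · rw [hav, LinearIndependent.pair_iff]
    intro s t hst
    rw [LinearIndependent.pair_iff] at hli
    have h3 : (s - t) • v + (t * ((Q v)⁻¹ * P)) • w = 0 := by
      rw [← hst]; module
    obtain ⟨h4, h5⟩ := hli _ _ h3
    have h6 : t = 0 := (mul_eq_zero.1 h5).resolve_right hne
    exact ⟨by rw [h6, sub_zero] at h4; exact h4, h6⟩
  · have h3 : (refl Q w hw0 * refl Q v hv0) ((refl Q w hw0 * refl Q v hv0) v) = v := by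
      rw [← LinearEquiv.mul_apply, h0]; rfl
    rw [hav, map_add, map_neg, map_smul, hav, haw] at h3
    rw [LinearIndependent.pair_iff] at hli
    set k := (Q v)⁻¹ * P with hk
    have h4 : (-(k * k)) • v + (-k - k + k * k * k) • w = 0 := by
      have : -(-v + k • w) + k • (-w + k • (-v + k • w)) - v =
        (-(k * k)) • v + (-k - k + k * k * k) • w := by module
      rw [← this, h3, sub_self]
    obtain ⟨h5, -⟩ := hli _ _ h4
    exact hne (mul_self_eq_zero.1 (neg_eq_zero.1 h5))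

/-- a torus element of a member -/
lemma tor (H : HP Q D p M) {l : ι} {e f : V} (he : e ∈ D l) (hf : f ∈ D l) (he0 : Q e = 0)
    (hf0 : Q f = 0) (hef : polar Q e f = 1) :
    ∃ d ∈ M, ∃ k : F, k ≠ 0 ∧ k ≠ 1 ∧
      ∀ x, d x = x + ((k - 1) * polar Q x f) • e + ((k⁻¹ - 1) * polar Q x e) • f := by
  have hene : e ≠ 0 := by rintro rfl; rw [p_zero] at hef; exact zero_ne_one hef
  have h7 := H.card_of_sing he hene he0
  obtain ⟨μ, hμ0, hμ1⟩ := exists_sq_ne (F := F) (by omega) 1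
  have e1 : Q (e + f) = 1 := by rw [Q_add, he0, hf0, hef]; ring
  have e2 : Q (μ⁻¹ • e + μ • f) = 1 := by
    rw [Q_add, Q_smul, Q_smul, he0, hf0, p_smul, p_smul', hef]; field_simp; ring
  have h1 : Q (e + f) ≠ 0 := by rw [e1]; exact one_ne_zero
  have h2 : Q (μ⁻¹ • e + μ • f) ≠ 0 := by rw [e2]; exact one_ne_zero
  have hee : polar Q e e = 0 := by rw [p_self, he0, mul_zero]
  have hff : polar Q f f = 0 := by rw [p_self, hf0, mul_zero]
  have hfe : polar Q f e = 1 := by rw [p_comm, hef]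
  refine ⟨refl Q (e + f) h1 * refl Q (μ⁻¹ • e + μ • f) h2, H.hg.dbl_mem ((D l).add_mem he hf)
    ((D l).add_mem ((D l).smul_mem _ he) ((D l).smul_mem _ hf)) h1 h2 (by rw [e1, e2]),
    μ * μ, mul_ne_zero hμ0 hμ0, hμ1, fun x => ?_⟩
  rw [LinearEquiv.mul_apply, refl_apply, refl_apply, e1, e2]
  simp only [p_add, p_sub', p_smul', p_smul, p_add', hee, hff, hef, hfe, inv_one, one_mul,
    p_comm Q e x, p_comm Q f x]
  match_scalars <;> field_simp <;> ring

omit [FiniteDimensional F V] [Finite F] in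
/-- the commutator with a torus element -/
lemma tor_comm {e f : V} (he0 : Q e = 0) (hf0 : Q f = 0) (hef : polar Q e f = 1)
    {d m : V ≃ₗ[F] V} {k : F} (hk : k ≠ 0)
    (hd : ∀ x, d x = x + ((k - 1) * polar Q x f) • e + ((k⁻¹ - 1) * polar Q x e) • f)
    (hm : m ∈ O Q) {ν : F} (hme : m e = ν • e) :
    m * d * m⁻¹ = sie Q e ((1 - k) • (ν • m f - f)) * d := by
  have hene : e ≠ 0 := by rintro rfl; rw [p_zero] at hef; exact zero_ne_one hef
  have hν : ν ≠ 0 := by
    rintro rfl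
    rw [zero_smul, LinearEquiv.map_eq_zero_iff] at hme
    exact hene hme
  set f' := ν • m f with hf'
  have hmf : m f = ν⁻¹ • f' := by rw [hf', smul_smul, inv_mul_cancel₀ hν, one_smul]
  have hf'0 : Q f' = 0 := by rw [hf', Q_smul, hm, hf0, mul_zero]
  have hef' : polar Q e f' = 1 := by
    have h1 := polar_map hm e f
    rw [hme, hmf, p_smul, p_smul', hef] at h1
    rw [← mul_assoc, mul_inv_cancel₀ hν, one_mul] at h1
    exact h1
  have hee : polar Q e e = 0 := by rw [p_self, he0, mul_zero]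
  have hff : polar Q f f = 0 := by rw [p_self, hf0, mul_zero]
  have hfe : polar Q f e = 1 := by rw [p_comm, hef]
  have hy : polar Q e ((1 - k) • (f' - f)) = 0 := by
    rw [p_smul', p_sub', hef', hef, sub_self, mul_zero]
  have hyQ : Q ((1 - k) • (f' - f)) = -((1 - k) * (1 - k) * polar Q f f') := by
    rw [Q_smul, Q_sub, hf'0, hf0, p_comm Q f' f]; ring
  ext x
  have hpm : ∀ v, polar Q (m⁻¹ x) v = polar Q x (m v) := fun v => by
    rw [← polar_map hm (m⁻¹ x) v]
    congr 1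
    exact m.apply_symm_apply x
  rw [LinearEquiv.mul_apply, LinearEquiv.mul_apply, LinearEquiv.mul_apply, hd, map_add, map_add,
    map_smul, map_smul, show m (m⁻¹ x) = x from m.apply_symm_apply x, hpm, hpm, hme, hmf,
    sie_apply he0 hy, hd, hyQ]
  simp only [p_add, p_smul, p_smul', p_sub', hee, hff, hfe, hef, hef']
  match_scalars <;> field_simp <;> ring

/-- moving an arbitrary nonzero vector of a member -/
lemma rot' (H : HP Q D p M) {l : ι} {v : V} (hv : v ∈ D l) (hv0 : v ≠ 0) :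
    ∃ a ∈ M, (∀ j, j ≠ l → ∀ x ∈ D j, a x = x) ∧ (∀ x ∈ D l, a x ∈ D l) ∧ a v ≠ v ∧
      (LinearIndependent F ![v, a v] ∨ (Q v = 0 ∧ ∃ k : F, k ≠ 1 ∧ a v = k • v)) := by
  by_cases hvQ : Q v = 0
  · obtain ⟨f, hf, hfv, hfQ⟩ := partner_val (H.nds l) hv hv0 hvQ 0
    obtain ⟨d, hd, k, hk0, hk1, hdx⟩ := H.tor hv hf hvQ hfQ (by rw [p_comm]; exact hfv)
    have h1 : d v = k • v := by
      rw [hdx, p_self, hvQ, p_comm Q v f, hfv, mul_zero, mul_zero, zero_smul, add_zero, mul_one]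
      module
    refine ⟨d, hd, fun j hj x hx => ?_, fun x hx => ?_, fun h0 => ?_, Or.inr ⟨hvQ, k, hk1, h1⟩⟩
    · rw [hdx, H.hg.h.orth j l hj x hx f hf, H.hg.h.orth j l hj x hx v hv]; simp
    · rw [hdx]
      exact (D l).add_mem ((D l).add_mem hx ((D l).smul_mem _ hv)) ((D l).smul_mem _ hf)
    · rw [h1] at h0
      have h2 : (k - 1) • v = 0 := by rw [sub_smul, h0, one_smul, sub_self]
      exact hv0 ((smul_eq_zero.1 h2).resolve_left (sub_ne_zero.2 hk1))
  · obtain ⟨a, ha, h1, h2, -, h3, h4, -⟩ := H.rot hv hvQ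
    refine ⟨a, ha, h1, h2, fun h0 => ?_, Or.inl h4⟩
    rw [h0, sub_self, QuadraticMap.map_zero] at h3
    exact h3 rfl

/-- Step S -/
theorem stepS (H : HP Q D p M) {s : V} (hs : Q s = 0) {y : V} (hy : y ∈ SA Q M hs) {l m : ι}
    (hl : p l s = 0) (hm : p m s = 0) (hlm : l ≠ m) (hyl : p l y ≠ 0) :
    ∀ j, p j s = 0 → ∀ z ∈ D j, z ∈ SA Q M hs := by
  have hh := H.hg.h
  obtain ⟨a, ha, h1, h2, h3, -⟩ := H.rot' (hh.mem l y) hyl
  have has : a s = s := fix_of hh h1 hl
  have h4 := SA_comm hs H.hg.M_le hy ha has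
  have h5 : a y - y = a (p l y) - p l y := by rw [act_one hh h1 y]; abel
  rw [h5] at h4
  have hDl : ∀ x ∈ D l, x ∈ SA Q M hs := by
    refine plane_irr (H.nds l) (H.dim l) (H.typ l) (A := SA Q M hs) ?_
      ((D l).sub_mem (h2 _ (hh.mem l y)) (hh.mem l y)) h4 (sub_ne_zero.2 h3)
    intro w hw hw0 z hz hzA
    obtain ⟨w', hw', hww⟩ := H.hg.rep m (Q w) hw0
    have hw0' : Q w' ≠ 0 := by rw [hww]; exact hw0
    have h6 := H.hg.dbl_mem hw hw' hw0 hw0' hww.symm
    have hsw : polar Q w s = 0 := by rw [hh.pr s hw, hl, p_zero']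
    have hsw' : polar Q w' s = 0 := by rw [hh.pr s hw', hm, p_zero']
    have h7 : (refl Q w hw0 * refl Q w' hw0') s = s := by
      rw [LinearEquiv.mul_apply, refl_apply Q w', hsw', mul_zero, zero_smul, sub_zero, refl_apply,
        hsw, mul_zero, zero_smul, sub_zero]
    have h8 := SA_map hs H.hg.M_le hzA h6 h7
    rwa [LinearEquiv.mul_apply, refl_apply Q w', hh.orth m l hlm.symm w' hw' z hz, mul_zero,
      zero_smul, sub_zero] at h8
  intro j hj z hz
  by_cases hjl : j = l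
  · subst hjl; exact hDl z hz
  obtain ⟨π, hπ, h6, h7, h8⟩ := H.hg.swap_mem (l := j) (m := l) hjl
  have hπs : π s = s := fix_of2 hh h6 hj hl
  have hπi : π⁻¹ s = s := by
    have := congrArg (π⁻¹ : V ≃ₗ[F] V) hπs
    rw [show π⁻¹ (π s) = s from π.symm_apply_apply s] at this
    exact this.symm
  have h9 := SA_map hs H.hg.M_le (hDl _ (h8 z hz)) (M.inv_mem hπ) hπi
  rwa [show π⁻¹ (π z) = z from π.symm_apply_apply z] at h9

/-- a Siegel element of a singular vector of a member -/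
theorem omega_of_sing (H : HP Q D p M) {e : V} {i l : ι} (he : e ∈ D i) (he0 : e ≠ 0) (heQ : Q e = 0)
    {y : V} (hy : y ∈ SA Q M heQ) (hli : l ≠ i) (hyl : p l y ≠ 0) : ⁅O Q, O Q⁆ ≤ M := by
  have hh := H.hg.h
  obtain ⟨m, hm⟩ := H.free {i, l} (by
    have := Finset.card_le_two (a := i) (b := l)
    omega)
  simp only [Finset.mem_insert, Finset.mem_singleton, not_or] at hm
  have h1 := H.stepS heQ hy (hh.other l i hli e he) (hh.other m i hm.1 e he) (Ne.symm hm.2) hyl
  apply omega_of_full H.hg he he0 hli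
  refine ⟨heQ, fun z hz => ?_⟩
  have h2 : z ∈ SA Q M heQ := by
    rw [← hh.sum z]
    apply AddSubgroup.sum_mem
    intro j _
    by_cases hj : j = i
    · subst hj
      have h3 : polar Q e (p j z) = 0 := by rw [← hh.pr z he, hz]
      exact (mem_SA heQ).2 ⟨h3, H.hg.sie_mem he (hh.mem j z) heQ h3⟩
    · exact h1 j (hh.other j i hj e he) _ (hh.mem j z)
  exact ((mem_SA heQ).1 h2).2

/-- the core of the torus argument -/
theorem core (H : HP Q D p M) {e f : V} {i l : ι} (he : e ∈ D i) (hf : f ∈ D i) (heQ : Q e = 0)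
    (hfQ : Q f = 0) (hef : polar Q e f = 1) {m : V ≃ₗ[F] V} (hm : m ∈ M) {ν : F}
    (hme : m e = ν • e) (hli : l ≠ i) (hl : p l (ν • m f - f) ≠ 0) : ⁅O Q, O Q⁆ ≤ M := by
  have hene : e ≠ 0 := by rintro rfl; rw [p_zero] at hef; exact zero_ne_one hef
  obtain ⟨d, hd, k, hk0, hk1, hdx⟩ := H.tor he hf heQ hfQ hef
  have h1 := tor_comm heQ hfQ hef hk0 hdx (H.hg.M_le hm) hme
  have h2 : sie Q e ((1 - k) • (ν • m f - f)) ∈ M := by
    have h3 : sie Q e ((1 - k) • (ν • m f - f)) = m * d * m⁻¹ * d⁻¹ := by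
      rw [h1, mul_assoc, mul_inv_cancel, mul_one]
    rw [h3]
    exact M.mul_mem (M.mul_mem (M.mul_mem hm hd) (M.inv_mem hm)) (M.inv_mem hd)
  have hν : ν ≠ 0 := by
    rintro rfl
    rw [zero_smul, LinearEquiv.map_eq_zero_iff] at hme
    exact hene hme
  have h4 : polar Q e ((1 - k) • (ν • m f - f)) = 0 := by
    have h5 := polar_map (H.hg.M_le hm) e f
    rw [hme, p_smul, hef] at h5
    rw [p_smul', p_sub', p_smul', h5, hef, sub_self, mul_zero]
  refine H.omega_of_sing he hene heQ ((mem_SA heQ).2 ⟨h4, h2⟩) hli ?_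
  rw [map_smul]
  exact smul_ne_zero (sub_ne_zero.2 (Ne.symm hk1)) hl

/-- a vector with the reflection property having a singular component -/
theorem p1 (H : HP Q D p M) {x : V} (hx : Q x ≠ 0)
    (hR : ∀ m ∈ M, ∀ h0 : Q (m x) ≠ 0, refl Q x hx * refl Q (m x) h0 ∈ M)
    {i : ι} (hi : p i x ≠ 0) (hiQ : Q (p i x) = 0) : ⁅O Q, O Q⁆ ≤ M := by
  have hh := H.hg.h
  have he := hh.mem i x
  obtain ⟨f, hf, hfe, hfQ⟩ := partner_val (H.nds i) he hi hiQ 0
  have hxi : x ∉ D i := fun h => hx (by rw [← hh.self i x h, hiQ])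
  obtain ⟨l, hli, hl⟩ := hh.exists_other hxi
  obtain ⟨h, hM, h1, h2, h3, h4⟩ := H.rot' (hh.mem l x) hl
  have hO := H.hg.M_le hM
  have hhx := act_one hh h1 x
  have hx' : Q (h x) ≠ 0 := by rw [hO]; exact hx
  have hm := hR h hM hx'
  set c := Q x with hc
  have hu : h (p l x) - p l x ∈ D l := (D l).sub_mem (h2 _ (hh.mem l x)) (hh.mem l x)
  have a1 : polar Q x (p i x) = 0 := by rw [hh.pl x he, p_self, hiQ, mul_zero]
  have a2 : polar Q (h x) (p i x) = 0 := by
    rw [hhx, p_add, a1, hh.orth l i hli _ hu _ he, add_zero]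
  have a3 : polar Q x f = 1 := by rw [hh.pl x hf, p_comm, hfe]
  have a4 : polar Q (h x) f = 1 := by
    rw [hhx, p_add, a3, hh.orth l i hli _ hu _ hf, add_zero]
  have hme : (refl Q x hx * refl Q (h x) hx') (p i x) = (1 : F) • p i x := by
    rw [LinearEquiv.mul_apply, refl_apply Q (h x), a2, mul_zero, zero_smul, sub_zero, refl_apply, a1,
      mul_zero, zero_smul, sub_zero, one_smul]
  have hmf : (refl Q x hx * refl Q (h x) hx') f =
      f - c⁻¹ • h x - (c⁻¹ * (1 - c⁻¹ * polar Q x (h x))) • x := by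
    rw [LinearEquiv.mul_apply, refl_apply Q (h x), a4, refl_apply Q x, p_sub', a3, p_smul', hO, ← hc,
      mul_one]
  refine H.core he hf hiQ hfQ (by rw [p_comm]; exact hfe) hm hme hli ?_
  rw [one_smul, hmf]
  have e1 : f - c⁻¹ • h x - (c⁻¹ * (1 - c⁻¹ * polar Q x (h x))) • x - f =
    (-c⁻¹) • (h x + (1 - c⁻¹ * polar Q x (h x)) • x) := by module
  have hph : p l (h x) = h (p l x) := by
    rw [hhx, map_add, map_sub, hh.pp, if_pos rfl, hh.self l _ (h2 _ (hh.mem l x))]; abel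
  rw [e1, map_smul, map_add, map_smul, hph]
  refine smul_ne_zero (neg_ne_zero.2 (inv_ne_zero hx)) fun h0 => ?_
  rcases h4 with h4 | ⟨hQ0, k, hk, hk'⟩
  · have h5 : (1 - c⁻¹ * polar Q x (h x)) • p l x + (1 : F) • h (p l x) = 0 := by
      rw [← h0]; module
    exact one_ne_zero (LinearIndependent.pair_iff.1 h4 _ _ h5).2
  · have hP : polar Q x (h x) = 2 * c := by
      conv_lhs => rw [hhx]
      rw [p_add', p_self, ← hc, hk', p_sub', p_smul', hh.pl x (hh.mem l x), p_self, hQ0]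
      ring
    rw [hP, hk'] at h0
    have h5 : (k - 1) • p l x = 0 := by
      rw [← h0]
      have : c⁻¹ * (2 * c) = 2 := by field_simp
      rw [this]; module
    rcases smul_eq_zero.1 h5 with h6 | h6
    · exact hk (sub_eq_zero.1 h6)
    · exact hl h6

end HP

end H95.OIp
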