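import Mathlib
import Cfsg.Agent.Lib.H95.OIp2

set_option autoImplicit false

/-!
Overgroups of stabilisers of orthogonal decompositions into planes: from a singular vector to
everything.
-/

namespace H95.OIp

open Module QuadraticMap H48.QuadSplit H95.OGeo H17.OrthAbs H95.OSie H95.OQd H95.OSmall H95.OIg
open H95.OIe (sq_surj scale omega_of_full)
open H95.OImp (refl_conj Rv Rv_refl exists_swap adj omega_conj refl_mul_sub)
open scoped commutatorElement

variable {F V : Type*} [Field F] [AddCommGroup V] [Module F V] {Q : QuadraticForm F V}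
  {ι : Type*} [Fintype ι] [DecidableEq ι] {D : ι → Submodule F V} {p : ι → V →ₗ[F] V}
  {M : Subgroup (V ≃ₗ[F] V)} [FiniteDimensional F V] [Finite F]

omit [FiniteDimensional F V] [Finite F] in
lemma SA_conj {s : V} (hs : Q s = 0) (hM : M ≤ O Q) {z : V} (hz : z ∈ SA Q M hs) {g : V ≃ₗ[F] V}
    (hg : g ∈ M) (hgs : Q (g s) = 0) : g z ∈ SA Q M hgs := by
  obtain ⟨h1, h2⟩ := (mem_SA hs).1 hz
  refine (mem_SA hgs).2 ⟨by rw [polar_map (hM hg), h1], ?_⟩
  rw [← sie_conj hs h1 (hM hg)]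
  exact conj_mem' hg h2

namespace HP

/-- Step F, first part -/
theorem stepF1 (H : HP Q D p M) {s : V} (hs : Q s = 0) {i m m' m'' : ι} {u : V} (hsu : p i s = u)
    (hi : Q u ≠ 0)
    (hA : ∀ j, p j s = 0 → ∀ z ∈ D j, z ∈ SA Q M hs) (hm : p m s = 0) (hm' : p m' s = 0)
    (h1 : m ≠ m') (h2 : m'' ≠ i) (h3 : m'' ≠ m) (h4 : m'' ≠ m') :
    ∃ b ∈ D i, ∃ z₀ ∈ D m, ∃ κ : F, κ ≠ 0 ∧ LinearIndependent F ![u, b] ∧ Q b = Q u ∧
      κ = polar Q u b - 2 * Q u ∧ κ * Q z₀ = 1 ∧
      ∃ hs' : Q ((u - b) + κ • z₀) = 0, (∀ j, j ≠ i → j ≠ m → ∀ z ∈ D j, z ∈ SA Q M hs') ∧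
        ∀ y ∈ D m, y - polar Q y z₀ • (s - u + b) ∈ SA Q M hs' := by
  have hh := H.hg.h
  have hui : u ∈ D i := by rw [← hsu]; exact hh.mem i s
  have hmi : m ≠ i := by
    rintro rfl; rw [hm] at hsu; rw [← hsu, QuadraticMap.map_zero] at hi; exact hi rfl
  have hmi' : m' ≠ i := by
    rintro rfl; rw [hm'] at hsu; rw [← hsu, QuadraticMap.map_zero] at hi; exact hi rfl
  obtain ⟨a, ha, a1, a2, -, a3, a4, -⟩ := H.rot hui hi
  have haO := H.hg.M_le ha
  set b := a u with hb
  have hbi : b ∈ D i := a2 _ hui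
  have has : a s = s + (b - u) := by
    have := act_one hh a1 s
    rwa [hsu] at this
  have hbQ : Q b = Q u := haO u
  set κ := polar Q u b - 2 * Q u with hκ
  have hκ0 : κ ≠ 0 := by
    have : Q (u - b) = -κ := by rw [Q_sub, hbQ, hκ]; ring
    rw [this] at a3
    exact neg_ne_zero.1 a3
  obtain ⟨z₀, hz₀, hz₀Q⟩ := H.hg.rep m κ⁻¹ (inv_ne_zero hκ0)
  have hsa : Q (a s) = 0 := by rw [haO, hs]
  -- products
  have b1 : polar Q s (a s) = κ := by
    rw [has, p_add', p_self, hs, p_sub', hh.pl s hbi, hh.pl s hui, hsu, p_self, hκ]; ring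
  have b2 : polar Q s z₀ = 0 := by rw [hh.pl s hz₀, hm, p_zero]
  have b3 : ∀ j, j ≠ i → p j s = 0 → ∀ z ∈ D j, polar Q (a s) z = 0 := by
    intro j hj hjs z hz
    rw [has, p_add, p_sub, hh.pl s hz, hjs, p_zero, hh.orth i j hj.symm b hbi z hz,
      hh.orth i j hj.symm _ hui z hz]; ring
  -- the Siegel element
  have hz₀A : z₀ ∈ SA Q M hsa := by
    have := SA_conj hs H.hg.M_le (hA m hm z₀ hz₀) ha hsa
    rwa [a1 m hmi z₀ hz₀] at this
  obtain ⟨b4, hhM⟩ := (mem_SA hsa).1 hz₀A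
  set h := sie Q (a s) z₀ with hhd
  have hhs : h s = (u - b) + κ • z₀ := by
    rw [hhd, sie_apply hsa b4, b1, b2, hz₀Q, has, inv_mul_cancel₀ hκ0]
    module
  have hs' : Q ((u - b) + κ • z₀) = 0 := by rw [← hhs, H.hg.M_le hhM, hs]
  have hgs' : Q (h s) = 0 := by rw [hhs]; exact hs'
  have hconj : ∀ z, z ∈ SA Q M hs → h z ∈ SA Q M hs' := by
    intro z hz
    have := SA_conj hs H.hg.M_le hz hhM hgs'
    obtain ⟨c1, c2⟩ := (mem_SA hgs').1 this
    exact (mem_SA hs').2 ⟨by rw [← hhs]; exact c1, by rw [← hhs]; exact c2⟩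
  -- members
  have key : ∀ z ∈ D m', z ∈ SA Q M hs' := by
    intro z hz
    have h5 := hconj z (hA m' hm' z hz)
    have h6 : h z = z := by
      rw [hhd, sie_apply hsa b4, p_comm Q z (a s), b3 m' hmi' hm' z hz,
        hh.orth m' m h1.symm z hz z₀ hz₀]
      simp
    rwa [h6] at h5
  have hsj : ∀ j, j ≠ i → j ≠ m → p j ((u - b) + κ • z₀) = 0 := by
    intro j hji hjm
    rw [map_add, map_sub, map_smul, hh.other j i hji u hui, hh.other j i hji b hbi,
      hh.other j m hjm z₀ hz₀]; simp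
  refine ⟨b, hbi, z₀, hz₀, κ, hκ0, a4, hbQ, rfl, by rw [hz₀Q, mul_inv_cancel₀ hκ0], hs', ?_, ?_⟩
  · obtain ⟨z, hz, hz1⟩ := H.hg.rep m' 1 one_ne_zero
    have hzne : z ≠ 0 := by
      rintro rfl; rw [QuadraticMap.map_zero] at hz1; exact zero_ne_one hz1
    intro j hji hjm
    exact H.stepS hs' (key z hz) (hsj m' hmi' h1.symm) (hsj m'' h2 h3) h4.symm
      (by rw [hh.self m' z hz]; exact hzne) j (hsj j hji hjm)
  · intro y hy
    have h5 := hconj y (hA m hm y hy)
    have h6 : h y = y - polar Q y z₀ • (s - u + b) := by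
      rw [hhd, sie_apply hsa b4, p_comm Q y (a s), b3 m hmi hm y hy, has]
      module
    rwa [h6] at h5

/-- Step F -/
theorem stepF (H : HP Q D p M) {s : V} (hs : Q s = 0) {i m m' : ι} (hi : Q (p i s) ≠ 0)
    (hA : ∀ j, p j s = 0 → ∀ z ∈ D j, z ∈ SA Q M hs) (hm : p m s = 0) (hm' : p m' s = 0)
    (h1 : m ≠ m') : ⁅O Q, O Q⁆ ≤ M := by
  have hh := H.hg.h
  have hmi : m ≠ i := by rintro rfl; rw [hm, QuadraticMap.map_zero] at hi; exact hi rfl
  have hmi' : m' ≠ i := by rintro rfl; rw [hm', QuadraticMap.map_zero] at hi; exact hi rfl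
  obtain ⟨m₂, hm₂⟩ := H.free {i, m, m'} (by
    have := Finset.card_le_three (a := i) (b := m) (c := m')
    omega)
  obtain ⟨m₃, hm₃⟩ := H.free {i, m, m', m₂} (by
    have := Finset.card_le_four (a := i) (b := m) (c := m') (d := m₂)
    omega)
  simp only [Finset.mem_insert, Finset.mem_singleton, not_or] at hm₂ hm₃
  obtain ⟨b, hb, z₀, hz₀, κ, hκ, hli, hbQ, hκe, hκz, hs', hA', -⟩ :=
    H.stepF1 hs rfl hi hA hm hm' h1 (m'' := m₂) hm₂.1 hm₂.2.1 hm₂.2.2
  set u := p i s with hu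
  have hui : u ∈ D i := hh.mem i s
  -- the second step
  have hpj : ∀ j, j ≠ i → j ≠ m → p j ((u - b) + κ • z₀) = 0 := by
    intro j hji hjm
    rw [map_add, map_sub, map_smul, hh.other j i hji u hui, hh.other j i hji b hb,
      hh.other j m hjm z₀ hz₀]; simp
  have hpm : p m ((u - b) + κ • z₀) = κ • z₀ := by
    rw [map_add, map_sub, map_smul, hh.other m i hmi u hui, hh.other m i hmi b hb,
      hh.self m z₀ hz₀]; simp
  have hpi : p i ((u - b) + κ • z₀) = u - b := by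
    rw [map_add, map_sub, map_smul, hh.self i u hui, hh.self i b hb,
      hh.other i m hmi.symm z₀ hz₀]; simp
  have hz₀Q : Q z₀ ≠ 0 := by rintro h0; rw [h0, mul_zero] at hκz; exact zero_ne_one hκz
  have hkz : Q (κ • z₀) ≠ 0 := by
    rw [Q_smul]; exact mul_ne_zero (mul_ne_zero hκ hκ) hz₀Q
  have hub : u - b ≠ 0 := by
    intro h0
    have h2 : (1 : F) • u + (-1 : F) • b = 0 := by rw [← h0]; module
    exact one_ne_zero (LinearIndependent.pair_iff.1 hli _ _ h2).1
  obtain ⟨b₂, hb₂, z₁, hz₁, κ₂, hκ₂, hli₂, hbQ₂, hκe₂, hκz₂, hs₂, hA₂, hB₂⟩ :=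
    H.stepF1 (s := (u - b) + κ • z₀) hs' (i := m) (m := m') (m' := m₂) (m'' := m₃) hpm hkz (by
        intro j hj z hz
        by_cases hji : j = i
        · subst hji; rw [hpi] at hj; exact absurd hj hub
        · by_cases hjm : j = m
          · subst hjm; rw [hpm] at hj; rw [hj, QuadraticMap.map_zero] at hkz; exact absurd rfl hkz
          · exact hA' j hji hjm z hz) (hpj m' hmi' h1.symm) (hpj m₂ hm₂.1 hm₂.2.1)
      (Ne.symm hm₂.2.2) hm₃.2.1 hm₃.2.2.1 hm₃.2.2.2
  set w := κ • z₀ with hw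
  have hwm : w ∈ D m := (D m).smul_mem _ hz₀
  set S := (w - b₂) + κ₂ • z₁ with hS
  have hpSm' : p m' S = κ₂ • z₁ := by
    rw [hS, map_add, map_sub, map_smul (p m') κ₂ z₁, hh.other m' m h1.symm w hwm,
      hh.other m' m h1.symm b₂ hb₂, hh.self m' z₁ hz₁]; simp
  have hSz : ∀ z, polar Q S z = polar Q w z - polar Q b₂ z + κ₂ * polar Q z₁ z := by
    intro z
    rw [hS, p_add, p_sub, p_smul Q κ₂]
  -- the vector `S` is full
  have hfull : Full Q M S := by
    refine ⟨hs₂, fun y hy => ?_⟩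
    suffices hyA : y ∈ SA Q M hs₂ from ((mem_SA hs₂).1 hyA).2
    obtain ⟨α, β, hαβ⟩ : ∃ α β : F, α • w + β • b₂ = p m y := by
      have h5 : Submodule.span F (Set.range ![w, b₂]) = D m := by
        apply Submodule.eq_of_le_of_finrank_eq
        · rw [Submodule.span_le]
          rintro _ ⟨i, rfl⟩
          fin_cases i
          · exact hwm
          · exact hb₂
        · rw [finrank_span_eq_card hli₂, Fintype.card_fin, H.dim]
      have h6 : Set.range ![w, b₂] = {w, b₂} := by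
        ext x; simp [or_comm]
      have h7 := hh.mem m y
      rw [← h5, h6] at h7
      exact Submodule.mem_span_pair.1 h7
    set y' := p m' y - (α * κ₂) • z₁ with hy'
    have hy'm : y' ∈ D m' := (D m').sub_mem (hh.mem m' y) ((D m').smul_mem _ hz₁)
    -- the remaining part
    set R := y - p m y - p m' y with hR
    have hRA : R ∈ SA Q M hs₂ := by
      rw [← hh.sum R]
      apply AddSubgroup.sum_mem
      intro j _
      by_cases hjm : j = m
      · subst hjm
        rw [hR, map_sub, map_sub, hh.pp, if_pos rfl, hh.pp, if_neg h1, sub_self, sub_zero]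
        exact AddSubgroup.zero_mem _
      · by_cases hjm' : j = m'
        · subst hjm'
          rw [hR, map_sub, map_sub, hh.pp, if_neg hjm, hh.pp, if_pos rfl, sub_zero, sub_self]
          exact AddSubgroup.zero_mem _
        · exact hA₂ j hjm hjm' _ (hh.mem j R)
    have hγ : α + β = - polar Q y' z₁ := by
      have e1 : polar Q S R = 0 := ((mem_SA hs₂).1 hRA).1
      have e2 : polar Q S y = polar Q S (α • w + β • b₂) + polar Q S (p m' y) := by
        have : y = R + (α • w + β • b₂) + p m' y := by rw [hαβ, hR]; abel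
        conv_lhs => rw [this]
        rw [p_add', p_add', e1, zero_add]
      have e7 : polar Q w (α • w + β • b₂) = α * (2 * Q w) + β * polar Q w b₂ := by
        rw [p_add', p_smul' Q α w w, p_smul' Q β b₂ w, p_self]
      have e8 : polar Q b₂ (α • w + β • b₂) = α * polar Q w b₂ + β * (2 * Q w) := by
        rw [p_add', p_smul' Q α w b₂, p_smul' Q β b₂ b₂, p_self, p_comm Q b₂ w, hbQ₂]
      rw [hy, hSz, hSz, hh.orth m m' h1 w hwm _ (hh.mem m' y), hh.orth m m' h1 b₂ hb₂ _ (hh.mem m' y),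
        hh.orth m' m h1.symm z₁ hz₁ _ ((D m).add_mem ((D m).smul_mem _ hwm)
          ((D m).smul_mem _ hb₂)), e7, e8] at e2
      have e5 : κ₂ * (α + β + polar Q y' z₁) = 0 := by
        rw [hy', p_sub, p_smul, p_self, p_comm Q (p m' y) z₁]
        linear_combination -e2 - 2 * α * κ₂ * hκz₂ + (β - α) * hκe₂
      have e6 := (mul_eq_zero.1 e5).resolve_left hκ₂
      linear_combination e6
    have hsumm : y = α • S + ((y' - polar Q y' z₁ • ((u - b) + w - w + b₂)) +
        polar Q y' z₁ • (u - b)) + R := by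
      have e1 : y = R + (α • w + β • b₂) + p m' y := by rw [hαβ, hR]; abel
      have e2 : p m' y = y' + (α * κ₂) • z₁ := by rw [hy']; abel
      have e3 : β = - polar Q y' z₁ - α := by linear_combination hγ
      rw [e2, e3] at e1
      conv_lhs => rw [e1]
      rw [hS]
      module
    rw [hsumm]
    refine AddSubgroup.add_mem _ (AddSubgroup.add_mem _ (SA_self hs₂ α)
      (AddSubgroup.add_mem _ (hB₂ y' hy'm) ?_)) hRA
    exact hA₂ i hmi.symm hmi'.symm _ ((D i).smul_mem _ ((D i).sub_mem hui hb))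
  -- a second full vector
  have hz₁Q : Q z₁ ≠ 0 := by rintro h0; rw [h0, mul_zero] at hκz₂; exact zero_ne_one hκz₂
  have hkz₁ : Q (κ₂ • z₁) ≠ 0 := by
    rw [Q_smul]; exact mul_ne_zero (mul_ne_zero hκ₂ hκ₂) hz₁Q
  obtain ⟨a, ha, a1, a2, -, a3, -, -⟩ := H.rot ((D m').smul_mem _ hz₁) hkz₁
  have haO := H.hg.M_le ha
  have has := act_one hh a1 S
  rw [hpSm'] at has
  refine omega_le_of_full H.hg.hQ (by have := H.hg.hn; omega) hfull (hfull.map ha haO) ?_
  have hav : a (κ₂ • z₁) ∈ D m' := a2 _ ((D m').smul_mem _ hz₁)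
  rw [has, p_add, p_self, hs₂, p_sub, p_comm Q _ S, p_comm Q _ S, hh.pl S hav,
    hh.pl S ((D m').smul_mem κ₂ hz₁), hpSm', p_self]
  intro h0
  apply a3
  rw [Q_sub, haO]
  linear_combination -h0

end HP

end H95.OIp
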