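import Mathlib
import Cfsg.Agent.Lib.H95.OIp3

set_option autoImplicit false

/-!
Overgroups of stabilisers of orthogonal decompositions into planes: the part where the overgroup is
normalised by a reflection.
-/

namespace H95.OIp

open Module QuadraticMap H48.QuadSplit H95.OGeo H17.OrthAbs H95.OSie H95.OQd H95.OSmall H95.OIg
open H95.OIe (sq_surj scale omega_of_full)
open H95.OImp (refl_conj Rv Rv_refl exists_swap adj omega_conj refl_mul_sub)
open scoped commutatorElement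

variable {F V : Type*} [Field F] [AddCommGroup V] [Module F V] {Q : QuadraticForm F V}
  {ι : Type*} [Fintype ι] [DecidableEq ι] {D : ι → Submodule F V} {p : ι → V →ₗ[F] V}
  {M : Subgroup (V ≃ₗ[F] V)}

lemma refl_smul {c : F} (hc : c ≠ 0) {y : V} (hy : Q y ≠ 0) (hcy : Q (c • y) ≠ 0) :
    refl Q (c • y) hcy = refl Q y hy := by
  ext x
  rw [refl_apply, refl_apply, Q_smul, p_smul, smul_smul]
  congr 2
  field_simp

lemma refl_step {y x : V} (hy : Q y ≠ 0) (h : polar Q y x = Q y) : refl Q y hy x = x - y := by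
  rw [refl_apply, h, inv_mul_cancel₀ hy, one_smul]

variable [FiniteDimensional F V]

/-- a hyperbolic basis of a plane -/
lemma hyp_basis {U : Submodule F V} (hU : NDs Q U) (h2 : finrank F U = 2) {e : V} (he : e ∈ U)
    (he0 : e ≠ 0) (heQ : Q e = 0) : ∃ f ∈ U, Q f = 0 ∧ polar Q e f = 1 ∧
      ∀ x ∈ U, x = polar Q x f • e + polar Q x e • f := by
  obtain ⟨f, hf, hfe, hfQ⟩ := partner_val hU he he0 heQ 0
  have hef : polar Q e f = 1 := by rw [p_comm]; exact hfe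
  refine ⟨f, hf, hfQ, hef, ?_⟩
  have hli : LinearIndependent F ![e, f] := by
    rw [LinearIndependent.pair_iff]
    intro s t hst
    have e1 := congrArg (polar Q f) hst
    have e2 := congrArg (polar Q e) hst
    rw [p_add', p_smul', p_smul', p_self, hfQ, hfe, p_zero'] at e1
    rw [p_add', p_smul', p_smul', p_self, heQ, hef, p_zero'] at e2
    exact ⟨by linear_combination e1, by linear_combination e2⟩
  have h5 : Submodule.span F (Set.range ![e, f]) = U := by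
    apply Submodule.eq_of_le_of_finrank_eq
    · rw [Submodule.span_le]
      rintro _ ⟨i, rfl⟩
      fin_cases i
      · exact he
      · exact hf
    · rw [finrank_span_eq_card hli, Fintype.card_fin, h2]
  intro x hx
  rw [← h5] at hx
  have h6 : Set.range ![e, f] = {e, f} := by
    ext x; simp [or_comm]
  rw [h6] at hx
  obtain ⟨α, β, rfl⟩ := Submodule.mem_span_pair.1 hx
  rw [p_add, p_add, p_smul, p_smul, p_smul, p_smul, p_self, p_self, heQ, hfQ, hef, hfe]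
  module

variable [Finite F]

namespace HP

omit [FiniteDimensional F V] [Finite F] in
/-- scaled vectors -/
lemma f2_of {U W : Submodule F V} {x₁ x₂ d₁ d₂ : V} (hd₁ : d₁ ∈ U) (hd₂ : d₂ ∈ W)
    (h₁ : Q d₁ ≠ 0) (h₂ : Q d₂ ≠ 0) (a₁ : polar Q x₁ d₁ ≠ 0)
    (h : polar Q x₁ d₁ * polar Q x₁ d₁ * Q d₂ + polar Q x₂ d₂ * polar Q x₂ d₂ * Q d₁ = 0) :
    ∃ y₁ ∈ U, ∃ y₂ ∈ W, Q y₁ = polar Q x₁ y₁ ∧ Q y₂ = polar Q x₂ y₂ ∧ Q y₁ ≠ 0 ∧ Q y₁ + Q y₂ = 0 := by
  refine ⟨(polar Q x₁ d₁ / Q d₁) • d₁, U.smul_mem _ hd₁, (polar Q x₂ d₂ / Q d₂) • d₂,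
    W.smul_mem _ hd₂, ?_, ?_, ?_, ?_⟩
  · rw [Q_smul, p_smul']; field_simp
  · rw [Q_smul, p_smul']; field_simp
  · rw [Q_smul]
    exact mul_ne_zero (mul_ne_zero (div_ne_zero a₁ h₁) (div_ne_zero a₁ h₁)) h₁
  · rw [Q_smul, Q_smul]
    field_simp
    linear_combination h

/-- two vectors whose reflections differ by a singular vector -/
lemma f2 (H : HP Q D p M) {i j : ι} {x₁ x₂ : V} (hx₁ : x₁ ∈ D i) (hx₂ : x₂ ∈ D j)
    (h₁ : Q x₁ ≠ 0) (h₂ : Q x₂ ≠ 0) : ∃ y₁ ∈ D i, ∃ y₂ ∈ D j, Q y₁ = polar Q x₁ y₁ ∧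
      Q y₂ = polar Q x₂ y₂ ∧ Q y₁ ≠ 0 ∧ Q y₁ + Q y₂ = 0 := by
  classical
  have hx₁0 : x₁ ≠ 0 := by rintro rfl; exact h₁ (QuadraticMap.map_zero Q)
  have hx₂0 : x₂ ≠ 0 := by rintro rfl; exact h₂ (QuadraticMap.map_zero Q)
  rcases H.ty with ⟨hty, -⟩ | ⟨hty, h7⟩
  · -- anisotropic planes
    by_cases two : (2 : F) = 0
    · obtain ⟨v₁, hv₁, hvx₁⟩ := partner (H.nds i) hx₁ hx₁0
      obtain ⟨v₂, hv₂, hvx₂⟩ := partner (H.nds j) hx₂ hx₂0
      suffices hsuff : ∃ d₁ ∈ D i, ∃ d₂ ∈ D j, polar Q x₁ d₁ = 1 ∧ polar Q x₂ d₂ = 1 ∧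
          Q d₁ + Q d₂ = 0 by
        obtain ⟨d₁, hd₁, d₂, hd₂, e1, e2, e3⟩ := hsuff
        have n₁ : Q d₁ ≠ 0 := fun h0 => by
          rw [hty i d₁ hd₁ h0, p_zero'] at e1; exact zero_ne_one e1
        have n₂ : Q d₂ ≠ 0 := fun h0 => by
          rw [hty j d₂ hd₂ h0, p_zero'] at e2; exact zero_ne_one e2
        apply f2_of hd₁ hd₂ n₁ n₂ (by rw [e1]; exact one_ne_zero)
        rw [e1, e2]; linear_combination e3
      by_cases hm : Q x₁ = Q x₂
      · -- use an isometry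
        obtain ⟨e, he⟩ := H.hg.iso i j
        set y := (e ⟨x₁, hx₁⟩ : V) with hy
        set z := (e ⟨v₁, hv₁⟩ : V) with hz
        have hyj : y ∈ D j := (e ⟨x₁, hx₁⟩).2
        have hzj : z ∈ D j := (e ⟨v₁, hv₁⟩).2
        have hyQ : Q y = Q x₁ := he _
        have hzQ : Q z = Q v₁ := he _
        have hyz : polar Q z y = 1 := by
          rw [← hvx₁]
          have h3 := he (⟨v₁, hv₁⟩ + ⟨x₁, hx₁⟩)
          rw [map_add] at h3
          have h4 : Q (z + y) = Q (v₁ + x₁) := h3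
          rw [Q_add, Q_add, hyQ, hzQ] at h4
          linear_combination h4
        by_cases hyx : y = x₂
        · refine ⟨v₁, hv₁, z, hzj, by rw [p_comm]; exact hvx₁, by rw [← hyx, p_comm]; exact hyz, ?_⟩
          rw [hzQ]; linear_combination (Q v₁) * two
        · have hne : y - x₂ ≠ 0 := sub_ne_zero.2 hyx
          have hn0 : Q (y - x₂) ≠ 0 := fun h0 => hne (hty j _ ((D j).sub_mem hyj hx₂) h0)
          have hr : refl Q (y - x₂) hn0 y = x₂ := by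
            rw [refl_apply]
            have : (Q (y - x₂))⁻¹ * polar Q (y - x₂) y = 1 := by
              have e1 : polar Q (y - x₂) y = Q (y - x₂) := by
                rw [Q_sub, p_sub, p_self, ← hm, hyQ, p_comm Q x₂ y]; ring
              rw [e1, inv_mul_cancel₀ hn0]
            rw [this, one_smul]; abel
          have hrO := refl_mem_O Q (y - x₂) hn0
          refine ⟨v₁, hv₁, refl Q (y - x₂) hn0 z, ?_, by rw [p_comm]; exact hvx₁, ?_, ?_⟩
          · rw [refl_apply]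
            exact (D j).sub_mem hzj ((D j).smul_mem _ ((D j).sub_mem hyj hx₂))
          · have h5 := polar_map hrO y z
            rw [hr] at h5
            rw [h5, p_comm]; exact hyz
          · rw [hrO, hzQ]; linear_combination (Q v₁) * two
      · obtain ⟨a, ha⟩ := sq_surj two (Q x₁)
        obtain ⟨b, hb⟩ := sq_surj two (Q x₂)
        have hab : a + b ≠ 0 := by
          intro h0
          apply hm
          have : a = b := by linear_combination h0 - b * two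
          rw [← ha, ← hb, this]
        set E := Q v₁ + Q v₂ with hE
        set ε := b * E / (a + b) with hε
        have hε' : (a + b) * ε = b * E := by rw [hε]; field_simp
        refine ⟨v₁ + ε • x₁, (D i).add_mem hv₁ ((D i).smul_mem _ hx₁), v₂ + (E + ε) • x₂,
          (D j).add_mem hv₂ ((D j).smul_mem _ hx₂), ?_, ?_, ?_⟩
        · rw [p_add', p_smul', p_self, p_comm, hvx₁, two]; ring
        · rw [p_add', p_smul', p_self, p_comm, hvx₂, two]; ring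
        · rw [Q_add, Q_add, Q_smul, Q_smul, p_smul', p_smul', hvx₁, hvx₂, ← ha, ← hb]
          have e1 : a * ε + b * (E + ε) = 0 := by linear_combination hε' + b * E * two
          have e2 : Q v₁ + Q v₂ = E := rfl
          linear_combination e2 + (a * ε + b * (E + ε)) * e1 + (E + ε - a * ε * b * (E + ε)) * two
    · obtain ⟨z₁, hz₁, hxz₁, hzQ₁⟩ := perp_plane two (H.nds i) (H.dim i).ge hx₁ h₁
      obtain ⟨z₂, hz₂, hxz₂, hzQ₂⟩ := perp_plane two (H.nds j) (H.dim j).ge hx₂ h₂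
      have h4 : (4 : F) ≠ 0 := by
        have : (4 : F) = 2 * 2 := by norm_num
        rw [this]; exact mul_ne_zero two two
      have hk₁ : Q z₁ / (4 * (Q x₁ * Q x₁)) ≠ 0 := div_ne_zero hzQ₁ (mul_ne_zero h4 (mul_ne_zero h₁ h₁))
      have hk₂ : Q z₂ / (4 * (Q x₂ * Q x₂)) ≠ 0 := div_ne_zero hzQ₂ (mul_ne_zero h4 (mul_ne_zero h₂ h₂))
      obtain ⟨X, Y, hXY⟩ := diag_rep two hk₁ hk₂ (-(1 / (4 * Q x₁)) - 1 / (4 * Q x₂))
      have e1 : polar Q x₁ (x₁ + X • z₁) = 2 * Q x₁ := by rw [p_add', p_smul', p_self, hxz₁]; ring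
      have e2 : polar Q x₂ (x₂ + Y • z₂) = 2 * Q x₂ := by rw [p_add', p_smul', p_self, hxz₂]; ring
      have e3 : Q (x₁ + X • z₁) = Q x₁ + X * X * Q z₁ := by rw [Q_add, Q_smul, p_smul', hxz₁]; ring
      have e4 : Q (x₂ + Y • z₂) = Q x₂ + Y * Y * Q z₂ := by rw [Q_add, Q_smul, p_smul', hxz₂]; ring
      have m₁ := (D i).add_mem hx₁ ((D i).smul_mem X hz₁)
      have m₂ := (D j).add_mem hx₂ ((D j).smul_mem Y hz₂)
      have n₁ : Q (x₁ + X • z₁) ≠ 0 := fun h0 => by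
        rw [hty i _ m₁ h0, p_zero'] at e1
        exact mul_ne_zero two h₁ e1.symm
      have n₂ : Q (x₂ + Y • z₂) ≠ 0 := fun h0 => by
        rw [hty j _ m₂ h0, p_zero'] at e2
        exact mul_ne_zero two h₂ e2.symm
      apply f2_of m₁ m₂ n₁ n₂ (by rw [e1]; exact mul_ne_zero two h₁)
      rw [e1, e2, e3, e4]
      have key : 2 * Q x₁ * (2 * Q x₁) * (Q x₂ + Y * Y * Q z₂) +
          2 * Q x₂ * (2 * Q x₂) * (Q x₁ + X * X * Q z₁) =
          (4 * Q x₁ * Q x₂) * (4 * Q x₁ * Q x₂) * (Q z₁ / (4 * (Q x₁ * Q x₁)) * (X * X) +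
            Q z₂ / (4 * (Q x₂ * Q x₂)) * (Y * Y) - (-(1 / (4 * Q x₁)) - 1 / (4 * Q x₂))) := by
        field_simp
        ring
      rw [key, hXY, sub_self, mul_zero]
  · -- hyperbolic planes
    obtain ⟨e₁, he₁, he₁0, heQ₁⟩ := hty i
    obtain ⟨e₂, he₂, he₂0, heQ₂⟩ := hty j
    obtain ⟨f₁, hf₁, hfQ₁, hef₁, hb₁⟩ := hyp_basis (H.nds i) (H.dim i) he₁ he₁0 heQ₁
    obtain ⟨f₂, hf₂, hfQ₂, hef₂, hb₂⟩ := hyp_basis (H.nds j) (H.dim j) he₂ he₂0 heQ₂
    obtain ⟨α₁, hα₁⟩ : ∃ a, polar Q x₁ f₁ = a := ⟨_, rfl⟩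
    obtain ⟨β₁, hβ₁⟩ : ∃ a, polar Q x₁ e₁ = a := ⟨_, rfl⟩
    obtain ⟨α₂, hα₂⟩ : ∃ a, polar Q x₂ f₂ = a := ⟨_, rfl⟩
    obtain ⟨β₂, hβ₂⟩ : ∃ a, polar Q x₂ e₂ = a := ⟨_, rfl⟩
    have hxe₁ := hb₁ x₁ hx₁
    have hxe₂ := hb₂ x₂ hx₂
    rw [hα₁, hβ₁] at hxe₁
    rw [hα₂, hβ₂] at hxe₂
    have hm₁ : Q x₁ = α₁ * β₁ := by
      rw [hxe₁, Q_add, Q_smul, Q_smul, p_smul, p_smul', heQ₁, hfQ₁, hef₁]; ring
    have hm₂ : Q x₂ = α₂ * β₂ := by
      rw [hxe₂, Q_add, Q_smul, Q_smul, p_smul, p_smul', heQ₂, hfQ₂, hef₂]; ring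
    rw [hm₁] at h₁
    rw [hm₂] at h₂
    obtain ⟨S, hS, hS'⟩ := sq_roots F (-(α₂ * β₂) / (α₁ * β₁))
    obtain ⟨τ, hτ⟩ := avoid (insert 0 (insert 1 (insert (-(α₂ * β₂) / (α₁ * β₁)) S))) (by
      have h3 := Finset.card_insert_le (0 : F) (insert 1 (insert (-(α₂ * β₂) / (α₁ * β₁)) S))
      have h4 := Finset.card_insert_le (1 : F) (insert (-(α₂ * β₂) / (α₁ * β₁)) S)
      have h5 := Finset.card_insert_le (-(α₂ * β₂) / (α₁ * β₁)) S
      omega)
    simp only [Finset.mem_insert, not_or] at hτ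
    obtain ⟨t0, t1, t2, t3⟩ := hτ
    obtain ⟨N, hN⟩ : ∃ a, α₂ * β₂ + α₁ * β₁ * (τ * τ) = a := ⟨_, rfl⟩
    obtain ⟨L, hL⟩ : ∃ a, α₂ * β₂ + α₁ * β₁ * τ = a := ⟨_, rfl⟩
    have hN0 : N ≠ 0 := by
      rw [← hN]
      intro h0
      apply t3
      apply hS'
      rw [eq_div_iff h₁]
      linear_combination h0
    have hL0 : L ≠ 0 := by
      rw [← hL]
      intro h0
      apply t2
      rw [eq_div_iff h₁]
      linear_combination h0
    have ht1 : τ - 1 ≠ 0 := sub_ne_zero.2 t1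
    have ht1' : 1 - τ ≠ 0 := sub_ne_zero.2 (Ne.symm t1)
    have hα₁0 : α₁ ≠ 0 := left_ne_zero_of_mul h₁
    have hβ₁0 : β₁ ≠ 0 := right_ne_zero_of_mul h₁
    have hα₂0 : α₂ ≠ 0 := left_ne_zero_of_mul h₂
    have hβ₂0 : β₂ ≠ 0 := right_ne_zero_of_mul h₂
    have g1 : ∀ a b : F, Q (a • e₁ + b • f₁) = a * b := fun a b => by
      rw [Q_add, Q_smul, Q_smul, p_smul, p_smul', heQ₁, hfQ₁, hef₁]; ring
    have g2 : ∀ a b : F, Q (a • e₂ + b • f₂) = a * b := fun a b => by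
      rw [Q_add, Q_smul, Q_smul, p_smul, p_smul', heQ₂, hfQ₂, hef₂]; ring
    have g3 : ∀ a b : F, polar Q x₁ (a • e₁ + b • f₁) = a * β₁ + b * α₁ := fun a b => by
      rw [p_add', p_smul', p_smul', hα₁, hβ₁]
    have g4 : ∀ a b : F, polar Q x₂ (a • e₂ + b • f₂) = a * β₂ + b * α₂ := fun a b => by
      rw [p_add', p_smul', p_smul', hα₂, hβ₂]
    refine ⟨(α₁ * N / L) • e₁ + (N / (α₁ * (τ * (τ - 1)))) • f₁,
      (D i).add_mem ((D i).smul_mem _ he₁) ((D i).smul_mem _ hf₁),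
      (α₂ * N / (τ * L)) • e₂ + (N / (α₂ * (1 - τ))) • f₂,
      (D j).add_mem ((D j).smul_mem _ he₂) ((D j).smul_mem _ hf₂), ?_, ?_, ?_, ?_⟩
    · rw [g1, g3]
      field_simp
      rw [← hN, ← hL]
      ring
    · rw [g2, g4]
      field_simp
      rw [← hN, ← hL]
      ring
    · rw [g1]
      exact mul_ne_zero (div_ne_zero (mul_ne_zero hα₁0 hN0) hL0)
        (div_ne_zero hN0 (mul_ne_zero hα₁0 (mul_ne_zero t0 ht1)))
    · rw [g1, g2]
      field_simp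
      ring

end HP

end H95.OIp
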