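import Mathlib
import Cfsg.Agent.Lib.H95.OIs4

set_option autoImplicit false

/-!
Overgroups of stabilisers of orthogonal decompositions into planes: the part where the overgroup is
normalised by a reflection, continued.
-/

namespace H95.OIs

open H95.OIp

open Module QuadraticMap H48.QuadSplit H95.OGeo H17.OrthAbs H95.OSie H95.OQd H95.OSmall H95.OIg
open H95.OIe (sq_surj scale omega_of_full)
open H95.OImp (refl_conj Rv Rv_refl exists_swap adj omega_conj refl_mul_sub)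
open scoped commutatorElement

variable {F V : Type*} [Field F] [AddCommGroup V] [Module F V] {Q : QuadraticForm F V}
  {ι : Type*} [Fintype ι] [DecidableEq ι] {D : ι → Submodule F V} {p : ι → V →ₗ[F] V}
  {M : Subgroup (V ≃ₗ[F] V)}

/-- in a finite field in which `-1` is not a square one of `a`, `-a` is a square -/
lemma sq_or_neg [Finite F] (h : ∀ i : F, i * i ≠ -1) {a : F} (ha : a ≠ 0) :
    (∃ k, k * k = a) ∨ ∃ k, k * k = -a := by
  by_cases two : (2 : F) = 0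
  · obtain ⟨k, hk⟩ := sq_surj two (-1 : F)
    exact absurd hk (h k)
  by_contra hcon
  push Not at hcon
  obtain ⟨h1, h2⟩ := hcon
  -- squares: one of `1 ... ` use sums of two squares
  have : Fintype F := Fintype.ofFinite F
  classical
  -- index two
  have hc : ringChar F ≠ 2 := by
    intro hc
    apply two
    have := ringChar.Nat.cast_ringChar (R := F)
    rw [hc] at this
    exact_mod_cast this
  have e1 : quadraticChar F a = -1 := by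
    rw [quadraticChar_neg_one_iff_not_isSquare]
    rintro ⟨k, hk⟩
    exact h1 k hk.symm
  have e2 : quadraticChar F (-a) = -1 := by
    rw [quadraticChar_neg_one_iff_not_isSquare]
    rintro ⟨k, hk⟩
    exact h2 k hk.symm
  have e3 : quadraticChar F (-1 : F) = -1 := by
    rw [quadraticChar_neg_one_iff_not_isSquare]
    rintro ⟨k, hk⟩
    exact h k hk.symm
  have e4 : quadraticChar F (-a) = quadraticChar F (-1) * quadraticChar F a := by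
    rw [← map_mul, neg_one_mul]
  rw [e1, e2, e3] at e4
  norm_num at e4

variable [FiniteDimensional F V] [Finite F]

namespace HP

/-- From a suitable singular vector to everything. -/
theorem finish (H : HP Q D p M) {x : V} (hx : Q x ≠ 0)
    (hR : ∀ m ∈ M, ∀ h0 : Q (m x) ≠ 0, refl Q x hx * refl Q (m x) h0 ∈ M)
    {s : V} (hs : Q s = 0) (hxs : polar Q x s = 0) {h : V ≃ₗ[F] V} (hM : h ∈ M) (hhx : h x = x - s)
    {i l m : ι} (hi : Q (p i s) ≠ 0) (hl : p l s = 0) (hlx : p l x ≠ 0) (hm : p m s = 0)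
    (hlm : l ≠ m) : ⁅O Q, O Q⁆ ≤ M := by
  have h1 : Q (x - s) ≠ 0 := by rw [← hhx, H.hg.M_le hM]; exact hx
  have h2 := hR h hM (by rw [hhx]; exact h1)
  have h3 : refl Q x hx * refl Q (h x) (by rw [hhx]; exact h1) = sie Q s (-((Q x)⁻¹ • x)) := by
    rw [← refl_mul_sub hx hs hxs h1]
    congr 1
    ext z
    rw [refl_apply, refl_apply, hhx]
  rw [h3] at h2
  have h4 : -((Q x)⁻¹ • x) ∈ SA Q M hs := (mem_SA hs).2 ⟨by
    rw [p_neg', p_smul', p_comm, hxs, mul_zero, neg_zero], h2⟩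
  have h5 := H.stepS hs h4 hl hm hlm (by
    rw [map_neg, map_smul]
    exact neg_ne_zero.2 (smul_ne_zero (inv_ne_zero hx) hlx))
  exact H.stepF hs hi h5 hl hm hlm

/-- two indices -/
theorem two_idx (H : HP Q D p M) {x : V} (hx : Q x ≠ 0)
    (hR : ∀ m ∈ M, ∀ h0 : Q (m x) ≠ 0, refl Q x hx * refl Q (m x) h0 ∈ M)
    {i j l : ι} (hij : i ≠ j) (hi : Q (p i x) ≠ 0) (hj : Q (p j x) ≠ 0) (hli : l ≠ i)
    (hlj : l ≠ j) (hl : p l x ≠ 0) (hcase : (∃ m, p m x = 0) ∨ ∃ k : F, k * k = -1) :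
    ⁅O Q, O Q⁆ ≤ M := by
  have hh := H.hg.h
  obtain ⟨y₁, hy₁, y₂, hy₂, e1, e2, e3, e4⟩ := H.f2 (hh.mem i x) (hh.mem j x) hi hj
  rw [← hh.pl x hy₁] at e1
  rw [← hh.pl x hy₂] at e2
  have n₂ : Q y₂ ≠ 0 := by
    intro h0; rw [h0, add_zero] at e4; exact e3 e4
  have hyy : polar Q y₁ y₂ = 0 := hh.orth i j hij y₁ hy₁ y₂ hy₂
  have hs : Q (y₁ + y₂) = 0 := by rw [Q_add, hyy, e4, add_zero]
  have hxs : polar Q x (y₁ + y₂) = 0 := by rw [p_add', ← e1, ← e2, e4]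
  obtain ⟨m, hm⟩ := H.free {i, j, l} (by
    have := Finset.card_le_three (a := i) (b := j) (c := l)
    omega)
  simp only [Finset.mem_insert, Finset.mem_singleton, not_or] at hm
  have r2 : refl Q y₂ n₂ x = x - y₂ := refl_step n₂ (by rw [p_comm, e2])
  have r1 : refl Q y₁ e3 (x - y₂) = x - y₂ - y₁ := refl_step e3 (by
    rw [p_sub', hyy, p_comm, ← e1, sub_zero])
  obtain ⟨h, hM, hhx⟩ : ∃ h ∈ M, h x = x - (y₁ + y₂) := by
    rcases hcase with ⟨m₀, hm₀⟩ | ⟨k, hk⟩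
    · have hmi : m₀ ≠ i := by rintro rfl; rw [hm₀, QuadraticMap.map_zero] at hi; exact hi rfl
      have hmj : m₀ ≠ j := by rintro rfl; rw [hm₀, QuadraticMap.map_zero] at hj; exact hj rfl
      obtain ⟨w, hw, hwQ⟩ := H.hg.rep m₀ (Q y₁) e3
      obtain ⟨w', hw', hwQ'⟩ := H.hg.rep m₀ (Q y₂) n₂
      have nw : Q w ≠ 0 := by rw [hwQ]; exact e3
      have nw' : Q w' ≠ 0 := by rw [hwQ']; exact n₂
      refine ⟨(refl Q y₁ e3 * refl Q w nw) * (refl Q y₂ n₂ * refl Q w' nw'),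
        M.mul_mem (H.hg.dbl_mem hy₁ hw e3 nw hwQ.symm) (H.hg.dbl_mem hy₂ hw' n₂ nw' hwQ'.symm), ?_⟩
      have a1 : refl Q w' nw' x = x := by
        rw [refl_apply, hh.pr x hw', hm₀, p_zero', mul_zero, zero_smul, sub_zero]
      have a2 : refl Q w nw (x - y₂) = x - y₂ := by
        rw [refl_apply, p_sub', hh.pr x hw, hm₀, p_zero', hh.orth m₀ j hmj w hw y₂ hy₂, sub_zero,
          mul_zero, zero_smul, sub_zero]
      rw [LinearEquiv.mul_apply, LinearEquiv.mul_apply, LinearEquiv.mul_apply, a1, r2, a2, r1]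
      abel
    · have hk0 : k ≠ 0 := by
        rintro rfl
        rw [mul_zero] at hk
        exact neg_ne_zero.2 one_ne_zero hk.symm
      have nk : Q (k • y₂) ≠ 0 := by rw [Q_smul]; exact mul_ne_zero (mul_ne_zero hk0 hk0) n₂
      refine ⟨refl Q y₁ e3 * refl Q (k • y₂) nk, H.hg.dbl_mem hy₁ ((D j).smul_mem k hy₂) e3 nk ?_, ?_⟩
      · rw [Q_smul, hk]; linear_combination e4
      · rw [refl_smul hk0 n₂, LinearEquiv.mul_apply, r2, r1]; abel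
  have hpi : p i (y₁ + y₂) = y₁ := by
    rw [map_add, hh.self i y₁ hy₁, hh.other i j hij y₂ hy₂, add_zero]
  have hpo : ∀ a, a ≠ i → a ≠ j → p a (y₁ + y₂) = 0 := by
    intro a hai haj
    rw [map_add, hh.other a i hai y₁ hy₁, hh.other a j haj y₂ hy₂, add_zero]
  exact H.finish hx hR hs hxs hM hhx (i := i) (by rw [hpi]; exact e3) (hpo l hli hlj) hl
    (hpo m hm.1 hm.2.1) (Ne.symm hm.2.2)

/-- four indices, a special case -/
theorem four_idx' (H : HP Q D p M) {x : V} (hx : Q x ≠ 0)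
    (hR : ∀ m ∈ M, ∀ h0 : Q (m x) ≠ 0, refl Q x hx * refl Q (m x) h0 ∈ M)
    {i₁ i₂ i₃ i₄ l m : ι} (h12 : i₁ ≠ i₂) (h13 : i₁ ≠ i₃) (h14 : i₁ ≠ i₄) (h23 : i₂ ≠ i₃)
    (h24 : i₂ ≠ i₄) (h34 : i₃ ≠ i₄) (l1 : l ≠ i₁) (l2 : l ≠ i₂) (l3 : l ≠ i₃) (l4 : l ≠ i₄)
    (m1 : m ≠ i₁) (m2 : m ≠ i₂) (m3 : m ≠ i₃) (m4 : m ≠ i₄) (hlm : l ≠ m) (hl : p l x ≠ 0)
    {y₁ y₂ y₃ y₄ : V} (hy₁ : y₁ ∈ D i₁) (hy₂ : y₂ ∈ D i₂) (hy₃ : y₃ ∈ D i₃) (hy₄ : y₄ ∈ D i₄)
    (n₁ : Q y₁ ≠ 0) (n₃ : Q y₃ ≠ 0) (e1 : Q y₁ = polar Q x y₁) (e2 : Q y₂ = polar Q x y₂)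
    (e3 : Q y₃ = polar Q x y₃) (e4 : Q y₄ = polar Q x y₄) (f1 : Q y₁ + Q y₂ = 0)
    (f2 : Q y₃ + Q y₄ = 0) {k : F} (hk : k * k = Q y₁ * Q y₃) : ⁅O Q, O Q⁆ ≤ M := by
  have hh := H.hg.h
  have n₂ : Q y₂ ≠ 0 := by intro h0; rw [h0, add_zero] at f1; exact n₁ f1
  have n₄ : Q y₄ ≠ 0 := by intro h0; rw [h0, add_zero] at f2; exact n₃ f2
  have o12 := hh.orth i₁ i₂ h12 y₁ hy₁ y₂ hy₂
  have o13 := hh.orth i₁ i₃ h13 y₁ hy₁ y₃ hy₃
  have o14 := hh.orth i₁ i₄ h14 y₁ hy₁ y₄ hy₄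
  have o23 := hh.orth i₂ i₃ h23 y₂ hy₂ y₃ hy₃
  have o24 := hh.orth i₂ i₄ h24 y₂ hy₂ y₄ hy₄
  have o34 := hh.orth i₃ i₄ h34 y₃ hy₃ y₄ hy₄
  have hk0 : k ≠ 0 := by
    rintro rfl
    rw [mul_zero] at hk
    exact mul_ne_zero n₁ n₃ hk.symm
  have hc0 : k / Q y₃ ≠ 0 := div_ne_zero hk0 n₃
  have q3 : Q ((k / Q y₃) • y₃) = Q y₁ := by
    rw [Q_smul, div_mul_div_comm, hk]; field_simp
  have q4 : Q ((k / Q y₃) • y₄) = Q y₂ := by
    have h1 : Q y₄ = - Q y₃ := by linear_combination f2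
    have h2 : Q y₂ = - Q y₁ := by linear_combination f1
    rw [Q_smul, div_mul_div_comm, hk, h1, h2]; field_simp
  have n₃' : Q ((k / Q y₃) • y₃) ≠ 0 := by rw [q3]; exact n₁
  have n₄' : Q ((k / Q y₃) • y₄) ≠ 0 := by rw [q4]; exact n₂
  have hM : (refl Q y₁ n₁ * refl Q y₃ n₃) * (refl Q y₂ n₂ * refl Q y₄ n₄) ∈ M := by
    rw [← refl_smul hc0 n₃ n₃', ← refl_smul hc0 n₄ n₄']
    exact M.mul_mem (H.hg.dbl_mem hy₁ ((D i₃).smul_mem _ hy₃) n₁ n₃' q3.symm)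
      (H.hg.dbl_mem hy₂ ((D i₄).smul_mem _ hy₄) n₂ n₄' q4.symm)
  have hs : Q (y₁ + y₂ + y₃ + y₄) = 0 := by
    rw [Q_add, Q_add, Q_add, p_add, p_add, p_add, o12, o13, o14, o23, o24, o34]
    linear_combination f1 + f2
  have hxs : polar Q x (y₁ + y₂ + y₃ + y₄) = 0 := by
    rw [p_add', p_add', p_add', ← e1, ← e2, ← e3, ← e4]
    linear_combination f1 + f2
  have hhx : ((refl Q y₁ n₁ * refl Q y₃ n₃) * (refl Q y₂ n₂ * refl Q y₄ n₄)) x =
      x - (y₁ + y₂ + y₃ + y₄) := by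
    have r4 : refl Q y₄ n₄ x = x - y₄ := refl_step n₄ (by rw [p_comm, e4])
    have r2 : refl Q y₂ n₂ (x - y₄) = x - y₄ - y₂ := refl_step n₂ (by
      rw [p_sub', o24, p_comm, e2, sub_zero])
    have r3 : refl Q y₃ n₃ (x - y₄ - y₂) = x - y₄ - y₂ - y₃ := refl_step n₃ (by
      rw [p_sub', p_sub', o34, p_comm Q y₃ y₂, o23, p_comm, e3, sub_zero, sub_zero])
    have r1 : refl Q y₁ n₁ (x - y₄ - y₂ - y₃) = x - y₄ - y₂ - y₃ - y₁ := refl_step n₁ (by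
      rw [p_sub', p_sub', p_sub', o14, o12, o13, p_comm, e1, sub_zero, sub_zero, sub_zero])
    rw [LinearEquiv.mul_apply, LinearEquiv.mul_apply, LinearEquiv.mul_apply, r4, r2, r3, r1]
    abel
  have hpi : p i₁ (y₁ + y₂ + y₃ + y₄) = y₁ := by
    rw [map_add, map_add, map_add, hh.self i₁ y₁ hy₁, hh.other i₁ i₂ h12 y₂ hy₂,
      hh.other i₁ i₃ h13 y₃ hy₃, hh.other i₁ i₄ h14 y₄ hy₄, add_zero, add_zero, add_zero]
  have hpo : ∀ a, a ≠ i₁ → a ≠ i₂ → a ≠ i₃ → a ≠ i₄ → p a (y₁ + y₂ + y₃ + y₄) = 0 := by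
    intro a h1 h2 h3 h4
    rw [map_add, map_add, map_add, hh.other a i₁ h1 y₁ hy₁, hh.other a i₂ h2 y₂ hy₂,
      hh.other a i₃ h3 y₃ hy₃, hh.other a i₄ h4 y₄ hy₄, add_zero, add_zero, add_zero]
  exact H.finish hx hR hs hxs hM hhx (i := i₁) (by rw [hpi]; exact n₁) (hpo l l1 l2 l3 l4) hl
    (hpo m m1 m2 m3 m4) hlm

/-- full support -/
theorem full_supp (H : HP Q D p M) {x : V} (hx : Q x ≠ 0)
    (hR : ∀ m ∈ M, ∀ h0 : Q (m x) ≠ 0, refl Q x hx * refl Q (m x) h0 ∈ M)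
    (hall : ∀ i, Q (p i x) ≠ 0) : ⁅O Q, O Q⁆ ≤ M := by
  have hh := H.hg.h
  have hne : ∀ i, p i x ≠ 0 := fun i h0 => hall i (by rw [h0, QuadraticMap.map_zero])
  obtain ⟨i₁, -⟩ := H.free ∅ (by simp)
  obtain ⟨i₂, h2⟩ := H.free {i₁} (by simp)
  obtain ⟨i₃, h3⟩ := H.free {i₁, i₂} (by
    have := Finset.card_le_two (a := i₁) (b := i₂)
    omega)
  obtain ⟨i₄, h4⟩ := H.free {i₁, i₂, i₃} (by
    have := Finset.card_le_three (a := i₁) (b := i₂) (c := i₃)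
    omega)
  obtain ⟨l, h5⟩ := H.free {i₁, i₂, i₃, i₄} (by
    have := Finset.card_le_four (a := i₁) (b := i₂) (c := i₃) (d := i₄)
    omega)
  obtain ⟨m, h6⟩ := H.free {i₁, i₂, i₃, i₄, l} (by
    have := Finset.card_le_five (a := i₁) (b := i₂) (c := i₃) (d := i₄) (e := l)
    omega)
  simp only [Finset.mem_insert, Finset.mem_singleton, not_or] at h2 h3 h4 h5 h6
  by_cases hsq : ∃ k : F, k * k = -1
  · exact H.two_idx hx hR (i := i₁) (j := i₂) (l := i₃) (Ne.symm h2) (hall _) (hall _) h3.1 h3.2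
      (hne _) (Or.inr hsq)
  push Not at hsq
  obtain ⟨y₁, hy₁, y₂, hy₂, e1, e2, n1, f1⟩ := H.f2 (hh.mem i₁ x) (hh.mem i₂ x) (hall _) (hall _)
  obtain ⟨y₃, hy₃, y₄, hy₄, e3, e4, n3, f2⟩ := H.f2 (hh.mem i₃ x) (hh.mem i₄ x) (hall _) (hall _)
  rw [← hh.pl x hy₁] at e1
  rw [← hh.pl x hy₂] at e2
  rw [← hh.pl x hy₃] at e3
  rw [← hh.pl x hy₄] at e4
  have n4 : Q y₄ ≠ 0 := by intro h0; rw [h0, add_zero] at f2; exact n3 f2
  rcases sq_or_neg hsq (mul_ne_zero n1 n3) with ⟨k, hk⟩ | ⟨k, hk⟩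
  · exact H.four_idx' hx hR (Ne.symm h2) (Ne.symm h3.1) (Ne.symm h4.1) (Ne.symm h3.2)
      (Ne.symm h4.2.1) (Ne.symm h4.2.2) h5.1 h5.2.1 h5.2.2.1 h5.2.2.2 h6.1 h6.2.1 h6.2.2.1 h6.2.2.2.1
      (Ne.symm h6.2.2.2.2) (hne l) hy₁ hy₂ hy₃ hy₄ n1 n3 e1 e2 e3 e4 f1 f2 hk
  · exact H.four_idx' hx hR (Ne.symm h2) (Ne.symm h4.1) (Ne.symm h3.1) (Ne.symm h4.2.1)
      (Ne.symm h3.2) h4.2.2 h5.1 h5.2.1 h5.2.2.2 h5.2.2.1 h6.1 h6.2.1 h6.2.2.2.1 h6.2.2.1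
      (Ne.symm h6.2.2.2.2) (hne l) hy₁ hy₂ hy₄ hy₃ n1 n4 e1 e2 e4 e3 f1 (by rw [add_comm]; exact f2)
      (k := k) (by rw [hk]; linear_combination (- Q y₁) * f2)

variable {u : V} {hu : Q u ≠ 0}

/-- vectors supported on two members -/
theorem supp_two (H : HP Q D p M) (hn : ∀ m ∈ M, refl Q u hu * m * (refl Q u hu)⁻¹ ∈ M) {x : V}
    (hx : Rv Q M hu x) {i j : ι} (hij : i ≠ j) (hi : Q (p i x) ≠ 0) (hj : Q (p j x) ≠ 0)
    (ho : ∀ a, a ≠ i → a ≠ j → p a x = 0) : ⁅O Q, O Q⁆ ≤ M := by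
  have hh := H.hg.h
  obtain ⟨w, hw, hwQ, hxw, e1, e2⟩ := f1 (H.nds i) (H.dim i).ge (H.typ i) (hh.mem i x) hi
  have hli := indep_of hwQ e1 e2
  obtain ⟨k₁, hk₁⟩ := H.free {i, j} (by
    have := Finset.card_le_two (a := i) (b := j)
    omega)
  obtain ⟨k₂, hk₂⟩ := H.free {i, j, k₁} (by
    have := Finset.card_le_three (a := i) (b := j) (c := k₁)
    omega)
  simp only [Finset.mem_insert, Finset.mem_singleton, not_or] at hk₁ hk₂
  obtain ⟨w', hw', hwQ'⟩ := H.hg.rep k₂ _ e1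
  have nw' : Q w' ≠ 0 := by rw [hwQ']; exact e1
  have hdi : p i x - w ∈ D i := (D i).sub_mem (hh.mem i x) hw
  have hg1 := H.hg.dbl_mem hdi hw' e1 nw' hwQ'.symm
  obtain ⟨π, hπ, h1, h2, h3⟩ := H.hg.swap_mem (l := k₁) (m := j) hk₁.2
  have hxe : x = p i x + p j x := by
    apply hh.ext
    intro a
    rw [map_add, hh.pp, hh.pp]
    by_cases hai : a = i
    · subst hai; rw [if_pos rfl, if_neg hij, add_zero]
    · by_cases haj : a = j
      · subst haj; rw [if_neg hai, if_pos rfl, zero_add]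
      · rw [if_neg hai, if_neg haj, ho a hai haj, add_zero]
  have a1 : (refl Q (p i x - w) e1 * refl Q w' nw') x = w + p j x := by
    rw [LinearEquiv.mul_apply]
    have b1 : refl Q w' nw' x = x := by
      rw [refl_apply, hh.pr x hw', ho k₂ hk₂.1 hk₂.2.1, p_zero', mul_zero, zero_smul, sub_zero]
    rw [b1, refl_step e1 (by
      rw [hh.pr x hdi, p_sub, p_self, Q_sub, hwQ, p_comm Q w]; ring)]
    conv_lhs => rw [hxe]
    rw [map_add, hh.pp, hh.pp, if_pos rfl, if_neg hij]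
    abel
  set x' := π ((refl Q (p i x - w) e1 * refl Q w' nw') x) with hx'
  have hx'e : x' = w + π (p j x) := by
    rw [hx', a1, map_add, h1 i (Ne.symm hk₁.1) hij w hw]
  have hx'R : Rv Q M hu x' := by
    rw [hx', ← LinearEquiv.mul_apply]
    exact H.hg.Rv_map hn (M.mul_mem hπ hg1) hx
  have hx0 : Q x ≠ 0 := by
    obtain ⟨h, -, -⟩ := hx
    exact h
  have hπj : π (p j x) ∈ D k₁ := h2 _ (hh.mem j x)
  have hπQ : Q (π (p j x)) = Q (p j x) := H.hg.M_le hπ _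
  have hP : polar Q x x' = polar Q (p i x) w := by
    rw [hx'e, p_add', hh.pl x hw, hh.pl x hπj, ho k₁ hk₁.1 hk₁.2, p_zero, add_zero]
  set c := (Q x)⁻¹ * polar Q x x' with hc
  have hc0 : c ≠ 0 := by rw [hc, hP]; exact mul_ne_zero (inv_ne_zero hx0) hxw
  have hx'' : refl Q x hx0 x' = x' - c • x := refl_apply _ _ _ _
  have hRv : Rv Q M hu (x' - c • x) := by
    rw [← hx'']
    exact Rv_refl hx hx'R hx0
  have hpk : p k₁ (x' - c • x) = π (p j x) := by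
    rw [map_sub, map_smul, ho k₁ hk₁.1 hk₁.2, smul_zero, sub_zero, hx'e, map_add,
      hh.other k₁ i hk₁.1 w hw, hh.self k₁ _ hπj, zero_add]
  have hpj : p j (x' - c • x) = (-c) • p j x := by
    rw [map_sub, map_smul, hx'e, map_add, hh.other j i hij.symm w hw,
      hh.other j k₁ (Ne.symm hk₁.2) _ hπj, add_zero, zero_sub, neg_smul]
  have hpi : p i (x' - c • x) = w - c • p i x := by
    rw [map_sub, map_smul, hx'e, map_add, hh.self i w hw, hh.other i k₁ (Ne.symm hk₁.1) _ hπj,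
      add_zero]
  have hpi0 : p i (x' - c • x) ≠ 0 := by
    rw [hpi]
    intro h0
    have h4 : (-c) • p i x + (1 : F) • w = 0 := by rw [← h0]; module
    exact one_ne_zero (LinearIndependent.pair_iff.1 hli _ _ h4).2
  have hx''0 : Q (x' - c • x) ≠ 0 := by
    obtain ⟨h, -, -⟩ := hRv
    exact h
  refine H.two_idx hx''0 (H.hg.Rv_hR hn hRv hx''0) (i := j) (j := k₁) (l := i) (Ne.symm hk₁.2) ?_ ?_
    hij (Ne.symm hk₁.1) hpi0 (Or.inl ⟨k₂, ?_⟩)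
  · rw [hpj, Q_smul]
    exact mul_ne_zero (mul_ne_zero (neg_ne_zero.2 hc0) (neg_ne_zero.2 hc0)) hj
  · rw [hpk, hπQ]; exact hj
  · rw [map_sub, map_smul, ho k₂ hk₂.1 hk₂.2.1, smul_zero, sub_zero, hx'e, map_add,
      hh.other k₂ i hk₂.1 w hw, hh.other k₂ k₁ hk₂.2.2 _ hπj, add_zero]

/-- an isometry sending the vectors of given value of members into members permutes the members -/
lemma pres_of_norm (H : HP Q D p M) {c : F} (hc : c ≠ 0) {g : V ≃ₗ[F] V}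
    (hg : g ∈ O Q) (hall : ∀ i, ∀ v ∈ D i, Q v = c → ∃ j, g v ∈ D j) : Pres D g := by
  have hh := H.hg.h
  have hpos : ∀ i, ∃ x ∈ D i, x ≠ 0 := fun i => ex_ne (by rw [H.dim]; omega)
  refine H.hg.pres_of_all hpos fun i => ?_
  obtain ⟨v, hv, hvc⟩ := H.hg.rep i c hc
  obtain ⟨w, hw, hwv, hvw, e1, e2⟩ := f1 (H.nds i) (H.dim i).ge (H.typ i) hv (by rw [hvc]; exact hc)
  have hli := indep_of hwv e1 e2
  obtain ⟨j, hj⟩ := hall i v hv hvc
  obtain ⟨j', hj'⟩ := hall i w hw (by rw [hwv, hvc])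
  have hjj : j = j' := by
    by_contra hne
    apply hvw
    rw [← polar_map hg]
    exact hh.orth j j' hne _ hj _ hj'
  subst hjj
  have h5 : Submodule.span F (Set.range ![v, w]) = D i := by
    apply Submodule.eq_of_le_of_finrank_eq
    · rw [Submodule.span_le]
      rintro _ ⟨i, rfl⟩
      fin_cases i
      · exact hv
      · exact hw
    · rw [finrank_span_eq_card hli, Fintype.card_fin, H.dim]
  refine ⟨j, fun x hx => ?_⟩
  have h6 : D i ≤ (D j).comap (g : V →ₗ[F] V) := by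
    rw [← h5, Submodule.span_le]
    rintro _ ⟨i, rfl⟩
    fin_cases i
    · exact hj
    · exact hj'
  exact h6 hx

/-- Part A. -/
theorem partA (H : HP Q D p M) {i₀ : ι} (hu' : u ∈ D i₀)
    (hn : ∀ m ∈ M, refl Q u hu * m * (refl Q u hu)⁻¹ ∈ M) {g : V ≃ₗ[F] V} (hg : g ∈ M)
    (hgp : ¬ Pres D g) : ⁅O Q, O Q⁆ ≤ M := by
  have hh := H.hg.h
  have hgO := H.hg.M_le hg
  obtain ⟨i, v, hv, hvc, hvj⟩ : ∃ i, ∃ v ∈ D i, Q v = Q u ∧ ∀ j, g v ∉ D j := by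
    by_contra hcon
    push Not at hcon
    exact hgp (H.pres_of_norm hu hgO hcon)
  obtain ⟨x, hxd⟩ : ∃ x, g v = x := ⟨_, rfl⟩
  have hxR := H.hg.Rv_map hn hg (H.hg.Rv_mem (hu := hu) hu' hv hvc)
  have hx0 : Q (g v) ≠ 0 := by rw [hgO, hvc]; exact hu
  rw [hxd] at hxR hx0 hvj
  have hR := H.hg.Rv_hR hn hxR hx0
  by_cases hsing : ∃ i, p i x ≠ 0 ∧ Q (p i x) = 0
  · obtain ⟨i, h1, h2⟩ := hsing
    exact H.p1 hx0 hR h1 h2
  push Not at hsing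
  obtain ⟨i₁, h1⟩ := hh.exists_ne hx0
  obtain ⟨i₂, h21, h2⟩ := hh.exists_other (hvj i₁)
  by_cases h3 : ∀ a, a ≠ i₁ → a ≠ i₂ → p a x = 0
  · exact H.supp_two hn hxR h21.symm h1 (hsing _ h2) h3
  push Not at h3
  obtain ⟨i₃, h31, h32, h3⟩ := h3
  by_cases h4 : ∃ m, p m x = 0
  · exact H.two_idx hx0 hR h21.symm h1 (hsing _ h2) h31 h32 h3 (Or.inl h4)
  · push Not at h4
    exact H.full_supp hx0 hR fun i => hsing i (h4 i)

end HP

end H95.OIs
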