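import Mathlib
import Cfsg.Agent.Lib.H95.ONd
import Cfsg.Agent.Lib.H95.OBridge

set_option autoImplicit false

namespace H95.ONdB

open Module Cfsg Cfsg.Geo H95.Bridge QuadraticMap H17.OrthAbs H48.QuadSplit H95.OBridge H95.ONd
  H95.OGeo
open scoped Matrix MatrixGroups

/-- the exceptional condition -/
def Cond {F V : Type*} [Field F] [AddCommGroup V] [Module F V] (Q : QuadraticForm F V)
    (T : Submodule F V) : Prop :=
  finrank F T = 2 → (∀ a : F, a ≠ 0 → a * a = 1) → ∀ x ∈ T, Q x = 0 → x = 0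

section

variable {F V : Type*} [Field F] [AddCommGroup V] [Module F V] {Q : QuadraticForm F V}
  [FiniteDimensional F V]

lemma stab_orth {W : Submodule F V} {g : V ≃ₗ[F] V} (hg : g ∈ O Q) (h : ∀ w ∈ W, g w ∈ W) :
    ∀ x ∈ orth Q W, g x ∈ orth Q W := by
  intro x hx w hw
  have h1 : g (g⁻¹ w) = w := g.apply_symm_apply w
  have h2 : g⁻¹ w ∈ W := (mem_iff_of_map W g h _).2 (by rw [h1]; exact hw)
  rw [← h1, polar_map hg]
  exact hx _ h2

lemma stab_orth_iff (hQ : ND Q) {W : Submodule F V} {g : V ≃ₗ[F] V} (hg : g ∈ O Q) :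
    (∀ w ∈ W, g w ∈ W) ↔ ∀ x ∈ orth Q W, g x ∈ orth Q W := by
  refine ⟨stab_orth hg, fun h => ?_⟩
  have := stab_orth hg h
  rwa [orth_orth hQ] at this

lemma le_of_map_le {W T : Submodule F V} {g : V ≃ₗ[F] V} (h : ∀ w ∈ W, g w ∈ T) :
    finrank F W ≤ finrank F T := by
  have h1 : W.map (g : V →ₗ[F] V) ≤ T := by
    rintro _ ⟨x, hx, rfl⟩; exact h x hx
  have h2 := Submodule.finrank_mono h1
  rwa [LinearEquiv.finrank_map_eq g W] at h2

variable [Finite F]

theorem over_all (hQ : ND Q) (hn : 13 ≤ finrank F V) {W : Submodule F V} (hW : ND (Q.restrict W))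
    (hc1 : Cond Q W) (hc2 : Cond Q (orth Q W))
    (hns : 2 * finrank F W = finrank F V → ∀ g ∈ O Q, ¬ ∀ u ∈ W, g u ∈ orth Q W)
    (M : Subgroup (V ≃ₗ[F] V)) (hMO : M ≤ O Q)
    (hM : ∀ x ∈ ⁅O Q, O Q⁆, (∀ w ∈ W, x w ∈ W) → x ∈ M) (hg : ∃ g ∈ M, ¬ ∀ w ∈ W, g w ∈ W) :
    ⁅O Q, O Q⁆ ≤ M := by
  have hd := finrank_orth hQ W
  by_cases hle : finrank F (orth Q W) ≤ finrank F W
  · refine overgroup hQ (by omega) hW (by omega) hc2 ?_ M hMO hM hg
    intro g hg h
    have := le_of_map_le h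
    exact hns (by omega) g hg h
  · refine overgroup hQ (by omega) (nd_orth hQ hW) (by omega) ?_ ?_ M hMO ?_ ?_
    · rw [orth_orth hQ]; exact hc1
    · intro g hg h
      rw [orth_orth hQ] at h
      have := le_of_map_le h
      omega
    · intro x hx h
      exact hM x hx ((stab_orth_iff hQ (H95.OSie.omega_le_O Q hx)).2 h)
    · obtain ⟨g, hgM, hgW⟩ := hg
      exact ⟨g, hgM, fun h => hgW ((stab_orth_iff hQ (hMO hgM)).2 h)⟩

theorem not_all (hQ : ND Q) (hn : 13 ≤ finrank F V) {W : Submodule F V} (hW : ND (Q.restrict W))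
    (hW0 : W ≠ ⊥) (hW1 : W ≠ ⊤) : ∃ g ∈ ⁅O Q, O Q⁆, ¬ ∀ x ∈ W, g x ∈ W := by
  have hd := finrank_orth hQ W
  by_cases hle : finrank F (orth Q W) ≤ finrank F W
  · exact exists_not hQ (by omega) hW (by omega) hW1
  · obtain ⟨g, hg, hgW⟩ := exists_not hQ (by omega) (nd_orth hQ hW) (by omega) (by
      intro h0
      rw [h0, finrank_top] at hd
      exact hW0 ((Submodule.finrank_eq_zero (S := W)).1 (by omega)))
    exact ⟨g, hg, fun h => hgW ((stab_orth_iff hQ (H95.OSie.omega_le_O Q hg)).1 h)⟩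

end

variable {ι : Type} [Fintype ι] [DecidableEq ι] {F : Type*} [Field F] [Finite F]

omit [DecidableEq ι] [Finite F] [Fintype ι] in
lemma nd_on {Q : QuadraticForm F (ι → F)} {W : Submodule F (ι → F)}
    (h : IsNondegenerateOn (QuadraticMap.polar ⇑Q) W) : ND (Q.restrict W) := by
  intro x hx
  by_contra hx0
  obtain ⟨y, hy, hxy⟩ := (h x x.2 (fun h0 => hx0 (Subtype.ext h0))).2
  exact hxy (hx ⟨y, hy⟩)

theorem nd_max {Q : QuadraticForm F (ι → F)} (hQ : ND Q) (hn : 13 ≤ Fintype.card ι)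
    {W : Submodule F (ι → F)} (hW0 : W ≠ ⊥) (hW1 : W ≠ ⊤)
    (hW : IsNondegenerateOn (QuadraticMap.polar ⇑Q) W)
    (hc1 : Cond Q W) (hc2 : Cond Q (orth Q W))
    (hns : 2 * finrank F W = Fintype.card ι → ∀ g ∈ O Q, ¬ ∀ u ∈ W, g u ∈ orth Q W) :
    IsMaximalIn (omegaGL (⇑Q)) (subspaceStabilizer W ⊓ omegaGL (⇑Q)) := by
  have hfr : finrank F (ι → F) = Fintype.card ι := Module.finrank_fintype_fun_eq_card F
  have hmem := mem_omegaGL Q
  have hWn := nd_on hW
  apply isMaximalIn_of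
  · obtain ⟨g, hg, hgp⟩ := not_all hQ (by omega) hWn hW0 hW1
    refine ⟨(toEq _ F).symm g, ?_, ?_⟩
    · rw [hmem, MulEquiv.apply_symm_apply]; exact hg
    · rw [mem_subspaceStabilizer, MulEquiv.apply_symm_apply]
      exact fun hcon => hgp fun x hx => (hcon x).1 hx
  · intro M hHM hMK ⟨g, hg, hgS⟩
    refine le_of_map hmem (over_all hQ (by omega) hWn hc1 hc2 (by rwa [hfr]) _ ?_ ?_ ?_)
    · rintro _ ⟨x, hx, rfl⟩
      exact H95.OSie.omega_le_O Q ((hmem x).1 (hMK hx))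
    · intro x hx hσ
      rw [mem_map_toEq]
      refine hHM ⟨?_, ?_⟩
      · exact mem_subspaceStabilizer_of (by rw [MulEquiv.apply_symm_apply]; exact hσ)
      · exact (hmem _).2 (by rw [MulEquiv.apply_symm_apply]; exact hx)
    · exact ⟨toEq _ F g, ⟨g, hg, rfl⟩, fun hp => hgS (mem_subspaceStabilizer_of hp)⟩

/-- small fields -/
lemma card_le_three {F : Type*} [Field F] [Fintype F] (h : ∀ a : F, a ≠ 0 → a * a = 1) :
    Fintype.card F ≤ 3 := by
  classical
  have h1 : (Finset.univ : Finset F) ⊆ {0, 1, -1} := by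
    intro a _
    by_cases ha : a = 0
    · simp [ha]
    · have h2 := h a ha
      rcases mul_self_eq_one_iff.1 h2 with h3 | h3 <;> simp [h3]
  have h2 := Finset.card_le_card h1
  rw [Finset.card_univ] at h2
  exact h2.trans Finset.card_le_three

omit [Fintype ι] [DecidableEq ι] [Finite F] in
lemma plus_of_sing {Q : QuadraticForm F (ι → F)} {W : Submodule F (ι → F)}
    (hd : finrank F W = 2) {x : ι → F} (hx : x ∈ W) (hx0 : x ≠ 0) (hxQ : Q x = 0) :
    IsPlusTypeOn (⇑Q) W := by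
  refine ⟨Submodule.span F {x}, ?_, ?_, ?_⟩
  · rw [Submodule.span_singleton_le_iff_mem]; exact hx
  · intro w hw
    obtain ⟨a, rfl⟩ := Submodule.mem_span_singleton.1 hw
    rw [Q_smul, hxQ, mul_zero]
  · rw [finrank_span_singleton hx0, hd]

end H95.ONdB
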