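import Mathlib
import Cfsg.Agent.Lib.H95.ONdB

set_option autoImplicit false

/-!
Isometric even-dimensional halves force plus type.
-/

namespace H95.OSwap

open Module QuadraticMap H48.QuadSplit H48.QuadStd H95.OGeo H17.OrthAbs

universe u

variable {F : Type*} [Field F] [Finite F]

omit [Finite F] in
lemma neg_equiv {V V' : Type*} [AddCommGroup V] [Module F V] [AddCommGroup V'] [Module F V']
    {Q : QuadraticForm F V} {Q' : QuadraticForm F V'} (h : Q.Equivalent Q') :
    (-Q).Equivalent (-Q') := by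
  obtain ⟨e⟩ := h
  refine ⟨⟨e.toLinearEquiv, fun x => ?_⟩⟩
  show -(Q' (e x)) = -(Q x)
  rw [e.map_app]

omit [Finite F] in
lemma neg_neg_equiv {V V' : Type*} [AddCommGroup V] [Module F V] [AddCommGroup V'] [Module F V']
    {Q : QuadraticForm F V} {Q' : QuadraticForm F V'} (h : (-Q).Equivalent Q') :
    Q.Equivalent (-Q') := by
  have := neg_equiv h
  rwa [neg_neg] at this

omit [Finite F] in
lemma neg_plus (m : ℕ) : (-qPlus m F).Equivalent (qPlus m F) := by
  have hnd : ND (-qPlus m F) := by
    intro x hx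
    apply nd_qPlus m x
    intro y
    have := hx y
    rw [FunLike.coe_neg, QuadraticMap.polar_neg] at this
    exact neg_eq_zero.1 this
  refine equivalent_of_map hnd rfl
    { toFun := fun v => Sum.elim (fun i => - v (Sum.inl i)) (fun i => v (Sum.inr i))
      map_add' := fun v w => by ext i; rcases i with i | i <;> simp [add_comm]
      map_smul' := fun c v => by ext i; rcases i with i | i <;> simp } (fun v => ?_)
  show qPlus m F (Sum.elim (fun i => - v (Sum.inl i)) (fun i => v (Sum.inr i))) = - qPlus m F v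
  rw [qPlus_apply, qPlus_apply, ← Finset.sum_neg_distrib]
  exact Finset.sum_congr rfl fun i _ => by simp

lemma neg_similar {m : ℕ} {V : Type u} [AddCommGroup V] [Module F V] [FiniteDimensional F V]
    {Q : QuadraticForm F V} (hQ : ND Q) (hd : finrank F V = 2 * m) :
    ∃ s : V ≃ₗ[F] V, ∀ x, Q (s x) = - Q x := by
  have hnd : ND (-Q) := by
    intro x hx
    apply hQ x
    intro y
    have := hx y
    rw [FunLike.coe_neg, QuadraticMap.polar_neg] at this
    exact neg_eq_zero.1 this
  have key : (-Q).Equivalent Q := by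
    rcases classify_even m V Q hQ hd with h1 | ⟨hm, z, hz, h1⟩
    · exact (neg_equiv h1).trans ((neg_plus m).trans h1.symm)
    · rcases classify_even m V (-Q) hnd hd with h2 | ⟨-, z', hz', h2⟩
      · exact h2.trans (((neg_neg_equiv h2).trans (neg_plus m)).symm)
      · exact h2.trans ((qMinus_unique (m - 1) hz hz').trans h1.symm)
  obtain ⟨e⟩ := key
  exact ⟨e.toLinearEquiv, fun x => e.map_app x⟩

lemma plus_of_swap {V : Type u} [AddCommGroup V] [Module F V] [FiniteDimensional F V]
    {Q : QuadraticForm F V} {W : Submodule F V} (hW : ND (Q.restrict W)) {m : ℕ}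
    (hd : finrank F W = 2 * m) {g : V ≃ₗ[F] V} (hg : g ∈ O Q) (h : ∀ u ∈ W, g u ∈ orth Q W) :
    ∃ T : Submodule F V, (∀ x ∈ T, Q x = 0) ∧ finrank F T = finrank F W := by
  obtain ⟨s, hs⟩ := neg_similar hW hd
  let φ : W →ₗ[F] V := W.subtype + (g : V →ₗ[F] V) ∘ₗ W.subtype ∘ₗ (s : W →ₗ[F] W)
  have hφ : ∀ x : W, φ x = (x : V) + g (s x : V) := fun x => rfl
  have hinj : Function.Injective φ := by
    rw [← LinearMap.ker_eq_bot, LinearMap.ker_eq_bot']
    intro x hx
    rw [hφ] at hx
    have h1 : (x : V) = -g (s x : V) := eq_neg_of_add_eq_zero_left hx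
    have h2 : (x : V) ∈ orth Q W := by rw [h1]; exact (orth Q W).neg_mem (h _ (s x).2)
    have h3 : (x : V) ∈ W ⊓ orth Q W := ⟨x.2, h2⟩
    rw [(isCompl_orth hW).inf_eq_bot] at h3
    exact Subtype.ext ((Submodule.mem_bot F).1 h3)
  refine ⟨LinearMap.range φ, ?_, LinearMap.finrank_range_of_inj hinj⟩
  rintro _ ⟨x, rfl⟩
  rw [hφ, Q_add, h _ (s x).2 x x.2, hg]
  have := hs x
  have h1 : Q ((s x : W) : V) = - Q (x : V) := this
  rw [h1]; ring

end H95.OSwap
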