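import Mathlib
import Cfsg.Agent.Lib.H95.UBasic

set_option autoImplicit false

/-!
Skew-hermitian and alternating forms treated together: `h y x = - σ (h x y)` with `σ ∘ σ = 1`
(and `h` alternating if `σ = 1`). Transvections and unipotent elements `Eg`; Gleason's lemma.
-/

namespace H95.Pol

open Module H95.UBasic

variable {F V : Type*} [Field F] [AddCommGroup V] [Module F V] {σ : F →+* F}
variable {h : V →ₗ[F] V →ₛₗ[σ] F}

/-- Non-degenerate skew-hermitian forms, or alternating forms. -/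
structure IsPol (h : V →ₗ[F] V →ₛₗ[σ] F) : Prop where
  inv : ∀ a, σ (σ a) = a
  skew : ∀ x y, h y x = - σ (h x y)
  nd : ∀ v, (∀ w, h v w = 0) → v = 0

lemma _root_.H95.UBasic.IsSkew.isPol (H : IsSkew h) : IsPol h := ⟨H.inv, H.skew, H.nd⟩

lemma IsPol.symm_zero (H : IsPol h) {x y : V} (hxy : h x y = 0) :
    h y x = 0 := by rw [H.skew, hxy, map_zero, neg_zero]

lemma IsPol.self (H : IsPol h) (x : V) : σ (h x x) = - h x x := by
  have := H.skew x x
  rw [eq_neg_iff_add_eq_zero] at this
  rw [eq_neg_iff_add_eq_zero, add_comm]; exact this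

lemma IsPol.inj (H : IsPol h) {a : F} (ha : σ a = 0) : a = 0 := by
  rw [← H.inv a, ha, map_zero]

lemma tr_apply {v : V} {c : F} (hv : h v v = 0) (hc : σ c = c) (x : V) :
    rf h v c x = x + (c * h x v) • v := rf_apply (tr_good hv hc) x

lemma tr_mem (H : IsPol h) {v : V} {c : F} (hv : h v v = 0) (hc : σ c = c) : rf h v c ∈ isom h := by
  intro x y
  rw [tr_apply hv hc, tr_apply hv hc]
  have h2 : h v y = - σ (h y v) := H.skew y v
  simp only [map_add, LinearMap.add_apply, map_smul, LinearMap.smul_apply, map_smulₛₗ,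
      smul_eq_mul, h2, map_mul, hv, hc]
  ring

lemma tr_smul (H : IsPol h) {v : V} {c : F} (hv : h v v = 0) (hc : σ c = c) (μ : F) :
    rf h (μ • v) c = rf h v (c * (μ * σ μ)) := by
  have h1 : h (μ • v) (μ • v) = 0 := by simp [hv]
  have h2 : σ (c * (μ * σ μ)) = c * (μ * σ μ) := by
    rw [map_mul, map_mul, H.inv, hc, mul_comm μ]
  ext x
  rw [tr_apply h1 hc, tr_apply hv h2, smul_smul, map_smulₛₗ, smul_eq_mul]
  congr 2
  ring

lemma tr_mul {v : V} {c d : F} (hv : h v v = 0) (hc : σ c = c) (hd : σ d = d) :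
    rf h v c * rf h v d = rf h v (c + d) := by
  have hcd : σ (c + d) = c + d := by rw [map_add, hc, hd]
  ext x
  rw [LinearEquiv.mul_apply, tr_apply hv hcd, tr_apply hv hc, tr_apply hv hd]
  simp only [map_add, map_smul, LinearMap.add_apply, LinearMap.smul_apply, hv, smul_zero, add_zero]
  module

/-- validity of the parameters of `Eg` -/
def Val (h : V →ₗ[F] V →ₛₗ[σ] F) (u w : V) (c : F) : Prop :=
  h u u = 0 ∧ h u w = 0 ∧ c - σ c = h w w

lemma Eg_apply (H : IsPol h) {u w : V} {c : F} (hv : Val h u w c) (x : V) :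
    Eg h u w c x = x + h x w • u + h x u • w + (c * h x u) • u := by
  obtain ⟨h1, h2, h3⟩ := hv
  rw [Eg, dif_pos ⟨h1, h2, H.symm_zero h2, h3⟩]
  rw [LinearEquiv.mul_apply, LinearEquiv.transvection.apply, LinearEquiv.transvection.apply]
  simp only [LinearMap.flip_apply, map_add, map_smul, h1, mul_zero, add_zero, smul_add, smul_smul,
    smul_eq_mul]
  rw [mul_comm c]; abel

lemma Eg_isom (H : IsPol h) {u w : V} {c : F} (hv : Val h u w c) : Eg h u w c ∈ isom h := by
  intro x y
  rw [Eg_apply H hv, Eg_apply H hv]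
  obtain ⟨h1, h2, h3⟩ := hv
  have e1 : h u y = - σ (h y u) := H.skew y u
  have e2 : h w y = - σ (h y w) := H.skew y w
  simp only [map_add, LinearMap.add_apply, map_smul, LinearMap.smul_apply, map_smulₛₗ,
    smul_eq_mul, map_mul, h1, h2, H.symm_zero h2, e1, e2, ← h3]
  ring

lemma Val.map {u w : V} {c : F} (hv : Val h u w c) {g : V ≃ₗ[F] V} (hg : g ∈ isom h) :
    Val h (g u) (g w) c := by
  obtain ⟨h1, h2, h3⟩ := hv
  exact ⟨by rw [hg]; exact h1, by rw [hg]; exact h2, by rw [hg]; exact h3⟩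

lemma Eg_conj (H : IsPol h) {u w : V} {c : F} (hv : Val h u w c) {g : V ≃ₗ[F] V}
    (hg : g ∈ isom h) : g * Eg h u w c * g⁻¹ = Eg h (g u) (g w) c := by
  ext x
  show g (Eg h u w c (g⁻¹ x)) = _
  have h1 : g (g⁻¹ x) = x := g.apply_symm_apply x
  have h2 : ∀ v, h (g⁻¹ x) v = h x (g v) := by
    intro v
    rw [← hg (g⁻¹ x) v, h1]
  rw [Eg_apply H hv, Eg_apply H (hv.map hg)]
  simp only [map_add, map_smul, h1, h2]

lemma Val.mul (H : IsPol h) {u y z : V} {c d : F} (hy : Val h u y c) (hz : Val h u z d) :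
    Val h u (y + z) (c + d + h z y) := by
  obtain ⟨h1, h2, h3⟩ := hy
  obtain ⟨-, h5, h6⟩ := hz
  refine ⟨h1, by rw [map_add, h2, h5, add_zero], ?_⟩
  have e1 : h y z = - σ (h z y) := H.skew z y
  simp only [map_add, LinearMap.add_apply, e1, ← h3, ← h6]
  ring

lemma Eg_mul (H : IsPol h) {u y z : V} {c d : F} (hy : Val h u y c) (hz : Val h u z d) :
    Eg h u y c * Eg h u z d = Eg h u (y + z) (c + d + h z y) := by
  ext x
  rw [LinearEquiv.mul_apply, Eg_apply H (hy.mul H hz), Eg_apply H hz, Eg_apply H hy]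
  obtain ⟨h1, h2, h3⟩ := hy
  obtain ⟨-, h5, h6⟩ := hz
  simp only [map_add, map_smul, LinearMap.add_apply, LinearMap.smul_apply, smul_eq_mul, h1, h2,
    H.symm_zero h5, mul_zero, add_zero]
  module

lemma Val.neg (H : IsPol h) {u y : V} {c : F} (hy : Val h u y c) :
    Val h u (-y) (h y y - c) := by
  obtain ⟨h1, h2, h3⟩ := hy
  refine ⟨h1, by rw [map_neg, h2, neg_zero], ?_⟩
  rw [map_sub, H.self, map_neg, map_neg, LinearMap.neg_apply, neg_neg]
  linear_combination -h3

lemma Eg_inv (H : IsPol h) {u y : V} {c : F} (hy : Val h u y c) :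
    (Eg h u y c)⁻¹ = Eg h u (-y) (h y y - c) := by
  rw [inv_eq_iff_mul_eq_one, Eg_mul H hy (hy.neg H)]
  have h0 : c + (h y y - c) + h (-y) y = 0 := by
    rw [map_neg, LinearMap.neg_apply]; ring
  rw [add_neg_cancel, h0]
  ext x
  rw [Eg_apply H ⟨hy.1, by simp, by simp⟩]
  simp

lemma Eg_zero (H : IsPol h) {u : V} {c : F} (hu : h u u = 0) (hc : σ c = c) :
    Eg h u 0 c = rf h u c := by
  ext x
  rw [Eg_apply H ⟨hu, by simp, by simp [hc]⟩, tr_apply hu hc]
  simp

lemma Eg_swap (H : IsPol h) {u z : V} (hu : h u u = 0) (hz : h z z = 0) (huz : h u z = 0) (a : F) :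
    Eg h u (a • z) 0 = Eg h z (σ a • u) 0 := by
  have v1 : Val h u (a • z) 0 := ⟨hu, by simp [huz], by simp [hz]⟩
  have v2 : Val h z (σ a • u) 0 := ⟨hz, by simp [H.symm_zero huz], by simp [hu]⟩
  ext x
  rw [Eg_apply H v1, Eg_apply H v2]
  simp only [map_smulₛₗ, H.inv, smul_eq_mul, zero_mul, zero_smul, add_zero]
  module

lemma Eg_scale (H : IsPol h) {u y : V} {c : F} (hy : Val h u y c) (μ : F) :
    Eg h (μ • u) y c = Eg h u (σ μ • y) (c * (μ * σ μ)) ∧ Val h (μ • u) y c ∧
      Val h u (σ μ • y) (c * (μ * σ μ)) := by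
  obtain ⟨h1, h2, h3⟩ := hy
  have v1 : Val h (μ • u) y c := ⟨by simp [h1], by simp [h2], h3⟩
  have v2 : Val h u (σ μ • y) (c * (μ * σ μ)) := by
    refine ⟨h1, by simp [h2], ?_⟩
    simp only [map_mul, map_smul, LinearMap.smul_apply, map_smulₛₗ, H.inv, smul_eq_mul, ← h3]
    ring
  refine ⟨?_, v1, v2⟩
  ext x
  rw [Eg_apply H v1, Eg_apply H v2]
  simp only [map_smulₛₗ, H.inv, smul_eq_mul]
  module

/-- Commutator with an element of `M` fixing `u`. -/
lemma comm_stab (H : IsPol h) {M : Subgroup (V ≃ₗ[F] V)} {u y : V} {c : F} (hy : Val h u y c)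
    (hE : Eg h u y c ∈ M) {s : V ≃ₗ[F] V} (hs : s ∈ M) (hsi : s ∈ isom h) (hsu : s u = u) :
    Eg h u (s y - y) (- h y (s y - y)) ∈ M ∧ Val h u (s y - y) (- h y (s y - y)) := by
  have v1 := hy.map hsi
  rw [hsu] at v1
  have h1 := M.mul_mem (M.mul_mem hs hE) (M.inv_mem hs)
  rw [Eg_conj H hy hsi, hsu] at h1
  have h2 := M.mul_mem h1 (M.inv_mem hE)
  rw [Eg_inv H hy, Eg_mul H v1 (hy.neg H)] at h2
  have v2 := v1.mul H (hy.neg H)
  have e1 : s y + -y = s y - y := (sub_eq_add_neg _ _).symm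
  have e2 : c + (h y y - c) + h (-y) (s y) = - h y (s y - y) := by
    rw [map_neg, LinearMap.neg_apply, map_sub]; ring
  rw [e1, e2] at h2 v2
  exact ⟨h2, v2⟩

/-- Dual vectors. -/
lemma exists_dual [FiniteDimensional F V] (H : IsPol h) {ι : Type*} [Fintype ι]
    {x : ι → V} (hli : LinearIndependent F x) (c : ι → F) :
    ∃ u, ∀ i, h u (x i) = c i := by
  classical
  let φ : V →ₗ[F] (ι → F) :=
    { toFun := fun u i => h u (x i)
      map_add' := fun u v => by ext i; simp
      map_smul' := fun a u => by ext i; simp }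
  by_cases hr : LinearMap.range φ = ⊤
  · obtain ⟨u, hu⟩ := LinearMap.range_eq_top.1 hr c
    exact ⟨u, fun i => congrFun hu i⟩
  · exfalso
    obtain ⟨f, hf0, hf⟩ := Submodule.exists_le_ker_of_lt_top _ (lt_top_iff_ne_top.2 hr)
    apply hf0
    have h1 : ∀ c : ι → F, f c = ∑ i, c i * f (Pi.single i 1) := by
      intro c
      conv_lhs => rw [pi_eq_sum_univ' c]
      rw [map_sum]
      refine Finset.sum_congr rfl fun i _ => ?_
      rw [map_smul, smul_eq_mul]
    have h2 : ∑ i, σ (f (Pi.single i 1)) • x i = 0 := by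
      apply H.nd
      intro w
      apply H.symm_zero
      rw [map_sum]
      have h3 : f (φ w) = 0 := LinearMap.mem_ker.1 (hf (LinearMap.mem_range_self φ _))
      rw [h1] at h3
      rw [← h3]
      refine Finset.sum_congr rfl fun i _ => ?_
      rw [map_smulₛₗ, H.inv, smul_eq_mul, mul_comm]
      rfl
    have h4 := Fintype.linearIndependent_iff.1 hli _ h2
    have h5 : ∀ i, f (Pi.single i 1) = 0 := fun i => H.inj (h4 i)
    ext i
    simp [h5]

/-- A linear functional is given by a vector. -/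
lemma exists_rep [FiniteDimensional F V] (H : IsPol h) (f : V →ₗ[F] F) : ∃ w, ∀ x, h x w = f x := by
  let b := finBasis F V
  obtain ⟨u, hu⟩ := exists_dual H b.linearIndependent (fun i => - σ (f (b i)))
  refine ⟨u, fun x => ?_⟩
  have h1 : ∀ i, h (b i) u = f (b i) := by
    intro i
    rw [H.skew, hu, map_neg, H.inv, neg_neg]
  conv_lhs => rw [← b.sum_repr x]
  conv_rhs => rw [← b.sum_repr x]
  rw [map_sum, LinearMap.sum_apply, map_sum]
  exact Finset.sum_congr rfl fun i _ => by rw [map_smul, LinearMap.smul_apply, h1, map_smul]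

/-- Gleason's lemma for two transvections with non-orthogonal centres. -/
theorem gleason [Finite F] [FiniteDimensional F V] (H : IsPol h) {M : Subgroup (V ≃ₗ[F] V)}
    {v w : V} (hv : h v v = 0) (hw : h w w = 0) (hvM : rf h v 1 ∈ M) (hwM : rf h w 1 ∈ M)
    (hvw : h v w ≠ 0) :
    ∃ z ∈ M, z ∈ isom h ∧ (∃ c : F, c ≠ 0 ∧ z v = c • w) ∧
      ∀ u, h u v = 0 → h u w = 0 → z u = u := by
  classical
  have : Fintype F := Fintype.ofFinite F
  have : Finite V := Module.finite_of_finite F
  have : Fintype V := Fintype.ofFinite V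
  obtain ⟨p, hp⟩ := CharP.exists F
  have hpp : Fact p.Prime := ⟨CharP.char_is_prime F p⟩
  have hwv : h w v ≠ 0 := fun h0 => hvw (H.symm_zero h0)
  set E : Submodule F V := Submodule.span F {v, w} with hE
  have hvE : v ∈ E := Submodule.subset_span (by simp)
  have hwE : w ∈ E := Submodule.subset_span (by simp)
  have htE : ∀ x ∈ E, h x x = 0 → ∀ u ∈ E, rf h x 1 u ∈ E := by
    intro x hx hxx u hu
    rw [tr_apply hxx (map_one σ)]
    exact E.add_mem hu (E.smul_mem _ hx)
  set D : Subgroup (V ≃ₗ[F] V) := Subgroup.closure {rf h v 1, rf h w 1} with hD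
  have hxD : rf h v 1 ∈ D := Subgroup.subset_closure (by simp)
  have hyD : rf h w 1 ∈ D := Subgroup.subset_closure (by simp)
  have hDM : D ≤ M := by
    rw [hD, Subgroup.closure_le]
    rintro _ (rfl | rfl)
    · exact hvM
    · exact hwM
  have hDi : D ≤ isom h := by
    rw [hD, Subgroup.closure_le]
    rintro _ (rfl | rfl)
    · exact tr_mem H hv (map_one σ)
    · exact tr_mem H hw (map_one σ)
  have hDfix : ∀ z ∈ D, ∀ u, h u v = 0 → h u w = 0 → z u = u := by
    intro z hz u h1 h2
    have : D ≤ MulAction.stabilizer (V ≃ₗ[F] V) u := by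
      rw [hD, Subgroup.closure_le]
      rintro _ (rfl | rfl)
      · show rf h v 1 u = u
        rw [tr_apply hv (map_one σ), h1]; simp
      · show rf h w 1 u = u
        rw [tr_apply hw (map_one σ), h2]; simp
    exact this hz
  have hDE : ∀ z ∈ D, ∀ u ∈ E, z u ∈ E := by
    intro z hz
    induction hz using Subgroup.closure_induction with
    | mem x hx =>
      rcases hx with rfl | rfl
      · exact htE v hvE hv
      · exact htE w hwE hw
    | one => exact fun u hu => hu
    | mul a b _ _ ha hb => exact fun u hu => ha _ (hb u hu)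
    | inv a _ ha =>
      have hle : E.map (a : V →ₗ[F] V) ≤ E := by
        rintro _ ⟨x, hx, rfl⟩; exact ha x hx
      have heq : E.map (a : V →ₗ[F] V) = E :=
        Submodule.eq_of_le_of_finrank_eq hle (LinearEquiv.finrank_map_eq a E)
      intro u hu
      rw [← heq] at hu
      obtain ⟨x, hx, rfl⟩ := hu
      have : a⁻¹ ((a : V →ₗ[F] V) x) = x := a.symm_apply_apply x
      rw [this]; exact hx
  by_contra hcon
  have hcon' : ∀ z ∈ D, ∀ c : F, c ≠ 0 → z v ≠ c • w := by
    intro z hz c hc h1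
    exact hcon ⟨z, hDM hz, hDi hz, ⟨c, hc, h1⟩, hDfix z hz⟩
  let S : Set V := {u | ∃ z ∈ D, ∃ c : F, c ≠ 0 ∧ u = c • z v}
  have hSE : ∀ u ∈ S, u ∈ E := by
    rintro _ ⟨z, hz, c, -, rfl⟩
    exact E.smul_mem c (hDE z hz v hvE)
  have hv0 : v ≠ 0 := by
    rintro rfl; exact hvw (by simp)
  have hw0 : w ≠ 0 := by
    rintro rfl; exact hvw (by simp)
  have hSne : ∀ u ∈ S, u ≠ 0 := by
    rintro _ ⟨z, hz, c, hc, rfl⟩
    exact smul_ne_zero hc (by simpa using hv0)
  have hSmul : ∀ g ∈ D, ∀ u ∈ S, g u ∈ S := by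
    rintro g hg _ ⟨z, hz, c, hc, rfl⟩
    exact ⟨g * z, D.mul_mem hg hz, c, hc, by rw [map_smul]; rfl⟩
  -- the two maps
  have key : ∀ (v' : V), h v' v' = 0 → v' ≠ 0 → rf h v' 1 ∈ D →
      Nat.card S ≡ Nat.card {u : S // h (u : V) v' = 0} [MOD p] := by
    intro v' hv'' hv' hm
    let f : Function.End S := fun u => ⟨rf h v' 1 u, hSmul _ hm _ u.2⟩
    have hiter : ∀ (k : ℕ) (u : S), ((f ^ k) u : V) = u + (k * (h (u : V) v')) • v' := by
      intro k u
      induction k with
      | zero =>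
        show (u : V) = _
        simp
      | succ k ih =>
        rw [pow_succ']
        show rf h v' 1 ((f ^ k) u : V) = _
        rw [tr_apply hv'' (map_one σ), ih, map_add, LinearMap.add_apply, map_smul,
          LinearMap.smul_apply, hv'', smul_zero, add_zero, add_assoc, ← add_smul]
        congr 2
        push_cast; ring
    have hfp : f ^ p ^ 1 = 1 := by
      funext u
      apply Subtype.ext
      rw [pow_one, hiter p u]
      have : (p : F) = 0 := CharP.cast_eq_zero F p
      rw [this, zero_mul, zero_smul, add_zero]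
      rfl
    have h3 := Equiv.Perm.card_fixedPoints_modEq (p := p) (n := 1) (f := f) hfp
    rw [Nat.card_eq_fintype_card]
    refine h3.trans ?_
    rw [Nat.card_eq_fintype_card]
    have : Fintype.card f.fixedPoints = Fintype.card {u : S // h (u : V) v' = 0} := by
      apply Fintype.card_congr
      apply Equiv.subtypeEquivRight
      intro u
      show f u = u ↔ _
      rw [Subtype.ext_iff]
      show rf h v' 1 (u : V) = u ↔ _
      rw [tr_apply hv'' (map_one σ), add_eq_left, smul_eq_zero]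
      simp [hv']
    rw [this]
  have k1 := key v hv hv0 hxD
  have k2 := key w hw hw0 hyD
  have c1 : Nat.card {u : S // h (u : V) v = 0} = Nat.card Fˣ := by
    symm
    refine Nat.card_congr (Equiv.ofBijective
      (fun c : Fˣ => ⟨⟨(c : F) • v, 1, D.one_mem, c, c.ne_zero, by simp⟩, by
        show h ((c : F) • v) v = 0
        rw [map_smul, LinearMap.smul_apply, hv, smul_zero]⟩) ⟨?_, ?_⟩)
    · intro c d hcd
      have : (c : F) • v = (d : F) • v := congrArg (fun u => ((u.1 : S) : V)) hcd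
      have h3 : ((c : F) - d) • v = 0 := by rw [sub_smul, this, sub_self]
      exact Units.ext (sub_eq_zero.1 ((smul_eq_zero.1 h3).resolve_right hv0))
    · rintro ⟨⟨u, hu⟩, hu0⟩
      have hu0' : h u v = 0 := hu0
      obtain ⟨a, b, hab⟩ := Submodule.mem_span_pair.1 (hSE u hu)
      have hb : b = 0 := by
        rw [← hab, map_add, LinearMap.add_apply, map_smul, LinearMap.smul_apply, map_smul,
          LinearMap.smul_apply, hv, smul_zero, zero_add, smul_eq_mul] at hu0'
        exact (mul_eq_zero.1 hu0').resolve_right hwv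
      rw [hb, zero_smul, add_zero] at hab
      have ha : a ≠ 0 := by
        rintro rfl
        exact hSne u hu (by rw [← hab, zero_smul])
      exact ⟨Units.mk0 a ha, Subtype.ext (Subtype.ext hab)⟩
  have c2 : Nat.card {u : S // h (u : V) w = 0} = 0 := by
    have : IsEmpty {u : S // h (u : V) w = 0} := by
      refine ⟨?_⟩
      rintro ⟨⟨u, hu⟩, hu0⟩
      have hu0' : h u w = 0 := hu0
      obtain ⟨a, b, hab⟩ := Submodule.mem_span_pair.1 (hSE u hu)
      have ha : a = 0 := by
        rw [← hab, map_add, LinearMap.add_apply, map_smul, LinearMap.smul_apply, map_smul,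
          LinearMap.smul_apply, hw, smul_zero, add_zero, smul_eq_mul] at hu0'
        exact (mul_eq_zero.1 hu0').resolve_right hvw
      rw [ha, zero_smul, zero_add] at hab
      obtain ⟨z, hz, c, hc, e⟩ := hu
      have hb : b ≠ 0 := by
        rintro rfl
        exact hSne u ⟨z, hz, c, hc, e⟩ (by rw [← hab, zero_smul])
      refine hcon' z hz (c⁻¹ * b) (mul_ne_zero (inv_ne_zero hc) hb) ?_
      rw [mul_smul, hab, e, smul_smul, inv_mul_cancel₀ hc, one_smul]
    exact Nat.card_of_isEmpty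
  rw [c1] at k1
  rw [c2] at k2
  have k3 : Nat.card Fˣ ≡ 0 [MOD p] := k1.symm.trans k2
  have k4 : p ∣ Nat.card Fˣ := (Nat.modEq_zero_iff_dvd).1 k3
  have k5 : p ∣ Fintype.card F := by
    obtain ⟨n, -, hn⟩ := FiniteField.card F p
    rw [hn]; exact dvd_pow_self p n.ne_zero
  have k6 : Nat.card Fˣ + 1 = Fintype.card F := by
    rw [Nat.card_eq_fintype_card, Fintype.card_units]
    have : 0 < Fintype.card F := Fintype.card_pos
    omega
  have k7 : p ∣ 1 := (Nat.dvd_add_right k4).1 (k6 ▸ k5)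
  exact hpp.out.one_lt.ne' (Nat.dvd_one.1 k7)

end H95.Pol
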