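import Mathlib
import Cfsg.Prelude.Def_GeometricClasses
import Cfsg.Agent.Lib.H94.SubfieldMax
import Cfsg.Agent.Lib.H95.Bridge
import Cfsg.Agent.Lib.H95.RatMain2

set_option autoImplicit false

/-!
Subfield subgroups and rational structures.
-/

namespace H95.RatBridge

open Module Cfsg Cfsg.Geo H95.Bridge H95.UBasic H95.Pol H95.RatGeo H95.RatMain
open scoped Matrix MatrixGroups

variable {ι : Type} [Fintype ι] [DecidableEq ι] {F : Type*} [Field F]

/-- The rational structure attached to `P`. -/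
def jmap (F₀ : Subfield F) (P : GL ι F) : (ι → F₀) →+ (ι → F) where
  toFun u := (P : Matrix ι ι F) *ᵥ (fun i => (u i : F))
  map_zero' := by
    have : (fun i : ι => (((0 : ι → F₀) i : F₀) : F)) = 0 := by ext i; simp
    rw [this, Matrix.mulVec_zero]
  map_add' u v := by
    rw [← Matrix.mulVec_add]
    congr 1

lemma jmap_apply (F₀ : Subfield F) (P : GL ι F) (u : ι → F₀) :
    jmap F₀ P u = (P : Matrix ι ι F) *ᵥ (fun i => (u i : F)) := rfl

lemma jmap_smul (F₀ : Subfield F) (P : GL ι F) (c : F₀) (u : ι → F₀) :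
    jmap F₀ P (c • u) = (c : F) • jmap F₀ P u := by
  rw [jmap_apply, jmap_apply, ← Matrix.mulVec_smul]
  congr 1

lemma inv_jmap (F₀ : Subfield F) (P : GL ι F) (u : ι → F₀) :
    ((P⁻¹ : GL ι F) : Matrix ι ι F) *ᵥ (jmap F₀ P u) = fun i => (u i : F) := by
  rw [jmap_apply, Matrix.mulVec_mulVec, ← Units.val_mul, inv_mul_cancel, Units.val_one,
    Matrix.one_mulVec]

lemma mem_subfield {F₀ : Subfield F} {P g : GL ι F} :
    g ∈ subfieldSubgroup F₀ P ↔
      ∃ l : F, l ≠ 0 ∧ ∀ x : ι → F₀, ∃ y : ι → F₀, toEq ι F g (jmap F₀ P x) = l • jmap F₀ P y := by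
  have hPg : ∀ v : ι → F, (g : Matrix ι ι F) *ᵥ ((P : Matrix ι ι F) *ᵥ v) =
      (P : Matrix ι ι F) *ᵥ (((P⁻¹ * g * P : GL ι F) : Matrix ι ι F) *ᵥ v) := by
    intro v
    rw [Matrix.mulVec_mulVec, Matrix.mulVec_mulVec, ← Units.val_mul, ← Units.val_mul]
    congr 2
    group
  constructor
  · rintro ⟨y, hy, rfl⟩
    obtain ⟨c, g₀, hg₀⟩ := H94.SubfieldMax.mem_std hy
    refine ⟨c, c.ne_zero, fun x => ⟨g₀ *ᵥ x, ?_⟩⟩
    rw [toEq_apply]
    have e1 : (MulAut.conj P).toMonoidHom y = P * y * P⁻¹ := rfl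
    rw [e1, Units.val_mul, ← Matrix.mulVec_mulVec, inv_jmap, Units.val_mul, ← Matrix.mulVec_mulVec,
      hg₀, Matrix.smul_mulVec, Matrix.mulVec_smul, jmap_apply]
    congr 2
    ext i
    simp [Matrix.mulVec, dotProduct]
  · rintro ⟨l, hl, h⟩
    choose y hy using h
    have hA : ((P⁻¹ * g * P : GL ι F) : Matrix ι ι F) =
        l • (Matrix.of fun i k => y (Pi.single k 1) i).map F₀.subtype := by
      apply Matrix.ext_of_mulVec_single
      intro k
      have h1 := hy (Pi.single k 1)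
      rw [toEq_apply, jmap_apply, hPg, jmap_apply, ← Matrix.mulVec_smul] at h1
      have h2 := congrArg (fun v => ((P⁻¹ : GL ι F) : Matrix ι ι F) *ᵥ v) h1
      simp only [Matrix.mulVec_mulVec, ← Units.val_mul] at h2
      rw [← mul_assoc P⁻¹ P, inv_mul_cancel, one_mul, Units.val_one, Matrix.one_mulVec] at h2
      have e : (fun i : ι => (((Pi.single k 1 : ι → F₀) i : F₀) : F)) = Pi.single k 1 := by
        ext i
        by_cases hik : i = k
        · subst hik; simp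
        · simp [Pi.single_eq_of_ne hik]
      rw [e] at h2
      rw [h2]
      ext i
      simp
    have h3 := H94.SubfieldMax.mem_std_of (g := P⁻¹ * g * P) hl hA
    refine ⟨P⁻¹ * g * P, h3, ?_⟩
    show P * (P⁻¹ * g * P) * P⁻¹ = g
    group

variable {σ : F →+* F}

/-- The rational form. -/
def form₀ (F₀ : Subfield F) (P : GL ι F) (h : (ι → F) →ₗ[F] (ι → F) →ₛₗ[σ] F) (σ₀ : F₀ →+* F₀)
    (hσ : ∀ c : F₀, σ c = σ₀ c) (hr : ∀ u v, h (jmap F₀ P u) (jmap F₀ P v) ∈ F₀) :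
    (ι → F₀) →ₗ[F₀] (ι → F₀) →ₛₗ[σ₀] F₀ :=
  LinearMap.mk₂'ₛₗ (RingHom.id F₀) σ₀ (fun u v => ⟨h (jmap F₀ P u) (jmap F₀ P v), hr u v⟩)
    (fun u u' v => by
      apply Subtype.ext
      simp)
    (fun c u v => by
      apply Subtype.ext
      simp [jmap_smul])
    (fun u v v' => by
      apply Subtype.ext
      simp)
    (fun c u v => by
      apply Subtype.ext
      simp [jmap_smul, hσ])

lemma form₀_apply {F₀ : Subfield F} {P : GL ι F} {h : (ι → F) →ₗ[F] (ι → F) →ₛₗ[σ] F}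
    {σ₀ : F₀ →+* F₀} {hσ : ∀ c : F₀, σ c = σ₀ c}
    {hr : ∀ u v, h (jmap F₀ P u) (jmap F₀ P v) ∈ F₀} (u v : ι → F₀) :
    ((form₀ F₀ P h σ₀ hσ hr u v : F₀) : F) = h (jmap F₀ P u) (jmap F₀ P v) := rfl

lemma span_jmap (F₀ : Subfield F) (P : GL ι F) (v : ι → F) :
    v ∈ Submodule.span F (Set.range (jmap F₀ P)) := by
  have h1 : v = ∑ i, (((P⁻¹ : GL ι F) : Matrix ι ι F) *ᵥ v) i • jmap F₀ P (Pi.single i 1) := by
    have h2 : ∀ i, jmap F₀ P (Pi.single i 1) = (P : Matrix ι ι F) *ᵥ Pi.single i 1 := by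
      intro k
      rw [jmap_apply]
      congr 1
      ext i
      by_cases hik : i = k
      · subst hik; simp
      · simp [Pi.single_eq_of_ne hik]
    simp only [h2, ← Matrix.mulVec_smul]
    rw [← Matrix.mulVec_sum]
    have h3 : ∑ i, (((P⁻¹ : GL ι F) : Matrix ι ι F) *ᵥ v) i • (Pi.single i 1 : ι → F) =
        ((P⁻¹ : GL ι F) : Matrix ι ι F) *ᵥ v := by
      ext k
      simp [Finset.sum_apply, Pi.single_apply]
    rw [h3, Matrix.mulVec_mulVec, ← Units.val_mul, mul_inv_cancel, Units.val_one,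
      Matrix.one_mulVec]
  rw [h1]
  exact Submodule.sum_mem _ fun i _ => Submodule.smul_mem _ _ (Submodule.subset_span ⟨_, rfl⟩)

lemma retr_jmap (F₀ : Subfield F) (P : GL ι F) (φ : F →ₗ[F₀] F₀) :
    ∃ Φ : (ι → F) →+ (ι → F₀), ∀ (a : F) (x : ι → F₀), Φ (a • jmap F₀ P x) = φ a • x := by
  refine ⟨{ toFun := fun v i => φ ((((P⁻¹ : GL ι F) : Matrix ι ι F) *ᵥ v) i)
            map_zero' := by ext i; simp
            map_add' := fun u v => by ext i; simp [Matrix.mulVec_add] }, ?_⟩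
  intro a x
  funext i
  show φ ((((P⁻¹ : GL ι F) : Matrix ι ι F) *ᵥ (a • jmap F₀ P x)) i) = _
  rw [Matrix.mulVec_smul, inv_jmap, Pi.smul_apply, Pi.smul_apply, smul_eq_mul, smul_eq_mul]
  have : a * (x i : F) = (x i) • a := by rw [Subfield.smul_def, smul_eq_mul, mul_comm]
  rw [this, map_smul, smul_eq_mul, mul_comm]

lemma jmap_injective (F₀ : Subfield F) (P : GL ι F) {x : ι → F₀} (hx : jmap F₀ P x = 0) :
    x = 0 := by
  have := inv_jmap F₀ P x
  rw [hx, Matrix.mulVec_zero] at this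
  funext i
  have h1 := congrFun this i
  exact Subtype.ext h1.symm

lemma prime_ext [Finite F] {F₀ : Subfield F} {r : ℕ} (hr : r.Prime)
    (hcard : Nat.card F = Nat.card F₀ ^ r) (Y : Subring F)
    (hY : ∀ c : F₀, algebraMap F₀ F c ∈ Y) :
    (∀ a ∈ Y, ∃ c : F₀, algebraMap F₀ F c = a) ∨ (∀ a, a ∈ Y) := by
  have hfin : Module.finrank F₀ F = r := by
    have h1 := Module.natCard_eq_pow_finrank (K := F₀) (V := F)
    have hq : 1 < Nat.card F₀ := Finite.one_lt_card
    rw [hcard] at h1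
    exact (Nat.pow_right_injective hq h1).symm
  have hs : IsSimpleOrder (Subalgebra F₀ F) :=
    Subalgebra.isSimpleOrder_of_finrank_prime _ _ (by rw [hfin]; exact hr)
  let Y' : Subalgebra F₀ F := { Y with algebraMap_mem' := hY }
  rcases hs.eq_bot_or_eq_top Y' with h1 | h1
  · left
    intro a ha
    have h2 : a ∈ Y' := ha
    rw [h1, Algebra.mem_bot] at h2
    exact h2
  · right
    intro a
    have h2 : a ∈ Y' := by rw [h1]; trivial
    exact h2

/-- Construction of the rational structure. -/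
lemma mkRat [Finite F] {F₀ : Subfield F} {P : GL ι F} {h : (ι → F) →ₗ[F] (ι → F) →ₛₗ[σ] F}
    {σ₀ : F₀ →+* F₀} {hσ : ∀ c : F₀, σ c = σ₀ c}
    {hr : ∀ u v, h (jmap F₀ P u) (jmap F₀ P v) ∈ F₀} {r : ℕ} (hrp : r.Prime)
    (hcard : Nat.card F = Nat.card F₀ ^ r) (H : IsPol h) (hι : 9 ≤ Fintype.card ι)
    (hcorr : IsPol (form₀ F₀ P h σ₀ hσ hr) → ∀ (l : Fin 5 → (ι → F₀)) (x : ι → F₀),
      ∃ x', form₀ F₀ P h σ₀ hσ hr x' x' = 0 ∧
        ∀ i, form₀ F₀ P h σ₀ hσ hr x' (l i) = form₀ F₀ P h σ₀ hσ hr x (l i))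
    (hnorm : ∀ c, σ c = c → ∃ a b, c = a * σ a - b * σ b) :
    Rat (form₀ F₀ P h σ₀ hσ hr) h (jmap F₀ P) := by
  have hpol₀ : IsPol (form₀ F₀ P h σ₀ hσ hr) := by
    refine ⟨fun a => Subtype.ext ?_, fun x y => Subtype.ext ?_, fun v hv => ?_⟩
    · rw [← hσ, ← hσ, H.inv]
    · rw [form₀_apply, H.skew, ← form₀_apply (hσ := hσ) (hr := hr), hσ]; simp
    · apply jmap_injective F₀ P
      apply H.nd
      intro w
      induction span_jmap F₀ P w using Submodule.span_induction with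
      | mem x hx =>
        obtain ⟨z, rfl⟩ := hx
        rw [← form₀_apply (hσ := hσ) (hr := hr), hv]; simp
      | zero => simp
      | add x y _ _ hx hy => rw [map_add, hx, hy, add_zero]
      | smul a x _ hx => rw [map_smulₛₗ, hx, smul_zero]
  exact
    { pol := H
      pol₀ := hpol₀
      smul := fun c x => jmap_smul F₀ P c x
      form := fun x y => rfl
      sig := fun c => hσ c
      retr := fun φ => retr_jmap F₀ P φ
      span := fun v => span_jmap F₀ P v
      corr := hcorr hpol₀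
      dim := by rw [Module.finrank_fintype_fun_eq_card]; exact hι
      prime := fun Y hY => prime_ext hrp hcard Y hY
      norm := hnorm }

/-- Rational unipotent elements preserve the rational structure. -/
lemma Eg_rat {K F W V : Type*} [Field K] [Field F] [Algebra K F] [AddCommGroup W] [Module K W]
    [AddCommGroup V] [Module F V] {σ₀ : K →+* K} {σ : F →+* F}
    {h₀ : W →ₗ[K] W →ₛₗ[σ₀] K} {h : V →ₗ[F] V →ₛₗ[σ] F} {j : W →+ V} (R : Rat h₀ h j)
    {u y : W} {c : K} (hv : Val h₀ u y c) :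
    Val h (j u) (j y) (algebraMap K F c) ∧ ∀ x, Eg h (j u) (j y) (algebraMap K F c) (j x) =
      j (x + h₀ x y • u + h₀ x u • y + (c * h₀ x u) • u) := by
  have v1 : Val h (j u) (j y) (algebraMap K F c) := by
    refine ⟨R.form_zero.2 hv.1, R.form_zero.2 hv.2.1, ?_⟩
    rw [R.form, R.sig, ← map_sub, hv.2.2]
  refine ⟨v1, fun x => ?_⟩
  rw [Eg_apply R.pol v1, map_add, map_add, map_add, R.smul, R.smul, R.smul, R.form, R.form, map_mul]

/-- A transvection with non-rational coefficient is not rational. -/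
lemma not_rat {K F W V : Type*} [Field K] [Field F] [Algebra K F] [AddCommGroup W] [Module K W]
    [AddCommGroup V] [Module F V] {σ₀ : K →+* K} {σ : F →+* F}
    {h₀ : W →ₗ[K] W →ₛₗ[σ₀] K} {h : V →ₗ[F] V →ₛₗ[σ] F} {j : W →+ V} [FiniteDimensional K W]
    (R : Rat h₀ h j) {c : F} (hc : σ c = c) (hcK : ∀ k : K, algebraMap K F k ≠ c) :
    ∃ u, h u u = 0 ∧ ¬ ∃ l : F, l ≠ 0 ∧ ∀ x : W, ∃ y : W, rf h u c (j x) = l • j y := by
  obtain ⟨u, hu, -, hu'⟩ := R.perp_iso (k := 0) (by omega) ![]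
  have hu0 : u ≠ 0 := by
    rintro rfl; exact hu' (Submodule.zero_mem _)
  obtain ⟨x, hx, hx'⟩ := R.dual_iso (k := 1) (x := ![u]) (by omega) (by
    rw [linearIndependent_unique_iff]; simpa using hu0) ![1]
  have e1 : h₀ x u = 1 := hx' 0
  refine ⟨j u, R.form_zero.2 hu, ?_⟩
  rintro ⟨l, hl, h1⟩
  obtain ⟨y, hy⟩ := h1 x
  rw [tr_apply (R.form_zero.2 hu) hc, R.form, e1, map_one, mul_one] at hy
  have hli : LinearIndependent K ![u, x] := by
    apply pair_indep hu0
    intro a ha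
    rw [ha, map_smul, LinearMap.smul_apply, hu, smul_zero] at e1
    exact zero_ne_one e1
  have hsum : ∑ i, ![c / l, 1 / l] i • j (![u, x] i) = j y := by
    rw [Fin.sum_univ_two]
    show (c / l) • j u + (1 / l) • j x = j y
    have : (c / l) • j u + (1 / l) • j x = l⁻¹ • (j x + c • j u) := by
      rw [smul_add, smul_smul, div_eq_inv_mul, one_div]; abel
    rw [this, hy, smul_smul, inv_mul_cancel₀ hl, one_smul]
  obtain ⟨a, ha⟩ := R.coeff hli hsum 0
  obtain ⟨b, hb⟩ := R.coeff hli hsum 1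
  have ha' : algebraMap K F a = c / l := ha
  have hb' : algebraMap K F b = 1 / l := hb
  apply hcK (a / b)
  rw [map_div₀, ha', hb']
  field_simp

end H95.RatBridge
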