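import Mathlib
import Cfsg.Agent.Lib.H95.Pol

set_option autoImplicit false

/-!
A rational form `j : W → V` of a space with form: `W` over `K`, `V = F ⊗ W`. Geometry.
-/

namespace H95.RatGeo

open Module H95.UBasic H95.Pol

variable {K F W V : Type*} [Field K] [Field F] [Algebra K F] [AddCommGroup W] [Module K W]
  [AddCommGroup V] [Module F V] {σ₀ : K →+* K} {σ : F →+* F}

/-- Rational structures. -/
structure Rat (h₀ : W →ₗ[K] W →ₛₗ[σ₀] K) (h : V →ₗ[F] V →ₛₗ[σ] F) (j : W →+ V) : Prop where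
  pol : IsPol h
  pol₀ : IsPol h₀
  smul : ∀ (c : K) x, j (c • x) = algebraMap K F c • j x
  form : ∀ x y, h (j x) (j y) = algebraMap K F (h₀ x y)
  sig : ∀ c, σ (algebraMap K F c) = algebraMap K F (σ₀ c)
  retr : ∀ φ : F →ₗ[K] K, ∃ Φ : V →+ W, ∀ (a : F) (x : W), Φ (a • j x) = φ a • x
  span : ∀ v, v ∈ Submodule.span F (Set.range j)
  corr : ∀ (l : Fin 5 → W) (x : W), ∃ x', h₀ x' x' = 0 ∧ ∀ i, h₀ x' (l i) = h₀ x (l i)
  dim : 9 ≤ finrank K W
  prime : ∀ Y : Subring F, (∀ c : K, algebraMap K F c ∈ Y) →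
    (∀ a ∈ Y, ∃ c : K, algebraMap K F c = a) ∨ (∀ a, a ∈ Y)
  norm : ∀ c, σ c = c → ∃ a b, c = a * σ a - b * σ b

variable {h₀ : W →ₗ[K] W →ₛₗ[σ₀] K} {h : V →ₗ[F] V →ₛₗ[σ] F} {j : W →+ V}

lemma exists_phi (K F : Type*) [Field K] [Field F] [Algebra K F] :
    ∃ φ : F →ₗ[K] K, ∀ c, φ (algebraMap K F c) = c := by
  obtain ⟨g, hg⟩ := LinearMap.exists_leftInverse_of_injective (Algebra.linearMap K F) (by
    rw [LinearMap.ker_eq_bot]; exact (algebraMap K F).injective)
  exact ⟨g, fun c => congrArg (fun f : K →ₗ[K] K => f c) hg⟩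

lemma Rat.j_sum (R : Rat h₀ h j) {ι : Type*} (s : Finset ι) (x : ι → W) (c : ι → K) :
    j (∑ i ∈ s, c i • x i) = ∑ i ∈ s, algebraMap K F (c i) • j (x i) := by
  rw [map_sum]
  exact Finset.sum_congr rfl fun i _ => R.smul _ _

lemma Rat.form_retr (R : Rat h₀ h j) {φ : F →ₗ[K] K} {Φ : V →+ W}
    (hΦ : ∀ (a : F) (x : W), Φ (a • j x) = φ a • x) (v : V) (y : W) :
    h₀ (Φ v) y = φ (h v (j y)) := by
  induction R.span v using Submodule.span_induction with
  | mem x hx =>
    obtain ⟨z, rfl⟩ := hx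
    have h1 := hΦ 1 z
    rw [one_smul] at h1
    rw [h1, map_smul, LinearMap.smul_apply, R.form, smul_eq_mul]
    have : algebraMap K F (h₀ z y) = (h₀ z y) • (1 : F) := by rw [Algebra.smul_def, mul_one]
    rw [this, map_smul, smul_eq_mul, mul_comm]
  | zero => simp
  | add x y' _ _ hx hy => rw [map_add, map_add, map_add, LinearMap.add_apply, LinearMap.add_apply,
      hx, hy, map_add]
  | smul a x hx ih =>
    -- need a generalisation: go through the span again
    clear ih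
    induction hx using Submodule.span_induction generalizing a with
    | mem x hx =>
      obtain ⟨z, rfl⟩ := hx
      rw [hΦ, map_smul, LinearMap.smul_apply, map_smul, LinearMap.smul_apply, R.form, smul_eq_mul,
        smul_eq_mul]
      have : a * algebraMap K F (h₀ z y) = (h₀ z y) • a := by rw [Algebra.smul_def, mul_comm]
      rw [this, map_smul, smul_eq_mul, mul_comm]
    | zero => simp
    | add x y' _ _ hx hy => 
      rw [smul_add, map_add, map_add, LinearMap.add_apply, hx, hy, map_add, LinearMap.add_apply,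
        map_add]
    | smul b x _ ih => rw [smul_smul]; exact ih _

/-- Rational independence implies independence. -/
lemma Rat.indep (R : Rat h₀ h j) {ι : Type*} [Fintype ι] {x : ι → W} (hx : LinearIndependent K x) :
    LinearIndependent F (fun i => j (x i)) := by
  rw [Fintype.linearIndependent_iff] at hx ⊢
  intro g hg i
  by_contra hi
  obtain ⟨φ, hφ⟩ : ∃ φ : F →ₗ[K] K, φ (g i) ≠ 0 := by
    obtain ⟨φ, hφ⟩ := exists_phi K F
    refine ⟨φ ∘ₗ LinearMap.mulRight K (g i)⁻¹, ?_⟩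
    have : φ 1 = 1 := by
      have := hφ 1
      rwa [map_one] at this
    simp only [LinearMap.comp_apply, LinearMap.mulRight_apply, mul_inv_cancel₀ hi, this]
    exact one_ne_zero
  obtain ⟨Φ, hΦ⟩ := R.retr φ
  have h1 := congrArg Φ hg
  rw [map_sum, map_zero] at h1
  simp only [hΦ] at h1
  exact hφ (hx _ h1 i)

/-- Coefficients of a rational combination are rational. -/
lemma Rat.coeff (R : Rat h₀ h j) {ι : Type*} [Fintype ι] {x : ι → W} (hx : LinearIndependent K x)
    {g : ι → F} {y : W} (hg : ∑ i, g i • j (x i) = j y) (i : ι) :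
    ∃ c : K, algebraMap K F c = g i := by
  obtain ⟨φ, hφ⟩ := exists_phi K F
  obtain ⟨Φ, hΦ⟩ := R.retr φ
  have h0 : φ 1 = 1 := by
    have := hφ 1
    rwa [map_one] at this
  have h1 := congrArg Φ hg
  rw [map_sum] at h1
  have h2 : Φ (j y) = y := by
    have := hΦ 1 y
    rwa [one_smul, h0, one_smul] at this
  rw [h2] at h1
  simp only [hΦ] at h1
  have h3 := R.j_sum Finset.univ x (fun i => φ (g i))
  rw [h1, ← hg] at h3
  have h4 : ∑ i, (g i - algebraMap K F (φ (g i))) • j (x i) = 0 := by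
    simp only [sub_smul, Finset.sum_sub_distrib]
    rw [← h3, sub_self]
  have h5 := Fintype.linearIndependent_iff.1 (R.indep hx) _ h4 i
  exact ⟨φ (g i), (sub_eq_zero.1 h5).symm⟩

/-- A vector having rational products with all rational vectors is rational. -/
lemma Rat.mem_range (R : Rat h₀ h j) {v : V} (hv : ∀ y, ∃ c : K, algebraMap K F c = h v (j y)) :
    ∃ x, j x = v := by
  obtain ⟨φ, hφ⟩ := exists_phi K F
  obtain ⟨Φ, hΦ⟩ := R.retr φ
  refine ⟨Φ v, ?_⟩
  rw [← sub_eq_zero]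
  apply R.pol.nd
  intro w
  induction R.span w using Submodule.span_induction with
  | mem x hx =>
    obtain ⟨z, rfl⟩ := hx
    obtain ⟨c, hc⟩ := hv z
    rw [map_sub, LinearMap.sub_apply, R.form, R.form_retr hΦ, ← hc, hφ, sub_self]
  | zero => simp
  | add x y _ _ hx hy => rw [map_add, hx, hy, add_zero]
  | smul a x _ hx => rw [map_smulₛₗ, hx, smul_zero]

lemma Rat.inj (R : Rat h₀ h j) {x : W} (hx : j x = 0) : x = 0 := by
  apply R.pol₀.nd
  intro w
  have := R.form x w
  rw [hx, map_zero, LinearMap.zero_apply] at this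
  exact (algebraMap K F).injective (by rw [← this, map_zero])

lemma Rat.form_zero (R : Rat h₀ h j) {x y : W} : h (j x) (j y) = 0 ↔ h₀ x y = 0 := by
  rw [R.form]
  constructor
  · intro h0; exact (algebraMap K F).injective (by rw [h0, map_zero])
  · intro h0; rw [h0, map_zero]

/-! ### Geometry in `W` -/

lemma Rat.corrK (R : Rat h₀ h j) {k : ℕ} (hk : k ≤ 5) (l : Fin k → W) (x : W) :
    ∃ x', h₀ x' x' = 0 ∧ ∀ i, h₀ x' (l i) = h₀ x (l i) := by
  obtain ⟨x', h1, h2⟩ := R.corr (fun i => if hi : (i : ℕ) < k then l ⟨i, hi⟩ else 0) x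
  refine ⟨x', h1, fun i => ?_⟩
  have := h2 ⟨i, lt_of_lt_of_le i.2 hk⟩
  simpa using this

variable [FiniteDimensional K W]

lemma Rat.dual_iso (R : Rat h₀ h j) {k : ℕ} (hk : k ≤ 5) {x : Fin k → W}
    (hx : LinearIndependent K x) (c : Fin k → K) : ∃ y, h₀ y y = 0 ∧ ∀ i, h₀ y (x i) = c i := by
  obtain ⟨u, hu⟩ := exists_dual R.pol₀ hx c
  obtain ⟨u', h1, h2⟩ := R.corrK hk x u
  exact ⟨u', h1, fun i => by rw [h2, hu]⟩

/-- separation by the form -/
lemma Rat.sep (R : Rat h₀ h j) {S : Submodule K W} {y : W} (hy : y ∉ S) :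
    ∃ w, (∀ s ∈ S, h₀ s w = 0) ∧ h₀ y w ≠ 0 := by
  obtain ⟨f, hf, hf'⟩ := Submodule.exists_le_ker_of_notMem hy
  obtain ⟨w, hw⟩ := exists_rep R.pol₀ f
  exact ⟨w, fun s hs => by rw [hw]; exact hf' hs, by rw [hw]; exact hf⟩

lemma Rat.perp_iso (R : Rat h₀ h j) {k : ℕ} (hk : k ≤ 4) (x : Fin k → W) :
    ∃ z, h₀ z z = 0 ∧ (∀ i, h₀ z (x i) = 0) ∧ z ∉ Submodule.span K (Set.range x) := by
  set S := Submodule.span K (Set.range x) with hS
  have hfr : finrank K S ≤ k := by
    have := finrank_range_le_card (R := K) x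
    rw [Fintype.card_fin] at this
    exact this
  have hge := finrank_perpF_ge h₀ ⊤ x
  rw [Fintype.card_fin, finrank_top] at hge
  have hdim := R.dim
  have hne : ¬ perpF h₀ ⊤ x ≤ S := by
    intro hle
    have := Submodule.finrank_mono hle
    omega
  obtain ⟨y, hy, hyS⟩ := SetLike.not_le_iff_exists.1 hne
  obtain ⟨w, hw, hw'⟩ := R.sep hyS
  obtain ⟨z, hz, hz'⟩ := R.corrK (k := k + 1) (by omega) (Fin.cons w x) y
  have hzw : h₀ z w = h₀ y w := by simpa using hz' 0
  have hzx : ∀ i, h₀ z (x i) = h₀ y (x i) := fun i => by simpa using hz' i.succ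
  refine ⟨z, hz, fun i => by rw [hzx, hy.2 i], fun hzS => ?_⟩
  apply hw'
  rw [← hzw, hw z hzS]

/-- isotropic vectors orthogonal to `u` span the orthogonal of `u` -/
lemma Rat.span_iso (R : Rat h₀ h j) (u : W) (S : Submodule K W)
    (hS : ∀ z, h₀ z z = 0 → h₀ z u = 0 → z ∈ S) {y : W} (hy : h₀ y u = 0) : y ∈ S := by
  by_contra hyS
  obtain ⟨w, hw, hw'⟩ := R.sep hyS
  obtain ⟨z, hz, hz'⟩ := R.corrK (k := 2) (by omega) ![u, w] y
  have h1 : h₀ z u = h₀ y u := hz' 0
  have h2 : h₀ z w = h₀ y w := hz' 1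
  apply hw'
  rw [← h2]
  exact hw z (hS z hz (by rw [h1, hy]))

lemma Rat.conn (R : Rat h₀ h j) {v w : W} (hv : v ≠ 0) (hw : w ≠ 0) :
    ∃ z, h₀ z z = 0 ∧ h₀ z v ≠ 0 ∧ h₀ z w ≠ 0 := by
  have e1 : ∃ x ∈ (⊤ : Submodule K W), h₀ x v ≠ 0 := by
    by_contra hcon; push Not at hcon
    exact hv (R.pol₀.nd v fun x => R.pol₀.symm_zero (hcon x trivial))
  have e2 : ∃ x ∈ (⊤ : Submodule K W), h₀ x w ≠ 0 := by
    by_contra hcon; push Not at hcon
    exact hw (R.pol₀.nd w fun x => R.pol₀.symm_zero (hcon x trivial))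
  obtain ⟨z, -, hz1, hz2⟩ : ∃ z ∈ (⊤ : Submodule K W), h₀ z v ≠ 0 ∧ h₀ z w ≠ 0 := by
    obtain ⟨a, ha, ha'⟩ := e1
    obtain ⟨b, hb, hb'⟩ := e2
    by_cases h1 : h₀ a w = 0
    · by_cases h2 : h₀ b v = 0
      · exact ⟨a + b, trivial, by simpa [h2] using ha', by simpa [h1] using hb'⟩
      · exact ⟨b, hb, h2, hb'⟩
    · exact ⟨a, ha, ha', h1⟩
  obtain ⟨z', hz, hz'⟩ := R.corrK (k := 2) (by omega) ![v, w] z
  have h1 : h₀ z' v = h₀ z v := hz' 0
  have h2 : h₀ z' w = h₀ z w := hz' 1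
  exact ⟨z', hz, by rw [h1]; exact hz1, by rw [h2]; exact hz2⟩

/-! ### small independence lemmas -/

omit [FiniteDimensional K W] in
lemma li_cons2 {z u : W} (hu : u ≠ 0) (hz : z ∉ Submodule.span K (Set.range ![u])) :
    LinearIndependent K ![z, u] := by
  have h1 : LinearIndependent K ![u] := by
    rw [linearIndependent_unique_iff]; simpa using hu
  exact linearIndependent_finCons.2 ⟨h1, hz⟩

omit [FiniteDimensional K W] in
lemma li_cons3 {z u v : W} (h1 : LinearIndependent K ![u, v])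
    (hz : z ∉ Submodule.span K (Set.range ![u, v])) : LinearIndependent K ![z, u, v] :=
  linearIndependent_finCons.2 ⟨h1, hz⟩

omit [FiniteDimensional K W] in
lemma li_swap {u v : W} (h1 : LinearIndependent K ![u, v]) : LinearIndependent K ![v, u] := by
  have := h1.comp ![1, 0] (by decide)
  have e : ![u, v] ∘ ![1, 0] = ![v, u] := by ext i; fin_cases i <;> rfl
  rwa [e] at this

omit [FiniteDimensional K W] in
lemma li3_perm1 {a b c : W} (h1 : LinearIndependent K ![a, b, c]) :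
    LinearIndependent K ![c, b, a] := by
  have := h1.comp ![2, 1, 0] (by decide)
  have e : ![a, b, c] ∘ ![2, 1, 0] = ![c, b, a] := by ext i; fin_cases i <;> rfl
  rwa [e] at this

omit [FiniteDimensional K W] in
lemma li3_perm2 {a b c : W} (h1 : LinearIndependent K ![a, b, c]) :
    LinearIndependent K ![b, a, c] := by
  have := h1.comp ![1, 0, 2] (by decide)
  have e : ![a, b, c] ∘ ![1, 0, 2] = ![b, a, c] := by ext i; fin_cases i <;> rfl
  rwa [e] at this

omit [FiniteDimensional K W] in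
lemma li3_01 {a b c : W} (h1 : LinearIndependent K ![a, b, c]) : LinearIndependent K ![a, b] := by
  have := h1.comp ![0, 1] (by decide)
  have e : ![a, b, c] ∘ ![0, 1] = ![a, b] := by ext i; fin_cases i <;> rfl
  rwa [e] at this

omit [FiniteDimensional K W] in
lemma li3_02 {a b c : W} (h1 : LinearIndependent K ![a, b, c]) : LinearIndependent K ![a, c] := by
  have := h1.comp ![0, 2] (by decide)
  have e : ![a, b, c] ∘ ![0, 2] = ![a, c] := by ext i; fin_cases i <;> rfl
  rwa [e] at this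

omit [FiniteDimensional K W] in
lemma li3_12 {a b c : W} (h1 : LinearIndependent K ![a, b, c]) : LinearIndependent K ![b, c] := by
  have := h1.comp ![1, 2] (by decide)
  have e : ![a, b, c] ∘ ![1, 2] = ![b, c] := by ext i; fin_cases i <;> rfl
  rwa [e] at this

omit [FiniteDimensional K W] in
lemma li_ne0 {a b : W} (h1 : LinearIndependent K ![a, b]) : a ≠ 0 := h1.ne_zero 0

omit [FiniteDimensional K W] in
lemma li_ne1 {a b : W} (h1 : LinearIndependent K ![a, b]) : b ≠ 0 := h1.ne_zero 1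

omit [FiniteDimensional K W] in
lemma notMem_mono {z : W} {k l : ℕ} {x : Fin k → W} {y : Fin l → W}
    (hz : z ∉ Submodule.span K (Set.range x)) (hxy : ∀ i, y i ∈ Submodule.span K (Set.range x)) :
    z ∉ Submodule.span K (Set.range y) := fun h1 =>
  hz (Submodule.span_le.2 (by rintro _ ⟨i, rfl⟩; exact hxy i) h1)

end H95.RatGeo
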