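import Mathlib
import Cfsg.Agent.Lib.H95.RatGeoS

set_option autoImplicit false

/-!
Overgroups of the group of rational isometries (subfield groups).
-/

namespace H95.RatMainS

open Module H95.UBasic H95.Pol H95.RatGeoS

variable {K F W V : Type*} [Field K] [Field F] [Algebra K F] [AddCommGroup W] [Module K W]
  [AddCommGroup V] [Module F V] {σ₀ : K →+* K} {σ : F →+* F}
  {h₀ : W →ₗ[K] W →ₛₗ[σ₀] K} {h : V →ₗ[F] V →ₛₗ[σ] F} {j : W →+ V}

/-- independent orthogonal isotropic pairs -/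
structure IP (h₀ : W →ₗ[K] W →ₛₗ[σ₀] K) (u z : W) : Prop where
  uu : h₀ u u = 0
  zz : h₀ z z = 0
  uz : h₀ u z = 0
  li : LinearIndependent K ![u, z]

lemma IP.symm {u z : W} (H : IsPol h₀) (P : IP h₀ u z) : IP h₀ z u :=
  ⟨P.zz, P.uu, H.symm_zero P.uz, li_swap P.li⟩

lemma IP.val (R : Rat h₀ h j) {u z : W} (P : IP h₀ u z) (a : F) : Val h (j u) (a • j z) 0 :=
  ⟨R.form_zero.2 P.uu, by rw [map_smulₛₗ, R.form_zero.2 P.uz, smul_zero], by
    simp [R.form_zero.2 P.zz]⟩

/-- `M` contains all rational unipotent elements. -/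
def HasE (h₀ : W →ₗ[K] W →ₛₗ[σ₀] K) (h : V →ₗ[F] V →ₛₗ[σ] F) (j : W →+ V)
    (M : Subgroup (V ≃ₗ[F] V)) : Prop :=
  ∀ (u y : W) (c : K), Val h₀ u y c → Eg h (j u) (j y) (algebraMap K F c) ∈ M

lemma HasE.tr (R : Rat h₀ h j) {M : Subgroup (V ≃ₗ[F] V)} (hE : HasE h₀ h j M) {u : W} {c : K}
    (hu : h₀ u u = 0) (hc : σ₀ c = c) : rf h (j u) (algebraMap K F c) ∈ M := by
  have := hE u 0 c ⟨hu, by simp, by simp [hc]⟩
  rw [map_zero, Eg_zero R.pol (R.form_zero.2 hu) (by rw [R.sig, hc])] at this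
  exact this

lemma HasE.tr1 (R : Rat h₀ h j) {M : Subgroup (V ≃ₗ[F] V)} (hE : HasE h₀ h j M) {u : W}
    (hu : h₀ u u = 0) : rf h (j u) 1 ∈ M := by
  have := hE.tr R hu (map_one σ₀)
  rwa [map_one] at this

lemma HasE.E0 {M : Subgroup (V ≃ₗ[F] V)} (hE : HasE h₀ h j M) {u y : W}
    (hu : h₀ u u = 0) (huy : h₀ u y = 0) (hy : h₀ y y = 0) : Eg h (j u) (j y) 0 ∈ M := by
  have := hE u y 0 ⟨hu, huy, by simp [hy]⟩
  rwa [map_zero] at this

section

variable [FiniteDimensional K W]

omit [FiniteDimensional K W] in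
/-- Lemma B. -/
lemma moveB (R : Rat h₀ h j) {M : Subgroup (V ≃ₗ[F] V)} (hE : HasE h₀ h j M) {u : W} {y : V} {c : F}
    (hv : Val h (j u) y c) (hM : Eg h (j u) y c ∈ M) {z' z'' : W} (h1 : h₀ z' z' = 0)
    (h2 : h₀ z'' z'' = 0) (h3 : h₀ z' z'' = 0) (h4 : h₀ z' u = 0) (h5 : h₀ z'' u = 0)
    (h6 : h y (j z'') = 0) : Eg h (j u) (h y (j z') • j z'') 0 ∈ M := by
  have vs : Val h (j z') (j z'') 0 :=
    ⟨R.form_zero.2 h1, R.form_zero.2 h3, by simp [R.form_zero.2 h2]⟩
  have hs := hE.E0 (h := h) h1 h3 h2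
  have hsi := Eg_isom R.pol vs
  have hsu : Eg h (j z') (j z'') 0 (j u) = j u := by
    rw [Eg_apply R.pol vs, R.pol.symm_zero (R.form_zero.2 h4), R.pol.symm_zero (R.form_zero.2 h5)]
    simp
  have e1 : Eg h (j z') (j z'') 0 y - y = h y (j z') • j z'' := by
    rw [Eg_apply R.pol vs, h6]; simp
  have h7 := (comm_stab R.pol hv hM hs hsi hsu).1
  rw [e1, map_smulₛₗ, h6, smul_zero, neg_zero] at h7
  exact h7

/-- the set of coefficients of short root elements -/
def YY (h₀ : W →ₗ[K] W →ₛₗ[σ₀] K) (h : V →ₗ[F] V →ₛₗ[σ] F) (j : W →+ V)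
    (M : Subgroup (V ≃ₗ[F] V)) (a : F) : Prop :=
  ∀ u z : W, IP h₀ u z → Eg h (j u) (a • j z) 0 ∈ M

lemma move1 (R : Rat h₀ h j) {M : Subgroup (V ≃ₗ[F] V)} (hE : HasE h₀ h j M) {a : F} {u z z₁ : W}
    (P : IP h₀ u z) (hM : Eg h (j u) (a • j z) 0 ∈ M) (h1 : h₀ z₁ z₁ = 0) (h2 : h₀ u z₁ = 0)
    (h3 : h₀ z z₁ = 0) (hli : LinearIndependent K ![z₁, u, z]) :
    Eg h (j u) (a • j z₁) 0 ∈ M := by
  obtain ⟨z', hz', hz''⟩ := R.dual_iso (k := 3) (by omega) hli ![0, 0, -1]
  have e1 : h₀ z' z₁ = 0 := hz'' 0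
  have e2 : h₀ z' u = 0 := hz'' 1
  have e3 : h₀ z' z = -1 := hz'' 2
  have h4 := moveB R hE (P.val R a) hM hz' h1 e1 e2 (R.pol₀.symm_zero h2) (by
    rw [map_smul, LinearMap.smul_apply, R.form_zero.2 h3, smul_zero])
  have e5 : h₀ z z' = 1 := by rw [R.pol₀.skew, e3, map_neg, map_one, neg_neg]
  have e4 : h (a • j z) (j z') = a := by
    rw [map_smul, LinearMap.smul_apply, R.form, e5, map_one, smul_eq_mul, mul_one]
  rwa [e4] at h4

lemma move2 (R : Rat h₀ h j) {M : Subgroup (V ≃ₗ[F] V)} (hE : HasE h₀ h j M) {a : F} {u z z₂ : W}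
    (P : IP h₀ u z) (hM : Eg h (j u) (a • j z) 0 ∈ M) (P2 : IP h₀ u z₂) :
    Eg h (j u) (a • j z₂) 0 ∈ M := by
  obtain ⟨z₁, hz₁, e1, e2, e3, hl1, hl2⟩ := R.perp3 u z z₂
  have l1 : LinearIndependent K ![z₁, u, z] := li_cons3 P.li hl1
  have l2 : LinearIndependent K ![z₁, u, z₂] := li_cons3 P2.li hl2
  have s1 := move1 R hE P hM hz₁ (R.pol₀.symm_zero e1) (R.pol₀.symm_zero e2) l1
  have P1 : IP h₀ u z₁ := ⟨P.uu, hz₁, R.pol₀.symm_zero e1, li_swap (li3_01 l2)⟩
  exact move1 R hE P1 s1 P2.zz P2.uz e3 (li3_perm1 l2)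

omit [FiniteDimensional K W] in
lemma swapE (R : Rat h₀ h j) {M : Subgroup (V ≃ₗ[F] V)} {a : F} {u z : W}
    (P : IP h₀ u z) : Eg h (j u) (a • j z) 0 ∈ M ↔ Eg h (j z) (σ a • j u) 0 ∈ M := by
  rw [Eg_swap R.pol (R.form_zero.2 P.uu) (R.form_zero.2 P.zz) (R.form_zero.2 P.uz)]

/-- one to all -/
lemma one_all (R : Rat h₀ h j) {M : Subgroup (V ≃ₗ[F] V)} (hE : HasE h₀ h j M) {a : F} {u z : W}
    (P : IP h₀ u z) (hM : Eg h (j u) (a • j z) 0 ∈ M) : YY h₀ h j M a := by
  intro u' z' P'
  obtain ⟨z₁, hz₁, hz₁', hli⟩ := R.perp_iso (k := 2) (by omega) ![u, u']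
  have e1 : h₀ z₁ u = 0 := hz₁' 0
  have e2 : h₀ z₁ u' = 0 := hz₁' 1
  have l1 : LinearIndependent K ![z₁, u] := li_cons2 (li_ne0 P.li) (notMem_mono hli (by
    intro i; fin_cases i; exact Submodule.subset_span ⟨0, rfl⟩))
  have l2 : LinearIndependent K ![z₁, u'] := li_cons2 (li_ne0 P'.li) (notMem_mono hli (by
    intro i; fin_cases i; exact Submodule.subset_span ⟨1, rfl⟩))
  have P1 : IP h₀ u z₁ := ⟨P.uu, hz₁, R.pol₀.symm_zero e1, li_swap l1⟩
  have P2 : IP h₀ z₁ u' := ⟨hz₁, P'.uu, e2, l2⟩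
  have P3 : IP h₀ u' z₁ := P2.symm R.pol₀
  have s1 := move2 R hE P hM P1
  have s2 := (swapE R P1).1 s1
  have s3 := move2 R hE (P1.symm R.pol₀) s2 P2
  have s4 := (swapE R P2).1 s3
  rw [R.pol.inv] at s4
  exact move2 R hE P3 s4 P'

/-- from transvections to short root elements -/
lemma YY_of_tr (R : Rat h₀ h j) {M : Subgroup (V ≃ₗ[F] V)} (hE : HasE h₀ h j M) {c : F} {u : W}
    (hu : h₀ u u = 0) (hu0 : u ≠ 0) (hc : σ c = c) (hM : rf h (j u) c ∈ M) : YY h₀ h j M c := by
  obtain ⟨x, hx, hx', hli⟩ := R.perp_iso (k := 1) (by omega) ![u]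
  have e1 : h₀ x u = 0 := hx' 0
  have l1 : LinearIndependent K ![x, u] := li_cons2 hu0 hli
  obtain ⟨y, hy, hy'⟩ := R.dual_iso (k := 2) (by omega) l1 ![0, 1]
  have e2 : h₀ y x = 0 := hy' 0
  have e3 : h₀ y u = 1 := hy' 1
  have hjuu := R.form_zero.2 hu
  have vy : Val h (j x) (j y) 0 :=
    ⟨R.form_zero.2 hx, R.form_zero.2 (R.pol₀.symm_zero e2), by simp [R.form_zero.2 hy]⟩
  have hEy := hE.E0 (h := h) hx (R.pol₀.symm_zero e2) hy
  have hs : rf h (j u) c (j x) = j x := by
    rw [tr_apply hjuu hc, R.form_zero.2 e1]; simp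
  obtain ⟨h1, h1v⟩ := comm_stab R.pol vy hEy hM (tr_mem R.pol hjuu hc) hs
  have e4 : rf h (j u) c (j y) - j y = c • j u := by
    rw [tr_apply hjuu hc, R.form, e3, map_one, mul_one, add_sub_cancel_left]
  rw [e4] at h1 h1v
  -- now apply Lemma B
  obtain ⟨z'', hz, hz', hli2⟩ := R.perp_iso (k := 2) (by omega) ![x, u]
  have e5 : h₀ z'' x = 0 := hz' 0
  have e6 : h₀ z'' u = 0 := hz' 1
  have l2 : LinearIndependent K ![z'', x, u] := li_cons3 l1 hli2
  obtain ⟨z', hw, hw'⟩ := R.dual_iso (k := 3) (by omega) l2 ![0, 0, -1]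
  have e7 : h₀ z' z'' = 0 := hw' 0
  have e8 : h₀ z' x = 0 := hw' 1
  have e9 : h₀ z' u = -1 := hw' 2
  have e10 : h₀ u z' = 1 := by rw [R.pol₀.skew, e9, map_neg, map_one, neg_neg]
  have h2 := moveB R hE h1v h1 hw hz e7 e8 e5 (by
    rw [map_smul, LinearMap.smul_apply, R.form_zero.2 (R.pol₀.symm_zero e6), smul_zero])
  have e11 : h (c • j u) (j z') = c := by
    rw [map_smul, LinearMap.smul_apply, R.form, e10, map_one, smul_eq_mul, mul_one]
  rw [e11] at h2
  exact one_all R hE ⟨hx, hz, R.pol₀.symm_zero e5, li_swap (li3_01 l2)⟩ h2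

omit [FiniteDimensional K W] in
lemma YY_base (R : Rat h₀ h j) {M : Subgroup (V ≃ₗ[F] V)} (hE : HasE h₀ h j M) (c : K) :
    YY h₀ h j M (algebraMap K F c) := by
  intro u z P
  have := hE.E0 (h := h) (u := u) (y := c • z) P.uu (by simp [P.uz]) (by simp [P.zz])
  rwa [R.smul] at this

omit [FiniteDimensional K W] in
lemma YY_add (R : Rat h₀ h j) {M : Subgroup (V ≃ₗ[F] V)} {a b : F}
    (ha : YY h₀ h j M a) (hb : YY h₀ h j M b) : YY h₀ h j M (a + b) := by
  intro u z P
  have h1 := M.mul_mem (ha u z P) (hb u z P)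
  rw [Eg_mul R.pol (P.val R a) (P.val R b), ← add_smul] at h1
  have : h (b • j z) (a • j z) = 0 := by
    simp [R.form_zero.2 P.zz]
  rwa [this, add_zero, add_zero] at h1

lemma YY_mul (R : Rat h₀ h j) {M : Subgroup (V ≃ₗ[F] V)} {a b : F}
    (ha : YY h₀ h j M a) (hb : YY h₀ h j M b) : YY h₀ h j M (a * b) := by
  intro u z'' P
  obtain ⟨z, hz, hz', hli⟩ := R.perp_iso (k := 2) (by omega) ![u, z'']
  have e1 : h₀ z u = 0 := hz' 0
  have e2 : h₀ z z'' = 0 := hz' 1
  have l1 : LinearIndependent K ![z, u, z''] := li_cons3 P.li hli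
  obtain ⟨z', hw, hw'⟩ := R.dual_iso (k := 3) (by omega) l1 ![-1, 0, 0]
  have e3 : h₀ z' z = -1 := hw' 0
  have e4 : h₀ z' u = 0 := hw' 1
  have e5 : h₀ z' z'' = 0 := hw' 2
  have e6 : h₀ z z' = 1 := by rw [R.pol₀.skew, e3, map_neg, map_one, neg_neg]
  have Pz : IP h₀ u z := ⟨P.uu, hz, R.pol₀.symm_zero e1, li_swap (li3_01 l1)⟩
  have l2 : LinearIndependent K ![z', z''] := by
    rw [LinearIndependent.pair_iff]
    intro s t hst
    have h1 := congrArg (fun x => h₀ x z) hst
    simp only [map_add, map_smul, LinearMap.add_apply, LinearMap.smul_apply, e3,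
      R.pol₀.symm_zero e2, map_zero, LinearMap.zero_apply, smul_eq_mul] at h1
    have hs : s = 0 := by simpa using h1
    rw [hs, zero_smul, zero_add] at hst
    exact ⟨hs, (smul_eq_zero.1 hst).resolve_right (li_ne1 P.li)⟩
  have P' : IP h₀ z' z'' := ⟨hw, P.zz, e5, l2⟩
  have hs := hb z' z'' P'
  have vs := P'.val R b
  have hsu : Eg h (j z') (b • j z'') 0 (j u) = j u := by
    rw [Eg_apply R.pol vs, map_smulₛₗ, R.form_zero.2 P.uz, R.form_zero.2 (R.pol₀.symm_zero e4)]
    simp
  obtain ⟨h1, -⟩ := comm_stab R.pol (Pz.val R a) (ha u z Pz) hs (Eg_isom R.pol vs) hsu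
  have e7 : Eg h (j z') (b • j z'') 0 (a • j z) - a • j z = (a * b) • j z'' := by
    have q1 : h (a • j z) (b • j z'') = 0 := by simp [R.form_zero.2 e2]
    have q2 : h (a • j z) (j z') = a := by
      rw [map_smul, LinearMap.smul_apply, R.form, e6, map_one, smul_eq_mul, mul_one]
    rw [Eg_apply R.pol vs, q1, q2]
    module
  rw [e7] at h1
  have e8 : h (a • j z) ((a * b) • j z'') = 0 := by simp [R.form_zero.2 e2]
  rwa [e8, neg_zero] at h1

/-- The coefficient ring. -/
def YR (R : Rat h₀ h j) (M : Subgroup (V ≃ₗ[F] V)) (hE : HasE h₀ h j M) : Subring F where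
  carrier := {a | YY h₀ h j M a}
  mul_mem' ha hb := YY_mul R ha hb
  one_mem' := by
    have := YY_base R hE 1
    rwa [map_one] at this
  add_mem' ha hb := YY_add R ha hb
  zero_mem' := by
    have := YY_base R hE 0
    rwa [map_zero] at this
  neg_mem' {a} ha := by
    have h1 := YY_base R hE (-1)
    have h2 := YY_mul R h1 ha
    rw [map_neg, map_one, neg_one_mul] at h2
    exact h2

lemma YY_dichotomy (R : Rat h₀ h j) {M : Subgroup (V ≃ₗ[F] V)} (hE : HasE h₀ h j M) :
    (∀ a, YY h₀ h j M a → ∃ c : K, algebraMap K F c = a) ∨ (∀ a, YY h₀ h j M a) := by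
  have := R.prime (YR R M hE) (fun c => YY_base R hE c)
  exact this

/-! ### The case when all coefficients occur -/

/-- All transvections with rational centre. -/
lemma all_tr (R : Rat h₀ h j) {M : Subgroup (V ≃ₗ[F] V)} (hE : HasE h₀ h j M)
    (hall : ∀ a, YY h₀ h j M a) {u : W} (hu : h₀ u u = 0) {c : F} (hc : σ c = c) :
    rf h (j u) c ∈ M := by
  by_cases hu0 : u = 0
  · subst hu0
    have : rf h (j (0 : W)) c = 1 := by
      ext x; rw [tr_apply (by simp) hc]; simp
    rw [this]; exact M.one_mem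
  have hju := R.form_zero.2 hu
  obtain ⟨z, hz, hz', hli⟩ := R.perp_iso (k := 1) (by omega) ![u]
  have e1 : h₀ z u = 0 := hz' 0
  have l1 : LinearIndependent K ![z, u] := li_cons2 hu0 hli
  have P : IP h₀ u z := ⟨hu, hz, R.pol₀.symm_zero e1, li_swap l1⟩
  obtain ⟨z', hw, hw'⟩ := R.dual_iso (k := 2) (by omega) l1 ![-1, 0]
  have e3 : h₀ z' z = -1 := hw' 0
  have e4 : h₀ z' u = 0 := hw' 1
  have e6 : h₀ z z' = 1 := by rw [R.pol₀.skew, e3, map_neg, map_one, neg_neg]
  have l2 : LinearIndependent K ![u, z'] := by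
    rw [LinearIndependent.pair_iff]
    intro s t hst
    have h1 := congrArg (fun x => h₀ x z) hst
    simp only [map_add, map_smul, LinearMap.add_apply, LinearMap.smul_apply, e3,
      P.uz, map_zero, LinearMap.zero_apply, smul_eq_mul] at h1
    have ht : t = 0 := by simpa using h1
    rw [ht, zero_smul, add_zero] at hst
    exact ⟨(smul_eq_zero.1 hst).resolve_right hu0, ht⟩
  have P' : IP h₀ u z' := ⟨hu, hw, R.pol₀.symm_zero e4, l2⟩
  have hjw := R.form_zero.2 hw
  -- norms
  have key : ∀ a : F, rf h (j u) (a * σ a) ∈ M := by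
    intro a
    have hs := hE.tr1 R hw
    have hsu : rf h (j z') 1 (j u) = j u := by
      rw [tr_apply hjw (map_one σ), R.form_zero.2 (R.pol₀.symm_zero e4)]; simp
    obtain ⟨h1, h1v⟩ := comm_stab R.pol (P.val R a) (hall a u z P) hs (tr_mem R.pol hjw (map_one σ))
      hsu
    have e7 : rf h (j z') 1 (a • j z) - a • j z = a • j z' := by
      rw [tr_apply hjw (map_one σ), map_smul, LinearMap.smul_apply, R.form, e6, map_one]
      simp
    rw [e7] at h1 h1v
    have e8 : h (a • j z) (a • j z') = a * σ a := by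
      rw [map_smulₛₗ, map_smul, LinearMap.smul_apply, R.form, e6, map_one]
      simp [mul_comm]
    rw [e8] at h1 h1v
    have h2 := M.mul_mem h1 (M.inv_mem (hall a u z' P'))
    rw [Eg_inv R.pol (P'.val R a), Eg_mul R.pol h1v ((P'.val R a).neg R.pol)] at h2
    have e9 : h (a • j z') (a • j z') = 0 := by simp [hjw]
    have e10 : h (-(a • j z')) (a • j z') = 0 := by rw [map_neg, LinearMap.neg_apply, e9, neg_zero]
    rw [e9, e10, add_neg_cancel, sub_zero, add_zero, add_zero, Eg_zero R.pol hju (by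
      rw [map_neg, map_mul, R.pol.inv, mul_comm])] at h2
    have hn : σ (a * σ a) = a * σ a := by rw [map_mul, R.pol.inv, mul_comm]
    have h3 := M.inv_mem h2
    have e11 : (rf h (j u) (-(a * σ a)))⁻¹ = rf h (j u) (a * σ a) := by
      rw [inv_eq_iff_mul_eq_one, tr_mul hju (by rw [map_neg, hn]) hn, neg_add_cancel, rf_zero]
    rwa [e11] at h3
  obtain ⟨a, b, rfl⟩ := R.norm c hc
  have hn : ∀ a, σ (a * σ a) = a * σ a := fun a => by rw [map_mul, R.pol.inv, mul_comm]
  have h1 := M.mul_mem (key a) (M.inv_mem (key b))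
  have e1 : (rf h (j u) (b * σ b))⁻¹ = rf h (j u) (-(b * σ b)) := by
    rw [inv_eq_iff_mul_eq_one, tr_mul hju (hn b) (by rw [map_neg, hn]), add_neg_cancel, rf_zero]
  rw [e1, tr_mul hju (hn a) (by rw [map_neg, hn]), ← sub_eq_add_neg] at h1
  exact h1

/-- All unipotent elements with rational first vector. -/
lemma all_Eg (R : Rat h₀ h j) {M : Subgroup (V ≃ₗ[F] V)} (hE : HasE h₀ h j M)
    (hall : ∀ a, YY h₀ h j M a) {u : W} (hu : h₀ u u = 0) (hu0 : u ≠ 0) {y : V} {c : F}
    (hv : Val h (j u) y c) : Eg h (j u) y c ∈ M := by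
  have hju := R.form_zero.2 hu
  -- step 1: some c' works
  have hex : ∀ y : V, h y (j u) = 0 → ∀ a : F, ∃ c', Val h (j u) (a • y) c' ∧
      Eg h (j u) (a • y) c' ∈ M := by
    -- the span of the rational vectors orthogonal to u
    have hrat : ∀ y : W, h₀ y u = 0 → ∀ a : F, ∃ c', Val h (j u) (a • j y) c' ∧
        Eg h (j u) (a • j y) c' ∈ M := by
      intro y hy a
      let S : Submodule K W :=
        { carrier := {y | ∀ a : F, ∃ c', Val h (j u) (a • j y) c' ∧ Eg h (j u) (a • j y) c' ∈ M}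
          add_mem' := by
            intro x y hx hy a
            obtain ⟨c1, v1, h1⟩ := hx a
            obtain ⟨c2, v2, h2⟩ := hy a
            rw [map_add, smul_add]
            exact ⟨_, v1.mul R.pol v2, by
              rw [← Eg_mul R.pol v1 v2]; exact M.mul_mem h1 h2⟩
          zero_mem' := by
            intro a
            refine ⟨0, ⟨hju, by simp, by simp⟩, ?_⟩
            rw [map_zero, smul_zero, Eg_zero R.pol hju (map_zero σ), rf_zero]
            exact M.one_mem
          smul_mem' := by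
            intro c x hx a
            rw [R.smul, smul_smul]
            exact hx _ }
      refine R.span_iso u S ?_ hy a
      intro z hz hzu a
      by_cases hli : LinearIndependent K ![u, z]
      · have P : IP h₀ u z := ⟨hu, hz, R.pol₀.symm_zero hzu, hli⟩
        exact ⟨0, P.val R a, hall a u z P⟩
      · -- z is a multiple of u
        have : ∃ l : K, z = l • u := by
          by_contra hcon
          push Not at hcon
          exact hli (pair_indep hu0 hcon)
        obtain ⟨l, rfl⟩ := this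
        have v1 : Val h (j u) (a • j (l • u)) 0 := by
          refine ⟨hju, ?_, ?_⟩
          · rw [R.smul]; simp [hju]
          · rw [R.smul]; simp [hju]
        refine ⟨0, v1, ?_⟩
        have hc : σ (a * algebraMap K F l + σ (a * algebraMap K F l)) =
            a * algebraMap K F l + σ (a * algebraMap K F l) := by
          rw [map_add, R.pol.inv, add_comm]
        have : Eg h (j u) (a • j (l • u)) 0 =
            rf h (j u) (a * algebraMap K F l + σ (a * algebraMap K F l)) := by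
          ext x
          rw [Eg_apply R.pol v1, tr_apply hju hc, R.smul, smul_smul, map_smulₛₗ, smul_eq_mul]
          module
        rw [this]
        exact all_tr R hE hall hu hc
    -- now a general y
    intro y hy a
    obtain ⟨v, hv, hv'⟩ := R.dual_iso (k := 1) (x := ![u]) (by omega) (by
      rw [linearIndependent_unique_iff]; simpa using hu0) ![-1]
    have e1 : h₀ v u = -1 := hv' 0
    -- projection
    have hproj : ∀ y : V, ∀ a : F, ∃ c', Val h (j u) (a • (y + h y (j u) • j v)) c' ∧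
        Eg h (j u) (a • (y + h y (j u) • j v)) c' ∈ M := by
      intro y
      let S : Submodule F V :=
        { carrier := {y | ∀ a : F, ∃ c', Val h (j u) (a • (y + h y (j u) • j v)) c' ∧
            Eg h (j u) (a • (y + h y (j u) • j v)) c' ∈ M}
          add_mem' := by
            intro x y hx hy a
            obtain ⟨c1, v1, h1⟩ := hx a
            obtain ⟨c2, v2, h2⟩ := hy a
            have e : a • (x + y + h (x + y) (j u) • j v) =
              a • (x + h x (j u) • j v) + a • (y + h y (j u) • j v) := by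
                rw [map_add, LinearMap.add_apply]; module
            rw [e]
            exact ⟨_, v1.mul R.pol v2, by
              rw [← Eg_mul R.pol v1 v2]; exact M.mul_mem h1 h2⟩
          zero_mem' := by
            intro a
            refine ⟨0, ⟨hju, by simp, by simp⟩, ?_⟩
            have e : a • ((0 : V) + h 0 (j u) • j v) = 0 := by simp
            rw [e, Eg_zero R.pol hju (map_zero σ), rf_zero]
            exact M.one_mem
          smul_mem' := by
            intro c x hx a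
            have e : a • (c • x + h (c • x) (j u) • j v) = (a * c) • (x + h x (j u) • j v) := by
              rw [map_smul, LinearMap.smul_apply, smul_eq_mul]; module
            rw [e]
            exact hx _ }
      have hle : Submodule.span F (Set.range j) ≤ S := by
        rw [Submodule.span_le]
        rintro _ ⟨w, rfl⟩ a
        have e : j w + h (j w) (j u) • j v = j (w + h₀ w u • v) := by
          rw [map_add, R.smul, R.form]
        rw [e]
        apply hrat
        rw [map_add, LinearMap.add_apply, map_smul, LinearMap.smul_apply, e1]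
        simp
      exact hle (R.span y)
    have := hproj y a
    rwa [hy, zero_smul, add_zero] at this
  obtain ⟨c', v', h'⟩ := hex y (R.pol.symm_zero hv.2.1) 1
  rw [one_smul] at v' h'
  have hcc : σ (c - c') = c - c' := by
    rw [map_sub]
    have e1 := hv.2.2
    have e2 := v'.2.2
    linear_combination e2 - e1
  have vt : Val h (j u) 0 (c - c') := ⟨hju, by simp, by simp [hcc]⟩
  have h3 := M.mul_mem h' (all_tr R hE hall hu hcc)
  rw [← Eg_zero R.pol hju hcc, Eg_mul R.pol v' vt] at h3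
  simpa using h3

/-- All transvections. -/
theorem full (R : Rat h₀ h j) {M : Subgroup (V ≃ₗ[F] V)} (hE : HasE h₀ h j M)
    (hall : ∀ a, YY h₀ h j M a) {x : V} (hx : h x x = 0) {c : F}
    (hc : σ c = c) : rf h x c ∈ M := by
  by_cases hx0 : x = 0
  · subst hx0
    have : rf h (0 : V) c = 1 := by
      ext x; rw [tr_apply (by simp) hc]; simp
    rw [this]; exact M.one_mem
  -- an isotropic rational u not orthogonal to x
  have hu : ∃ u : W, h₀ u u = 0 ∧ h x (j u) ≠ 0 := by
    by_contra hcon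
    push Not at hcon
    apply hx0
    apply R.pol.nd
    let S : Submodule K W :=
      { carrier := {u | h x (j u) = 0}
        add_mem' := by
          intro a b ha hb
          show h x (j (a + b)) = 0
          rw [map_add, map_add, show h x (j a) = 0 from ha, show h x (j b) = 0 from hb, add_zero]
        zero_mem' := by
          show h x (j 0) = 0
          simp
        smul_mem' := by
          intro c a ha
          show h x (j (c • a)) = 0
          rw [R.smul, map_smulₛₗ, show h x (j a) = 0 from ha, smul_zero] }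
    have hS : ∀ y : W, y ∈ S := fun y =>
      R.span_iso 0 S (fun z hz _ => hcon z hz) (map_zero _)
    intro w
    induction R.span w using Submodule.span_induction with
    | mem x hx => obtain ⟨z, rfl⟩ := hx; exact hS z
    | zero => simp
    | add x y _ _ hx hy => rw [map_add, hx, hy, add_zero]
    | smul a x _ hx => rw [map_smulₛₗ, hx, smul_zero]
  obtain ⟨u, hu, hxu⟩ := hu
  have hu0 : u ≠ 0 := by rintro rfl; simp at hxu
  obtain ⟨v, hv, hv'⟩ := R.dual_iso (k := 1) (x := ![u]) (by omega) (by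
    rw [linearIndependent_unique_iff]; simpa using hu0) ![1]
  have e1 : h₀ v u = 1 := hv' 0
  have hju := R.form_zero.2 hu
  have hjv := R.form_zero.2 hv
  -- scale x
  set x₁ := (h x (j u))⁻¹ • x with hx₁
  have hx₁u : h x₁ (j u) = 1 := by
    rw [hx₁, map_smul, LinearMap.smul_apply, smul_eq_mul, inv_mul_cancel₀ hxu]
  have hx₁x : h x₁ x₁ = 0 := by simp [hx₁, hx]
  have hvu : h (j v) (j u) = 1 := by rw [R.form, e1, map_one]
  have huv : h (j u) (j v) = -1 := by rw [R.pol.skew, hvu, map_one]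
  have hux : h (j u) x₁ = -1 := by rw [R.pol.skew, hx₁u, map_one]
  have vE : Val h (j u) (x₁ - j v) (- h (j v) x₁) := by
    refine ⟨hju, by rw [map_sub, huv, hux, sub_self], ?_⟩
    simp only [map_sub, LinearMap.sub_apply, map_neg, hx₁x, hjv]
    rw [R.pol.skew (j v) x₁]; ring
  have hM := all_Eg R hE hall hu hu0 vE
  have hval : Eg h (j u) (x₁ - j v) (- h (j v) x₁) (j v) = x₁ := by
    rw [Eg_apply R.pol vE, map_sub, hjv, hvu, sub_zero, one_smul, mul_one, neg_smul]
    abel
  have h1 : ∀ d : F, σ d = d → rf h x₁ d ∈ M := by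
    intro d hd
    have h2 := M.mul_mem (M.mul_mem hM (all_tr R hE hall hv hd)) (M.inv_mem hM)
    rw [rf_conj _ _ _ (Eg_isom R.pol vE), hval] at h2
    exact h2
  have e2 : x = (h x (j u)) • x₁ := by
    rw [hx₁, smul_smul, mul_inv_cancel₀ hxu, one_smul]
  rw [e2, tr_smul R.pol hx₁x hc]
  apply h1
  rw [map_mul, map_mul, R.pol.inv, hc, mul_comm (σ _)]

end

end H95.RatMainS
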