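import Mathlib
import Cfsg.Agent.Lib.H95.RatMainS

set_option autoImplicit false

/-!
Overgroups of the group of rational isometries (subfield groups), second part: if only rational
coefficients occur then the overgroup consists of rational elements (up to scalars).
-/

namespace H95.RatMainS

open Module H95.UBasic H95.Pol H95.RatGeoS

variable {K F W V : Type*} [Field K] [Field F] [Algebra K F] [AddCommGroup W] [Module K W]
  [AddCommGroup V] [Module F V] {σ₀ : K →+* K} {σ : F →+* F}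
  {h₀ : W →ₗ[K] W →ₛₗ[σ₀] K} {h : V →ₗ[F] V →ₛₗ[σ] F} {j : W →+ V} [FiniteDimensional K W]

/-- Lemma R. -/
lemma rational_E (R : Rat h₀ h j) {M : Subgroup (V ≃ₗ[F] V)} (hE : HasE h₀ h j M)
    (hK : ∀ a, YY h₀ h j M a → ∃ c : K, algebraMap K F c = a) {u : W} (hu : h₀ u u = 0)
    (hu0 : u ≠ 0) {y : V} {c : F} (hv : Val h (j u) y c) (hM : Eg h (j u) y c ∈ M) :
    ∃ (y₀ : W) (a : F), y = j y₀ + a • j u := by
  have hju := R.form_zero.2 hu
  have hyu := R.pol.symm_zero hv.2.1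
  have stepa : ∀ z, IP h₀ u z → ∃ c : K, algebraMap K F c = h y (j z) := by
    intro z P
    have hjz := R.form_zero.2 P.zz
    have hs := hE.tr1 R P.zz
    have hsu : rf h (j z) 1 (j u) = j u := by
      rw [tr_apply hjz (map_one σ), R.form_zero.2 P.uz]; simp
    obtain ⟨h1, h1v⟩ := comm_stab R.pol hv hM hs (tr_mem R.pol hjz (map_one σ)) hsu
    have e7 : rf h (j z) 1 y - y = (h y (j z)) • j z := by
      rw [tr_apply hjz (map_one σ), one_mul, add_sub_cancel_left]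
    rw [e7] at h1 h1v
    obtain ⟨z'', hz, hz', hli2⟩ := R.perp_iso (k := 2) (by omega) ![u, z]
    have e5 : h₀ z'' u = 0 := hz' 0
    have e6 : h₀ z'' z = 0 := hz' 1
    have l2 : LinearIndependent K ![z'', u, z] := li_cons3 P.li hli2
    obtain ⟨z', hw, hw'⟩ := R.dual_iso (k := 3) (by omega) l2 ![0, 0, -1]
    have e7 : h₀ z' z'' = 0 := hw' 0
    have e8 : h₀ z' u = 0 := hw' 1
    have e9 : h₀ z' z = -1 := hw' 2
    have e10 : h₀ z z' = 1 := by rw [R.pol₀.skew, e9, map_neg, map_one, neg_neg]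
    have h2 := moveB R hE h1v h1 hw hz e7 e8 e5 (by
      rw [map_smul, LinearMap.smul_apply, R.form_zero.2 (R.pol₀.symm_zero e6), smul_zero])
    have e11 : h ((h y (j z)) • j z) (j z') = h y (j z) := by
      rw [map_smul, LinearMap.smul_apply, R.form, e10, map_one, smul_eq_mul, mul_one]
    rw [e11] at h2
    exact hK _ (one_all R hE ⟨hu, hz, R.pol₀.symm_zero e5, li_swap (li3_01 l2)⟩ h2)
  let S : Submodule K W :=
    { carrier := {z | ∃ c : K, algebraMap K F c = h y (j z)}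
      add_mem' := by
        rintro a b ⟨c, hc⟩ ⟨d, hd⟩
        exact ⟨c + d, by rw [map_add, map_add, map_add, hc, hd]⟩
      zero_mem' := ⟨0, by simp⟩
      smul_mem' := by
        rintro c a ⟨d, hd⟩
        exact ⟨σ₀ c * d, by rw [R.smul, map_smulₛₗ, map_mul, hd, R.sig, smul_eq_mul]⟩ }
  have stepb : ∀ z, h₀ z u = 0 → z ∈ S := by
    intro z hz
    refine R.span_iso u S ?_ hz
    intro z hz hzu
    by_cases hli : LinearIndependent K ![u, z]
    · exact stepa z ⟨hu, hz, R.pol₀.symm_zero hzu, hli⟩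
    · have : ∃ l : K, z = l • u := by
        by_contra hcon
        push Not at hcon
        exact hli (pair_indep hu0 hcon)
      obtain ⟨l, rfl⟩ := this
      exact ⟨0, by rw [R.smul, map_smulₛₗ, hyu, smul_zero, map_zero]⟩
  obtain ⟨v, hv1, hv'⟩ := R.dual_iso (k := 1) (x := ![u]) (by omega) (by
    rw [linearIndependent_unique_iff]; simpa using hu0) ![-1]
  have e1 : h₀ v u = -1 := hv' 0
  have e2 : h₀ u v = 1 := by rw [R.pol₀.skew, e1, map_neg, map_one, neg_neg]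
  have hrange : ∃ x, j x = y - (h y (j v)) • j u := by
    apply R.mem_range
    intro w
    have e3 : h (y - (h y (j v)) • j u) (j v) = 0 := by
      rw [map_sub, LinearMap.sub_apply, map_smul, LinearMap.smul_apply, R.form, e2, map_one,
        smul_eq_mul, mul_one, sub_self]
    have e4 : h₀ (w + h₀ w u • v) u = 0 := by
      rw [map_add, LinearMap.add_apply, map_smul, LinearMap.smul_apply, e1, smul_eq_mul]; ring
    obtain ⟨c, hc⟩ := stepb _ e4
    refine ⟨c, ?_⟩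
    rw [hc]
    have e5 : h (y - (h y (j v)) • j u) (j w) =
        h (y - (h y (j v)) • j u) (j (w + h₀ w u • v)) := by
      rw [map_add, R.smul, map_add, map_smulₛₗ, e3, smul_zero, add_zero]
    rw [e5, map_sub, LinearMap.sub_apply, map_smul, LinearMap.smul_apply,
      R.form_zero.2 (R.pol₀.symm_zero e4), smul_zero, sub_zero]
  obtain ⟨x, hx⟩ := hrange
  exact ⟨x, h y (j v), by rw [hx]; abel⟩

lemma exists_iso_ne (R : Rat h₀ h j) {x : V} (hx0 : x ≠ 0) : ∃ u : W, h₀ u u = 0 ∧ h x (j u) ≠ 0 := by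
  by_contra hcon
  push Not at hcon
  apply hx0
  apply R.pol.nd
  let S : Submodule K W :=
    { carrier := {u | h x (j u) = 0}
      add_mem' := by
        intro a b ha hb
        show h x (j (a + b)) = 0
        rw [map_add, map_add, show h x (j a) = 0 from ha, show h x (j b) = 0 from hb, add_zero]
      zero_mem' := by
        show h x (j 0) = 0
        simp
      smul_mem' := by
        intro c a ha
        show h x (j (c • a)) = 0
        rw [R.smul, map_smulₛₗ, show h x (j a) = 0 from ha, smul_zero] }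
  have hS : ∀ y : W, y ∈ S := fun y =>
    R.span_iso 0 S (fun z hz _ => hcon z hz) (map_zero _)
  intro w
  induction R.span w using Submodule.span_induction with
  | mem x hx => obtain ⟨z, rfl⟩ := hx; exact hS z
  | zero => simp
  | add x y _ _ hx hy => rw [map_add, hx, hy, add_zero]
  | smul a x _ hx => rw [map_smulₛₗ, hx, smul_zero]

section

variable [Finite F] [FiniteDimensional F V]

/-- Key relation obtained from Gleason's lemma. -/
lemma key_rel (R : Rat h₀ h j) {M : Subgroup (V ≃ₗ[F] V)} (hE : HasE h₀ h j M)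
    (hMi : M ≤ isom h)
    (hK : ∀ a, YY h₀ h j M a → ∃ c : K, algebraMap K F c = a) {v : W} (hv : h₀ v v = 0)
    (hv0 : v ≠ 0) {g : V ≃ₗ[F] V} (hg : g ∈ M) {x : W} (hx : h₀ x x = 0)
    (hγ : h (j x) (g (j v)) ≠ 0) :
    ∃ l : F, l ≠ 0 ∧ ∀ y : W, h₀ y y = 0 → h₀ x y = 0 → ∃ (p : W) (τ : F),
      l • g⁻¹ (j y - (h (j y) (g (j v)) / h (j x) (g (j v))) • j x) = j p + τ • j v := by
  have hgi := hMi hg
  set w := g (j v) with hw
  have hjv := R.form_zero.2 hv
  have hjx := R.form_zero.2 hx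
  have hww : h w w = 0 := by rw [hw, hgi]; exact hjv
  have hwM : rf h w 1 ∈ M := by
    rw [hw, ← rf_conj _ _ _ hgi]
    exact M.mul_mem (M.mul_mem hg (hE.tr1 R hv)) (M.inv_mem hg)
  obtain ⟨z, hz, hzi, ⟨c, hc, hzx⟩, hzf⟩ := gleason R.pol hjx hww (hE.tr1 R hx) hwM hγ
  have hσc : σ c ≠ 0 := fun h0 => hc (R.pol.inj h0)
  refine ⟨σ c, hσc, fun y hy hxy => ?_⟩
  have hjy := R.form_zero.2 hy
  have hjxy := R.form_zero.2 hxy
  have v1 : Val h (j x) (j y) 0 := ⟨hjx, hjxy, by simp [hjy]⟩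
  have h1 := M.mul_mem (M.mul_mem hz (hE.E0 (h := h) hx hxy hy)) (M.inv_mem hz)
  rw [Eg_conj R.pol v1 hzi] at h1
  have v2 := v1.map hzi
  -- Val h (z (j x)) (z (j y)) 0, with z (j x) = c • w
  have vw : Val h w (z (j y)) 0 := by
    refine ⟨hww, ?_, v2.2.2⟩
    have := v2.2.1
    rw [hzx, map_smul, LinearMap.smul_apply, smul_eq_mul] at this
    exact (mul_eq_zero.1 this).resolve_left hc
  obtain ⟨e1, v3, v4⟩ := Eg_scale R.pol vw c
  rw [hzx, e1] at h1
  have h2 := M.mul_mem (M.mul_mem (M.inv_mem hg) h1) (M.inv_mem (M.inv_mem hg))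
  rw [Eg_conj R.pol v4 ((isom h).inv_mem hgi)] at h2
  have v5 := v4.map ((isom h).inv_mem hgi)
  have e2 : g⁻¹ w = j v := g.symm_apply_apply (j v)
  rw [e2] at h2 v5
  obtain ⟨p, τ, hp⟩ := rational_E R hE hK hv hv0 v5 h2
  set β := h (j y) w / h (j x) w with hβ
  have e3 : z (j y - β • j x) = j y - β • j x := by
    apply hzf
    · rw [map_sub, LinearMap.sub_apply, map_smul, LinearMap.smul_apply, hjx,
        R.pol.symm_zero hjxy, smul_zero, sub_zero]
    · rw [map_sub, LinearMap.sub_apply, map_smul, LinearMap.smul_apply, smul_eq_mul, hβ,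
        div_mul_cancel₀ _ hγ, sub_self]
  have e4 : z (j y) = (j y - β • j x) + (β * c) • w := by
    rw [map_sub, map_smul, hzx, sub_eq_iff_eq_add] at e3
    rw [e3, smul_smul]
  rw [e4, map_smul, map_add, map_smul, e2, smul_add, smul_smul] at hp
  refine ⟨p, τ - σ c * (β * c), ?_⟩
  rw [sub_smul, ← add_sub_assoc, ← hp]; abel

/-- Ratios are rational. -/
lemma ratio (R : Rat h₀ h j) {M : Subgroup (V ≃ₗ[F] V)} (hE : HasE h₀ h j M)
    (hMi : M ≤ isom h)
    (hK : ∀ a, YY h₀ h j M a → ∃ c : K, algebraMap K F c = a) {v : W} (hv : h₀ v v = 0)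
    (hv0 : v ≠ 0) {g : V ≃ₗ[F] V} (hg : g ∈ M) {x₀ x₁ y : W} (hx₀ : h₀ x₀ x₀ = 0)
    (hx₁ : h₀ x₁ x₁ = 0) (hy : h₀ y y = 0) (h01 : h₀ x₀ x₁ = 0) (h0y : h₀ x₀ y = 0)
    (h1y : h₀ x₁ y = 0) (hli : LinearIndependent K ![x₀, x₁, y])
    (hγ₀ : h (j x₀) (g (j v)) ≠ 0) (hγ₁ : h (j x₁) (g (j v)) ≠ 0) :
    ∃ k : K, h (j y) (g (j v)) = algebraMap K F k * h (j x₁) (g (j v)) := by
  have hgi := hMi hg
  obtain ⟨l₀, hl₀, k₀⟩ := key_rel R hE hMi hK hv hv0 hg hx₀ hγ₀
  obtain ⟨l₁, hl₁, k₁⟩ := key_rel R hE hMi hK hv hv0 hg hx₁ hγ₁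
  obtain ⟨p₁, τ₁, E1⟩ := k₀ x₁ hx₁ h01
  obtain ⟨p_y, τ_y, E2⟩ := k₀ y hy h0y
  obtain ⟨q, τ, E3⟩ := k₁ y hy h1y
  set w := g (j v) with hw
  set γ₀ := h (j x₀) w with hγ₀d
  set γ₁ := h (j x₁) w with hγ₁d
  set γy := h (j y) w with hγyd
  set A := g⁻¹ (j x₁ - (γ₁ / γ₀) • j x₀) with hA
  set B := g⁻¹ (j y - (γy / γ₀) • j x₀) with hB
  have hC : g⁻¹ (j y - (γy / γ₁) • j x₁) = B - (γy / γ₁) • A := by
    have e0 : γy / γ₀ = γy / γ₁ * (γ₁ / γ₀) := by field_simp
    have e : j y - (γy / γ₁) • j x₁ =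
        (j y - (γy / γ₀) • j x₀) - (γy / γ₁) • (j x₁ - (γ₁ / γ₀) • j x₀) := by
      rw [e0, smul_sub, smul_smul]; abel
    rw [e, map_sub g⁻¹, map_smul g⁻¹]
  rw [hC] at E3
  -- independence
  have hgA : g A = j x₁ - (γ₁ / γ₀) • j x₀ := g.apply_symm_apply _
  have hgB : g B = j y - (γy / γ₀) • j x₀ := g.apply_symm_apply _
  have hli2 : LinearIndependent K ![p_y, p₁, v] := by
    rw [Fintype.linearIndependent_iff]
    intro c hc
    rw [Fin.sum_univ_three] at hc
    have h1 := congrArg j hc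
    simp only [map_add, R.smul, map_zero] at h1
    have h1' : algebraMap K F (c 0) • j p_y + algebraMap K F (c 1) • j p₁ +
      algebraMap K F (c 2) • j v = 0 := h1
    have e1 : j p_y = l₀ • B - τ_y • j v := by rw [E2]; abel
    have e2 : j p₁ = l₀ • A - τ₁ • j v := by rw [E1]; abel
    rw [e1, e2] at h1'
    set κ := algebraMap K F (c 2) - algebraMap K F (c 0) * τ_y - algebraMap K F (c 1) * τ₁ with hκ
    have h2 : (algebraMap K F (c 0) * l₀) • B + (algebraMap K F (c 1) * l₀) • A + κ • j v = 0 := by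
      rw [← h1', hκ]; module
    have h3 := congrArg g h2
    rw [map_add, map_add, map_smul, map_smul, map_smul, hgA, hgB, map_zero, ← hw] at h3
    have h4 := congrArg (h (j x₀)) h3
    have z1 : h (j x₀) (j x₀) = 0 := R.form_zero.2 hx₀
    have z2 : h (j x₀) (j x₁) = 0 := R.form_zero.2 h01
    have z3 : h (j x₀) (j y) = 0 := R.form_zero.2 h0y
    simp only [map_add, map_smulₛₗ, map_sub, z1, z2, z3, map_zero, smul_zero, sub_zero, zero_add] at h4
    have hκ0 : κ = 0 := by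
      have h5 : σ κ * γ₀ = 0 := by simpa using h4
      exact R.pol.inj ((mul_eq_zero.1 h5).resolve_right hγ₀)
    rw [hκ0, zero_smul, add_zero] at h3
    have h6 : ∑ i, ![-((algebraMap K F (c 0) * l₀) * (γy / γ₀) + (algebraMap K F (c 1) * l₀) * (γ₁ / γ₀)),
        algebraMap K F (c 1) * l₀, algebraMap K F (c 0) * l₀] i • j (![x₀, x₁, y] i) = 0 := by
      rw [Fin.sum_univ_three]
      show (-((algebraMap K F (c 0) * l₀) * (γy / γ₀) + (algebraMap K F (c 1) * l₀) * (γ₁ / γ₀))) • j x₀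
        + (algebraMap K F (c 1) * l₀) • j x₁ + (algebraMap K F (c 0) * l₀) • j y = 0
      rw [← h3]; module
    have h7 := Fintype.linearIndependent_iff.1 (R.indep hli) _ h6
    have h71 : algebraMap K F (c 1) * l₀ = 0 := h7 1
    have h72 : algebraMap K F (c 0) * l₀ = 0 := h7 2
    have c1 : c 1 = 0 := (algebraMap K F).injective (by
      rw [map_zero]; exact (mul_eq_zero.1 h71).resolve_right hl₀)
    have c0 : c 0 = 0 := (algebraMap K F).injective (by
      rw [map_zero]; exact (mul_eq_zero.1 h72).resolve_right hl₀)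
    have c2 : c 2 = 0 := by
      have h8 : c 0 • p_y + c 1 • p₁ + c 2 • v = 0 := hc
      rw [c0, c1, zero_smul, zero_smul, zero_add, zero_add] at h8
      exact (smul_eq_zero.1 h8).resolve_right hv0
    intro i; fin_cases i
    · exact c0
    · exact c1
    · exact c2
  -- the rational combination
  have hsum : ∑ i, ![l₁ / l₀, -(l₁ / l₀ * (γy / γ₁)),
      l₁ / l₀ * τ_y - l₁ / l₀ * (γy / γ₁) * τ₁ - τ] i • j (![p_y, p₁, v] i) = j q := by
    rw [Fin.sum_univ_three]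
    show (l₁ / l₀) • j p_y + (-(l₁ / l₀ * (γy / γ₁))) • j p₁ +
      (l₁ / l₀ * τ_y - l₁ / l₀ * (γy / γ₁) * τ₁ - τ) • j v = j q
    have e1 : j p_y = l₀ • B - τ_y • j v := by rw [E2]; abel
    have e2 : j p₁ = l₀ • A - τ₁ • j v := by rw [E1]; abel
    have e3 : j q = l₁ • (B - (γy / γ₁) • A) - τ • j v := by rw [E3]; abel
    have e4 : l₁ / l₀ * l₀ = l₁ := div_mul_cancel₀ _ hl₀
    rw [e1, e2, e3]
    have e5 : (l₁ / l₀) • (l₀ • B - τ_y • j v) = l₁ • B - (l₁ / l₀ * τ_y) • j v := by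
      rw [smul_sub, smul_smul, smul_smul, e4]
    have e6 : (-(l₁ / l₀ * (γy / γ₁))) • (l₀ • A - τ₁ • j v) =
        -((l₁ * (γy / γ₁)) • A) + (l₁ / l₀ * (γy / γ₁) * τ₁) • j v := by
      rw [smul_sub, smul_smul, smul_smul]
      have : -(l₁ / l₀ * (γy / γ₁)) * l₀ = -(l₁ * (γy / γ₁)) := by
        rw [← e4]; field_simp
      rw [this, neg_smul, neg_mul, neg_smul]; abel
    rw [e5, e6]
    module
  obtain ⟨a, ha⟩ := R.coeff hli2 hsum 0
  obtain ⟨b, hb⟩ := R.coeff hli2 hsum 1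
  have ha' : algebraMap K F a = l₁ / l₀ := ha
  have hb' : algebraMap K F b = -(l₁ / l₀ * (γy / γ₁)) := hb
  refine ⟨-(b / a), ?_⟩
  rw [map_neg, map_div₀, ha', hb']
  field_simp

lemma orth_ratio (R : Rat h₀ h j) {M : Subgroup (V ≃ₗ[F] V)} (hE : HasE h₀ h j M)
    (hMi : M ≤ isom h)
    (hK : ∀ a, YY h₀ h j M a → ∃ c : K, algebraMap K F c = a) {v : W} (hv : h₀ v v = 0)
    (hv0 : v ≠ 0) {g : V ≃ₗ[F] V} (hg : g ∈ M) {x₁ y : W} (P : IP h₀ x₁ y)
    (hγ₁ : h (j x₁) (g (j v)) ≠ 0) :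
    ∃ k : K, h (j y) (g (j v)) = algebraMap K F k * h (j x₁) (g (j v)) := by
  obtain ⟨x₀, hz, hz', hli2⟩ := R.perp_iso (k := 2) (by omega) ![x₁, y]
  have e5 : h₀ x₀ x₁ = 0 := hz' 0
  have e6 : h₀ x₀ y = 0 := hz' 1
  have l2 : LinearIndependent K ![x₀, x₁, y] := li_cons3 P.li hli2
  by_cases hγ₀ : h (j x₀) (g (j v)) = 0
  · have l3 : LinearIndependent K ![x₀ + x₁, x₁, y] := by
      apply li_cons3 P.li
      intro hmem
      apply hli2
      have : x₁ ∈ Submodule.span K (Set.range ![x₁, y]) := Submodule.subset_span ⟨0, rfl⟩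
      exact (Submodule.add_mem_iff_left _ this).1 hmem
    refine ratio R hE hMi hK hv hv0 hg (x₀ := x₀ + x₁) (x₁ := x₁) (y := y) ?_ P.uu P.zz ?_ ?_ P.uz
      l3 ?_ hγ₁
    · simp only [map_add, LinearMap.add_apply, hz, e5, P.uu, R.pol₀.symm_zero e5, add_zero]
    · rw [map_add, LinearMap.add_apply, e5, P.uu, add_zero]
    · rw [map_add, LinearMap.add_apply, e6, P.uz, add_zero]
    · rw [map_add, map_add, LinearMap.add_apply, hγ₀, zero_add]; exact hγ₁
  · exact ratio R hE hMi hK hv hv0 hg hz P.uu P.zz e5 e6 P.uz l2 hγ₀ hγ₁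

/-- The image of a rational isotropic vector spans a rational line. -/
lemma rat_line (R : Rat h₀ h j) {M : Subgroup (V ≃ₗ[F] V)} (hE : HasE h₀ h j M)
    (hMi : M ≤ isom h)
    (hK : ∀ a, YY h₀ h j M a → ∃ c : K, algebraMap K F c = a) {v : W} (hv : h₀ v v = 0)
    {g : V ≃ₗ[F] V} (hg : g ∈ M) : ∃ (μ : F) (x : W), g (j v) = μ • j x := by
  by_cases hv0 : v = 0
  · exact ⟨0, 0, by rw [hv0, map_zero, map_zero, zero_smul]⟩
  have hw0 : g (j v) ≠ 0 := by
    intro h0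
    apply hv0
    apply R.inj
    simpa using h0
  obtain ⟨x₁, hx₁, hwx₁⟩ := exists_iso_ne R hw0
  have hγ₁ : h (j x₁) (g (j v)) ≠ 0 := fun h0 => hwx₁ (R.pol.symm_zero h0)
  have hx₁0 : x₁ ≠ 0 := by rintro rfl; simp at hγ₁
  -- a general statement
  have gen : ∀ x : W, h₀ x x = 0 → h (j x) (g (j v)) ≠ 0 → ∀ y, h₀ y x = 0 →
      ∃ k : K, h (j y) (g (j v)) = algebraMap K F k * h (j x) (g (j v)) := by
    intro x hx hγ y hy
    have hx0 : x ≠ 0 := by rintro rfl; simp at hγ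
    let S : Submodule K W :=
      { carrier := {y | ∃ k : K, h (j y) (g (j v)) = algebraMap K F k * h (j x) (g (j v))}
        add_mem' := by
          rintro a b ⟨c, hc⟩ ⟨d, hd⟩
          exact ⟨c + d, by rw [map_add, map_add, LinearMap.add_apply, hc, hd, map_add, add_mul]⟩
        zero_mem' := ⟨0, by simp⟩
        smul_mem' := by
          rintro c a ⟨d, hd⟩
          exact ⟨c * d, by rw [R.smul, map_smul, LinearMap.smul_apply, hd, map_mul, smul_eq_mul,
            mul_assoc]⟩ }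
    refine R.span_iso x S ?_ hy
    intro z hz hzx
    by_cases hli : LinearIndependent K ![x, z]
    · exact orth_ratio R hE hMi hK hv hv0 hg ⟨hx, hz, R.pol₀.symm_zero hzx, hli⟩ hγ
    · have : ∃ l : K, z = l • x := by
        by_contra hcon
        push Not at hcon
        exact hli (pair_indep hx0 hcon)
      obtain ⟨l, rfl⟩ := this
      exact ⟨l, by rw [R.smul, map_smul, LinearMap.smul_apply, smul_eq_mul]⟩
  -- x₂
  obtain ⟨x₂, hx₂, h21, hγ₂, l12⟩ : ∃ x₂ : W, h₀ x₂ x₂ = 0 ∧ h₀ x₂ x₁ = 0 ∧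
      h (j x₂) (g (j v)) ≠ 0 ∧ LinearIndependent K ![x₂, x₁] := by
    obtain ⟨x₀, hz, hz', hli2⟩ := R.perp_iso (k := 1) (by omega) ![x₁]
    have e5 : h₀ x₀ x₁ = 0 := hz' 0
    by_cases hγ₀ : h (j x₀) (g (j v)) = 0
    · refine ⟨x₀ + x₁, ?_, ?_, ?_, ?_⟩
      · simp only [map_add, LinearMap.add_apply, hz, e5, hx₁, R.pol₀.symm_zero e5, add_zero]
      · rw [map_add, LinearMap.add_apply, e5, hx₁, add_zero]
      · rw [map_add, map_add, LinearMap.add_apply, hγ₀, zero_add]; exact hγ₁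
      · apply li_cons2 hx₁0
        intro hmem
        apply hli2
        have : x₁ ∈ Submodule.span K (Set.range ![x₁]) := Submodule.subset_span ⟨0, rfl⟩
        exact (Submodule.add_mem_iff_left _ this).1 hmem
    · exact ⟨x₀, hz, e5, hγ₀, li_cons2 hx₁0 hli2⟩
  obtain ⟨k₂, hk₂⟩ := gen x₁ hx₁ hγ₁ x₂ h21
  obtain ⟨d, -, hd'⟩ := R.dual_iso (k := 2) (by omega) l12 ![0, 1]
  have d2 : h₀ d x₂ = 0 := hd' 0
  have d1 : h₀ d x₁ = 1 := hd' 1
  obtain ⟨kd, hkd⟩ := gen x₂ hx₂ hγ₂ d d2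
  have hall : ∀ y, ∃ k : K, h (j y) (g (j v)) = algebraMap K F k * h (j x₁) (g (j v)) := by
    intro y
    have e1 : h₀ (y - h₀ y x₁ • d) x₁ = 0 := by
      rw [map_sub, LinearMap.sub_apply, map_smul, LinearMap.smul_apply, d1, smul_eq_mul, mul_one,
        sub_self]
    obtain ⟨k, hk⟩ := gen x₁ hx₁ hγ₁ _ e1
    refine ⟨k + h₀ y x₁ * (kd * k₂), ?_⟩
    rw [map_sub, map_sub, LinearMap.sub_apply, R.smul, map_smul, LinearMap.smul_apply, hkd, hk₂,
      sub_eq_iff_eq_add] at hk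
    rw [hk]
    simp only [map_add, map_mul, smul_eq_mul]
    ring
  set γ₁ := h (j x₁) (g (j v)) with hγ₁d
  have hσγ : σ γ₁ ≠ 0 := fun h0 => hγ₁ (R.pol.inj h0)
  obtain ⟨x, hx⟩ : ∃ x, j x = (σ γ₁)⁻¹ • g (j v) := by
    apply R.mem_range
    intro y
    obtain ⟨k, hk⟩ := hall y
    refine ⟨-σ₀ k, ?_⟩
    rw [map_smul, LinearMap.smul_apply, R.pol.skew (j y), hk, map_mul, R.sig, map_neg, smul_eq_mul]
    field_simp
  exact ⟨σ γ₁, x, by rw [hx, smul_smul, mul_inv_cancel₀ hσγ, one_smul]⟩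

end

/-- An isometry mapping rational isotropic vectors to multiples of rational vectors is rational up
to a scalar. -/
lemma semilinear (R : Rat h₀ h j) {g : V ≃ₗ[F] V}
    (hg : ∀ v : W, h₀ v v = 0 → ∃ (μ : F) (x : W), g (j v) = μ • j x) :
    ∃ l : F, l ≠ 0 ∧ ∀ x : W, ∃ y : W, g (j x) = l • j y := by
  have step : ∀ (v₁ v w₁ : W) (l : F), h₀ v₁ v₁ = 0 → h₀ v v = 0 → l ≠ 0 → g (j v₁) = l • j w₁ →
      h₀ v₁ v ≠ 0 → ∃ y : W, g (j v) = l • j y := by
    intro v₁ v w₁ l hv₁ hv hl hg1 hne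
    have hσne : σ₀ (h₀ v₁ v) ≠ 0 := fun h0 => hne (R.pol₀.inj h0)
    set c := (σ₀ (h₀ v₁ v))⁻¹ with hc
    have hc0 : c ≠ 0 := inv_ne_zero hσne
    set v' := c • v with hv'
    have e1 : h₀ v₁ v' = 1 := by
      rw [hv', map_smulₛₗ, hc, map_inv₀, R.pol₀.inv, smul_eq_mul, inv_mul_cancel₀ hne]
    have e2 : h₀ v' v₁ = -1 := by rw [R.pol₀.skew, e1, map_one]
    have e3 : h₀ v' v' = 0 := by simp [hv', hv]
    have e4 : h₀ (v₁ + v') (v₁ + v') = 0 := by
      simp only [map_add, LinearMap.add_apply, hv₁, e1, e2, e3]; ring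
    obtain ⟨μ, w₂, h2⟩ := hg v' e3
    obtain ⟨ν, w₃, h3⟩ := hg (v₁ + v') e4
    rw [map_add, map_add, hg1, h2] at h3
    have hv₁0 : v₁ ≠ 0 := by rintro rfl; simp at hne
    have hw₁0 : w₁ ≠ 0 := by
      rintro rfl
      rw [map_zero, smul_zero] at hg1
      apply hv₁0
      apply R.inj
      simpa using hg1
    have hli : LinearIndependent K ![w₁, w₂] := by
      apply pair_indep hw₁0
      intro a ha
      rw [ha, R.smul a w₁, smul_smul] at h2
      have h4 : g (j v') = g ((μ * algebraMap K F a / l) • j v₁) := by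
        rw [h2, map_smul, hg1, smul_smul, div_mul_cancel₀ _ hl]
      have h5 := g.injective h4
      have h6 := R.form v₁ v'
      rw [h5, map_smulₛₗ, R.form_zero.2 hv₁, smul_zero, e1, map_one] at h6
      exact zero_ne_one h6
    have hν : ν ≠ 0 := by
      rintro rfl
      rw [zero_smul] at h3
      have h4 : ∑ i, ![l, μ] i • j (![w₁, w₂] i) = 0 := by
        rw [Fin.sum_univ_two]; exact h3
      exact hl (Fintype.linearIndependent_iff.1 (R.indep hli) _ h4 0)
    have hsum : ∑ i, ![l / ν, μ / ν] i • j (![w₁, w₂] i) = j w₃ := by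
      rw [Fin.sum_univ_two]
      show (l / ν) • j w₁ + (μ / ν) • j w₂ = j w₃
      have : (l / ν) • j w₁ + (μ / ν) • j w₂ = ν⁻¹ • (l • j w₁ + μ • j w₂) := by
        rw [smul_add, smul_smul, smul_smul, div_eq_inv_mul, div_eq_inv_mul]
      rw [this, h3, smul_smul, inv_mul_cancel₀ hν, one_smul]
    obtain ⟨a, ha⟩ := R.coeff hli hsum 0
    obtain ⟨b, hb⟩ := R.coeff hli hsum 1
    have ha' : algebraMap K F a = l / ν := ha
    have hb' : algebraMap K F b = μ / ν := hb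
    have hμ : μ = l * algebraMap K F (b / a) := by
      rw [map_div₀, ha', hb']; field_simp
    refine ⟨c⁻¹ • (b / a) • w₂, ?_⟩
    have h7 : v = c⁻¹ • v' := by rw [hv', smul_smul, inv_mul_cancel₀ hc0, one_smul]
    rw [h7, R.smul, map_smul, h2, R.smul, R.smul, hμ, smul_smul, smul_smul, smul_smul]
    congr 1
    ring
  obtain ⟨v₁, hv₁, -, hv₁'⟩ := R.perp_iso (k := 0) (by omega) ![]
  have hv₁0 : v₁ ≠ 0 := by
    rintro rfl; exact hv₁' (Submodule.zero_mem _)
  obtain ⟨l, w₁, hl⟩ := hg v₁ hv₁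
  have hl0 : l ≠ 0 := by
    rintro rfl
    rw [zero_smul] at hl
    apply hv₁0
    apply R.inj
    simpa using hl
  refine ⟨l, hl0, fun x => ?_⟩
  let S : Submodule K W :=
    { carrier := {x | ∃ y : W, g (j x) = l • j y}
      add_mem' := by
        rintro a b ⟨c, hc⟩ ⟨d, hd⟩
        exact ⟨c + d, by rw [map_add, map_add, hc, hd, map_add, smul_add]⟩
      zero_mem' := ⟨0, by simp⟩
      smul_mem' := by
        rintro c a ⟨d, hd⟩
        exact ⟨c • d, by rw [R.smul, map_smul, hd, R.smul, smul_smul, smul_smul, mul_comm]⟩ }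
  refine R.span_iso 0 S ?_ (map_zero _)
  intro z hz _
  by_cases hz0 : z = 0
  · rw [hz0]; exact S.zero_mem
  obtain ⟨t, ht, ht1, ht2⟩ := R.conn hv₁0 hz0
  obtain ⟨y, hy⟩ := step v₁ t w₁ l hv₁ ht hl0 hl (fun h0 => ht1 (R.pol₀.symm_zero h0))
  exact step t z y l ht hz hl0 hy ht2

/-- Main dichotomy for overgroups of the rational group. -/
theorem dichotomy [Finite F] [FiniteDimensional F V] (R : Rat h₀ h j)
    {M : Subgroup (V ≃ₗ[F] V)} (hE : HasE h₀ h j M) (hMi : M ≤ isom h) :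
    (∀ x, h x x = 0 → ∀ c, σ c = c → rf h x c ∈ M) ∨
      (∀ g ∈ M, ∃ l : F, l ≠ 0 ∧ ∀ x : W, ∃ y : W, g (j x) = l • j y) := by
  rcases YY_dichotomy R hE with hK | hall
  · right
    intro g hg
    exact semilinear R fun v hv => rat_line R hE hMi hK hv hg
  · left
    intro x hx c hc
    exact full R hE hall hx hc

end H95.RatMainS
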