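import Mathlib
import Cfsg.Agent.Lib.H95.OGeo
import Cfsg.Agent.Lib.H95.RatGeo

set_option autoImplicit false

/-!
Orthogonal rational structures in unitary spaces (odd characteristic): overgroups of the group
generated by the rational Siegel elements.
-/

namespace H95.RatO

open Module QuadraticMap H48.QuadSplit H95.OGeo H95.UBasic H95.Pol H95.RatGeo

variable {K F W V : Type*} [Field K] [Field F] [Algebra K F] [AddCommGroup W] [Module K W]
  [AddCommGroup V] [Module F V] {σ : F →+* F}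

/-- orthogonal rational structures in unitary spaces -/
structure RO (Q : QuadraticForm K W) (h : V →ₗ[F] V →ₛₗ[σ] F) (j : W →+ V) (ζ : F) : Prop where
  pol : IsPol h
  nd : ND Q
  two : (2 : K) ≠ 0
  ζ0 : ζ ≠ 0
  ζs : σ ζ = -ζ
  smul : ∀ (c : K) x, j (c • x) = algebraMap K F c • j x
  form : ∀ x y, h (j x) (j y) = ζ * algebraMap K F (polar Q x y)
  sig : ∀ c, σ (algebraMap K F c) = algebraMap K F c
  fix : ∀ a, σ a = a → ∃ c, algebraMap K F c = a
  dec : ∀ v, ∃ x y, v = j x + ζ • j y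
  dim : 13 ≤ finrank K W

variable {Q : QuadraticForm K W} {h : V →ₗ[F] V →ₛₗ[σ] F} {j : W →+ V} {ζ : F}

lemma RO.two' (R : RO Q h j ζ) : (2 : F) ≠ 0 := by
  intro h0
  apply R.two
  apply (algebraMap K F).injective
  rw [map_ofNat, map_zero]; exact h0

lemma RO.zsq (R : RO Q h j ζ) : ∃ d : K, algebraMap K F d = ζ * ζ ∧ d ≠ 0 := by
  obtain ⟨d, hd⟩ := R.fix (ζ * ζ) (by rw [map_mul, R.ζs]; ring)
  refine ⟨d, hd, ?_⟩
  rintro rfl
  rw [map_zero] at hd
  exact R.ζ0 (mul_self_eq_zero.1 hd.symm)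

lemma RO.sinv (R : RO Q h j ζ) : σ ζ⁻¹ = -ζ⁻¹ := by
  rw [map_inv₀, R.ζs, inv_neg]

lemma RO.decF (R : RO Q h j ζ) (a : F) : ∃ c d : K, a = algebraMap K F c + ζ * algebraMap K F d := by
  have h2 := R.two'
  have h0 := R.ζ0
  obtain ⟨c, hc⟩ := R.fix ((a + σ a) / 2) (by
    rw [map_div₀, map_add, R.pol.inv, add_comm, map_ofNat])
  obtain ⟨d, hd⟩ := R.fix ((a - σ a) / (2 * ζ)) (by
    rw [map_div₀, map_sub, R.pol.inv, map_mul, R.ζs, map_ofNat, mul_neg, div_neg, ← neg_div,
      neg_sub])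
  refine ⟨c, d, ?_⟩
  rw [hc, hd]
  field_simp
  ring

lemma RO.uniqF (R : RO Q h j ζ) {a b : K} (hab : algebraMap K F a + ζ * algebraMap K F b = 0) :
    a = 0 ∧ b = 0 := by
  have h1 := congrArg σ hab
  rw [map_add, map_mul, R.sig, R.sig, R.ζs, map_zero] at h1
  have h2 : (2 : F) * algebraMap K F a = 0 := by linear_combination hab + h1
  have ha : algebraMap K F a = 0 := (mul_eq_zero.1 h2).resolve_left R.two'
  rw [ha, zero_add] at hab
  have hb := (mul_eq_zero.1 hab).resolve_left R.ζ0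
  exact ⟨(algebraMap K F).injective (by rw [ha, map_zero]),
    (algebraMap K F).injective (by rw [hb, map_zero])⟩

lemma RO.h_l (R : RO Q h j ζ) (x a b : W) :
    h (j x) (j a + ζ • j b) = ζ * (algebraMap K F (polar Q x a) + ζ * algebraMap K F (- polar Q x b)) := by
  rw [map_add, map_smulₛₗ, R.form, R.form, R.ζs, smul_eq_mul, map_neg]; ring

lemma RO.h_l0 (R : RO Q h j ζ) {x a b : W} : h (j x) (j a + ζ • j b) = 0 ↔
    polar Q x a = 0 ∧ polar Q x b = 0 := by
  rw [R.h_l, mul_eq_zero, or_iff_right R.ζ0]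
  constructor
  · intro h0
    obtain ⟨h1, h2⟩ := R.uniqF h0
    exact ⟨h1, by simpa using h2⟩
  · rintro ⟨h1, h2⟩
    rw [h1, h2]; simp

lemma RO.uniq (R : RO Q h j ζ) {x y : W} (hxy : j x + ζ • j y = 0) : x = 0 ∧ y = 0 := by
  have h1 : ∀ w, polar Q w x = 0 ∧ polar Q w y = 0 := fun w => R.h_l0.1 (by rw [hxy, map_zero])
  exact ⟨R.nd x fun w => by rw [p_comm]; exact (h1 w).1, R.nd y fun w => by rw [p_comm]; exact (h1 w).2⟩

lemma RO.inj (R : RO Q h j ζ) {x : W} (hx : j x = 0) : x = 0 :=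
  (R.uniq (y := 0) (by rw [hx, map_zero, smul_zero, add_zero])).1

lemma RO.sing (R : RO Q h j ζ) {x : W} (hx : Q x = 0) : h (j x) (j x) = 0 := by
  rw [R.form, p_self, hx]; simp

lemma RO.orth (R : RO Q h j ζ) {x y : W} (hx : polar Q x y = 0) : h (j x) (j y) = 0 := by
  rw [R.form, hx]; simp

lemma RO.j_sum (R : RO Q h j ζ) {ι : Type*} (s : Finset ι) (x : ι → W) (c : ι → K) :
    j (∑ i ∈ s, c i • x i) = ∑ i ∈ s, algebraMap K F (c i) • j (x i) := by
  rw [map_sum]
  exact Finset.sum_congr rfl fun i _ => R.smul _ _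

/-- Coefficients of a rational combination are rational. -/
lemma RO.coeff (R : RO Q h j ζ) {ι : Type*} [Fintype ι] {x : ι → W} (hx : LinearIndependent K x)
    {g : ι → F} {y : W} (hg : ∑ i, g i • j (x i) = j y) (i : ι) :
    ∃ c : K, algebraMap K F c = g i := by
  choose c d hcd using fun i => R.decF (g i)
  have h1 : ∑ i, g i • j (x i) = j (∑ i, c i • x i) + ζ • j (∑ i, d i • x i) := by
    rw [R.j_sum, R.j_sum, Finset.smul_sum, ← Finset.sum_add_distrib]
    refine Finset.sum_congr rfl fun i _ => ?_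
    rw [hcd, add_smul, mul_smul]
  have h2 : j (∑ i, c i • x i - y) + ζ • j (∑ i, d i • x i) = 0 := by
    rw [map_sub, sub_add_eq_add_sub, ← h1, hg, sub_self]
  have h3 := (R.uniq h2).2
  have h4 := Fintype.linearIndependent_iff.1 hx _ h3 i
  exact ⟨c i, by rw [hcd, h4, map_zero, mul_zero, add_zero]⟩

lemma RO.indep (R : RO Q h j ζ) {ι : Type*} [Fintype ι] {x : ι → W} (hx : LinearIndependent K x) :
    LinearIndependent F (fun i => j (x i)) := by
  rw [Fintype.linearIndependent_iff]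
  intro g hg i
  choose c d hcd using fun i => R.decF (g i)
  have h1 : ∑ i, g i • j (x i) = j (∑ i, c i • x i) + ζ • j (∑ i, d i • x i) := by
    rw [R.j_sum, R.j_sum, Finset.smul_sum, ← Finset.sum_add_distrib]
    refine Finset.sum_congr rfl fun i _ => ?_
    rw [hcd, add_smul, mul_smul]
  rw [h1] at hg
  obtain ⟨h3, h4⟩ := R.uniq hg
  have h5 := Fintype.linearIndependent_iff.1 hx _ h3 i
  have h6 := Fintype.linearIndependent_iff.1 hx _ h4 i
  rw [hcd, h5, h6]; simp

/-! ### Siegel elements -/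

/-- rational Siegel elements -/
noncomputable def Sg (Q : QuadraticForm K W) (h : V →ₗ[F] V →ₛₗ[σ] F) (j : W →+ V) (ζ : F) (u y : W) :
    V ≃ₗ[F] V := Eg h (j u) (ζ⁻¹ • j y) (-(ζ⁻¹ * algebraMap K F (Q y)))

lemma RO.val (R : RO Q h j ζ) {u y : W} (hu : Q u = 0) (huy : polar Q u y = 0) :
    Val h (j u) (ζ⁻¹ • j y) (-(ζ⁻¹ * algebraMap K F (Q y))) := by
  refine ⟨R.sing hu, by rw [map_smulₛₗ, R.orth huy, smul_zero], ?_⟩
  have h0 := R.ζ0
  simp only [map_neg, map_mul, R.sig, R.sinv, map_smul, map_smulₛₗ, LinearMap.smul_apply, R.form,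
    p_self, smul_eq_mul, map_ofNat]
  field_simp
  ring

lemma RO.sg_apply (R : RO Q h j ζ) {u y : W} (hu : Q u = 0) (huy : polar Q u y = 0) (x : V) :
    Sg Q h j ζ u y x = x + (ζ⁻¹ * h x (j u)) • j y - (ζ⁻¹ * h x (j y)) • j u
      - (ζ⁻¹ * algebraMap K F (Q y) * h x (j u)) • j u := by
  rw [Sg, Eg_apply R.pol (R.val hu huy), map_smulₛₗ, R.sinv, smul_eq_mul]
  module

/-- rational Siegel elements on rational vectors -/
lemma RO.sg_rat (R : RO Q h j ζ) {u y : W} (hu : Q u = 0) (huy : polar Q u y = 0) (x : W) :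
    Sg Q h j ζ u y (j x) = j (x + polar Q x u • y - polar Q x y • u - (Q y * polar Q x u) • u) := by
  rw [R.sg_apply hu huy, R.form, R.form, map_sub, map_sub, map_add, R.smul, R.smul, R.smul, map_mul]
  have h0 := R.ζ0
  have e : ∀ c : F, ζ⁻¹ * (ζ * c) = c := fun c => by rw [← mul_assoc, inv_mul_cancel₀ h0, one_mul]
  have e' : ∀ a c : F, ζ⁻¹ * a * (ζ * c) = a * c := fun a c => by
    rw [mul_comm ζ⁻¹ a, mul_assoc, e]
  rw [e, e, e']

def HasS (Q : QuadraticForm K W) (h : V →ₗ[F] V →ₛₗ[σ] F) (j : W →+ V) (ζ : F)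
    (M : Subgroup (V ≃ₗ[F] V)) : Prop :=
  ∀ u y : W, Q u = 0 → polar Q u y = 0 → Sg Q h j ζ u y ∈ M

/-- Commutators with Siegel elements. -/
lemma comm_tr (R : RO Q h j ζ) {M : Subgroup (V ≃ₗ[F] V)} (hS : HasS Q h j ζ M) {u y a b : W} {c : F}
    (hu : Q u = 0) (huy : polar Q u y = 0) (hv : Val h (j u) (j a + ζ • j b) c)
    (hM : Eg h (j u) (j a + ζ • j b) c ∈ M) :
    rf h (j u) (algebraMap K F (-2 * polar Q a y)) ∈ M := by
  have v1 := R.val hu huy
  have h1 := hS u y hu huy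
  rw [Sg] at h1
  set w := j a + ζ • j b with hw
  set w' := ζ⁻¹ • j y with hw'
  set c' := -(ζ⁻¹ * algebraMap K F (Q y)) with hc'
  set t := algebraMap K F (-2 * polar Q a y) with ht
  have hσt : σ t = t := R.sig _
  have e1 : h w w' - h w' w = t := by
    have h0 := R.ζ0
    have q1 : h w w' = σ ζ⁻¹ * h w (j y) := by rw [hw', map_smulₛₗ, smul_eq_mul]
    have q2 : h w' w = ζ⁻¹ * h (j y) w := by
      rw [hw', map_smul, LinearMap.smul_apply, smul_eq_mul]
    have q3 : h w (j y) = ζ * (algebraMap K F (polar Q a y) + ζ * algebraMap K F (polar Q b y)) := by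
      rw [hw, map_add, LinearMap.add_apply, map_smul, LinearMap.smul_apply, R.form, R.form,
        smul_eq_mul]
      ring
    rw [q1, q2, q3, hw, R.h_l, R.sinv, ht, p_comm Q y a, p_comm Q y b]
    simp only [map_neg, map_mul, map_ofNat]
    field_simp
    ring
  have h2 := M.mul_mem (M.inv_mem (M.mul_mem hM h1)) (M.mul_mem h1 hM)
  have e2 : Eg h (j u) w' c' * Eg h (j u) w c = (Eg h (j u) w c * Eg h (j u) w' c') * rf h (j u) t := by
    rw [Eg_mul R.pol v1 hv, Eg_mul R.pol hv v1, ← Eg_zero R.pol (R.sing hu) hσt,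
      Eg_mul R.pol (hv.mul R.pol v1) ⟨R.sing hu, by simp, by simp [hσt]⟩, add_zero, add_comm w' w]
    congr 1
    rw [← e1, map_zero, LinearMap.zero_apply]; ring
  rw [e2, inv_mul_cancel_left] at h2
  exact h2

section

variable [FiniteDimensional K W] [Finite K]

omit [Finite K] in
/-- from one transvection to another one -/
lemma tr_step (R : RO Q h j ζ) {M : Subgroup (V ≃ₗ[F] V)} (hS : HasS Q h j ζ M) {u x : W} {c : K}
    (hu : Q u = 0) (hx : Q x = 0) (hux : polar Q u x = 0) (hli : LinearIndependent K ![x, u])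
    (hc : c ≠ 0) (hM : rf h (j u) (algebraMap K F c) ∈ M) :
    (∃ c', Val h (j x) (j (c • u)) c' ∧ Eg h (j x) (j (c • u)) c' ∈ M) ∧
      ∀ d : K, rf h (j x) (algebraMap K F d) ∈ M := by
  have h0 := R.ζ0
  obtain ⟨y, hy⟩ := dual R.nd hli ![0, 1]
  have hyx : polar Q y x = 0 := hy 0
  have hyu : polar Q y u = 1 := hy 1
  have hxy : polar Q x y = 0 := by rw [p_comm, hyx]
  have v1 := R.val hx hxy
  have h1 := hS x y hx hxy
  rw [Sg] at h1
  have hσc : σ (algebraMap K F c) = algebraMap K F c := R.sig c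
  have hfix : rf h (j u) (algebraMap K F c) (j x) = j x := by
    rw [tr_apply (R.sing hu) hσc, R.orth (by rw [p_comm, hux])]; simp
  obtain ⟨h2, v2⟩ := comm_stab R.pol v1 h1 hM (tr_mem R.pol (R.sing hu) hσc) hfix
  have e1 : rf h (j u) (algebraMap K F c) (ζ⁻¹ • j y) - ζ⁻¹ • j y = j (c • u) := by
    rw [tr_apply (R.sing hu) hσc, add_sub_cancel_left, map_smul, LinearMap.smul_apply, R.form, hyu,
      map_one, mul_one, smul_eq_mul, inv_mul_cancel₀ h0, mul_one, R.smul]
  rw [e1] at h2 v2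
  refine ⟨⟨_, v2, h2⟩, fun d => ?_⟩
  obtain ⟨y', hy'⟩ := dual R.nd hli ![0, -d / (2 * c)]
  have hyx' : polar Q y' x = 0 := hy' 0
  have hyu' : polar Q y' u = -d / (2 * c) := hy' 1
  have e2 : j (c • u) = j (c • u) + ζ • j 0 := by rw [map_zero, smul_zero, add_zero]
  rw [e2] at h2 v2
  have h3 := comm_tr R hS hx (y := y') (by rw [p_comm, hyx']) v2 h2
  have e3 : -2 * polar Q (c • u) y' = d := by
    rw [p_smul, p_comm, hyu']
    have := R.two
    field_simp
  rwa [e3] at h3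

lemma tr_all (R : RO Q h j ζ) {M : Subgroup (V ≃ₗ[F] V)} (hS : HasS Q h j ζ M) {u : W} {c : K}
    (hu : Q u = 0) (hu0 : u ≠ 0) (hc : c ≠ 0) (hM : rf h (j u) (algebraMap K F c) ∈ M) {x : W}
    (hx : Q x = 0) (d : K) : rf h (j x) (algebraMap K F d) ∈ M := by
  by_cases hx0 : x = 0
  · subst hx0
    have : rf h (j (0 : W)) (algebraMap K F d) = 1 := by
      ext x; rw [tr_apply (by simp) (R.sig d)]; simp
    rw [this]; exact M.one_mem
  have hdim := R.dim
  have hfr : finrank K (Submodule.span K (Set.range ![u, x])) ≤ 2 := by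
    have := finrank_range_le_card (R := K) ![u, x]
    rw [Fintype.card_fin] at this
    exact this
  obtain ⟨z, hz, hz', hzT⟩ := perp_val R.nd (k := 2) (by omega) ![u, x]
    (T := Submodule.span K (Set.range ![u, x])) (by omega) 0
  have e1 : polar Q z u = 0 := hz' 0
  have e2 : polar Q z x = 0 := hz' 1
  have l1 : LinearIndependent K ![z, u] := li_cons2 hu0 (notMem_mono hzT (by
    intro i; fin_cases i; exact Submodule.subset_span ⟨0, rfl⟩))
  have l2 : LinearIndependent K ![z, x] := li_cons2 hx0 (notMem_mono hzT (by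
    intro i; fin_cases i; exact Submodule.subset_span ⟨1, rfl⟩))
  have h1 := (tr_step R hS hu hz (by rw [p_comm, e1]) l1 hc hM).2 1
  exact (tr_step R hS hz hx e2 (li_swap l2) one_ne_zero h1).2 d

lemma all_Eg (R : RO Q h j ζ) {M : Subgroup (V ≃ₗ[F] V)} (hS : HasS Q h j ζ M)
    (hT : ∀ x : W, Q x = 0 → ∀ d : K, rf h (j x) (algebraMap K F d) ∈ M) {x : W}
    (hx : Q x = 0) (hx0 : x ≠ 0) {w : V} {c : F} (hv : Val h (j x) w c) : Eg h (j x) w c ∈ M := by
  have h0 := R.ζ0
  have hjx := R.sing hx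
  have hdim := R.dim
  obtain ⟨a, b, rfl⟩ := R.dec w
  obtain ⟨ha, hb⟩ := R.h_l0.1 hv.2.1
  -- the a-part
  let S : Submodule K W :=
    { carrier := {a | ∀ k : K, ∃ c', Val h (j x) (j (k • a)) c' ∧ Eg h (j x) (j (k • a)) c' ∈ M}
      add_mem' := by
        intro a b ha hb k
        obtain ⟨c1, v1, h1⟩ := ha k
        obtain ⟨c2, v2, h2⟩ := hb k
        rw [smul_add, map_add]
        exact ⟨_, v1.mul R.pol v2, by
          rw [← Eg_mul R.pol v1 v2]; exact M.mul_mem h1 h2⟩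
      zero_mem' := by
        intro k
        refine ⟨0, ⟨hjx, by simp, by simp⟩, ?_⟩
        rw [smul_zero, map_zero, Eg_zero R.pol hjx (map_zero σ), rf_zero]
        exact M.one_mem
      smul_mem' := by
        intro c a ha k
        rw [smul_smul]
        exact ha _ }
  have hSa : a ∈ S := by
    refine span_val R.nd (by omega) x S 0 ?_ (by rw [p_comm, ha])
    intro z hz hzx k
    by_cases hk : k = 0
    · subst hk
      refine ⟨0, ⟨hjx, by simp, by simp⟩, ?_⟩
      rw [zero_smul, map_zero, Eg_zero R.pol hjx (map_zero σ), rf_zero]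
      exact M.one_mem
    by_cases hli : LinearIndependent K ![x, z]
    · refine (tr_step R hS hz hx hzx hli hk ?_).1
      exact hT z hz k
    · have : ∃ l : K, z = l • x := by
        by_contra hcon
        push Not at hcon
        exact hli (pair_indep hx0 hcon)
      obtain ⟨l, rfl⟩ := this
      have v1 : Val h (j x) (j (k • l • x)) 0 := by
        refine ⟨hjx, ?_, ?_⟩
        · rw [smul_smul, R.smul]; simp [hjx]
        · rw [smul_smul, R.smul]; simp [hjx]
      refine ⟨0, v1, ?_⟩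
      have : Eg h (j x) (j (k • l • x)) 0 = rf h (j x) (algebraMap K F (2 * (k * l))) := by
        ext y
        rw [Eg_apply R.pol v1, tr_apply hjx (R.sig _), smul_smul, R.smul, map_smulₛₗ, smul_eq_mul,
          R.sig, map_mul (algebraMap K F) 2, map_ofNat]
        module
      rw [this]
      exact hT x hx _
  obtain ⟨c1, v1, h1⟩ := hSa 1
  rw [one_smul] at v1 h1
  -- the b-part
  obtain ⟨d, hd, hd0⟩ := R.zsq
  have hb' : polar Q x (d • b) = 0 := by rw [p_smul', hb, mul_zero]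
  have v2 := R.val hx hb'
  have h2 := hS x (d • b) hx hb'
  rw [Sg] at h2
  have e1 : ζ⁻¹ • j (d • b) = ζ • j b := by
    rw [R.smul, hd, smul_smul, ← mul_assoc, inv_mul_cancel₀ h0, one_mul]
  rw [e1] at v2 h2
  have h3 := M.mul_mem h1 h2
  rw [Eg_mul R.pol v1 v2] at h3
  have v3 := v1.mul R.pol v2
  set c3 := c1 + -(ζ⁻¹ * algebraMap K F (Q (d • b))) + h (ζ • j b) (j a) with hc3
  have hcc : σ (c - c3) = c - c3 := by
    rw [map_sub]
    have e1 := hv.2.2
    have e2 := v3.2.2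
    linear_combination e2 - e1
  obtain ⟨k, hk⟩ := R.fix _ hcc
  have vt : Val h (j x) 0 (c - c3) := ⟨hjx, by simp, by simp [hcc]⟩
  have h4 := M.mul_mem h3 (hT x hx k)
  rw [hk, ← Eg_zero R.pol hjx hcc, Eg_mul R.pol v3 vt] at h4
  simpa using h4

/-- All transvections. -/
theorem full (R : RO Q h j ζ) {M : Subgroup (V ≃ₗ[F] V)} (hS : HasS Q h j ζ M)
    (hT : ∀ x : W, Q x = 0 → ∀ d : K, rf h (j x) (algebraMap K F d) ∈ M) {x : V} (hx : h x x = 0)
    {c : F} (hc : σ c = c) : rf h x c ∈ M := by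
  by_cases hx0 : x = 0
  · subst hx0
    have : rf h (0 : V) c = 1 := by
      ext x; rw [tr_apply (by simp) hc]; simp
    rw [this]; exact M.one_mem
  have h0 := R.ζ0
  have hdim := R.dim
  obtain ⟨a, b, rfl⟩ := R.dec x
  -- a singular rational u not orthogonal to x
  obtain ⟨u, hu, hxu⟩ : ∃ u : W, Q u = 0 ∧ h (j a + ζ • j b) (j u) ≠ 0 := by
    by_contra hcon
    push Not at hcon
    apply hx0
    have key : ∀ u, polar Q u a = 0 ∧ polar Q u b = 0 := by
      let S : Submodule K W :=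
        { carrier := {u | polar Q u a = 0 ∧ polar Q u b = 0}
          add_mem' := by
            rintro x y ⟨h1, h2⟩ ⟨h3, h4⟩
            exact ⟨by rw [p_add, h1, h3, add_zero], by rw [p_add, h2, h4, add_zero]⟩
          zero_mem' := ⟨p_zero _ _, p_zero _ _⟩
          smul_mem' := by
            rintro c x ⟨h1, h2⟩
            exact ⟨by rw [p_smul, h1, mul_zero], by rw [p_smul, h2, mul_zero]⟩ }
      intro u
      exact span_val R.nd (by omega) 0 S 0 (fun z hz _ => R.h_l0.1 (R.pol.symm_zero (hcon z hz)))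
        (p_zero' _ _)
    have ha : a = 0 := R.nd a fun w => by rw [p_comm]; exact (key w).1
    have hb : b = 0 := R.nd b fun w => by rw [p_comm]; exact (key w).2
    rw [ha, hb, map_zero, smul_zero, add_zero]
  set x := j a + ζ • j b with hxd
  have hu0 : u ≠ 0 := by rintro rfl; simp at hxu
  obtain ⟨v, hv, hv'⟩ := dual_val R.nd (k := 1) (x := ![u]) (by omega) (by
    rw [linearIndependent_unique_iff]; simpa using hu0) ![1] 0
  have e1 : polar Q v u = 1 := hv' 0
  have hju := R.sing hu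
  have hjv := R.sing hv
  -- scale x
  set x₁ := (ζ * (h x (j u))⁻¹) • x with hx₁
  have hx₁u : h x₁ (j u) = ζ := by
    rw [hx₁, map_smul, LinearMap.smul_apply, smul_eq_mul, mul_assoc, inv_mul_cancel₀ hxu, mul_one]
  have hx₁x : h x₁ x₁ = 0 := by simp [hx₁, hx]
  have hvu : h (j v) (j u) = ζ := by rw [R.form, e1, map_one, mul_one]
  have huv : h (j u) (j v) = ζ := by rw [R.pol.skew, hvu, R.ζs, neg_neg]
  have hux : h (j u) x₁ = ζ := by rw [R.pol.skew, hx₁u, R.ζs, neg_neg]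
  set α := h (j v) x₁ with hα
  have hα' : h x₁ (j v) = - σ α := R.pol.skew _ _
  have vE : Val h (j u) (ζ⁻¹ • (x₁ - j v)) (ζ⁻¹ * ζ⁻¹ * α) := by
    refine ⟨hju, by rw [map_smulₛₗ, map_sub, huv, hux, sub_self, smul_zero], ?_⟩
    simp only [map_smul, LinearMap.smul_apply, map_smulₛₗ, map_sub, LinearMap.sub_apply, map_mul,
      R.sinv, hx₁x, hjv, hα', ← hα, smul_eq_mul]
    ring
  have hM := all_Eg R hS hT hu hu0 vE
  have hval : Eg h (j u) (ζ⁻¹ • (x₁ - j v)) (ζ⁻¹ * ζ⁻¹ * α) (j v) = x₁ := by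
    rw [Eg_apply R.pol vE, map_smulₛₗ, map_sub, hjv, hvu, R.sinv, ← hα, smul_smul,
      mul_inv_cancel₀ h0, one_smul, smul_eq_mul, sub_zero]
    have e : ζ⁻¹ * ζ⁻¹ * α * ζ = ζ⁻¹ * α := by field_simp
    rw [e, neg_mul, neg_smul]
    abel
  have h1 : ∀ d : F, σ d = d → rf h x₁ d ∈ M := by
    intro d hd
    obtain ⟨k, rfl⟩ := R.fix d hd
    have h2 := M.mul_mem (M.mul_mem hM (hT v hv k)) (M.inv_mem hM)
    rw [rf_conj _ _ _ (Eg_isom R.pol vE), hval] at h2
    exact h2
  have e2 : x = (h x (j u) * ζ⁻¹) • x₁ := by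
    rw [hx₁, smul_smul]
    have : h x (j u) * ζ⁻¹ * (ζ * (h x (j u))⁻¹) = 1 := by field_simp
    rw [this, one_smul]
  rw [e2, tr_smul R.pol hx₁x hc]
  apply h1
  rw [map_mul, map_mul, R.pol.inv, hc, mul_comm (σ _)]

end

end H95.RatO
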