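import Mathlib
import Cfsg.Agent.Lib.H95.RatO

set_option autoImplicit false

/-!
Orthogonal rational structures in unitary spaces (odd characteristic), second part.
-/

namespace H95.RatO

open Module QuadraticMap H48.QuadSplit H95.OGeo H95.UBasic H95.Pol H95.RatGeo

variable {K F W V : Type*} [Field K] [Field F] [Algebra K F] [AddCommGroup W] [Module K W]
  [AddCommGroup V] [Module F V] {σ : F →+* F}
  {Q : QuadraticForm K W} {h : V →ₗ[F] V →ₛₗ[σ] F} {j : W →+ V} {ζ : F}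
  [FiniteDimensional K W]

/-- no rational transvections -/
def NT (Q : QuadraticForm K W) (h : V →ₗ[F] V →ₛₗ[σ] F) (j : W →+ V)
    (M : Subgroup (V ≃ₗ[F] V)) : Prop :=
  ∀ u : W, Q u = 0 → ∀ c : K, rf h (j u) (algebraMap K F c) ∈ M → u = 0 ∨ c = 0

lemma rational_w (R : RO Q h j ζ) {M : Subgroup (V ≃ₗ[F] V)} (hS : HasS Q h j ζ M)
    (hN : NT Q h j M) {u a b : W} {c : F} (hu : Q u = 0) (hu0 : u ≠ 0)
    (hv : Val h (j u) (j a + ζ • j b) c) (hM : Eg h (j u) (j a + ζ • j b) c ∈ M) :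
    ∃ l : K, a = l • u := by
  by_contra hcon
  have ha : a ∉ Submodule.span K {u} := by
    intro h1
    obtain ⟨l, hl⟩ := Submodule.mem_span_singleton.1 h1
    exact hcon ⟨l, hl.symm⟩
  obtain ⟨w, hw, hw'⟩ := sep R.nd ha
  have h1 := comm_tr R hS hu (hw u (Submodule.mem_span_singleton_self u)) hv hM
  rcases hN u hu _ h1 with h2 | h2
  · exact hu0 h2
  · rcases mul_eq_zero.1 h2 with h3 | h3
    · exact R.two (neg_eq_zero.1 h3)
    · exact hw' h3

/-- The operator attached to a conjugate of a Siegel element. -/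
def Dm (h : V →ₗ[F] V →ₛₗ[σ] F) (j : W →+ V) (ζ : F) (a b : V) (z : W) : V :=
  ζ⁻¹ • (h (j z) a • b - h (j z) b • a)

omit [FiniteDimensional K W] in
lemma Dm_add (a b : V) (z z' : W) :
    Dm h j ζ a b (z + z') = Dm h j ζ a b z + Dm h j ζ a b z' := by
  simp only [Dm, map_add, LinearMap.add_apply]; module

lemma key_D (R : RO Q h j ζ) {M : Subgroup (V ≃ₗ[F] V)} (hS : HasS Q h j ζ M)
    (hN : NT Q h j M) (hMi : M ≤ isom h) {g : V ≃ₗ[F] V} (hg : g ∈ M) {u y : W} (hu : Q u = 0)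
    (hy : Q y = 0) (huy : polar Q u y = 0) {x₀ z : W} (hx₀ : Q x₀ = 0) (hx₀0 : x₀ ≠ 0)
    (ha : h (j x₀) (g (j u)) = 0) (hb : h (j x₀) (g (j y)) = 0) (hz : polar Q x₀ z = 0) :
    ∃ (p : W) (l : K), Dm h j ζ (g (j u)) (g (j y)) z = j p + ζ • j (l • x₀) := by
  have h0 := R.ζ0
  have hgi := hMi hg
  set a := g (j u) with had
  set b := g (j y) with hbd
  have hT := M.mul_mem (M.mul_mem hg (hS u y hu huy)) (M.inv_mem hg)
  have v1 := R.val hu huy
  rw [Sg, Eg_conj R.pol v1 hgi] at hT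
  have v2 := v1.map hgi
  set c₁ := -(ζ⁻¹ * algebraMap K F (Q y)) with hc₁
  have hc₁0 : c₁ = 0 := by rw [hc₁, hy]; simp
  set T := Eg h (g (j u)) (g (ζ⁻¹ • j y)) c₁ with hTd
  have hTi : T ∈ isom h := Eg_isom R.pol v2
  have hTx : ∀ x, T x - x = ζ⁻¹ • (h x a • b - h x b • a) := by
    intro x
    rw [hTd, Eg_apply R.pol v2, hc₁0, map_smul g, map_smulₛₗ, R.sinv, smul_eq_mul]
    module
  have hfix : T (j x₀) = j x₀ := by
    rw [← sub_eq_zero, hTx, ha, hb]; simp
  have v3 := R.val hx₀ hz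
  have h1 := hS x₀ z hx₀ hz
  rw [Sg] at h1
  obtain ⟨h2, v4⟩ := comm_stab R.pol v3 h1 hT hTi hfix
  have e1 : T (ζ⁻¹ • j z) - ζ⁻¹ • j z = ζ⁻¹ • Dm h j ζ a b z := by
    rw [hTx, Dm, map_smul, LinearMap.smul_apply, LinearMap.smul_apply, smul_eq_mul, smul_eq_mul,
      mul_smul, mul_smul, ← smul_sub]
  rw [e1] at h2 v4
  obtain ⟨p, q, hpq⟩ := R.dec (ζ⁻¹ • Dm h j ζ a b z)
  rw [hpq] at h2 v4
  obtain ⟨l, rfl⟩ := rational_w R hS hN hx₀ hx₀0 v4 h2
  obtain ⟨d, hd, -⟩ := R.zsq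
  refine ⟨d • q, l, ?_⟩
  have e2 := congrArg (fun v => ζ • v) hpq
  simp only [smul_add, smul_smul] at e2
  rw [mul_inv_cancel₀ h0, one_smul] at e2
  rw [e2, R.smul d q, hd]
  abel

lemma two_D (R : RO Q h j ζ) {M : Subgroup (V ≃ₗ[F] V)} (hS : HasS Q h j ζ M)
    (hN : NT Q h j M) (hMi : M ≤ isom h) {g : V ≃ₗ[F] V} (hg : g ∈ M) {u y : W} (hu : Q u = 0)
    (hy : Q y = 0) (huy : polar Q u y = 0) {x₀ x₁ z : W} (hx₀ : Q x₀ = 0) (hx₁ : Q x₁ = 0)
    (hli : LinearIndependent K ![x₀, x₁])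
    (ha : h (j x₀) (g (j u)) = 0) (hb : h (j x₀) (g (j y)) = 0)
    (ha' : h (j x₁) (g (j u)) = 0) (hb' : h (j x₁) (g (j y)) = 0)
    (hz : polar Q x₀ z = 0) (hz' : polar Q x₁ z = 0) :
    ∃ p : W, Dm h j ζ (g (j u)) (g (j y)) z = j p := by
  obtain ⟨p, l, h1⟩ := key_D R hS hN hMi hg hu hy huy hx₀ (li_ne0 hli) ha hb hz
  obtain ⟨p', l', h2⟩ := key_D R hS hN hMi hg hu hy huy hx₁ (li_ne1 hli) ha' hb' hz'
  have h3 : j (p - p') + ζ • j (l • x₀ - l' • x₁) = 0 := by
    rw [map_sub, map_sub, smul_sub]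
    have h4 := h1.symm.trans h2
    rw [← sub_eq_zero] at h4
    rw [← h4]; abel
  have h5 := (R.uniq h3).2
  have h6 : l • x₀ + (-l') • x₁ = 0 := by rw [neg_smul, ← sub_eq_add_neg]; exact h5
  have h7 := (LinearIndependent.pair_iff.1 hli _ _ h6).1
  refine ⟨p, ?_⟩
  rw [h1, h7, zero_smul, map_zero, smul_zero, add_zero]

lemma choose_k [Finite K] (R : RO Q h j ζ) (l : Fin 4 → W) : ∀ k : ℕ, k ≤ 4 →
    ∃ x : Fin k → W, LinearIndependent K x ∧ (∀ i, Q (x i) = 0) ∧ ∀ i m, polar Q (x i) (l m) = 0 := by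
  intro k
  induction k with
  | zero => exact fun _ => ⟨Fin.elim0, linearIndependent_empty_type, fun i => i.elim0, fun i => i.elim0⟩
  | succ k ih =>
    intro hk
    obtain ⟨x, hx, hx1, hx2⟩ := ih (by omega)
    have hdim := R.dim
    have hfr : finrank K (Submodule.span K (Set.range x)) ≤ k := by
      have := finrank_range_le_card (R := K) x
      rw [Fintype.card_fin] at this
      exact this
    obtain ⟨z, hz, hz', hzT⟩ := perp_val R.nd (k := 4) (by omega) l
      (T := Submodule.span K (Set.range x)) (by omega) 0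
    refine ⟨Fin.cons z x, linearIndependent_finCons.2 ⟨hx, hzT⟩, ?_, ?_⟩
    · intro i
      refine Fin.cases ?_ ?_ i
      · simpa using hz
      · intro i; simpa using hx1 i
    · intro i m
      refine Fin.cases ?_ ?_ i
      · simpa using hz' m
      · intro i; simpa using hx2 i m

lemma all_D [Finite K] (R : RO Q h j ζ) {M : Subgroup (V ≃ₗ[F] V)} (hS : HasS Q h j ζ M)
    (hN : NT Q h j M) (hMi : M ≤ isom h) {g : V ≃ₗ[F] V} (hg : g ∈ M) {u y : W} (hu : Q u = 0)
    (hy : Q y = 0) (huy : polar Q u y = 0) (z : W) :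
    ∃ p : W, Dm h j ζ (g (j u)) (g (j y)) z = j p := by
  obtain ⟨a₁, a₂, ha⟩ := R.dec (g (j u))
  obtain ⟨b₁, b₂, hb⟩ := R.dec (g (j y))
  obtain ⟨x, hx, hx1, hx2⟩ := choose_k R ![a₁, a₂, b₁, b₂] 4 le_rfl
  have ha0 : ∀ i, h (j (x i)) (g (j u)) = 0 := fun i => by
    rw [ha]; exact R.h_l0.2 ⟨hx2 i 0, hx2 i 1⟩
  have hb0 : ∀ i, h (j (x i)) (g (j y)) = 0 := fun i => by
    rw [hb]; exact R.h_l0.2 ⟨hx2 i 2, hx2 i 3⟩
  obtain ⟨z', hz'⟩ := dual R.nd hx ![0, 0, polar Q z (x 2), polar Q z (x 3)]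
  have e0 : polar Q z' (x 0) = 0 := hz' 0
  have e1 : polar Q z' (x 1) = 0 := hz' 1
  have e2 : polar Q z' (x 2) = polar Q z (x 2) := hz' 2
  have e3 : polar Q z' (x 3) = polar Q z (x 3) := hz' 3
  have l01 : LinearIndependent K ![x 0, x 1] := by
    have := hx.comp ![0, 1] (by decide)
    have e : x ∘ ![0, 1] = ![x 0, x 1] := by ext i; fin_cases i <;> rfl
    rwa [e] at this
  have l23 : LinearIndependent K ![x 2, x 3] := by
    have := hx.comp ![2, 3] (by decide)
    have e : x ∘ ![2, 3] = ![x 2, x 3] := by ext i; fin_cases i <;> rfl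
    rwa [e] at this
  obtain ⟨p, hp⟩ := two_D R hS hN hMi hg hu hy huy (hx1 0) (hx1 1) l01 (ha0 0) (hb0 0) (ha0 1)
    (hb0 1) (z := z') (by rw [p_comm, e0]) (by rw [p_comm, e1])
  obtain ⟨p', hp'⟩ := two_D R hS hN hMi hg hu hy huy (hx1 2) (hx1 3) l23 (ha0 2) (hb0 2) (ha0 3)
    (hb0 3) (z := z - z') (by rw [p_comm, p_sub, e2, sub_self]) (by rw [p_comm, p_sub, e3, sub_self])
  refine ⟨p + p', ?_⟩
  rw [map_add, ← hp, ← hp', ← Dm_add, add_sub_cancel]

/-- The image of a rational singular vector spans a rational line. -/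
lemma rat_line [Finite K] (R : RO Q h j ζ) {M : Subgroup (V ≃ₗ[F] V)} (hS : HasS Q h j ζ M)
    (hN : NT Q h j M) (hMi : M ≤ isom h) {g : V ≃ₗ[F] V} (hg : g ∈ M) {u : W} (hu : Q u = 0) :
    ∃ (μ : F) (x : W), g (j u) = μ • j x := by
  by_cases hu0 : u = 0
  · exact ⟨0, 0, by rw [hu0, map_zero, map_zero, zero_smul]⟩
  have h0 := R.ζ0
  have hdim := R.dim
  obtain ⟨a₁, a₂, ha⟩ := R.dec (g (j u))
  by_cases hli : LinearIndependent K ![a₁, a₂]
  swap
  · by_cases ha₁ : a₁ = 0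
    · exact ⟨ζ, a₂, by rw [ha, ha₁, map_zero, zero_add]⟩
    · have : ∃ l : K, a₂ = l • a₁ := by
        by_contra hcon
        push Not at hcon
        exact hli (pair_indep ha₁ hcon)
      obtain ⟨l, hl⟩ := this
      refine ⟨1 + ζ * algebraMap K F l, a₁, ?_⟩
      rw [ha, hl, R.smul]
      module
  have hfr : ∀ {k : ℕ} (x : Fin k → W), finrank K (Submodule.span K (Set.range x)) ≤ k := by
    intro k x
    have := finrank_range_le_card (R := K) x
    rw [Fintype.card_fin] at this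
    exact this
  have f1 := hfr ![u]
  obtain ⟨y, hy, hy', hyT⟩ := perp_val R.nd (k := 1) (by omega) ![u]
    (T := Submodule.span K (Set.range ![u])) (by omega) 0
  have e1 : polar Q y u = 0 := hy' 0
  have l1 : LinearIndependent K ![y, u] := li_cons2 hu0 hyT
  have f2 := hfr ![y, u]
  obtain ⟨y', hy2, hy2', hyT2⟩ := perp_val R.nd (k := 1) (by omega) ![u]
    (T := Submodule.span K (Set.range ![y, u])) (by omega) 0
  have e2 : polar Q y' u = 0 := hy2' 0
  have l2 : LinearIndependent K ![y', y, u] := li_cons3 l1 hyT2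
  -- the claim
  have claim : ∃ y₀ z : W, Q y₀ = 0 ∧ polar Q u y₀ = 0 ∧ h (j z) (g (j u)) = 0 ∧
      h (j z) (g (j y₀)) ≠ 0 := by
    by_contra hcon
    push Not at hcon
    have key : ∀ y₀, Q y₀ = 0 → polar Q u y₀ = 0 →
        g (j y₀) ∈ Submodule.span F {j a₁, j a₂} := by
      intro y₀ h1 h2
      obtain ⟨b₁, b₂, hb⟩ := R.dec (g (j y₀))
      have h3 : ∀ z, polar Q z a₁ = 0 → polar Q z a₂ = 0 → polar Q z b₁ = 0 ∧ polar Q z b₂ = 0 := by
        intro z h3 h4
        have h5 := hcon y₀ z h1 h2 (by rw [ha]; exact R.h_l0.2 ⟨h3, h4⟩)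
        rw [hb] at h5
        exact R.h_l0.1 h5
      have h4 : ∀ b : W, (∀ z, polar Q z a₁ = 0 → polar Q z a₂ = 0 → polar Q z b = 0) →
          j b ∈ Submodule.span F {j a₁, j a₂} := by
        intro b hb
        have : b ∈ Submodule.span K {a₁, a₂} := by
          by_contra hcon
          obtain ⟨w, hw, hw'⟩ := sep R.nd hcon
          apply hw'
          rw [p_comm]
          exact hb w (by rw [p_comm]; exact hw _ (Submodule.subset_span (by simp)))
            (by rw [p_comm]; exact hw _ (Submodule.subset_span (by simp)))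
        obtain ⟨s, t, rfl⟩ := Submodule.mem_span_pair.1 this
        rw [map_add, R.smul, R.smul]
        exact Submodule.add_mem _ (Submodule.smul_mem _ _ (Submodule.subset_span (by simp)))
          (Submodule.smul_mem _ _ (Submodule.subset_span (by simp)))
      rw [hb]
      exact Submodule.add_mem _ (h4 b₁ fun z h5 h6 => (h3 z h5 h6).1)
        (Submodule.smul_mem _ _ (h4 b₂ fun z h5 h6 => (h3 z h5 h6).2))
    have k1 := key y hy (by rw [p_comm, e1])
    have k2 := key y' hy2 (by rw [p_comm, e2])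
    have k3 : g (j u) ∈ Submodule.span F {j a₁, j a₂} := by
      rw [ha]
      exact Submodule.add_mem _ (Submodule.subset_span (by simp))
        (Submodule.smul_mem _ _ (Submodule.subset_span (by simp)))
    have hind : LinearIndependent F (fun i => g (j (![y', y, u] i))) :=
      (R.indep l2).map' (g : V →ₗ[F] V) (LinearMap.ker_eq_bot.2 g.injective)
    have hle : Submodule.span F (Set.range (fun i => g (j (![y', y, u] i)))) ≤
        Submodule.span F {j a₁, j a₂} := by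
      rw [Submodule.span_le]
      rintro _ ⟨i, rfl⟩
      fin_cases i
      · exact k2
      · exact k1
      · exact k3
    have hfin : FiniteDimensional F (Submodule.span F {j a₁, j a₂}) :=
      FiniteDimensional.span_of_finite F (by simp)
    have h6 := Submodule.finrank_mono hle
    rw [finrank_span_eq_card hind, Fintype.card_fin] at h6
    have h7 : finrank F (Submodule.span F {j a₁, j a₂}) ≤ 2 := by
      have e : ({j a₁, j a₂} : Set V) = Set.range ![j a₁, j a₂] := by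
        ext x; simp [or_comm]
      rw [e]
      have := finrank_range_le_card (R := F) ![j a₁, j a₂]
      rw [Fintype.card_fin] at this
      exact this
    omega
  obtain ⟨y₀, z, h1, h2, h3, h4⟩ := claim
  obtain ⟨p, hp⟩ := all_D R hS hN hMi hg hu h1 h2 z
  rw [Dm, h3, zero_smul, zero_sub, smul_neg, smul_smul, ← neg_smul] at hp
  refine ⟨(-(ζ⁻¹ * h (j z) (g (j y₀))))⁻¹, p, ?_⟩
  rw [← hp, smul_smul, inv_mul_cancel₀ (neg_ne_zero.2 (mul_ne_zero (inv_ne_zero h0) h4)), one_smul]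

/-- An isometry mapping rational singular vectors to multiples of rational vectors is rational up
to a scalar. -/
lemma semilinear [Finite K] (R : RO Q h j ζ) {g : V ≃ₗ[F] V}
    (hg : ∀ v : W, Q v = 0 → ∃ (μ : F) (x : W), g (j v) = μ • j x) :
    ∃ l : F, l ≠ 0 ∧ ∀ x : W, ∃ y : W, g (j x) = l • j y := by
  have hdim := R.dim
  have hfr : ∀ {k : ℕ} (x : Fin k → W), finrank K (Submodule.span K (Set.range x)) ≤ k := by
    intro k x
    have := finrank_range_le_card (R := K) x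
    rw [Fintype.card_fin] at this
    exact this
  have step : ∀ (v₁ v w₁ : W) (l : F), Q v₁ = 0 → Q v = 0 → l ≠ 0 → g (j v₁) = l • j w₁ →
      polar Q v₁ v = 0 → LinearIndependent K ![v₁, v] → ∃ y : W, g (j v) = l • j y := by
    intro v₁ v w₁ l hv₁ hv hl hg1 hne hlv
    have e4 : Q (v₁ + v) = 0 := by rw [Q_add, hv₁, hv, hne]; simp
    obtain ⟨μ, w₂, h2⟩ := hg v hv
    obtain ⟨ν, w₃, h3⟩ := hg (v₁ + v) e4
    rw [map_add, map_add, hg1, h2] at h3
    have hv₁0 : v₁ ≠ 0 := li_ne0 hlv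
    have hjl := R.indep hlv
    have hw₁0 : w₁ ≠ 0 := by
      rintro rfl
      rw [map_zero, smul_zero] at hg1
      apply hv₁0
      apply R.inj
      simpa using hg1
    have hli : LinearIndependent K ![w₁, w₂] := by
      apply pair_indep hw₁0
      intro a ha
      rw [ha, R.smul a w₁, smul_smul] at h2
      have h4 : g (j v) = g ((μ * algebraMap K F a / l) • j v₁) := by
        rw [h2, map_smul, hg1, smul_smul, div_mul_cancel₀ _ hl]
      have h5 := g.injective h4
      have h6 : ∑ i, ![-(μ * algebraMap K F a / l), 1] i • j (![v₁, v] i) = 0 := by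
        rw [Fin.sum_univ_two]
        show (-(μ * algebraMap K F a / l)) • j v₁ + (1 : F) • j v = 0
        rw [h5]; module
      exact one_ne_zero (Fintype.linearIndependent_iff.1 hjl _ h6 1)
    have hν : ν ≠ 0 := by
      rintro rfl
      rw [zero_smul] at h3
      have h4 : ∑ i, ![l, μ] i • j (![w₁, w₂] i) = 0 := by
        rw [Fin.sum_univ_two]; exact h3
      exact hl (Fintype.linearIndependent_iff.1 (R.indep hli) _ h4 0)
    have hsum : ∑ i, ![l / ν, μ / ν] i • j (![w₁, w₂] i) = j w₃ := by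
      rw [Fin.sum_univ_two]
      show (l / ν) • j w₁ + (μ / ν) • j w₂ = j w₃
      have : (l / ν) • j w₁ + (μ / ν) • j w₂ = ν⁻¹ • (l • j w₁ + μ • j w₂) := by
        rw [smul_add, smul_smul, smul_smul, div_eq_inv_mul, div_eq_inv_mul]
      rw [this, h3, smul_smul, inv_mul_cancel₀ hν, one_smul]
    obtain ⟨a, ha⟩ := R.coeff hli hsum 0
    obtain ⟨b, hb⟩ := R.coeff hli hsum 1
    have ha' : algebraMap K F a = l / ν := ha
    have hb' : algebraMap K F b = μ / ν := hb
    have hμ : μ = l * algebraMap K F (b / a) := by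
      rw [map_div₀, ha', hb']; field_simp
    refine ⟨(b / a) • w₂, ?_⟩
    rw [h2, R.smul, smul_smul, ← hμ]
  have f0 := hfr (![] : Fin 0 → W)
  obtain ⟨v₁, hv₁, -, hv₁'⟩ := perp_val R.nd (k := 0) (by omega) ![]
      (T := Submodule.span K (Set.range (![] : Fin 0 → W))) (by omega) 0
  have hv₁0 : v₁ ≠ 0 := by
    rintro rfl; exact hv₁' (Submodule.zero_mem _)
  obtain ⟨l, w₁, hl⟩ := hg v₁ hv₁
  have hl0 : l ≠ 0 := by
    rintro rfl
    rw [zero_smul] at hl
    apply hv₁0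
    apply R.inj
    simpa using hl
  refine ⟨l, hl0, fun x => ?_⟩
  let S : Submodule K W :=
    { carrier := {x | ∃ y : W, g (j x) = l • j y}
      add_mem' := by
        rintro a b ⟨c, hc⟩ ⟨d, hd⟩
        exact ⟨c + d, by rw [map_add, map_add, hc, hd, map_add, smul_add]⟩
      zero_mem' := ⟨0, by simp⟩
      smul_mem' := by
        rintro c a ⟨d, hd⟩
        exact ⟨c • d, by rw [R.smul, map_smul, hd, R.smul, smul_smul, smul_smul, mul_comm]⟩ }
  refine span_val R.nd (by omega) 0 S 0 ?_ (p_zero' _ _)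
  intro z hz _
  by_cases hz0 : z = 0
  · rw [hz0]; exact S.zero_mem
  have f2 := hfr ![v₁, z]
  obtain ⟨t, ht, ht', htT⟩ := perp_val R.nd (k := 2) (by omega) ![v₁, z]
    (T := Submodule.span K (Set.range ![v₁, z])) (by omega) 0
  have e1 : polar Q t v₁ = 0 := ht' 0
  have e2 : polar Q t z = 0 := ht' 1
  have l1 : LinearIndependent K ![t, v₁] := li_cons2 hv₁0 (notMem_mono htT (by
    intro i; fin_cases i; exact Submodule.subset_span ⟨0, rfl⟩))
  have l2 : LinearIndependent K ![t, z] := li_cons2 hz0 (notMem_mono htT (by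
    intro i; fin_cases i; exact Submodule.subset_span ⟨1, rfl⟩))
  obtain ⟨y, hy⟩ := step v₁ t w₁ l hv₁ ht hl0 hl (by rw [p_comm, e1]) (li_swap l1)
  exact step t z y l ht hz hl0 hy e2 l2

/-- Main dichotomy for overgroups. -/
theorem dichotomy [Finite K] (R : RO Q h j ζ) {M : Subgroup (V ≃ₗ[F] V)} (hS : HasS Q h j ζ M)
    (hMi : M ≤ isom h) :
    (∀ x, h x x = 0 → ∀ c, σ c = c → rf h x c ∈ M) ∨
      (∀ g ∈ M, ∃ l : F, l ≠ 0 ∧ ∀ x : W, ∃ y : W, g (j x) = l • j y) := by
  by_cases hN : NT Q h j M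
  · right
    intro g hg
    exact semilinear R fun v hv => rat_line R hS hN hMi hg hv
  · left
    unfold NT at hN
    push Not at hN
    obtain ⟨u, hu, c, hM, hu0, hc⟩ := hN
    intro x hx c' hc'
    exact full R hS (fun x hx d => tr_all R hS hu hu0 hc hM hx d) hx hc'

end H95.RatO
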