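import Mathlib
import Cfsg.Agent.Lib.H95.RatBridge
import Cfsg.Agent.Lib.H95.OBridge
import Cfsg.Agent.Lib.H95.RatQ3

set_option autoImplicit false

/-!
Orthogonal subfield groups.
-/

namespace H95.RatQB

open Module Cfsg Cfsg.Geo H95.Bridge QuadraticMap H17.OrthAbs H48.QuadSplit H95.OBridge H95.OSie
  H95.OGeo H95.RatQ H95.UBasic H95.RatBridge H95.RatGeo
open scoped Matrix MatrixGroups

/-- A Siegel element with non-rational coefficient is not rational. -/
lemma not_ratQ {K F W V : Type*} [Field K] [Field F] [Algebra K F] [AddCommGroup W] [Module K W]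
    [AddCommGroup V] [Module F V] {Q₀ : QuadraticForm K W} {Q : QuadraticForm F V}
    {j : W →+ V} [FiniteDimensional K W] [Finite K]
    (R : RQ Q₀ Q j) {c : F} (hcK : ∀ k : K, algebraMap K F k ≠ c) :
    ∃ u z, IQ Q₀ u z ∧ ¬ ∃ l : F, l ≠ 0 ∧ ∀ x : W, ∃ y : W, sie Q (j u) (c • j z) (j x) = l • j y := by
  obtain ⟨u, hu, -, hu'⟩ := R.perp (k := 0) (by omega) ![]
  have hu0 : u ≠ 0 := by
    rintro rfl; exact hu' (Submodule.zero_mem _)
  obtain ⟨z, hz, hz', hli⟩ := R.perp (k := 1) (by omega) ![u]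
  have e1 : polar Q₀ z u = 0 := hz' 0
  have l1 : LinearIndependent K ![z, u] := li_cons2 hu0 hli
  have P : IQ Q₀ u z := ⟨hu, hz, by rw [p_comm, e1], li_swap l1⟩
  obtain ⟨x, hx, hx'⟩ := R.dualv (k := 2) (by omega) l1 ![0, 1]
  have e3 : polar Q₀ x z = 0 := hx' 0
  have e4 : polar Q₀ x u = 1 := hx' 1
  refine ⟨u, z, P, ?_⟩
  rintro ⟨l, hl, h1⟩
  obtain ⟨y, hy⟩ := h1 x
  rw [sie_apply (P.q R) (P.p R c), Q_smul, R.quad0.2 hz, p_smul', R.form0.2 e3, R.form, e4,
    map_one] at hy
  have hy' : j x + c • j z = l • j y := by rw [← hy]; simp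
  have hli : LinearIndependent K ![z, x] := by
    apply pair_indep (li_ne0 l1)
    intro a ha
    rw [ha, p_smul, e1, mul_zero] at e4
    exact zero_ne_one e4
  have hsum : ∑ i, ![c / l, 1 / l] i • j (![z, x] i) = j y := by
    rw [Fin.sum_univ_two]
    show (c / l) • j z + (1 / l) • j x = j y
    have : (c / l) • j z + (1 / l) • j x = l⁻¹ • (j x + c • j z) := by
      rw [smul_add, smul_smul, div_eq_inv_mul, one_div]; abel
    rw [this, hy', smul_smul, inv_mul_cancel₀ hl, one_smul]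
  obtain ⟨a, ha⟩ := R.coeff hli hsum 0
  obtain ⟨b, hb⟩ := R.coeff hli hsum 1
  have ha' : algebraMap K F a = c / l := ha
  have hb' : algebraMap K F b = 1 / l := hb
  apply hcK (a / b)
  rw [map_div₀, ha', hb']
  field_simp

variable {ι : Type} [Fintype ι] [DecidableEq ι] {F : Type*} [Field F]

lemma polar_mem {Q : QuadraticForm F (ι → F)} {F₀ : Subfield F} {P : GL ι F}
    (hP : IsQuadFormRationalStructure (⇑Q) F₀ P) (u v : ι → F₀) :
    polar Q (jmap F₀ P u) (jmap F₀ P v) ∈ F₀ := by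
  have h : ∀ u : ι → F₀, Q (jmap F₀ P u) ∈ F₀ := fun u => hP _ (fun i => (u i).2)
  have h1 := h (u + v)
  rw [map_add, Q_add] at h1
  have h2 := F₀.sub_mem (F₀.sub_mem h1 (h u)) (h v)
  have e : Q (jmap F₀ P u) + Q (jmap F₀ P v) + polar Q (jmap F₀ P u) (jmap F₀ P v) -
      Q (jmap F₀ P u) - Q (jmap F₀ P v) = polar Q (jmap F₀ P u) (jmap F₀ P v) := by ring
  rwa [e] at h2

/-- the rational quadratic form -/
def quad₀ (Q : QuadraticForm F (ι → F)) (F₀ : Subfield F) (P : GL ι F)
    (hP : IsQuadFormRationalStructure (⇑Q) F₀ P) : QuadraticForm F₀ (ι → F₀) where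
  toFun u := ⟨Q (jmap F₀ P u), hP _ (fun i => (u i).2)⟩
  toFun_smul c u := by
    apply Subtype.ext
    show Q (jmap F₀ P (c • u)) = (c * c : F) * Q (jmap F₀ P u)
    rw [jmap_smul, Q_smul]
  exists_companion' := by
    refine ⟨LinearMap.mk₂ F₀ (fun u v => ⟨polar Q (jmap F₀ P u) (jmap F₀ P v), polar_mem hP u v⟩)
      (fun u u' v => ?_) (fun c u v => ?_) (fun u v v' => ?_) (fun c u v => ?_), fun u v => ?_⟩
    · apply Subtype.ext
      show polar Q (jmap F₀ P (u + u')) (jmap F₀ P v) = _ + _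
      rw [map_add, p_add]
    · apply Subtype.ext
      show polar Q (jmap F₀ P (c • u)) (jmap F₀ P v) = (c : F) * _
      rw [jmap_smul, p_smul]
    · apply Subtype.ext
      show polar Q (jmap F₀ P u) (jmap F₀ P (v + v')) = _ + _
      rw [map_add, p_add']
    · apply Subtype.ext
      show polar Q (jmap F₀ P u) (jmap F₀ P (c • v)) = (c : F) * _
      rw [jmap_smul, p_smul']
    · apply Subtype.ext
      show Q (jmap F₀ P (u + v)) = Q (jmap F₀ P u) + Q (jmap F₀ P v) +
        polar Q (jmap F₀ P u) (jmap F₀ P v)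
      rw [map_add, Q_add]

lemma mkRQ [Finite F] {Q : QuadraticForm F (ι → F)} (hQ : ND Q) (hι : 13 ≤ Fintype.card ι)
    {F₀ : Subfield F} {r : ℕ} (hr : r.Prime) (hcard : Nat.card F = Nat.card F₀ ^ r)
    {P : GL ι F} (hP : IsQuadFormRationalStructure (⇑Q) F₀ P) :
    RQ (quad₀ Q F₀ P hP) Q (jmap F₀ P) := by
  have hquad : ∀ x, Q (jmap F₀ P x) = algebraMap F₀ F (quad₀ Q F₀ P hP x) := fun x => rfl
  have hform : ∀ x y, polar Q (jmap F₀ P x) (jmap F₀ P y) =
      algebraMap F₀ F (polar (quad₀ Q F₀ P hP) x y) := by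
    intro x y
    have h1 := hquad (x + y)
    rw [map_add, Q_add, hquad, hquad, Q_add, map_add, map_add] at h1
    exact add_left_cancel h1
  exact
    { nd₀ := by
        intro x hx
        apply jmap_injective F₀ P
        apply hQ
        intro w
        induction span_jmap F₀ P w using Submodule.span_induction with
        | mem y hy =>
          obtain ⟨z, rfl⟩ := hy
          rw [hform, hx, map_zero]
        | zero => exact p_zero' _ _
        | add x y _ _ hx hy => rw [p_add', hx, hy, add_zero]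
        | smul a x _ hx => rw [p_smul', hx, mul_zero]
      nd := hQ
      smul := fun c x => jmap_smul F₀ P c x
      quad := hquad
      retr := fun φ => retr_jmap F₀ P φ
      span := fun v => span_jmap F₀ P v
      dim := by rw [Module.finrank_fintype_fun_eq_card]; exact hι
      prime := fun Y hY => prime_ext hr hcard Y hY }

theorem rat_max [Finite F] {Q : QuadraticForm F (ι → F)} (hQ : ND Q) (hι : 13 ≤ Fintype.card ι)
    {F₀ : Subfield F} {r : ℕ} (hr : r.Prime) (hcard : Nat.card F = Nat.card F₀ ^ r)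
    {P : GL ι F} (hP : IsQuadFormRationalStructure (⇑Q) F₀ P) :
    IsMaximalIn (omegaGL (⇑Q)) (subfieldSubgroup F₀ P ⊓ omegaGL (⇑Q)) := by
  have R := mkRQ hQ hι hr hcard hP
  set Q₀ := quad₀ Q F₀ P hP with hQ₀
  have hfr : finrank F (ι → F) = Fintype.card ι := Module.finrank_fintype_fun_eq_card F
  have hmem := mem_omegaGL Q
  obtain ⟨c, hc⟩ : ∃ c : F, ∀ k : F₀, algebraMap F₀ F k ≠ c := by
    by_contra hcon
    push Not at hcon
    have h1 : Nat.card F ≤ Nat.card F₀ :=
      Nat.card_le_card_of_surjective (algebraMap F₀ F) (fun c => hcon c)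
    have h2 : 1 < Nat.card F₀ := Finite.one_lt_card
    rw [hcard] at h1
    have h3 := Nat.pow_lt_pow_right h2 hr.one_lt
    rw [pow_one] at h3
    omega
  apply isMaximalIn_of
  · obtain ⟨u, z, hP', hu'⟩ := not_ratQ R hc
    refine ⟨(toEq _ F).symm (sie Q (jmap F₀ P u) (c • jmap F₀ P z)), ?_, ?_⟩
    · rw [hmem, MulEquiv.apply_symm_apply]
      exact sie_mem_omega hQ (by omega) (hP'.q R) (hP'.p R c)
    · rw [mem_subfield, MulEquiv.apply_symm_apply]; exact hu'
  · intro M hHM hMK ⟨g, hg, hgS⟩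
    have hMi : M.map (toEq _ F).toMonoidHom ≤ O Q := by
      rintro _ ⟨x, hx, rfl⟩
      exact omega_le_O Q ((hmem x).1 (hMK hx))
    have hS : HasE Q₀ Q (jmap F₀ P) (M.map (toEq _ F).toMonoidHom) := by
      intro u y hu huy
      rw [mem_map_toEq]
      refine hHM (Subgroup.mem_inf.2 ⟨?_, ?_⟩)
      · rw [mem_subfield, MulEquiv.apply_symm_apply]
        refine ⟨1, one_ne_zero, fun x => ⟨x + polar Q₀ x u • y - polar Q₀ x y • u -
          (Q₀ y * polar Q₀ x u) • u, ?_⟩⟩
        rw [one_smul, sie_apply (R.quad0.2 hu) (R.form0.2 huy), R.quad, R.form, R.form, map_sub,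
          map_sub, map_add, R.smul, R.smul, R.smul, map_mul]
      · rw [hmem, MulEquiv.apply_symm_apply]
        exact sie_mem_omega hQ (by omega) (R.quad0.2 hu) (R.form0.2 huy)
    rcases dichotomy R (by omega) hS hMi with h1 | h1
    · exact le_of_map hmem h1
    · exfalso
      apply hgS
      rw [mem_subfield]
      exact h1 _ ⟨g, hg, rfl⟩

end H95.RatQB
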