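import Mathlib
import Cfsg.Agent.Lib.H95.OSie
import Cfsg.Agent.Lib.H95.OGl
import Cfsg.Agent.Lib.H95.RatGeo

set_option autoImplicit false

/-!
Rational structures in orthogonal spaces: overgroups of the group generated by the rational Siegel
elements, first part.
-/

namespace H95.RatQT

open Module QuadraticMap H48.QuadSplit H95.OGeo H17.OrthAbs H95.OSie H95.UBasic H95.RatGeo

variable {K F W V : Type*} [Field K] [Field F] [Algebra K F] [AddCommGroup W] [Module K W]
  [AddCommGroup V] [Module F V]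

/-- orthogonal rational structures -/
structure RQ (Q₀ : QuadraticForm K W) (Q : QuadraticForm F V) (j : W →+ V) : Prop where
  nd₀ : ND Q₀
  nd : ND Q
  smul : ∀ (c : K) x, j (c • x) = algebraMap K F c • j x
  quad : ∀ x, Q (j x) = algebraMap K F (Q₀ x)
  retr : ∀ φ : F →ₗ[K] K, ∃ Φ : V →+ W, ∀ (a : F) (x : W), Φ (a • j x) = φ a • x
  span : ∀ v, v ∈ Submodule.span F (Set.range j)
  dim : 7 ≤ finrank K W
  prime : ∀ Y : Subring F, (∀ c : K, algebraMap K F c ∈ Y) →
    (∀ a ∈ Y, ∃ c : K, algebraMap K F c = a) ∨ (∀ a, a ∈ Y)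

variable {Q₀ : QuadraticForm K W} {Q : QuadraticForm F V} {j : W →+ V}

lemma RQ.form (R : RQ Q₀ Q j) (x y : W) : polar Q (j x) (j y) = algebraMap K F (polar Q₀ x y) := by
  have h1 := R.quad (x + y)
  rw [map_add, Q_add, R.quad, R.quad, Q_add, map_add, map_add] at h1
  exact add_left_cancel h1

lemma RQ.form0 (R : RQ Q₀ Q j) {x y : W} : polar Q (j x) (j y) = 0 ↔ polar Q₀ x y = 0 := by
  rw [R.form]
  constructor
  · intro h0; exact (algebraMap K F).injective (by rw [h0, map_zero])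
  · intro h0; rw [h0, map_zero]

lemma RQ.quad0 (R : RQ Q₀ Q j) {x : W} : Q (j x) = 0 ↔ Q₀ x = 0 := by
  rw [R.quad]
  constructor
  · intro h0; exact (algebraMap K F).injective (by rw [h0, map_zero])
  · intro h0; rw [h0, map_zero]

lemma RQ.j_sum (R : RQ Q₀ Q j) {ι : Type*} (s : Finset ι) (x : ι → W) (c : ι → K) :
    j (∑ i ∈ s, c i • x i) = ∑ i ∈ s, algebraMap K F (c i) • j (x i) := by
  rw [map_sum]
  exact Finset.sum_congr rfl fun i _ => R.smul _ _

lemma RQ.form_retr (R : RQ Q₀ Q j) {φ : F →ₗ[K] K} {Φ : V →+ W}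
    (hΦ : ∀ (a : F) (x : W), Φ (a • j x) = φ a • x) (v : V) (y : W) :
    polar Q₀ (Φ v) y = φ (polar Q v (j y)) := by
  have key : ∀ v, ∀ a : F, polar Q₀ (Φ (a • v)) y = φ (polar Q (a • v) (j y)) := by
    intro v
    induction R.span v using Submodule.span_induction with
    | mem x hx =>
      obtain ⟨z, rfl⟩ := hx
      intro a
      rw [hΦ, p_smul, p_smul, R.form]
      have : a * algebraMap K F (polar Q₀ z y) = (polar Q₀ z y) • a := by
        rw [Algebra.smul_def, mul_comm]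
      rw [this, map_smul, smul_eq_mul, mul_comm]
    | zero => intro a; rw [smul_zero, map_zero, p_zero, p_zero, map_zero]
    | add x y' _ _ hx hy =>
      intro a
      rw [smul_add, map_add, p_add, p_add, hx, hy, map_add]
    | smul b x _ hx => intro a; rw [smul_smul]; exact hx _
  have := key v 1
  rwa [one_smul] at this

/-- Rational independence implies independence. -/
lemma RQ.indep (R : RQ Q₀ Q j) {ι : Type*} [Fintype ι] {x : ι → W} (hx : LinearIndependent K x) :
    LinearIndependent F (fun i => j (x i)) := by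
  rw [Fintype.linearIndependent_iff] at hx ⊢
  intro g hg i
  by_contra hi
  obtain ⟨φ, hφ⟩ : ∃ φ : F →ₗ[K] K, φ (g i) ≠ 0 := by
    obtain ⟨φ, hφ⟩ := exists_phi K F
    refine ⟨φ ∘ₗ LinearMap.mulRight K (g i)⁻¹, ?_⟩
    have : φ 1 = 1 := by
      have := hφ 1
      rwa [map_one] at this
    simp only [LinearMap.comp_apply, LinearMap.mulRight_apply, mul_inv_cancel₀ hi, this]
    exact one_ne_zero
  obtain ⟨Φ, hΦ⟩ := R.retr φ
  have h1 := congrArg Φ hg
  rw [map_sum, map_zero] at h1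
  simp only [hΦ] at h1
  exact hφ (hx _ h1 i)

/-- Coefficients of a rational combination are rational. -/
lemma RQ.coeff (R : RQ Q₀ Q j) {ι : Type*} [Fintype ι] {x : ι → W} (hx : LinearIndependent K x)
    {g : ι → F} {y : W} (hg : ∑ i, g i • j (x i) = j y) (i : ι) :
    ∃ c : K, algebraMap K F c = g i := by
  obtain ⟨φ, hφ⟩ := exists_phi K F
  obtain ⟨Φ, hΦ⟩ := R.retr φ
  have h0 : φ 1 = 1 := by
    have := hφ 1
    rwa [map_one] at this
  have h1 := congrArg Φ hg
  rw [map_sum] at h1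
  have h2 : Φ (j y) = y := by
    have := hΦ 1 y
    rwa [one_smul, h0, one_smul] at this
  rw [h2] at h1
  simp only [hΦ] at h1
  have h3 := R.j_sum Finset.univ x (fun i => φ (g i))
  rw [h1, ← hg] at h3
  have h4 : ∑ i, (g i - algebraMap K F (φ (g i))) • j (x i) = 0 := by
    simp only [sub_smul, Finset.sum_sub_distrib]
    rw [← h3, sub_self]
  have h5 := Fintype.linearIndependent_iff.1 (R.indep hx) _ h4 i
  exact ⟨φ (g i), (sub_eq_zero.1 h5).symm⟩

lemma RQ.zero_of (R : RQ Q₀ Q j) {v : V} (hv : ∀ y, polar Q v (j y) = 0) : v = 0 := by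
  apply R.nd
  intro w
  induction R.span w using Submodule.span_induction with
  | mem x hx => obtain ⟨z, rfl⟩ := hx; exact hv z
  | zero => exact p_zero' _ _
  | add x y _ _ hx hy => rw [p_add', hx, hy, add_zero]
  | smul a x _ hx => rw [p_smul', hx, mul_zero]

/-- A vector having rational products with all rational vectors is rational. -/
lemma RQ.mem_range (R : RQ Q₀ Q j) {v : V} (hv : ∀ y, ∃ c : K, algebraMap K F c = polar Q v (j y)) :
    ∃ x, j x = v := by
  obtain ⟨φ, hφ⟩ := exists_phi K F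
  obtain ⟨Φ, hΦ⟩ := R.retr φ
  refine ⟨Φ v, ?_⟩
  rw [← sub_eq_zero]
  apply R.zero_of
  intro z
  obtain ⟨c, hc⟩ := hv z
  rw [p_sub, R.form, R.form_retr hΦ, ← hc, hφ, sub_self]

lemma RQ.inj (R : RQ Q₀ Q j) {x : W} (hx : j x = 0) : x = 0 := by
  apply R.nd₀
  intro w
  rw [← R.form0, hx, p_zero]

/-- independent orthogonal singular pairs -/
structure IQ (Q₀ : QuadraticForm K W) (u z : W) : Prop where
  uu : Q₀ u = 0
  zz : Q₀ z = 0
  uz : polar Q₀ u z = 0
  li : LinearIndependent K ![u, z]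

lemma IQ.symm {u z : W} (P : IQ Q₀ u z) : IQ Q₀ z u :=
  ⟨P.zz, P.uu, by rw [p_comm, P.uz], li_swap P.li⟩

/-- `M` contains all rational Siegel elements. -/
def HasE (Q₀ : QuadraticForm K W) (Q : QuadraticForm F V) (j : W →+ V)
    (M : Subgroup (V ≃ₗ[F] V)) : Prop :=
  ∀ u y : W, Q₀ u = 0 → polar Q₀ u y = 0 → sie Q (j u) (j y) ∈ M

section

variable [FiniteDimensional K W] [Finite K]

omit [FiniteDimensional K W] [Finite K] in
lemma frk {k : ℕ} (x : Fin k → W) : finrank K (Submodule.span K (Set.range x)) ≤ k := by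
  have := finrank_range_le_card (R := K) x
  rw [Fintype.card_fin] at this
  exact this

/-- a singular vector orthogonal to given vectors and outside a small subspace -/
lemma RQ.perpT (R : RQ Q₀ Q j) {k : ℕ} (x : Fin k → W) (L : Submodule K W)
    (h : k + finrank K L + 3 ≤ finrank K W) :
    ∃ z, Q₀ z = 0 ∧ (∀ i, polar Q₀ z (x i) = 0) ∧ z ∉ L := by
  have h1 := frk (K := K) x
  set P := orth Q₀ (Submodule.span K (Set.range x)) with hP
  have hdP := finrank_orth R.nd₀ (Submodule.span K (Set.range x))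
  rw [← hP] at hdP
  obtain ⟨C, hC⟩ := Submodule.exists_isCompl (Submodule.comap P.subtype L)
  have hdC := Submodule.finrank_add_eq_of_isCompl hC
  have h2 : finrank K (Submodule.comap P.subtype L) ≤ finrank K L := by
    rw [← Submodule.finrank_map_subtype_eq P (Submodule.comap P.subtype L)]
    apply Submodule.finrank_mono
    rw [Submodule.map_comap_subtype]
    exact inf_le_right
  obtain ⟨e, heC, he0, heQ⟩ := exists_sing (Q₀.restrict P) (U := C) (by omega)
  refine ⟨e, heQ, fun i => ?_, fun heL => he0 ?_⟩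
  · rw [p_comm]; exact e.2 _ (Submodule.subset_span ⟨i, rfl⟩)
  · have h3 : e ∈ (Submodule.comap P.subtype L) ⊓ C := ⟨heL, heC⟩
    rw [hC.inf_eq_bot] at h3
    exact (Submodule.mem_bot K).1 h3

/-- a singular vector orthogonal to given vectors and outside their span -/
lemma RQ.perp (R : RQ Q₀ Q j) {k : ℕ} (hk : k ≤ 2) (x : Fin k → W) :
    ∃ z, Q₀ z = 0 ∧ (∀ i, polar Q₀ z (x i) = 0) ∧ z ∉ Submodule.span K (Set.range x) := by
  have := R.dim
  have := frk (K := K) x
  exact R.perpT x _ (by omega)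

omit [Finite K] in
lemma RQ.dualc (R : RQ Q₀ Q j) {k : ℕ} {x : Fin k → W} (hx : LinearIndependent K x) (c : Fin k → K)
    (i₀ : Fin k) (hi : Q₀ (x i₀) = 0) (hp : ∀ i, polar Q₀ (x i₀) (x i) = 0) (hc : c i₀ = 1) :
    ∃ y, Q₀ y = 0 ∧ ∀ i, polar Q₀ y (x i) = c i := by
  obtain ⟨y0, hy0⟩ := H95.OGeo.dual R.nd₀ hx c
  refine ⟨y0 - Q₀ y0 • x i₀, ?_, fun i => ?_⟩
  · rw [Q_sub, Q_smul, p_smul', hy0, hc, hi]; ring
  · rw [p_sub, p_smul, hp, hy0]; ring

lemma RQ.dualv (R : RQ Q₀ Q j) {k : ℕ} (hk : k ≤ 2) {x : Fin k → W}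
    (hx : LinearIndependent K x) (c : Fin k → K) : ∃ y, Q₀ y = 0 ∧ ∀ i, polar Q₀ y (x i) = c i := by
  have := R.dim
  exact dual_val R.nd₀ (by omega) hx c 0

lemma RQ.spanv (R : RQ Q₀ Q j) (u : W) (S : Submodule K W)
    (hS : ∀ z, Q₀ z = 0 → polar Q₀ z u = 0 → z ∈ S) {y : W} (hy : polar Q₀ y u = 0) : y ∈ S := by
  have := R.dim
  exact span_val R.nd₀ (by omega) u S 0 hS hy

/-- a hyperbolic pair orthogonal to two vectors -/
lemma RQ.hyp2 (R : RQ Q₀ Q j) (u v : W) : ∃ e f, Q₀ e = 0 ∧ Q₀ f = 0 ∧ polar Q₀ e f = 1 ∧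
    polar Q₀ e u = 0 ∧ polar Q₀ e v = 0 ∧ polar Q₀ f u = 0 ∧ polar Q₀ f v = 0 := by
  have h0 := R.dim
  have h1 := frk (K := K) ![u, v]
  obtain ⟨e, he, f, hf, h2, h3, h4⟩ := exists_hyp R.nd₀ (L := Submodule.span K (Set.range ![u, v])) (by omega)
  have hu : u ∈ Submodule.span K (Set.range ![u, v]) := Submodule.subset_span ⟨0, rfl⟩
  have hv : v ∈ Submodule.span K (Set.range ![u, v]) := Submodule.subset_span ⟨1, rfl⟩
  exact ⟨e, f, h2, h3, h4, by rw [p_comm]; exact he u hu, by rw [p_comm]; exact he v hv,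
    by rw [p_comm]; exact hf u hu, by rw [p_comm]; exact hf v hv⟩

/-- singular vectors orthogonal to two vectors span the orthogonal subspace -/
lemma RQ.spanv2 (R : RQ Q₀ Q j) (u v : W) (S : Submodule K W)
    (hS : ∀ z, Q₀ z = 0 → polar Q₀ z u = 0 → polar Q₀ z v = 0 → z ∈ S) {y : W}
    (hy : polar Q₀ y u = 0) (hy' : polar Q₀ y v = 0) : y ∈ S := by
  obtain ⟨e, f, he, hf, hef, h1, h2, h3, h4⟩ := R.hyp2 u v
  have hfe : polar Q₀ f e = 1 := by rw [p_comm, hef]
  have heS := hS e he h1 h2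
  have hfS := hS f hf h3 h4
  obtain ⟨t, ht⟩ : ∃ t, t = y - polar Q₀ y f • e - polar Q₀ y e • f := ⟨_, rfl⟩
  have t1 : polar Q₀ t e = 0 := by rw [ht, p_sub, p_sub, p_smul, p_smul, p_self, he, hfe]; ring
  have t2 : polar Q₀ t f = 0 := by rw [ht, p_sub, p_sub, p_smul, p_smul, p_self, hf, hef]; ring
  have t3 : polar Q₀ t u = 0 := by rw [ht, p_sub, p_sub, p_smul, p_smul, hy, h1, h3]; ring
  have t4 : polar Q₀ t v = 0 := by rw [ht, p_sub, p_sub, p_smul, p_smul, hy', h2, h4]; ring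
  have hz : t + (e - Q₀ t • f) ∈ S := by
    apply hS
    · rw [Q_add, Q_sub, Q_smul, p_smul', p_sub', p_smul', t1, t2, he, hf, hef]; ring
    · rw [p_add, p_sub, p_smul, t3, h1, h3]; ring
    · rw [p_add, p_sub, p_smul, t4, h2, h4]; ring
  have htS : t ∈ S := (Submodule.add_mem_iff_left S (S.sub_mem heS (S.smul_mem _ hfS))).1 hz
  have : y = t + polar Q₀ y f • e + polar Q₀ y e • f := by rw [ht]; abel
  rw [this]
  exact S.add_mem (S.add_mem htS (S.smul_mem _ heS)) (S.smul_mem _ hfS)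

omit [FiniteDimensional K W] [Finite K] in
/-- Lemma B. -/
lemma moveB (R : RQ Q₀ Q j) {M : Subgroup (V ≃ₗ[F] V)} (hE : HasE Q₀ Q j M) {x y : V}
    (hx : Q x = 0) (hxy : polar Q x y = 0) (hM : sie Q x y ∈ M) {z' z'' : W} (h1 : Q₀ z' = 0)
    (h2 : Q₀ z'' = 0) (h3 : polar Q₀ z' z'' = 0) (h4 : polar Q x (j z') = 0)
    (h5 : polar Q x (j z'') = 0) :
    sie Q x (polar Q y (j z') • j z'' - polar Q y (j z'') • j z') ∈ M := by
  have q1 := R.quad0.2 h1
  have q2 := R.quad0.2 h2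
  have q3 := R.form0.2 h3
  have hs := hE z' z'' h1 h3
  have hfix : sie Q (j z') (j z'') x = x := by
    rw [sie_apply q1 q3, h4, h5]; simp
  have h6 := comm_stab hx hxy hM hs (sie_mem_O _ _ _) hfix
  have e : sie Q (j z') (j z'') y - y = polar Q y (j z') • j z'' - polar Q y (j z'') • j z' := by
    rw [sie_apply q1 q3, q2]
    simp only [zero_mul, zero_smul, sub_zero]
    abel
  rwa [e] at h6

/-- the set of coefficients -/
def YY (Q₀ : QuadraticForm K W) (Q : QuadraticForm F V) (j : W →+ V)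
    (M : Subgroup (V ≃ₗ[F] V)) (a : F) : Prop :=
  ∀ u z : W, IQ Q₀ u z → sie Q (j u) (a • j z) ∈ M

omit [FiniteDimensional K W] [Finite K] in
lemma IQ.q (R : RQ Q₀ Q j) {u z : W} (P : IQ Q₀ u z) : Q (j u) = 0 := R.quad0.2 P.uu

omit [FiniteDimensional K W] [Finite K] in
lemma IQ.p (R : RQ Q₀ Q j) {u z : W} (P : IQ Q₀ u z) (a : F) : polar Q (j u) (a • j z) = 0 := by
  rw [p_smul', R.form0.2 P.uz, mul_zero]

lemma move1 (R : RQ Q₀ Q j) {M : Subgroup (V ≃ₗ[F] V)} (hE : HasE Q₀ Q j M) {a : F} {u z z₁ : W}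
    (P : IQ Q₀ u z) (hM : sie Q (j u) (a • j z) ∈ M) (h1 : Q₀ z₁ = 0) (h2 : polar Q₀ u z₁ = 0)
    (h3 : polar Q₀ z z₁ = 0) (hli : LinearIndependent K ![z₁, u, z]) :
    sie Q (j u) (a • j z₁) ∈ M := by
  obtain ⟨z', hz', hz''⟩ := R.dualc hli ![0, 0, 1] 2 P.zz (fun i => by
    fin_cases i
    · exact h3
    · show polar Q₀ z u = 0
      rw [p_comm]; exact P.uz
    · show polar Q₀ z z = 0
      rw [p_self, P.zz, mul_zero]) rfl
  have e1 : polar Q₀ z' z₁ = 0 := hz'' 0
  have e2 : polar Q₀ z' u = 0 := hz'' 1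
  have e3 : polar Q₀ z' z = 1 := hz'' 2
  have h4 := moveB R hE (P.q R) (P.p R a) hM hz' h1 e1 (by rw [p_comm, R.form0.2 e2])
    (R.form0.2 h2)
  have e4 : polar Q (a • j z) (j z') = a := by
    rw [p_smul, p_comm, R.form, e3, map_one, mul_one]
  have e5 : polar Q (a • j z) (j z₁) = 0 := by
    rw [p_smul, R.form0.2 h3, mul_zero]
  rwa [e4, e5, zero_smul, sub_zero] at h4

lemma move2 (R : RQ Q₀ Q j) {M : Subgroup (V ≃ₗ[F] V)} (hE : HasE Q₀ Q j M) {a : F} {u z z₂ : W}
    (P : IQ Q₀ u z) (hM : sie Q (j u) (a • j z) ∈ M) (P2 : IQ Q₀ u z₂) :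
    sie Q (j u) (a • j z₂) ∈ M := by
  have hspan2 : ∀ {a b c : W}, c ∈ Submodule.span K (Set.range ![a, b]) → ∃ s t : K, c = s • a + t • b := by
    intro a b c h
    have e : Set.range ![a, b] = {a, b} := by ext x; simp [or_comm]
    rw [e] at h
    obtain ⟨s, t, h⟩ := Submodule.mem_span_pair.1 h
    exact ⟨s, t, h.symm⟩
  -- a vector in between
  suffices hmid : ∃ z₁, Q₀ z₁ = 0 ∧ polar Q₀ z₁ u = 0 ∧ polar Q₀ z₁ z = 0 ∧ polar Q₀ z₁ z₂ = 0 ∧
      LinearIndependent K ![z₁, u, z] ∧ LinearIndependent K ![z₁, u, z₂] by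
    obtain ⟨z₁, hz₁, e1, e2, e3, l1, l2⟩ := hmid
    have s1 := move1 R hE P hM hz₁ (by rw [p_comm, e1]) (by rw [p_comm, e2]) l1
    have P1 : IQ Q₀ u z₁ := ⟨P.uu, hz₁, by rw [p_comm, e1], li_swap (li3_01 l2)⟩
    exact move1 R hE P1 s1 P2.zz P2.uz e3 (li3_perm1 l2)
  have hdim := R.dim
  by_cases hzz : polar Q₀ z z₂ = 0
  · by_cases hmem : z₂ ∈ Submodule.span K (Set.range ![u, z])
    · obtain ⟨z₁, hz₁, hz₁', hli⟩ := R.perp (k := 2) (by omega) ![u, z]
      have e1 : polar Q₀ z₁ u = 0 := hz₁' 0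
      have e2 : polar Q₀ z₁ z = 0 := hz₁' 1
      obtain ⟨s, t, hst⟩ := hspan2 hmem
      refine ⟨z₁, hz₁, e1, e2, ?_, li_cons3 P.li hli, li_cons3 P2.li (notMem_mono hli ?_)⟩
      · rw [hst, p_add', p_smul', p_smul', e1, e2]; ring
      · intro i; fin_cases i
        · exact Submodule.subset_span ⟨0, rfl⟩
        · exact hmem
    · -- directly through the sum
      refine ⟨z + z₂, ?_, ?_, ?_, ?_, ?_, ?_⟩
      · rw [Q_add, P.zz, P2.zz, hzz]; ring
      · rw [p_add, p_comm Q₀ z, P.uz, p_comm Q₀ z₂, P2.uz]; ring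
      · rw [p_add, p_self, P.zz, p_comm Q₀ z₂, hzz]; ring
      · rw [p_add, p_self, P2.zz, hzz]; ring
      · refine li_cons3 P.li fun h => hmem ?_
        have h1 : z ∈ Submodule.span K (Set.range ![u, z]) := Submodule.subset_span ⟨1, rfl⟩
        exact (Submodule.add_mem_iff_right _ h1).1 h
      · refine li_cons3 P2.li fun h => hmem ?_
        have h1 : z₂ ∈ Submodule.span K (Set.range ![u, z₂]) := Submodule.subset_span ⟨1, rfl⟩
        obtain ⟨s, t, hst⟩ := hspan2 ((Submodule.add_mem_iff_left _ h1).1 h)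
        have ht : t ≠ 0 := by
          rintro rfl
          rw [zero_smul, add_zero] at hst
          have h2 := LinearIndependent.pair_iff.1 P.li s (-1) (by rw [← hst]; module)
          exact one_ne_zero (neg_eq_zero.1 h2.2)
        have h2 : z₂ = (-(t⁻¹ * s)) • u + t⁻¹ • z := by
          rw [hst, smul_add, smul_smul, smul_smul, inv_mul_cancel₀ ht]; module
        rw [h2]
        exact Submodule.add_mem _ (Submodule.smul_mem _ _ (Submodule.subset_span ⟨0, rfl⟩))
          (Submodule.smul_mem _ _ (Submodule.subset_span ⟨1, rfl⟩))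
  · have hfu : finrank K (Submodule.span K ({u} : Set W)) ≤ 1 := by
      have h := finrank_span_le_card (R := K) ({u} : Set W)
      simpa using h
    obtain ⟨z₁, hz₁, hz₁', hli⟩ := R.perpT ![u, z, z₂] (Submodule.span K {u}) (by omega)
    have e1 : polar Q₀ z₁ u = 0 := hz₁' 0
    have e2 : polar Q₀ z₁ z = 0 := hz₁' 1
    have e3 : polar Q₀ z₁ z₂ = 0 := hz₁' 2
    refine ⟨z₁, hz₁, e1, e2, e3, li_cons3 P.li fun h => hli ?_, li_cons3 P2.li fun h => hli ?_⟩
    · obtain ⟨s, t, hst⟩ := hspan2 h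
      have h1 := e3
      rw [hst, p_add, p_smul, p_smul, P2.uz, mul_zero, zero_add] at h1
      have ht : t = 0 := (mul_eq_zero.1 h1).resolve_right hzz
      rw [hst, ht, zero_smul, add_zero]
      exact Submodule.smul_mem _ _ (Submodule.mem_span_singleton_self u)
    · obtain ⟨s, t, hst⟩ := hspan2 h
      have h1 := e2
      rw [hst, p_add, p_smul, p_smul, P.uz, mul_zero, zero_add, p_comm] at h1
      have ht : t = 0 := (mul_eq_zero.1 h1).resolve_right hzz
      rw [hst, ht, zero_smul, add_zero]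
      exact Submodule.smul_mem _ _ (Submodule.mem_span_singleton_self u)

omit [FiniteDimensional K W] [Finite K] in
lemma swapE (R : RQ Q₀ Q j) {M : Subgroup (V ≃ₗ[F] V)} {a : F} {u z : W}
    (P : IQ Q₀ u z) : sie Q (j u) (a • j z) ∈ M ↔ sie Q (j z) ((-a) • j u) ∈ M := by
  have h1 := R.quad0.2 P.uu
  have h2 := R.quad0.2 P.zz
  have h3 := R.form0.2 P.uz
  rw [sie_swap h1 (by rw [Q_smul, h2, mul_zero]) (P.p R a),
    sie_smul h2 (by rw [p_neg', p_comm, h3, neg_zero]), smul_neg, neg_smul]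

/-- one to all -/
lemma one_all (R : RQ Q₀ Q j) {M : Subgroup (V ≃ₗ[F] V)} (hE : HasE Q₀ Q j M) {a : F} {u z : W}
    (P : IQ Q₀ u z) (hM : sie Q (j u) (a • j z) ∈ M) : YY Q₀ Q j M a := by
  intro u' z' P'
  obtain ⟨z₁, hz₁, hz₁', hli⟩ := R.perp (k := 2) (by omega) ![u, u']
  have e1 : polar Q₀ z₁ u = 0 := hz₁' 0
  have e2 : polar Q₀ z₁ u' = 0 := hz₁' 1
  have l1 : LinearIndependent K ![z₁, u] := li_cons2 (li_ne0 P.li) (notMem_mono hli (by
    intro i; fin_cases i; exact Submodule.subset_span ⟨0, rfl⟩))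
  have l2 : LinearIndependent K ![z₁, u'] := li_cons2 (li_ne0 P'.li) (notMem_mono hli (by
    intro i; fin_cases i; exact Submodule.subset_span ⟨1, rfl⟩))
  have P1 : IQ Q₀ u z₁ := ⟨P.uu, hz₁, by rw [p_comm, e1], li_swap l1⟩
  have P2 : IQ Q₀ z₁ u' := ⟨hz₁, P'.uu, e2, l2⟩
  have s1 := move2 R hE P hM P1
  have s2 := (swapE R P1).1 s1
  have s3 := move2 R hE P1.symm s2 P2
  have s4 := (swapE R P2).1 s3
  rw [neg_neg] at s4
  exact move2 R hE P2.symm s4 P'

omit [FiniteDimensional K W] [Finite K] in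
lemma YY_base (R : RQ Q₀ Q j) {M : Subgroup (V ≃ₗ[F] V)} (hE : HasE Q₀ Q j M) (c : K) :
    YY Q₀ Q j M (algebraMap K F c) := by
  intro u z P
  have := hE u (c • z) P.uu (by rw [p_smul', P.uz, mul_zero])
  rwa [R.smul] at this

omit [FiniteDimensional K W] [Finite K] in
lemma YY_add (R : RQ Q₀ Q j) {M : Subgroup (V ≃ₗ[F] V)} {a b : F}
    (ha : YY Q₀ Q j M a) (hb : YY Q₀ Q j M b) : YY Q₀ Q j M (a + b) := by
  intro u z P
  have h1 := M.mul_mem (ha u z P) (hb u z P)
  rwa [sie_mul (P.q R) (P.p R a) (P.p R b), ← add_smul] at h1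

lemma YY_mul (R : RQ Q₀ Q j) {M : Subgroup (V ≃ₗ[F] V)} {a b : F}
    (ha : YY Q₀ Q j M a) (hb : YY Q₀ Q j M b) : YY Q₀ Q j M (a * b) := by
  intro u z'' P
  obtain ⟨z, hz, hz', hli⟩ := R.perp (k := 2) (by omega) ![u, z'']
  have e1 : polar Q₀ z u = 0 := hz' 0
  have e2 : polar Q₀ z z'' = 0 := hz' 1
  have l1 : LinearIndependent K ![z, u, z''] := li_cons3 P.li hli
  obtain ⟨z', hw, hw'⟩ := R.dualc l1 ![1, 0, 0] 0 hz (fun i => by
    fin_cases i
    · show polar Q₀ z z = 0
      rw [p_self, hz, mul_zero]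
    · exact e1
    · exact e2) rfl
  have e3 : polar Q₀ z' z = 1 := hw' 0
  have e4 : polar Q₀ z' u = 0 := hw' 1
  have e5 : polar Q₀ z' z'' = 0 := hw' 2
  have Pz : IQ Q₀ u z := ⟨P.uu, hz, by rw [p_comm, e1], li_swap (li3_01 l1)⟩
  have l2 : LinearIndependent K ![z', z''] := by
    rw [LinearIndependent.pair_iff]
    intro s t hst
    have h1 := congrArg (fun x => polar Q₀ x z) hst
    simp only [p_add, p_smul, e3, p_comm Q₀ z'' z, e2, p_zero] at h1
    have hs : s = 0 := by simpa using h1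
    rw [hs, zero_smul, zero_add] at hst
    exact ⟨hs, (smul_eq_zero.1 hst).resolve_right (li_ne1 P.li)⟩
  have P' : IQ Q₀ z' z'' := ⟨hw, P.zz, e5, l2⟩
  have hs := hb z' z'' P'
  have hsu : sie Q (j z') (b • j z'') (j u) = j u := by
    rw [sie_apply (P'.q R) (P'.p R b), R.form0.2 (by rw [p_comm, e4] : polar Q₀ u z' = 0), p_smul',
      R.form0.2 P.uz]
    simp
  have h1 := comm_stab (Pz.q R) (Pz.p R a) (ha u z Pz) hs (sie_mem_O _ _ _) hsu
  have e7 : sie Q (j z') (b • j z'') (a • j z) - a • j z = (a * b) • j z'' := by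
    have q1 : polar Q (a • j z) (b • j z'') = 0 := by rw [p_smul, p_smul', R.form0.2 e2]; ring
    have q2 : polar Q (a • j z) (j z') = a := by
      rw [p_smul, p_comm, R.form, e3, map_one, mul_one]
    have q3 : Q (b • j z'') = 0 := by rw [Q_smul, R.quad0.2 P.zz, mul_zero]
    rw [sie_apply (P'.q R) (P'.p R b), q1, q2, q3]
    simp only [zero_mul, zero_smul, sub_zero, smul_smul, add_sub_cancel_left]
  rwa [e7] at h1

/-- The coefficient ring. -/
def YR (R : RQ Q₀ Q j) (M : Subgroup (V ≃ₗ[F] V)) (hE : HasE Q₀ Q j M) : Subring F where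
  carrier := {a | YY Q₀ Q j M a}
  mul_mem' ha hb := YY_mul R ha hb
  one_mem' := by
    have := YY_base R hE 1
    rwa [map_one] at this
  add_mem' ha hb := YY_add R ha hb
  zero_mem' := by
    have := YY_base R hE 0
    rwa [map_zero] at this
  neg_mem' {a} ha := by
    have h1 := YY_base R hE (-1)
    have h2 := YY_mul R h1 ha
    rw [map_neg, map_one, neg_one_mul] at h2
    exact h2

lemma YY_dichotomy (R : RQ Q₀ Q j) {M : Subgroup (V ≃ₗ[F] V)} (hE : HasE Q₀ Q j M) :
    (∀ a, YY Q₀ Q j M a → ∃ c : K, algebraMap K F c = a) ∨ (∀ a, YY Q₀ Q j M a) :=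
  R.prime (YR R M hE) (fun c => YY_base R hE c)

/-- All Siegel elements for rational singular vectors. -/
lemma all_full (R : RQ Q₀ Q j) {M : Subgroup (V ≃ₗ[F] V)}
    (hall : ∀ a, YY Q₀ Q j M a) {u : W} (hu : Q₀ u = 0) (hu0 : u ≠ 0) : Full Q M (j u) := by
  have hju := R.quad0.2 hu
  refine ⟨hju, fun y hy => ?_⟩
  let S : Submodule F V :=
    { carrier := {y | polar Q (j u) y = 0 ∧ ∀ a : F, sie Q (j u) (a • y) ∈ M}
      add_mem' := by
        rintro a b ⟨h1, h2⟩ ⟨h3, h4⟩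
        refine ⟨by rw [p_add', h1, h3, add_zero], fun c => ?_⟩
        rw [smul_add, ← sie_mul hju (by rw [p_smul', h1, mul_zero]) (by rw [p_smul', h3, mul_zero])]
        exact M.mul_mem (h2 c) (h4 c)
      zero_mem' := by
        refine ⟨p_zero' _ _, fun c => ?_⟩
        rw [smul_zero, sie_zero hju]; exact M.one_mem
      smul_mem' := by
        rintro c a ⟨h1, h2⟩
        refine ⟨by rw [p_smul', h1, mul_zero], fun d => ?_⟩
        rw [smul_smul]; exact h2 _ }
  -- rational vectors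
  have hrat : ∀ w : W, polar Q₀ w u = 0 → j w ∈ S := by
    intro w hw
    let S' : Submodule K W :=
      { carrier := {w | j w ∈ S}
        add_mem' := fun {a b} ha hb => by
          show j (a + b) ∈ S
          rw [map_add]; exact S.add_mem ha hb
        zero_mem' := by
          show j 0 ∈ S
          rw [map_zero]; exact S.zero_mem
        smul_mem' := fun c a ha => by
          show j (c • a) ∈ S
          rw [R.smul]; exact S.smul_mem _ ha }
    refine R.spanv u S' ?_ hw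
    intro z hz hzu
    have h0 : polar Q (j u) (j z) = 0 := R.form0.2 (by rw [p_comm, hzu])
    refine ⟨h0, fun a => ?_⟩
    by_cases hli : LinearIndependent K ![u, z]
    · exact hall a u z ⟨hu, hz, by rw [p_comm, hzu], hli⟩
    · have : ∃ l : K, z = l • u := by
        by_contra hcon
        push Not at hcon
        exact hli (pair_indep hu0 hcon)
      obtain ⟨l, rfl⟩ := this
      rw [R.smul, smul_smul]
      have h1 := sie_add_u hju (p_zero' Q (j u)) (a * algebraMap K F l)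
      rw [zero_add, sie_zero hju] at h1
      rw [h1]; exact M.one_mem
  obtain ⟨v, hv, hv'⟩ := R.dualv (k := 1) (x := ![u]) (by omega) (by
    rw [linearIndependent_unique_iff]; simpa using hu0) ![1]
  have e1 : polar Q₀ v u = 1 := hv' 0
  have hproj : ∀ y : V, y - polar Q y (j u) • j v ∈ S := by
    intro y
    induction R.span y using Submodule.span_induction with
    | mem x hx =>
      obtain ⟨w, rfl⟩ := hx
      have e : j w - polar Q (j w) (j u) • j v = j (w - polar Q₀ w u • v) := by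
        rw [map_sub, R.smul, R.form]
      rw [e]
      apply hrat
      rw [p_sub, p_smul, e1, mul_one, sub_self]
    | zero =>
      rw [p_zero, zero_smul, sub_zero]; exact S.zero_mem
    | add x y _ _ hx hy =>
      have e : x + y - polar Q (x + y) (j u) • j v =
          (x - polar Q x (j u) • j v) + (y - polar Q y (j u) • j v) := by
        rw [p_add]; module
      rw [e]; exact S.add_mem hx hy
    | smul a x _ hx =>
      have e : a • x - polar Q (a • x) (j u) • j v = a • (x - polar Q x (j u) • j v) := by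
        rw [p_smul]; module
      rw [e]; exact S.smul_mem _ hx
  have h1 := hproj y
  rw [p_comm, hy, zero_smul, sub_zero] at h1
  have h2 := h1.2 1
  rwa [one_smul] at h2

theorem omega_of_all (R : RQ Q₀ Q j) [FiniteDimensional F V] [Finite F]
    (hn : 7 ≤ finrank F V) {M : Subgroup (V ≃ₗ[F] V)}
    (hall : ∀ a, YY Q₀ Q j M a) : ⁅O Q, O Q⁆ ≤ M := by
  obtain ⟨u, hu, -, hu'⟩ := R.perp (k := 0) (by omega) ![]
  have hu0 : u ≠ 0 := by
    rintro rfl; exact hu' (Submodule.zero_mem _)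
  obtain ⟨v, hv, hv'⟩ := R.dualv (k := 1) (x := ![u]) (by omega) (by
    rw [linearIndependent_unique_iff]; simpa using hu0) ![1]
  have e1 : polar Q₀ v u = 1 := hv' 0
  have hv0 : v ≠ 0 := by rintro rfl; rw [p_zero] at e1; exact zero_ne_one e1
  refine omega_le_of_full R.nd hn (all_full R hall hu hu0) (all_full R hall hv hv0) ?_
  rw [R.form, e1, map_one]; exact one_ne_zero

end

end H95.RatQT
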