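import Mathlib
import Cfsg.Agent.Lib.H95.RatQT

set_option autoImplicit false

/-!
Rational structures in orthogonal spaces, second part: only rational coefficients.
-/

namespace H95.RatQT

open Module QuadraticMap H48.QuadSplit H95.OGeo H17.OrthAbs H95.OSie H95.UBasic H95.RatGeo

variable {K F W V : Type*} [Field K] [Field F] [Algebra K F] [AddCommGroup W] [Module K W]
  [AddCommGroup V] [Module F V]
  {Q₀ : QuadraticForm K W} {Q : QuadraticForm F V} {j : W →+ V}
  [FiniteDimensional K W] [Finite K]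

/-- Lemma R, first step: two commutators -/
lemma two_comm (R : RQ Q₀ Q j) {M : Subgroup (V ≃ₗ[F] V)} (hE : HasE Q₀ Q j M) {u z : W}
    {y : V} (P : IQ Q₀ u z) (hy : polar Q (j u) y = 0) (hM : sie Q (j u) y ∈ M) :
    sie Q (j u) (polar Q y (j z) • j z) ∈ M := by
  obtain ⟨w, z', hw, hz', hwz', w1, w2, w3, w4⟩ := R.hyp2 u z
  have hju := R.quad0.2 P.uu
  have a1 : polar Q (j u) (j z) = 0 := R.form0.2 P.uz
  have a2 : polar Q (j u) (j w) = 0 := R.form0.2 (by rw [p_comm, w1])
  have a3 : polar Q (j u) (j z') = 0 := R.form0.2 (by rw [p_comm, w3])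
  have h1 := moveB R hE hju hy hM P.zz hw (by rw [p_comm, w2]) a1 a2
  set α := polar Q y (j z) with hα
  set β := polar Q y (j w) with hβ
  have h2 := moveB R hE hju (by
    rw [p_sub', p_smul', p_smul', a1, a2]; ring) h1 hz' P.zz w4 a3 a1
  have e1 : polar Q (α • j w - β • j z) (j z') = α := by
    rw [p_sub, p_smul, p_smul, R.form, hwz', p_comm Q (j z), R.form0.2 w4, map_one]
    ring
  have e2 : polar Q (α • j w - β • j z) (j z) = 0 := by
    rw [p_sub, p_smul, p_smul, R.form0.2 w2, p_self, R.quad0.2 P.zz]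
    ring
  rwa [e1, e2, zero_smul, sub_zero] at h2

/-- Lemma R. -/
lemma rational_E (R : RQ Q₀ Q j) {M : Subgroup (V ≃ₗ[F] V)} (hE : HasE Q₀ Q j M)
    (hK : ∀ a, YY Q₀ Q j M a → ∃ c : K, algebraMap K F c = a) {u : W} (hu : Q₀ u = 0)
    (hu0 : u ≠ 0) {y : V} (hy : polar Q (j u) y = 0) (hM : sie Q (j u) y ∈ M) :
    ∃ (y₀ : W) (a : F), y = j y₀ + a • j u := by
  have hju := R.quad0.2 hu
  have hyu : polar Q y (j u) = 0 := by rw [p_comm, hy]
  have stepa : ∀ z, IQ Q₀ u z → ∃ c : K, algebraMap K F c = polar Q y (j z) := by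
    intro z P
    exact hK _ (one_all R hE P (two_comm R hE P hy hM))
  let S : Submodule K W :=
    { carrier := {z | ∃ c : K, algebraMap K F c = polar Q y (j z)}
      add_mem' := by
        rintro a b ⟨c, hc⟩ ⟨d, hd⟩
        exact ⟨c + d, by rw [map_add, map_add, p_add', hc, hd]⟩
      zero_mem' := ⟨0, by rw [map_zero, map_zero, p_zero']⟩
      smul_mem' := by
        rintro c a ⟨d, hd⟩
        exact ⟨c * d, by rw [R.smul, p_smul', map_mul, hd]⟩ }
  have stepb : ∀ z, polar Q₀ z u = 0 → z ∈ S := by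
    intro z hz
    refine R.spanv u S ?_ hz
    intro z hz hzu
    by_cases hli : LinearIndependent K ![u, z]
    · exact stepa z ⟨hu, hz, by rw [p_comm, hzu], hli⟩
    · have : ∃ l : K, z = l • u := by
        by_contra hcon
        push Not at hcon
        exact hli (pair_indep hu0 hcon)
      obtain ⟨l, rfl⟩ := this
      exact ⟨0, by rw [R.smul, p_smul', hyu, mul_zero, map_zero]⟩
  obtain ⟨v, hv1, hv'⟩ := R.dualv (k := 1) (x := ![u]) (by omega) (by
    rw [linearIndependent_unique_iff]; simpa using hu0) ![1]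
  have e1 : polar Q₀ v u = 1 := hv' 0
  have e2 : polar Q₀ u v = 1 := by rw [p_comm, e1]
  have hrange : ∃ x, j x = y - (polar Q y (j v)) • j u := by
    apply R.mem_range
    intro w
    have e3 : polar Q (y - (polar Q y (j v)) • j u) (j v) = 0 := by
      rw [p_sub, p_smul, R.form, e2, map_one, mul_one, sub_self]
    have e4 : polar Q₀ (w - polar Q₀ w u • v) u = 0 := by
      rw [p_sub, p_smul, e1, mul_one, sub_self]
    obtain ⟨c, hc⟩ := stepb _ e4
    refine ⟨c, ?_⟩
    rw [hc]
    have e5 : polar Q (y - (polar Q y (j v)) • j u) (j w) =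
        polar Q (y - (polar Q y (j v)) • j u) (j (w - polar Q₀ w u • v)) := by
      rw [map_sub, R.smul, p_sub', p_smul', e3, mul_zero, sub_zero]
    rw [e5, p_sub, p_smul, R.form0.2 (by rw [p_comm]; exact e4), mul_zero, sub_zero]
  obtain ⟨x, hx⟩ := hrange
  exact ⟨x, polar Q y (j v), by rw [hx]; abel⟩

/-- a vector orthogonal to all singular rational vectors orthogonal to `u`, `v` -/
lemma exists_z (R : RQ Q₀ Q j) {u v : W} (hli : LinearIndependent K ![u, v]) (huv : polar Q₀ u v = 0)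
    (huu : Q₀ u = 0) (hvv : Q₀ v = 0) {w : V}
    (hw : w ∉ Submodule.span F {j u, j v}) :
    ∃ z, Q₀ z = 0 ∧ polar Q₀ z u = 0 ∧ polar Q₀ z v = 0 ∧ polar Q w (j z) ≠ 0 := by
  by_contra hcon
  push Not at hcon
  obtain ⟨u', hu', hu'd⟩ := R.dualv (k := 2) (by omega) hli ![1, 0]
  obtain ⟨v', hv', hv'd⟩ := R.dualv (k := 2) (by omega) hli ![0, 1]
  have a1 : polar Q₀ u' u = 1 := hu'd 0
  have a2 : polar Q₀ u' v = 0 := hu'd 1
  have a3 : polar Q₀ v' u = 0 := hv'd 0
  have a4 : polar Q₀ v' v = 1 := hv'd 1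
  let S : Submodule K W :=
    { carrier := {z | polar Q w (j z) = 0}
      add_mem' := by
        intro a b ha hb
        show polar Q w (j (a + b)) = 0
        rw [map_add, p_add', show polar Q w (j a) = 0 from ha, show polar Q w (j b) = 0 from hb,
          add_zero]
      zero_mem' := by
        show polar Q w (j 0) = 0
        rw [map_zero, p_zero']
      smul_mem' := by
        intro c a ha
        show polar Q w (j (c • a)) = 0
        rw [R.smul, p_smul', show polar Q w (j a) = 0 from ha, mul_zero] }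
  have hS : ∀ z, polar Q₀ z u = 0 → polar Q₀ z v = 0 → polar Q w (j z) = 0 := fun z h1 h2 =>
    R.spanv2 u v S (fun z h3 h4 h5 => hcon z h3 h4 h5) h1 h2
  have b1 : polar Q (j u) (j u) = 0 := by rw [p_self, R.quad0.2 huu, mul_zero]
  have b2 : polar Q (j v) (j v) = 0 := by rw [p_self, R.quad0.2 hvv, mul_zero]
  have b3 : polar Q (j u) (j v) = 0 := R.form0.2 huv
  have b4 : polar Q (j v) (j u) = 0 := by rw [p_comm, b3]
  have hw' : w - polar Q w (j u') • j u - polar Q w (j v') • j v = 0 := by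
    apply R.zero_of
    intro z
    have e1 : polar Q₀ (z - polar Q₀ z u • u' - polar Q₀ z v • v') u = 0 := by
      rw [p_sub, p_sub, p_smul, p_smul, a1, a3]; ring
    have e2 : polar Q₀ (z - polar Q₀ z u • u' - polar Q₀ z v • v') v = 0 := by
      rw [p_sub, p_sub, p_smul, p_smul, a2, a4]; ring
    have e3 := hS _ e1 e2
    rw [map_sub, map_sub, R.smul, R.smul, p_sub', p_sub', p_smul', p_smul'] at e3
    rw [p_sub, p_sub, p_smul, p_smul, p_comm Q (j u), p_comm Q (j v), R.form z u, R.form z v]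
    linear_combination e3
  apply hw
  have : w = polar Q w (j u') • j u + polar Q w (j v') • j v := by
    have h1 := hw'
    rw [sub_sub, sub_eq_zero] at h1
    exact h1
  rw [this]
  exact Submodule.add_mem _ (Submodule.smul_mem _ _ (Submodule.subset_span (by simp)))
    (Submodule.smul_mem _ _ (Submodule.subset_span (by simp)))

/-- Siegel elements with first vector in a rational totally singular plane -/
lemma ratio_E (R : RQ Q₀ Q j) {M : Subgroup (V ≃ₗ[F] V)} (hE : HasE Q₀ Q j M)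
    (hK : ∀ a, YY Q₀ Q j M a → ∃ c : K, algebraMap K F c = a) {u v : W} (P : IQ Q₀ u v) {p s : F}
    {w : V} (hwu : polar Q w (j u) = 0) (hwv : polar Q w (j v) = 0)
    (hw : w ∉ Submodule.span F {j u, j v}) (hM : sie Q (p • j u + s • j v) w ∈ M) :
    ∃ κ : F, κ ≠ 0 ∧ (∃ c : K, algebraMap K F c = κ * p) ∧ ∃ c : K, algebraMap K F c = κ * s := by
  obtain ⟨z, hz, hzu, hzv, hwz⟩ := exists_z R P.li P.uz P.uu P.zz hw
  set x := p • j u + s • j v with hx
  have hxQ : Q x = 0 := by
    rw [hx, Q_add, Q_smul, Q_smul, p_smul, p_smul', R.quad0.2 P.uu, R.quad0.2 P.zz, R.form0.2 P.uz]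
    ring
  have hxw : polar Q x w = 0 := by
    rw [hx, p_add, p_smul, p_smul, p_comm Q (j u), hwu, p_comm Q (j v), hwv]; ring
  have hxr : ∀ w : W, polar Q₀ w u = 0 → polar Q₀ w v = 0 → polar Q x (j w) = 0 := by
    intro w h1 h2
    rw [hx, p_add, p_smul, p_smul, p_comm Q (j u), R.form0.2 h1, p_comm Q (j v), R.form0.2 h2]; ring
  have uu : polar Q₀ u u = 0 := by rw [p_self, P.uu, mul_zero]
  have vv : polar Q₀ v v = 0 := by rw [p_self, P.zz, mul_zero]
  have vu : polar Q₀ v u = 0 := by rw [p_comm, P.uz]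
  have h1 := moveB R hE hxQ hxw hM hz P.uu hzu (hxr z hzu hzv) (hxr u uu P.uz)
  have h2 := moveB R hE hxQ hxw hM hz P.zz hzv (hxr z hzu hzv) (hxr v vu vv)
  rw [hwu, zero_smul, sub_zero] at h1
  rw [hwv, zero_smul, sub_zero] at h2
  set α := polar Q w (j z) with hα
  have xu : polar Q x (j u) = 0 := hxr u uu P.uz
  have xv : polar Q x (j v) = 0 := hxr v vu vv
  have hju := R.quad0.2 P.uu
  have hjv := R.quad0.2 P.zz
  rw [sie_swap hxQ (by rw [Q_smul, hju, mul_zero]) (by rw [p_smul', xu, mul_zero]), sie_smul hju (by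
      rw [p_neg', p_comm, xu, neg_zero]), smul_neg, ← neg_smul] at h1
  rw [sie_swap hxQ (by rw [Q_smul, hjv, mul_zero]) (by rw [p_smul', xv, mul_zero]), sie_smul hjv (by
      rw [p_neg', p_comm, xv, neg_zero]), smul_neg, ← neg_smul] at h2
  have e1 : (-α) • x = (-α * s) • j v + (-α * p) • j u := by rw [hx]; module
  have e2 : (-α) • x = (-α * p) • j u + (-α * s) • j v := by rw [hx]; module
  rw [e1, sie_add_u hju (by rw [p_smul', R.form0.2 P.uz, mul_zero])] at h1
  rw [e2, sie_add_u hjv (by rw [p_smul', R.form0.2 vu, mul_zero])] at h2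
  exact ⟨-α, neg_ne_zero.2 hwz, hK _ (one_all R hE P.symm h2), hK _ (one_all R hE P h1)⟩

end H95.RatQT
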