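import Mathlib
import Cfsg.Agent.Lib.H95.RatQT2

set_option autoImplicit false

/-!
Rational structures in orthogonal spaces, third part: overgroups consist of rational elements up to
scalars.
-/

namespace H95.RatQT

open Module QuadraticMap H48.QuadSplit H95.OGeo H17.OrthAbs H95.OSie H95.UBasic H95.RatGeo

section plane

variable {F V : Type*} [Field F] [AddCommGroup V] [Module F V] {Q : QuadraticForm F V}

/-- the plane vector attached to `x` -/
def ph (Q : QuadraticForm F V) (a b x : V) : V := polar Q x a • b - polar Q x b • a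

lemma sie_ph {a b : V} (ha : Q a = 0) (hb : Q b = 0) (hab : polar Q a b = 0) (x : V) :
    sie Q a b x = x + ph Q a b x := by
  rw [sie_apply ha hab, hb, ph]; module

lemma ph_orth {a b : V} (ha : Q a = 0) (hb : Q b = 0) (hab : polar Q a b = 0) (x : V) :
    polar Q (ph Q a b x) a = 0 ∧ polar Q (ph Q a b x) b = 0 := by
  rw [ph, p_sub, p_sub, p_smul, p_smul, p_smul, p_smul, p_self, p_self, ha, hb, hab, p_comm Q b,
    hab]
  constructor <;> ring

/-- uniform action of the group generated by two Siegel elements on two planes -/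
lemma uniform {x y a b : V} (hx : Q x = 0) (hy : Q y = 0) (hxy : polar Q x y = 0) (ha : Q a = 0)
    (hb : Q b = 0) (hab : polar Q a b = 0) {z : V ≃ₗ[F] V}
    (hz : z ∈ Subgroup.closure {sie Q x y, sie Q a b}) :
    ∃ p q s t : F, p * t - q * s = 1 ∧ z x = p • x + s • ph Q a b x ∧
      z y = p • y + s • ph Q a b y ∧ z (ph Q a b x) = q • x + t • ph Q a b x ∧
      z (ph Q a b y) = q • y + t • ph Q a b y := by
  set D := polar Q x a * polar Q y b - polar Q x b * polar Q y a with hD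
  have r1x : sie Q x y x = x := by
    rw [sie_apply hx hxy, hy, p_self, hx, hxy]; simp
  have r1y : sie Q x y y = y := by
    rw [sie_apply hx hxy, hy, p_self, hy, p_comm, hxy]; simp
  have r1px : sie Q x y (ph Q a b x) = ph Q a b x - D • x := by
    have e1 : polar Q (ph Q a b x) x = 0 := by
      rw [ph, p_sub, p_smul, p_smul, p_comm Q b, p_comm Q a]; ring
    have e2 : polar Q (ph Q a b x) y = D := by
      rw [ph, p_sub, p_smul, p_smul, p_comm Q b, p_comm Q a, hD]
    rw [sie_apply hx hxy, hy, e1, e2]; simp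
  have r1py : sie Q x y (ph Q a b y) = ph Q a b y - D • y := by
    have e1 : polar Q (ph Q a b y) x = -D := by
      rw [ph, p_sub, p_smul, p_smul, p_comm Q b, p_comm Q a, hD]; ring
    have e2 : polar Q (ph Q a b y) y = 0 := by
      rw [ph, p_sub, p_smul, p_smul, p_comm Q b, p_comm Q a]; ring
    rw [sie_apply hx hxy, hy, e1, e2]; simp [sub_eq_add_neg]
  have r2 : ∀ m, sie Q a b m = m + ph Q a b m := fun m => sie_ph ha hb hab m
  have r2p : ∀ m, sie Q a b (ph Q a b m) = ph Q a b m := by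
    intro m
    obtain ⟨h1, h2⟩ := ph_orth ha hb hab m
    rw [sie_apply ha hab, h1, h2]; simp
  let P : (V ≃ₗ[F] V) → Prop := fun z => ∃ p q s t : F, p * t - q * s = 1 ∧
      z x = p • x + s • ph Q a b x ∧
      z y = p • y + s • ph Q a b y ∧ z (ph Q a b x) = q • x + t • ph Q a b x ∧
      z (ph Q a b y) = q • y + t • ph Q a b y
  show P z
  induction hz using Subgroup.closure_induction with
  | mem z hz =>
    rcases hz with rfl | rfl
    · refine ⟨1, -D, 0, 1, by ring, ?_, ?_, ?_, ?_⟩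
      · rw [r1x]; simp
      · rw [r1y]; simp
      · rw [r1px]; module
      · rw [r1py]; module
    · refine ⟨1, 0, 1, 1, by ring, ?_, ?_, ?_, ?_⟩
      · rw [r2]; simp
      · rw [r2]; simp
      · rw [r2p]; simp
      · rw [r2p]; simp
  | one => exact ⟨1, 0, 0, 1, by ring, by simp, by simp, by simp, by simp⟩
  | mul f g _ _ hf hg =>
    obtain ⟨p, q, s, t, h0, h1, h2, h3, h4⟩ := hf
    obtain ⟨p', q', s', t', h0', h1', h2', h3', h4'⟩ := hg
    refine ⟨p' * p + s' * q, q' * p + t' * q, p' * s + s' * t, q' * s + t' * t, ?_, ?_, ?_, ?_, ?_⟩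
    · linear_combination (p' * t' - q' * s') * h0 + h0'
    · rw [LinearEquiv.mul_apply, h1', map_add, map_smul, map_smul, h1, h3]; module
    · rw [LinearEquiv.mul_apply, h2', map_add, map_smul, map_smul, h2, h4]; module
    · rw [LinearEquiv.mul_apply, h3', map_add, map_smul, map_smul, h1, h3]; module
    · rw [LinearEquiv.mul_apply, h4', map_add, map_smul, map_smul, h2, h4]; module
  | inv f _ hf =>
    obtain ⟨p, q, s, t, h0, h1, h2, h3, h4⟩ := hf
    have key : ∀ v w : V, f v = w → f⁻¹ w = v := by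
      rintro v _ rfl; exact f.symm_apply_apply v
    refine ⟨t, -q, -s, p, by linear_combination h0, ?_, ?_, ?_, ?_⟩
    · apply key
      have e : t • (p • x + s • ph Q a b x) + (-s) • (q • x + t • ph Q a b x) =
          (p * t - q * s) • x := by module
      rw [map_add, map_smul, map_smul, h1, h3, e, h0, one_smul]
    · apply key
      have e : t • (p • y + s • ph Q a b y) + (-s) • (q • y + t • ph Q a b y) =
          (p * t - q * s) • y := by module
      rw [map_add, map_smul, map_smul, h2, h4, e, h0, one_smul]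
    · apply key
      have e : (-q) • (p • x + s • ph Q a b x) + p • (q • x + t • ph Q a b x) =
          (p * t - q * s) • ph Q a b x := by module
      rw [map_add, map_smul, map_smul, h1, h3, e, h0, one_smul]
    · apply key
      have e : (-q) • (p • y + s • ph Q a b y) + p • (q • y + t • ph Q a b y) =
          (p * t - q * s) • ph Q a b y := by module
      rw [map_add, map_smul, map_smul, h2, h4, e, h0, one_smul]

/-- Gleason's lemma for two root elements -/
lemma gl_step [Finite F] [FiniteDimensional F V] {x y a b : V} (hx : Q x = 0) (hy : Q y = 0)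
    (hxy : polar Q x y = 0) (ha : Q a = 0) (hb : Q b = 0) (hab : polar Q a b = 0)
    (hD : polar Q x a * polar Q y b - polar Q x b * polar Q y a ≠ 0) :
    ∃ z ∈ Subgroup.closure {sie Q x y, sie Q a b}, ∃ c : F, c ≠ 0 ∧ z x = c • ph Q a b x ∧
      z y = c • ph Q a b y := by
  set D := polar Q x a * polar Q y b - polar Q x b * polar Q y a with hDd
  have e1 : polar Q (ph Q a b x) x = 0 := by
    rw [ph, p_sub, p_smul, p_smul, p_comm Q b, p_comm Q a]; ring
  have e2 : polar Q (ph Q a b x) y = D := by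
    rw [ph, p_sub, p_smul, p_smul, p_comm Q b, p_comm Q a, hDd]
  have hx0 : x ≠ 0 := by
    rintro rfl; apply hD; rw [hDd, p_zero, p_zero]; ring
  have hli : LinearIndependent F ![x, ph Q a b x] := by
    rw [LinearIndependent.pair_iff]
    intro s t hst
    have h1 := congrArg (fun v => polar Q v y) hst
    simp only [p_add, p_smul, hxy, e2, p_zero, mul_zero, zero_add] at h1
    have ht : t = 0 := (mul_eq_zero.1 h1).resolve_right hD
    rw [ht, zero_smul, add_zero] at hst
    exact ⟨(smul_eq_zero.1 hst).resolve_right hx0, ht⟩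
  obtain ⟨z, hz, c, hc, hzx⟩ := H95.OGl.gleason_abs (x₁ := sie Q x y) (x₂ := sie Q a b) hli
    (a := -D) (b := 1) (neg_ne_zero.2 hD) one_ne_zero (by
      rw [sie_apply hx hxy, hy, p_self, hx, hxy]; simp) (by
      rw [sie_apply hx hxy, hy, e1, e2]; simp [sub_eq_add_neg]) (by
      obtain ⟨h1, h2⟩ := ph_orth ha hb hab x
      rw [sie_apply ha hab, h1, h2]; simp) (by
      rw [sie_ph ha hb hab, one_smul])
  obtain ⟨p, q, s, t, h0, h1, h2, h3, h4⟩ := uniform hx hy hxy ha hb hab hz
  rw [hzx] at h1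
  have h5 : p • x + (s - c) • ph Q a b x = 0 := by
    rw [sub_smul, h1]; abel
  obtain ⟨hp, hs⟩ := LinearIndependent.pair_iff.1 hli _ _ h5
  refine ⟨z, hz, c, hc, hzx, ?_⟩
  rw [h2, hp, zero_smul, zero_add, sub_eq_zero.1 hs]

end plane

variable {K F W V : Type*} [Field K] [Field F] [Algebra K F] [AddCommGroup W] [Module K W]
  [AddCommGroup V] [Module F V]
  {Q₀ : QuadraticForm K W} {Q : QuadraticForm F V} {j : W →+ V}
  [FiniteDimensional K W] [Finite K] [Finite F] [FiniteDimensional F V]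

lemma ratioG (R : RQ Q₀ Q j) {M : Subgroup (V ≃ₗ[F] V)} (hE : HasE Q₀ Q j M) (hM : M ≤ O Q)
    (hK : ∀ a, YY Q₀ Q j M a → ∃ c : K, algebraMap K F c = a) {u v : W} (P : IQ Q₀ u v)
    {g : V ≃ₗ[F] V} (hg : g ∈ M) {x y : W} (hx : Q₀ x = 0) (hy : Q₀ y = 0) (hxy : polar Q₀ x y = 0)
    (hD : polar Q (j x) (g (j u)) * polar Q (j y) (g (j v)) -
      polar Q (j x) (g (j v)) * polar Q (j y) (g (j u)) ≠ 0) :
    ∃ κ : F, κ ≠ 0 ∧ (∃ c : K, algebraMap K F c = κ * polar Q (j x) (g (j u))) ∧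
      ∃ c : K, algebraMap K F c = κ * polar Q (j x) (g (j v)) := by
  have hgO := hM hg
  have qx := R.quad0.2 hx
  have qy := R.quad0.2 hy
  have qxy := R.form0.2 hxy
  have qa : Q (g (j u)) = 0 := by rw [hgO]; exact R.quad0.2 P.uu
  have qb : Q (g (j v)) = 0 := by rw [hgO]; exact R.quad0.2 P.zz
  have qab : polar Q (g (j u)) (g (j v)) = 0 := by rw [polar_map hgO]; exact R.form0.2 P.uz
  obtain ⟨z, hz, c, hc, hzx, hzy⟩ := gl_step qx qy qxy qa qb qab hD
  set a := g (j u) with ha
  set b := g (j v) with hb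
  set α := polar Q (j x) a with hα
  set β := polar Q (j x) b with hβ
  set γ := polar Q (j y) a with hγ
  set δ := polar Q (j y) b with hδ
  have hzM : z ∈ M := by
    have hle : Subgroup.closure {sie Q (j x) (j y), sie Q a b} ≤ M := by
      rw [Subgroup.closure_le]
      rintro _ (rfl | rfl)
      · exact hE x y hx hxy
      · show sie Q a b ∈ M
        rw [ha, hb, ← sie_conj (R.quad0.2 P.uu) (R.form0.2 P.uz) hgO]
        exact conj_mem' hg (hE u v P.uu P.uz)
    exact hle hz
  -- independence of x, y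
  have hx0 : x ≠ 0 := by
    rintro rfl; apply hD; rw [hα, hβ, map_zero, p_zero, p_zero]; ring
  have hlxy : LinearIndependent K ![x, y] := by
    apply pair_indep hx0
    intro l hl
    apply hD
    rw [hγ, hδ, hl, R.smul, p_smul, p_smul, ← hα, ← hβ]; ring
  obtain ⟨y', hy', hy'', hyT⟩ := R.perp (k := 2) (by omega) ![x, y]
  have f1 : polar Q₀ y' x = 0 := hy'' 0
  have f2 : polar Q₀ y' y = 0 := hy'' 1
  have l3 : LinearIndependent K ![y', x, y] := li_cons3 hlxy hyT
  have hzO := hM hzM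
  -- conjugate
  have hh : g⁻¹ * z ∈ M := M.mul_mem (M.inv_mem hg) hzM
  have hhO := hM hh
  have h1 := conj_mem' hh (hE x y' hx (by rw [p_comm, f1]))
  rw [sie_conj qx (R.form0.2 (by rw [p_comm, f1])) hhO] at h1
  have gi : ∀ m : W, g⁻¹ (g (j m)) = j m := fun m => g.symm_apply_apply _
  have e1 : (g⁻¹ * z) (j x) = (-(c * β)) • j u + (c * α) • j v := by
    rw [LinearEquiv.mul_apply, hzx, ph, map_smul, map_sub, map_smul, map_smul, ha, hb, gi, gi]
    module
  rw [e1] at h1
  set w := (g⁻¹ * z) (j y') with hw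
  have hgw : g w = z (j y') := by
    rw [hw, LinearEquiv.mul_apply]; exact g.apply_symm_apply _
  -- orthogonality
  have o1 : polar Q (z (j y')) (ph Q a b (j x)) = 0 := by
    have h2 : polar Q (z (j y')) (z (j x)) = 0 := by rw [polar_map hzO]; exact R.form0.2 f1
    rw [hzx, p_smul'] at h2
    exact (mul_eq_zero.1 h2).resolve_left hc
  have o2 : polar Q (z (j y')) (ph Q a b (j y)) = 0 := by
    have h2 : polar Q (z (j y')) (z (j y)) = 0 := by rw [polar_map hzO]; exact R.form0.2 f2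
    rw [hzy, p_smul'] at h2
    exact (mul_eq_zero.1 h2).resolve_left hc
  rw [ph, p_sub', p_smul', p_smul', ← hα, ← hβ] at o1
  rw [ph, p_sub', p_smul', p_smul', ← hγ, ← hδ] at o2
  have o3 : polar Q (z (j y')) a = 0 := by
    have : (α * δ - β * γ) * polar Q (z (j y')) a = 0 := by
      linear_combination γ * o1 - α * o2
    exact (mul_eq_zero.1 this).resolve_left hD
  have o4 : polar Q (z (j y')) b = 0 := by
    have : (α * δ - β * γ) * polar Q (z (j y')) b = 0 := by
      linear_combination δ * o1 - β * o2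
    exact (mul_eq_zero.1 this).resolve_left hD
  have hwu : polar Q w (j u) = 0 := by rw [← polar_map hgO, hgw]; exact o3
  have hwv : polar Q w (j v) = 0 := by rw [← polar_map hgO, hgw]; exact o4
  have hws : w ∉ Submodule.span F {j u, j v} := by
    intro hmem
    obtain ⟨s, t, hst⟩ := Submodule.mem_span_pair.1 hmem
    have h2 := congrArg g hst
    rw [hgw, map_add, map_smul, map_smul, ← ha, ← hb] at h2
    -- a, b in terms of z x, z y
    have ea : (c * (α * δ - β * γ)) • a = z (γ • j x - α • j y) := by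
      rw [map_sub, map_smul, map_smul, hzx, hzy, ph, ph, ← hα, ← hβ, ← hγ, ← hδ]; module
    have eb : (c * (α * δ - β * γ)) • b = z (δ • j x - β • j y) := by
      rw [map_sub, map_smul, map_smul, hzx, hzy, ph, ph, ← hα, ← hβ, ← hγ, ← hδ]; module
    have hcD : c * (α * δ - β * γ) ≠ 0 := mul_ne_zero hc hD
    have h3 : z ((c * (α * δ - β * γ)) • j y') =
        z ((s * γ + t * δ) • j x + (-(s * α + t * β)) • j y) := by
      have e5 : (s * γ + t * δ) • j x + (-(s * α + t * β)) • j y =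
          s • (γ • j x - α • j y) + t • (δ • j x - β • j y) := by module
      rw [e5, map_add z, map_smul z s, map_smul z t, ← ea, ← eb, map_smul z, ← h2]
      module
    have h4 := z.injective h3
    have h5 : ∑ i, ![c * (α * δ - β * γ), -(s * γ + t * δ), s * α + t * β] i •
        j (![y', x, y] i) = 0 := by
      rw [Fin.sum_univ_three]
      show (c * (α * δ - β * γ)) • j y' + (-(s * γ + t * δ)) • j x + (s * α + t * β) • j y = 0
      rw [h4]; module
    exact hcD (Fintype.linearIndependent_iff.1 (R.indep l3) _ h5 0)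
  obtain ⟨κ, hκ, ⟨c₁, hc₁⟩, ⟨c₂, hc₂⟩⟩ := ratio_E R hE hK P hwu hwv hws h1
  refine ⟨κ * c, mul_ne_zero hκ hc, ⟨c₂, by rw [hc₂]; ring⟩, ⟨-c₁, by rw [map_neg, hc₁]; ring⟩⟩

omit [Finite K] in
lemma indep_img (R : RQ Q₀ Q j) {u v : W} (P : LinearIndependent K ![u, v]) (g : V ≃ₗ[F] V) :
    LinearIndependent F ![g (j u), g (j v)] := by
  have hind : LinearIndependent F (fun i => g (j (![u, v] i))) :=
    (R.indep P).map' (g : V →ₗ[F] V) (LinearMap.ker_eq_bot.2 g.injective)
  have e : (fun i => g (j (![u, v] i))) = ![g (j u), g (j v)] := by ext i; fin_cases i <;> rfl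
  rwa [e] at hind

lemma ratioH (R : RQ Q₀ Q j) {M : Subgroup (V ≃ₗ[F] V)} (hE : HasE Q₀ Q j M) (hM : M ≤ O Q)
    (hK : ∀ a, YY Q₀ Q j M a → ∃ c : K, algebraMap K F c = a) {u v : W} (P : IQ Q₀ u v)
    {g : V ≃ₗ[F] V} (hg : g ∈ M) {x : W} (hx : Q₀ x = 0) :
    ∃ κ : F, κ ≠ 0 ∧ (∃ c : K, algebraMap K F c = κ * polar Q (j x) (g (j u))) ∧
      ∃ c : K, algebraMap K F c = κ * polar Q (j x) (g (j v)) := by
  by_cases h0 : polar Q (j x) (g (j u)) = 0 ∧ polar Q (j x) (g (j v)) = 0
  · exact ⟨1, one_ne_zero, ⟨0, by rw [h0.1]; simp⟩, ⟨0, by rw [h0.2]; simp⟩⟩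
  have hgO := hM hg
  have qa : Q (g (j u)) = 0 := by rw [hgO]; exact R.quad0.2 P.uu
  have qb : Q (g (j v)) = 0 := by rw [hgO]; exact R.quad0.2 P.zz
  have qab : polar Q (g (j u)) (g (j v)) = 0 := by rw [polar_map hgO]; exact R.form0.2 P.uz
  by_contra hcon
  have key : ∀ y, Q₀ y = 0 → polar Q₀ y x = 0 → polar Q (j y) (ph Q (g (j u)) (g (j v)) (j x)) = 0 := by
    intro y hy hyx
    by_contra hD
    apply hcon
    refine ratioG R hE hM hK P hg hx hy (by rw [p_comm, hyx]) ?_
    rw [ph, p_sub', p_smul', p_smul'] at hD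
    intro h1; apply hD; linear_combination h1
  set φ := ph Q (g (j u)) (g (j v)) (j x) with hφ
  have hli := indep_img R P.li g
  have hx0 : x ≠ 0 := by
    rintro rfl; apply h0; rw [map_zero, p_zero, p_zero]; exact ⟨rfl, rfl⟩
  let S : Submodule K W :=
    { carrier := {z | polar Q (j z) φ = 0}
      add_mem' := by
        intro a b ha hb
        show polar Q (j (a + b)) φ = 0
        rw [map_add, p_add, show polar Q (j a) φ = 0 from ha, show polar Q (j b) φ = 0 from hb,
          add_zero]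
      zero_mem' := by
        show polar Q (j 0) φ = 0
        rw [map_zero, p_zero]
      smul_mem' := by
        intro c a ha
        show polar Q (j (c • a)) φ = 0
        rw [R.smul, p_smul, show polar Q (j a) φ = 0 from ha, mul_zero] }
  have hS : ∀ z, polar Q₀ z x = 0 → polar Q (j z) φ = 0 := fun z h1 =>
    R.spanv x S (fun z h3 h4 => key z h3 h4) h1
  obtain ⟨x', hx', hx'd⟩ := R.dualv (k := 1) (x := ![x]) (by omega) (by
    rw [linearIndependent_unique_iff]; simpa using hx0) ![1]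
  have a1 : polar Q₀ x' x = 1 := hx'd 0
  have hφx : φ - polar Q φ (j x') • j x = 0 := by
    apply R.zero_of
    intro z
    have e1 : polar Q₀ (z - polar Q₀ z x • x') x = 0 := by
      rw [p_sub, p_smul, a1]; ring
    have e3 := hS _ e1
    rw [map_sub, R.smul, p_sub, p_smul] at e3
    rw [p_sub, p_smul, p_comm Q (j x), R.form z x, p_comm Q φ, p_comm Q φ]
    linear_combination e3
  rw [sub_eq_zero] at hφx
  set l := polar Q φ (j x') with hl
  obtain ⟨o1, o2⟩ := ph_orth qa qb qab (j x)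
  rw [← hφ, hφx, p_smul] at o1 o2
  have hl0 : l = 0 := by
    by_contra hne
    exact h0 ⟨(mul_eq_zero.1 o1).resolve_left hne, (mul_eq_zero.1 o2).resolve_left hne⟩
  rw [hl0, zero_smul, hφ, ph] at hφx
  have h5 : (-(polar Q (j x) (g (j v)))) • g (j u) + (polar Q (j x) (g (j u))) • g (j v) = 0 := by
    rw [← hφx]; module
  obtain ⟨h6, h7⟩ := LinearIndependent.pair_iff.1 hli _ _ h5
  exact h0 ⟨h7, neg_eq_zero.1 h6⟩

lemma ratioI (R : RQ Q₀ Q j) {M : Subgroup (V ≃ₗ[F] V)} (hE : HasE Q₀ Q j M) (hM : M ≤ O Q)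
    (hK : ∀ a, YY Q₀ Q j M a → ∃ c : K, algebraMap K F c = a) {u v : W} (P : IQ Q₀ u v)
    {g : V ≃ₗ[F] V} (hg : g ∈ M) {x : W} (hx : Q₀ x = 0)
    (hne : polar Q (g (j x)) (j u) ≠ 0) :
    ∃ k : K, polar Q (g (j x)) (j v) = algebraMap K F k * polar Q (g (j x)) (j u) := by
  obtain ⟨κ, hκ, ⟨c, hc⟩, ⟨d, hd⟩⟩ := ratioH R hE hM hK P (M.inv_mem hg) hx
  have hgO := hM hg
  have e : ∀ m, polar Q (j x) (g⁻¹ (j m)) = polar Q (g (j x)) (j m) := by
    intro m
    rw [← polar_map hgO]
    congr 1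
    exact g.apply_symm_apply _
  rw [e] at hc hd
  refine ⟨d / c, ?_⟩
  rw [map_div₀, hc, hd]
  field_simp

lemma exists_sing_ne (R : RQ Q₀ Q j) {x : V} (hx0 : x ≠ 0) :
    ∃ u : W, Q₀ u = 0 ∧ polar Q x (j u) ≠ 0 := by
  by_contra hcon
  push Not at hcon
  apply hx0
  apply R.zero_of
  let S : Submodule K W :=
    { carrier := {u | polar Q x (j u) = 0}
      add_mem' := by
        intro a b ha hb
        show polar Q x (j (a + b)) = 0
        rw [map_add, p_add', show polar Q x (j a) = 0 from ha, show polar Q x (j b) = 0 from hb,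
          add_zero]
      zero_mem' := by
        show polar Q x (j 0) = 0
        rw [map_zero, p_zero']
      smul_mem' := by
        intro c a ha
        show polar Q x (j (c • a)) = 0
        rw [R.smul, p_smul', show polar Q x (j a) = 0 from ha, mul_zero] }
  exact fun y => R.spanv 0 S (fun z hz _ => hcon z hz) (p_zero' _ _)

/-- The image of a rational singular vector spans a rational line. -/
lemma rat_line (R : RQ Q₀ Q j) {M : Subgroup (V ≃ₗ[F] V)} (hE : HasE Q₀ Q j M) (hM : M ≤ O Q)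
    (hK : ∀ a, YY Q₀ Q j M a → ∃ c : K, algebraMap K F c = a) {v : W} (hv : Q₀ v = 0)
    {g : V ≃ₗ[F] V} (hg : g ∈ M) : ∃ (μ : F) (x : W), g (j v) = μ • j x := by
  by_cases hv0 : v = 0
  · exact ⟨0, 0, by rw [hv0, map_zero, map_zero, zero_smul]⟩
  have hw0 : g (j v) ≠ 0 := by
    intro h0
    apply hv0
    apply R.inj
    simpa using h0
  obtain ⟨x₁, hx₁, hγ₁⟩ := exists_sing_ne R hw0
  have hx₁0 : x₁ ≠ 0 := by rintro rfl; rw [map_zero, p_zero'] at hγ₁; exact hγ₁ rfl
  -- a general statement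
  have gen : ∀ x : W, Q₀ x = 0 → polar Q (g (j v)) (j x) ≠ 0 → ∀ y, polar Q₀ y x = 0 →
      ∃ k : K, polar Q (g (j v)) (j y) = algebraMap K F k * polar Q (g (j v)) (j x) := by
    intro x hx hγ y hy
    have hx0 : x ≠ 0 := by rintro rfl; rw [map_zero, p_zero'] at hγ; exact hγ rfl
    let S : Submodule K W :=
      { carrier := {y | ∃ k : K, polar Q (g (j v)) (j y) =
          algebraMap K F k * polar Q (g (j v)) (j x)}
        add_mem' := by
          rintro a b ⟨c, hc⟩ ⟨d, hd⟩
          exact ⟨c + d, by rw [map_add, p_add', hc, hd, map_add, add_mul]⟩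
        zero_mem' := ⟨0, by rw [map_zero, p_zero', map_zero, zero_mul]⟩
        smul_mem' := by
          rintro c a ⟨d, hd⟩
          exact ⟨c * d, by rw [R.smul, p_smul', hd, map_mul, mul_assoc]⟩ }
    refine R.spanv x S ?_ hy
    intro z hz hzx
    by_cases hli : LinearIndependent K ![x, z]
    · exact ratioI R hE hM hK ⟨hx, hz, by rw [p_comm, hzx], hli⟩ hg hv hγ
    · have : ∃ l : K, z = l • x := by
        by_contra hcon
        push Not at hcon
        exact hli (pair_indep hx0 hcon)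
      obtain ⟨l, rfl⟩ := this
      exact ⟨l, by rw [R.smul, p_smul']⟩
  -- x₂
  obtain ⟨x₂, hx₂, h21, hγ₂, l12⟩ : ∃ x₂ : W, Q₀ x₂ = 0 ∧ polar Q₀ x₂ x₁ = 0 ∧
      polar Q (g (j v)) (j x₂) ≠ 0 ∧ LinearIndependent K ![x₂, x₁] := by
    obtain ⟨x₀, hz, hz', hli2⟩ := R.perp (k := 1) (by omega) ![x₁]
    have e5 : polar Q₀ x₀ x₁ = 0 := hz' 0
    by_cases hγ₀ : polar Q (g (j v)) (j x₀) = 0
    · refine ⟨x₀ + x₁, ?_, ?_, ?_, ?_⟩
      · rw [Q_add, hz, hx₁, e5]; ring
      · rw [p_add, e5, p_self, hx₁]; ring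
      · rw [map_add, p_add', hγ₀, zero_add]; exact hγ₁
      · apply li_cons2 hx₁0
        intro hmem
        apply hli2
        have : x₁ ∈ Submodule.span K (Set.range ![x₁]) := Submodule.subset_span ⟨0, rfl⟩
        exact (Submodule.add_mem_iff_left _ this).1 hmem
    · exact ⟨x₀, hz, e5, hγ₀, li_cons2 hx₁0 hli2⟩
  obtain ⟨k₂, hk₂⟩ := gen x₁ hx₁ hγ₁ x₂ h21
  obtain ⟨d, -, hd'⟩ := R.dualv (k := 2) (by omega) l12 ![0, 1]
  have d2 : polar Q₀ d x₂ = 0 := hd' 0
  have d1 : polar Q₀ d x₁ = 1 := hd' 1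
  obtain ⟨kd, hkd⟩ := gen x₂ hx₂ hγ₂ d d2
  have hall : ∀ y, ∃ k : K, polar Q (g (j v)) (j y) =
      algebraMap K F k * polar Q (g (j v)) (j x₁) := by
    intro y
    have e1 : polar Q₀ (y - polar Q₀ y x₁ • d) x₁ = 0 := by
      rw [p_sub, p_smul, d1, mul_one, sub_self]
    obtain ⟨k, hk⟩ := gen x₁ hx₁ hγ₁ _ e1
    refine ⟨k + polar Q₀ y x₁ * (kd * k₂), ?_⟩
    rw [map_sub, p_sub', R.smul, p_smul', hkd, hk₂, sub_eq_iff_eq_add] at hk
    rw [hk]
    simp only [map_add, map_mul]
    ring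
  set γ₁ := polar Q (g (j v)) (j x₁) with hγ₁d
  obtain ⟨x, hx⟩ : ∃ x, j x = (γ₁)⁻¹ • g (j v) := by
    apply R.mem_range
    intro y
    obtain ⟨k, hk⟩ := hall y
    refine ⟨k, ?_⟩
    rw [p_smul, hk]
    field_simp
  exact ⟨γ₁, x, by rw [hx, smul_smul, mul_inv_cancel₀ hγ₁, one_smul]⟩

omit [Finite F] [FiniteDimensional F V] in
/-- An isometry mapping rational singular vectors to multiples of rational vectors is rational up
to a scalar. -/
lemma semilinear (R : RQ Q₀ Q j) {g : V ≃ₗ[F] V}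
    (hg : ∀ v : W, Q₀ v = 0 → ∃ (μ : F) (x : W), g (j v) = μ • j x) :
    ∃ l : F, l ≠ 0 ∧ ∀ x : W, ∃ y : W, g (j x) = l • j y := by
  have step : ∀ (v₁ v w₁ : W) (l : F), Q₀ v₁ = 0 → Q₀ v = 0 → l ≠ 0 → g (j v₁) = l • j w₁ →
      polar Q₀ v₁ v = 0 → LinearIndependent K ![v₁, v] → ∃ y : W, g (j v) = l • j y := by
    intro v₁ v w₁ l hv₁ hv hl hg1 hne hlv
    have e4 : Q₀ (v₁ + v) = 0 := by rw [Q_add, hv₁, hv, hne]; simp
    obtain ⟨μ, w₂, h2⟩ := hg v hv
    obtain ⟨ν, w₃, h3⟩ := hg (v₁ + v) e4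
    rw [map_add, map_add, hg1, h2] at h3
    have hv₁0 : v₁ ≠ 0 := li_ne0 hlv
    have hjl := R.indep hlv
    have hw₁0 : w₁ ≠ 0 := by
      rintro rfl
      rw [map_zero, smul_zero] at hg1
      apply hv₁0
      apply R.inj
      simpa using hg1
    have hli : LinearIndependent K ![w₁, w₂] := by
      apply pair_indep hw₁0
      intro a ha
      rw [ha, R.smul a w₁, smul_smul] at h2
      have h4 : g (j v) = g ((μ * algebraMap K F a / l) • j v₁) := by
        rw [h2, map_smul, hg1, smul_smul, div_mul_cancel₀ _ hl]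
      have h5 := g.injective h4
      have h6 : ∑ i, ![-(μ * algebraMap K F a / l), 1] i • j (![v₁, v] i) = 0 := by
        rw [Fin.sum_univ_two]
        show (-(μ * algebraMap K F a / l)) • j v₁ + (1 : F) • j v = 0
        rw [h5]; module
      exact one_ne_zero (Fintype.linearIndependent_iff.1 hjl _ h6 1)
    have hν : ν ≠ 0 := by
      rintro rfl
      rw [zero_smul] at h3
      have h4 : ∑ i, ![l, μ] i • j (![w₁, w₂] i) = 0 := by
        rw [Fin.sum_univ_two]; exact h3
      exact hl (Fintype.linearIndependent_iff.1 (R.indep hli) _ h4 0)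
    have hsum : ∑ i, ![l / ν, μ / ν] i • j (![w₁, w₂] i) = j w₃ := by
      rw [Fin.sum_univ_two]
      show (l / ν) • j w₁ + (μ / ν) • j w₂ = j w₃
      have : (l / ν) • j w₁ + (μ / ν) • j w₂ = ν⁻¹ • (l • j w₁ + μ • j w₂) := by
        rw [smul_add, smul_smul, smul_smul, div_eq_inv_mul, div_eq_inv_mul]
      rw [this, h3, smul_smul, inv_mul_cancel₀ hν, one_smul]
    obtain ⟨a, ha⟩ := R.coeff hli hsum 0
    obtain ⟨b, hb⟩ := R.coeff hli hsum 1
    have ha' : algebraMap K F a = l / ν := ha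
    have hb' : algebraMap K F b = μ / ν := hb
    have hμ : μ = l * algebraMap K F (b / a) := by
      rw [map_div₀, ha', hb']; field_simp
    refine ⟨(b / a) • w₂, ?_⟩
    rw [h2, R.smul, smul_smul, ← hμ]
  obtain ⟨v₁, hv₁, -, hv₁'⟩ := R.perp (k := 0) (by omega) ![]
  have hv₁0 : v₁ ≠ 0 := by
    rintro rfl; exact hv₁' (Submodule.zero_mem _)
  obtain ⟨l, w₁, hl⟩ := hg v₁ hv₁
  have hl0 : l ≠ 0 := by
    rintro rfl
    rw [zero_smul] at hl
    apply hv₁0
    apply R.inj
    simpa using hl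
  refine ⟨l, hl0, fun x => ?_⟩
  let S : Submodule K W :=
    { carrier := {x | ∃ y : W, g (j x) = l • j y}
      add_mem' := by
        rintro a b ⟨c, hc⟩ ⟨d, hd⟩
        exact ⟨c + d, by rw [map_add, map_add, hc, hd, map_add, smul_add]⟩
      zero_mem' := ⟨0, by simp⟩
      smul_mem' := by
        rintro c a ⟨d, hd⟩
        exact ⟨c • d, by rw [R.smul, map_smul, hd, R.smul, smul_smul, smul_smul, mul_comm]⟩ }
  refine R.spanv 0 S ?_ (p_zero' _ _)
  intro z hz _
  by_cases hz0 : z = 0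
  · rw [hz0]; exact S.zero_mem
  obtain ⟨t, ht, ht', htT⟩ := R.perp (k := 2) (by omega) ![v₁, z]
  have e1 : polar Q₀ t v₁ = 0 := ht' 0
  have e2 : polar Q₀ t z = 0 := ht' 1
  have l1 : LinearIndependent K ![t, v₁] := li_cons2 hv₁0 (notMem_mono htT (by
    intro i; fin_cases i; exact Submodule.subset_span ⟨0, rfl⟩))
  have l2 : LinearIndependent K ![t, z] := li_cons2 hz0 (notMem_mono htT (by
    intro i; fin_cases i; exact Submodule.subset_span ⟨1, rfl⟩))
  obtain ⟨y, hy⟩ := step v₁ t w₁ l hv₁ ht hl0 hl (by rw [p_comm, e1]) (li_swap l1)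
  exact step t z y l ht hz hl0 hy e2 l2

/-- Main dichotomy for overgroups. -/
theorem dichotomy (R : RQ Q₀ Q j) (hn : 7 ≤ finrank F V) {M : Subgroup (V ≃ₗ[F] V)}
    (hE : HasE Q₀ Q j M) (hM : M ≤ O Q) :
    ⁅O Q, O Q⁆ ≤ M ∨
      (∀ g ∈ M, ∃ l : F, l ≠ 0 ∧ ∀ x : W, ∃ y : W, g (j x) = l • j y) := by
  rcases YY_dichotomy R hE with hK | hall
  · right
    intro g hg
    exact semilinear R fun v hv => rat_line R hE hM hK hv hg
  · left
    exact omega_of_all R hn hall

end H95.RatQT
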