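import Cfsg.Agent.Lib.H95.S4Base
import Cfsg.Agent.Lib.H7.ExtSp

set_option autoImplicit false
set_option linter.unusedSectionVars false

/-!
Four-dimensional symplectic groups in characteristic two: overgroups of `Sp 2` over the quadratic extension.
-/

namespace H95.S4

open Module H95.SpBasic H7.ExtF H7.ExtSp

variable {F K V : Type*} [Field F] [CharP F 2] [Field K] [Algebra F K] [AddCommGroup V] [Module F V] [Module K V]
  [IsScalarTower F K V]
variable {κ : LinearMap.BilinForm K V} {l0 : K →ₗ[F] F} {B : LinearMap.BilinForm F V}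

lemma mem_ln_of [FiniteDimensional K V] (h : SE κ l0 B) (h2 : finrank K V = 2) {x z : V} (hx : x ≠ 0)
    (h0 : κ x z = 0) : z ∈ ln F K x := by
  by_contra hz
  have hli : LinearIndependent K ![x, z] := by
    rw [LinearIndependent.pair_iff' hx]
    intro a ha
    exact hz (mem_ln.2 ⟨a, ha⟩)
  have hsp := hli.span_eq_top_of_card_eq_finrank (by rw [h2]; rfl)
  apply hx
  apply h.nd
  intro v
  have hv : v ∈ Submodule.span K (Set.range ![x, z]) := by rw [hsp]; exact Submodule.mem_top
  obtain ⟨c, rfl⟩ := (Submodule.mem_span_range_iff_exists_fun K).1 hv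
  rw [Fin.sum_univ_two]
  simp only [Matrix.cons_val_zero, Matrix.cons_val_one, map_add, map_smul, h.alt x, h0, smul_zero, add_zero]

theorem ext4 [Finite F] [FiniteDimensional F V] [FiniteDimensional F K] [FiniteDimensional K V] (h : SE κ l0 B)
    (hK : finrank F K = 2) (h2 : finrank K V = 2) (hq : ∃ l : F, l ≠ 0 ∧ l ≠ 1)
    {M : Subgroup (V ≃ₗ[F] V)} (hHM : HK F κ ≤ M) (hMB : M ≤ isom B)
    (hM : ∃ g ∈ M, ∃ x : V, ∃ k : K, g (k • x) ∉ ln F K (g x)) : isom B ≤ M := by
  have hB := h.altB
  have hnd := h.ndB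
  obtain ⟨g, hg, x, k, hgk⟩ := hM
  have hx : x ≠ 0 := by
    rintro rfl
    rw [smul_zero, map_zero] at hgk
    exact hgk (Submodule.zero_mem _)
  obtain ⟨t, ht, htx⟩ := h.trans (x := g x) (y := x) (by
    intro h0; exact hx ((LinearEquiv.map_eq_zero_iff g).1 h0)) hx
  obtain ⟨h0, hh0⟩ : ∃ h0, h0 = t * g := ⟨_, rfl⟩
  have m0 : h0 ∈ M := by rw [hh0]; exact M.mul_mem (hHM ht) hg
  have e0 : h0 x = x := by rw [hh0]; exact htx
  obtain ⟨x1, hx1⟩ : ∃ x1, x1 = k • x := ⟨_, rfl⟩
  obtain ⟨z1, hz1⟩ : ∃ z1, z1 = h0 x1 := ⟨_, rfl⟩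
  have hz1n : z1 ∉ ln F K x := by
    intro h3
    obtain ⟨a, ha⟩ := mem_ln.1 h3
    apply hgk
    refine mem_ln.2 ⟨a, ?_⟩
    apply t.injective
    rw [ht.1, htx, ha, hz1, hh0, hx1]
    rfl
  have hkF : ∀ a : F, algebraMap F K a ≠ k := by
    rintro a rfl
    apply hz1n
    rw [hz1, hx1, algebraMap_smul, map_smul, e0]
    exact (ln F K x).smul_mem a (self_mem_ln x)
  -- the field elements
  have hbasis : ∀ c : K, ∃ a b : F, c = algebraMap F K a + b • k := by
    intro c
    have hli : LinearIndependent F ![(1 : K), k] := by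
      rw [LinearIndependent.pair_iff' one_ne_zero]
      intro a ha
      apply hkF a
      rw [← ha, Algebra.smul_def, mul_one]
    have hsp := hli.span_eq_top_of_card_eq_finrank (by rw [hK]; rfl)
    have hc : c ∈ Submodule.span F (Set.range ![(1 : K), k]) := by rw [hsp]; exact Submodule.mem_top
    obtain ⟨d, rfl⟩ := (Submodule.mem_span_range_iff_exists_fun F).1 hc
    refine ⟨d 0, d 1, ?_⟩
    rw [Fin.sum_univ_two]
    simp only [Matrix.cons_val_zero, Matrix.cons_val_one]
    rw [Algebra.smul_def, mul_one]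
  obtain ⟨N, T, hkk⟩ := hbasis (k * k)
  have h2F : (2 : F) = 0 := two0
  have hBx1 : B x x1 = 0 := by rw [hx1, h.smulB', h.alt, mul_zero, map_zero]
  -- the basic element
  have base : ∃ c, E B hB x x1 * tr B hB x c ∈ M := by
    refine ⟨T, ?_⟩
    obtain ⟨c', hc'⟩ : ∃ c' : K, c' = algebraMap F K (l0 1) * k + algebraMap F K (l0 k + T * l0 1) := ⟨_, rfl⟩
    have : E B hB x x1 * tr B hB x T = h.T x c' := by
      apply LinearEquiv.ext
      intro y
      show E B hB x x1 (tr B hB x T y) = _
      have eB : B (tr B hB x T y) x = B y x := by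
        rw [tr_apply, map_add, LinearMap.add_apply, map_smul, LinearMap.smul_apply, hB x, smul_zero, add_zero]
      have eB' : B (tr B hB x T y) x1 = B y x1 := by
        rw [tr_apply, map_add, LinearMap.add_apply, map_smul, LinearMap.smul_apply, hBx1, smul_zero, add_zero]
      rw [E_apply hB hBx1, eB, eB', tr_apply, h.T_apply]
      obtain ⟨a, b, hab⟩ := hbasis (κ y x)
      have f1 : B y x = a * l0 1 + b * l0 k := by
        rw [h.hB, hab, map_add, map_smul, Algebra.algebraMap_eq_smul_one, map_smul, smul_eq_mul, smul_eq_mul]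
      have f2 : B y x1 = a * l0 k + b * (N * l0 1 + T * l0 k) := by
        rw [hx1, h.smulB', hab, mul_add, Algebra.algebraMap_eq_smul_one, mul_smul_comm, mul_one, mul_smul_comm,
          hkk, map_add, map_smul, map_smul, map_add, map_smul, Algebra.algebraMap_eq_smul_one, map_smul]
        simp only [smul_eq_mul]
      rw [f1, f2, hab, hx1, hc']
      have hkk' : k * k = algebraMap F K N + algebraMap F K T * k := by rw [hkk, Algebra.smul_def]
      have h2K : (2 : K) = 0 := by
        have := congrArg (algebraMap F K) h2F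
        rwa [map_ofNat, map_zero] at this
      have am : ∀ (s : F) (v : V), s • v = (algebraMap F K s) • v := fun s v => (algebraMap_smul K s v).symm
      rw [am (T * (a * l0 1 + b * l0 k)) x, am (a * l0 1 + b * l0 k) (k • x),
        am (a * l0 k + b * (N * l0 1 + T * l0 k)) x]
      simp only [Algebra.smul_def, smul_smul, map_add, map_mul]
      have lhs : y + (algebraMap F K T * (algebraMap F K a * algebraMap F K (l0 1) + algebraMap F K b * algebraMap F K (l0 k))) • x
          + ((algebraMap F K a * algebraMap F K (l0 1) + algebraMap F K b * algebraMap F K (l0 k)) * k) • x +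
          (algebraMap F K a * algebraMap F K (l0 k) + algebraMap F K b * (algebraMap F K N * algebraMap F K (l0 1) +
            algebraMap F K T * algebraMap F K (l0 k))) • x = y + ((algebraMap F K (l0 1) * k +
            (algebraMap F K (l0 k) + algebraMap F K T * algebraMap F K (l0 1))) * (algebraMap F K a + algebraMap F K b * k)) • x := by
        have e1 : (algebraMap F K (l0 1) * k + (algebraMap F K (l0 k) + algebraMap F K T * algebraMap F K (l0 1))) *
            (algebraMap F K a + algebraMap F K b * k) =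
            (algebraMap F K T * (algebraMap F K a * algebraMap F K (l0 1) + algebraMap F K b * algebraMap F K (l0 k))) +
            ((algebraMap F K a * algebraMap F K (l0 1) + algebraMap F K b * algebraMap F K (l0 k)) * k) +
            (algebraMap F K a * algebraMap F K (l0 k) + algebraMap F K b * (algebraMap F K N * algebraMap F K (l0 1) +
            algebraMap F K T * algebraMap F K (l0 k))) := by
          linear_combination (algebraMap F K (l0 1) * algebraMap F K b) * hkk' +
            (algebraMap F K (l0 1) * algebraMap F K b * algebraMap F K T * k -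
              algebraMap F K T * algebraMap F K b * algebraMap F K (l0 k)) * h2K
        rw [e1]
        module
      convert lhs using 2
    rw [this]
    exact hHM (h.T_mem _ _)
  -- uniqueness from the absence of transvections
  have tran : ∃ c : F, c ≠ 0 ∧ tr B hB x c ∈ M := by
    by_contra hcon
    push Not at hcon
    have hc0 : ∀ c, tr B hB x c ∈ M → c = 0 := by
      intro c hc
      by_contra h3
      exact hcon c h3 hc
    have uniq : ∀ z c d, E B hB x z * tr B hB x c ∈ M → E B hB x z * tr B hB x d ∈ M → c = d := by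
      intro z c d hc hd
      have h3 := M.mul_mem (M.inv_mem hc) hd
      have h4 : (E B hB x z * tr B hB x c)⁻¹ * (E B hB x z * tr B hB x d) = (tr B hB x c)⁻¹ * tr B hB x d := by group
      rw [h4, tr_inv, tr_mul] at h3
      have h5 := hc0 _ h3
      linear_combination -h5
    have cadd : ∀ z z' c c', B x z = 0 → B x z' = 0 → E B hB x z * tr B hB x c ∈ M → E B hB x z' * tr B hB x c' ∈ M →
        E B hB x (z + z') * tr B hB x (B z z' + (c + c')) ∈ M := by
      intro a b c d a1 b1 ha hb
      have h1 := M.mul_mem ha hb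
      have h2 : E B hB x a * tr B hB x c * (E B hB x b * tr B hB x d) =
          E B hB x (a + b) * tr B hB x (B a b + (c + d)) := by
        rw [← tr_mul, ← tr_mul, ← mul_assoc (E B hB x (a + b)), ← E_mul hB a1 b1]
        rw [mul_assoc, ← mul_assoc (tr B hB x c), ← E_tr hB b1, mul_assoc, mul_assoc]
      rwa [h2] at h1
    have cinv : ∀ m ∈ M, m x = x → ∀ z c, E B hB x z * tr B hB x c ∈ M → E B hB x (m z) * tr B hB x c ∈ M := by
      intro m hm hmx z c hc
      have hmi := hMB hm
      have h1 := M.mul_mem (M.mul_mem hm hc) (M.inv_mem hm)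
      have h2 : m * (E B hB x z * tr B hB x c) * m⁻¹ = (m * E B hB x z * m⁻¹) * (m * tr B hB x c * m⁻¹) := by
        group
      rwa [h2, E_conj hB _ _ hmi, tr_conj B hB _ _ _ hmi, hmx] at h1
    obtain ⟨b, hb⟩ : ∃ b, b = B z1 x1 := ⟨_, rfl⟩
    have hBz1 : B x z1 = 0 := by
      have := hMB m0 x x1
      rwa [e0, hBx1, ← hz1] at this
    have hκ : κ z1 x ≠ 0 := by
      intro h3
      apply hz1n
      exact mem_ln_of h h2 hx (by rw [h.sw, h3, neg_zero])
    have hb0 : b ≠ 0 := by
      intro h3
      apply hκ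
      apply h.ext
      intro a
      obtain ⟨a1, a2, rfl⟩ := hbasis a
      rw [add_mul, map_add, smul_mul_assoc, map_smul, ← h.smulB', ← h.smulB', ← hx1, ← hb, h3, smul_zero, add_zero,
        algebraMap_smul, map_smul, sym hB z1 x, hBz1, smul_zero]
    -- the transvections
    have τ : ∀ l : F, ∃ m ∈ M, m x = x ∧ (∀ s : F, m (s • z1) = s • z1 + (s * l) • x1) := by
      intro l
      refine ⟨h.T x (l • k * (κ z1 x)⁻¹), hHM (h.T_mem _ _), ?_, ?_⟩
      · rw [h.T_apply, h.alt, mul_zero, zero_smul, add_zero]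
      · intro s
        rw [map_smul, h.T_apply, inv_mul_cancel_right₀ hκ, smul_add, hx1, smul_assoc, smul_smul]
    obtain ⟨c1, hc1⟩ := base
    have hz1C := cinv h0 m0 e0 _ _ hc1
    rw [← hz1] at hz1C
    -- multiples of x1
    have hl : ∀ l : F, ∃ c, E B hB x (l • x1) * tr B hB x c ∈ M := by
      intro l
      obtain ⟨m, hm, hmx, hmz⟩ := τ l
      have h3 := cinv m hm hmx _ _ hz1C
      have h4 := hmz 1
      rw [one_smul, one_mul] at h4
      rw [h4] at h3
      have h5 := cadd _ _ _ _ hBz1 (by rw [map_add, map_smul, hBz1, hBx1, smul_zero, add_zero]) hz1C h3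
      have h6 : z1 + (z1 + l • x1) = l • x1 := by
        apply drop (F := F) (z := z1)
        module
      rw [h6] at h5
      exact ⟨_, h5⟩
    have hx1C : ∀ l : F, E B hB x (l • x1) * tr B hB x (l * b) ∈ M := by
      intro l
      obtain ⟨c, hc⟩ := hl l
      obtain ⟨m, hm, hmx, hmz⟩ := τ l
      have h3 := cinv m hm hmx _ _ hz1C
      have h4 := hmz 1
      rw [one_smul, one_mul] at h4
      rw [h4] at h3
      have h5 := cadd _ _ _ _ hBz1 (by rw [map_smul, hBx1, smul_zero]) hz1C hc
      have h6 := uniq _ _ _ h3 h5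
      rw [map_smul, smul_eq_mul, ← hb] at h6
      have h7 : c = l * b := by linear_combination (-1 : F) * h6 - l * b * h2F
      rwa [h7] at hc
    have hz1C' : ∀ l : F, E B hB x (l • z1) * tr B hB x (l * b) ∈ M := by
      intro l
      have := cinv h0 m0 e0 _ _ (hx1C l)
      rwa [map_smul, ← hz1] at this
    obtain ⟨l, hl0, hl1⟩ := hq
    obtain ⟨m, hm, hmx, hmz⟩ := τ 1
    have h3 := cinv m hm hmx _ _ (hz1C' l)
    rw [hmz l, mul_one] at h3
    have h5 := cadd _ _ _ _ (by rw [map_smul, hBz1, smul_zero]) (by rw [map_smul, hBx1, smul_zero]) (hz1C' l) (hx1C l)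
    have h6 := uniq _ _ _ h3 h5
    rw [map_smul, map_smul, LinearMap.smul_apply, smul_eq_mul, smul_eq_mul, ← hb] at h6
    have h7 : l * b * (l + 1) = 0 := by linear_combination (-1 : F) * h6
    rcases mul_eq_zero.1 h7 with h8 | h8
    · exact mul_ne_zero hl0 hb0 h8
    · exact hl1 (by linear_combination h8 - h2F)
  obtain ⟨c, hc0, hc⟩ := tran
  apply isom_le_of_tr B hB hnd
  intro v d
  by_cases hv : v = 0
  · have : tr B hB v d = 1 := by rw [hv]; ext y; simp
    rw [this]; exact M.one_mem
  obtain ⟨s, hs⟩ : ∃ s : F, s * s = d / c := by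
    have hinj : Function.Injective (frobenius F 2) := frobenius_inj F 2
    obtain ⟨a, ha⟩ := Finite.surjective_of_injective hinj (d / c)
    rw [frobenius_def] at ha
    exact ⟨a, by rw [← ha]; ring⟩
  by_cases hs0 : s = 0
  · have : d = 0 := by
      rw [hs0, mul_zero] at hs
      rcases div_eq_zero_iff.1 hs.symm with h3 | h3
      · exact h3
      · exact absurd h3 hc0
    rw [this, tr_zero]; exact M.one_mem
  obtain ⟨m, hm, hmx⟩ := h.trans hx (smul_ne_zero hs0 hv)
  have h3 := M.mul_mem (M.mul_mem (hHM hm) hc) (M.inv_mem (hHM hm))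
  rw [tr_conj B hB _ _ _ (hMB (hHM hm)), hmx, tr_smul, pow_two, hs, mul_div_cancel₀ _ hc0] at h3
  exact h3

end H95.S4
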