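import Mathlib
import Cfsg.Agent.Lib.H95.SpOrthEven

set_option autoImplicit false

/-!
Overgroups of the stabiliser of a pair of complementary totally isotropic subspaces in the
symplectic group, odd characteristic.
-/

namespace H95.SpSing

open Module H95.SpBasic H95.SpGeom H95.SpOrthEven

variable {F V : Type*} [Field F] [AddCommGroup V] [Module F V]

/-- Short root element `x ↦ x + B(x,w) u + B(x,u) w` for orthogonal `u, w`. -/
def sh (B : LinearMap.BilinForm F V) (hB : B.IsAlt) (u w : V) (h : B u w = 0) : V ≃ₗ[F] V where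
  toFun x := x + B x w • u + B x u • w
  invFun x := x - B x w • u - B x u • w
  map_add' x y := by
    simp only [map_add, LinearMap.add_apply, add_smul]
    abel
  map_smul' a x := by
    simp only [map_smul, LinearMap.smul_apply, smul_eq_mul, RingHom.id_apply, smul_add, smul_smul]
  left_inv x := by
    have h1 : B u u = 0 := hB u
    have h2 : B w w = 0 := hB w
    have h3 : B w u = 0 := by rw [← LinearMap.BilinForm.IsAlt.neg_eq hB u w, h, neg_zero]
    simp only [map_add, LinearMap.add_apply, map_smul, LinearMap.smul_apply, h1, h2, h3, h,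
      smul_eq_mul, mul_zero, add_zero]
    abel
  right_inv x := by
    have h1 : B u u = 0 := hB u
    have h2 : B w w = 0 := hB w
    have h3 : B w u = 0 := by rw [← LinearMap.BilinForm.IsAlt.neg_eq hB u w, h, neg_zero]
    simp only [map_sub, LinearMap.sub_apply, map_smul, LinearMap.smul_apply, h1, h2, h3, h,
      smul_eq_mul, mul_zero, sub_zero]
    abel

@[simp] lemma sh_apply (B : LinearMap.BilinForm F V) (hB : B.IsAlt) (u w : V) (h : B u w = 0)
    (x : V) : sh B hB u w h x = x + B x w • u + B x u • w := rfl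

lemma sh_mem_isom (B : LinearMap.BilinForm F V) (hB : B.IsAlt) (u w : V) (h : B u w = 0) :
    sh B hB u w h ∈ isom B := by
  intro x y
  have h1 : B u u = 0 := hB u
  have h2 : B w w = 0 := hB w
  have h3 : B w u = 0 := by rw [← LinearMap.BilinForm.IsAlt.neg_eq hB u w, h, neg_zero]
  have h4 : B u y = - B y u := (LinearMap.BilinForm.IsAlt.neg_eq hB y u).symm
  have h5 : B w y = - B y w := (LinearMap.BilinForm.IsAlt.neg_eq hB y w).symm
  simp only [sh_apply, map_add, LinearMap.add_apply, map_smul, LinearMap.smul_apply, h1, h2, h3, h,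
    h4, h5, smul_eq_mul]
  ring

lemma sh_conj (B : LinearMap.BilinForm F V) (hB : B.IsAlt) (u w : V) (h : B u w = 0)
    (g : V ≃ₗ[F] V) (hg : g ∈ isom B) :
    g * sh B hB u w h * g⁻¹ = sh B hB (g u) (g w) (by rw [hg, h]) := by
  ext x
  show g (sh B hB u w h (g⁻¹ x)) = _
  have h1 : g (g⁻¹ x) = x := g.apply_symm_apply x
  have h2 : ∀ v, B (g⁻¹ x) v = B x (g v) := by
    intro v
    rw [← hg (g⁻¹ x) v, h1]
  simp only [sh_apply, map_add, map_smul, h1, h2]

/-- The commutator of two short root elements with a common vector is a transvection. -/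
lemma comm_sh (B : LinearMap.BilinForm F V) (hB : B.IsAlt) (u y z : V) (hy : B u y = 0)
    (hz : B u z = 0) :
    sh B hB u y hy * sh B hB u z hz * (sh B hB u y hy)⁻¹ * (sh B hB u z hz)⁻¹ =
      tr B hB u (2 * B z y) := by
  rw [mul_inv_eq_iff_eq_mul]
  rw [sh_conj B hB u z hz _ (sh_mem_isom B hB u y hy)]
  ext x
  show _ = tr B hB u (2 * B z y) (sh B hB u z hz x)
  have h1 : B u u = 0 := hB u
  have h3 : B z u = 0 := by rw [← LinearMap.BilinForm.IsAlt.neg_eq hB u z, hz, neg_zero]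
  simp only [sh_apply, tr_apply, map_add, map_smul, h1,
    h3, hy, smul_eq_mul, zero_smul, add_zero, mul_zero]
  module

/-- The common data: two complementary totally isotropic subspaces. -/
structure Pair (B : LinearMap.BilinForm F V) (U1 U2 : Submodule F V) : Prop where
  iso1 : ∀ x ∈ U1, ∀ y ∈ U1, B x y = 0
  iso2 : ∀ x ∈ U2, ∀ y ∈ U2, B x y = 0
  sup : U1 ⊔ U2 = ⊤

variable {B : LinearMap.BilinForm F V} {U1 U2 : Submodule F V}

lemma Pair.symm (h : Pair B U1 U2) : Pair B U2 U1 := ⟨h.iso2, h.iso1, by rw [sup_comm]; exact h.sup⟩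

lemma Pair.decomp (h : Pair B U1 U2) (x : V) : ∃ a ∈ U1, ∃ b ∈ U2, a + b = x := by
  have hx : x ∈ U1 ⊔ U2 := by rw [h.sup]; trivial
  obtain ⟨a, ha, b, hb, hab⟩ := Submodule.mem_sup.1 hx
  exact ⟨a, ha, b, hb, hab⟩

lemma Pair.disj (h : Pair B U1 U2) (hndV : ∀ v, (∀ w, B v w = 0) → v = 0) {x : V} (h1 : x ∈ U1)
    (h2 : x ∈ U2) : x = 0 := by
  apply hndV
  intro w
  obtain ⟨a, ha, b, hb, rfl⟩ := h.decomp w
  rw [map_add, h.iso1 x h1 a ha, h.iso2 x h2 b hb, add_zero]

/-- `U1⊥ = U1`. -/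
lemma Pair.mem_of_orth (h : Pair B U1 U2) (hB : B.IsAlt) (hndV : ∀ v, (∀ w, B v w = 0) → v = 0)
    {x : V} (hx : ∀ y ∈ U1, B x y = 0) : x ∈ U1 := by
  obtain ⟨a, ha, b, hb, rfl⟩ := h.decomp x
  have : b = 0 := by
    apply hndV
    intro w
    obtain ⟨c, hc, d, hd, rfl⟩ := h.decomp w
    have := hx c hc
    rw [map_add, LinearMap.add_apply, h.iso1 a ha c hc, zero_add] at this
    rw [map_add, this, h.iso2 b hb d hd, add_zero]
  rw [this, add_zero]; exact ha

lemma Pair.mem_of_orth' (h : Pair B U1 U2) (hB : B.IsAlt) (hndV : ∀ v, (∀ w, B v w = 0) → v = 0)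
    {x : V} (hx : ∀ y ∈ U1, B y x = 0) : x ∈ U1 :=
  h.mem_of_orth hB hndV (fun y hy => by
    rw [← LinearMap.BilinForm.IsAlt.neg_eq hB y x, hx y hy, neg_zero])

lemma surj_dual [FiniteDimensional F V] (hndV : ∀ v, (∀ w, B v w = 0) → v = 0) (f : V →ₗ[F] F) :
    ∃ w, ∀ x, B w x = f x := by
  have hinj : Function.Injective B := by
    rw [← LinearMap.ker_eq_bot, LinearMap.ker_eq_bot']
    intro v hv
    exact hndV v (fun w => by rw [hv]; rfl)
  have hsurj := (LinearMap.injective_iff_surjective_of_finrank_eq_finrank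
        (Subspace.dual_finrank_eq (K := F) (V := V)).symm).1 hinj
  obtain ⟨w, hw⟩ := hsurj f
  exact ⟨w, fun x => by rw [hw]⟩

/-- Duality between `U1` and `U2`. -/
lemma Pair.dual (h : Pair B U1 U2) [FiniteDimensional F V] (hB : B.IsAlt)
    (hndV : ∀ v, (∀ w, B v w = 0) → v = 0) (f : V →ₗ[F] F) : ∃ w ∈ U2, ∀ x ∈ U1, B x w = f x := by
  obtain ⟨w, hw⟩ := surj_dual hndV (-f)
  obtain ⟨a, ha, b, hb, rfl⟩ := h.decomp w
  refine ⟨b, hb, fun x hx => ?_⟩
  have := hw x
  rw [map_add, LinearMap.add_apply, h.iso1 a ha x hx, zero_add, LinearMap.neg_apply,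
    ← LinearMap.BilinForm.IsAlt.neg_eq hB x b] at this
  exact neg_injective this

/-- Stabilising (both) or interchanging. -/
def Perm2 (U1 U2 : Submodule F V) (g : V ≃ₗ[F] V) : Prop :=
  ((∀ x ∈ U1, g x ∈ U1) ∧ ∀ x ∈ U2, g x ∈ U2) ∨ ((∀ x ∈ U1, g x ∈ U2) ∧ ∀ x ∈ U2, g x ∈ U1)

lemma Perm2.symm {g : V ≃ₗ[F] V} (h : Perm2 U1 U2 g) : Perm2 U2 U1 g := by
  rcases h with h | h
  · exact Or.inl ⟨h.2, h.1⟩
  · exact Or.inr ⟨h.2, h.1⟩

/-- the swap -/
lemma Pair.exists_swap (h : Pair B U1 U2) [FiniteDimensional F V] (hB : B.IsAlt)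
    (hndV : ∀ v, (∀ w, B v w = 0) → v = 0) :
    ∃ g ∈ isom B, (∀ x ∈ U1, g x ∈ U2) ∧ ∀ x ∈ U2, g x ∈ U1 := by
  -- the isomorphism U2 → Dual U1
  let φ : U2 →ₗ[F] Dual F U1 := (LinearMap.lcomp F F U1.subtype) ∘ₗ B.flip ∘ₗ U2.subtype
  have hφ : ∀ (y : U2) (x : U1), φ y x = B (x : V) (y : V) := fun y x => rfl
  have hinj : Function.Injective φ := by
    rw [← LinearMap.ker_eq_bot, LinearMap.ker_eq_bot']
    intro y hy
    have : (y : V) ∈ U1 := h.mem_of_orth' hB hndV (fun x hx => by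
      rw [← hφ y ⟨x, hx⟩, hy]; rfl)
    exact Subtype.ext (h.disj hndV this y.2)
  have hsurj : Function.Surjective φ := by
    intro f
    obtain ⟨g, hg⟩ := LinearMap.exists_extend f
    obtain ⟨w, hw, hwx⟩ := h.dual hB hndV g
    refine ⟨⟨w, hw⟩, ?_⟩
    ext x
    rw [hφ]
    show B (x : V) w = _
    rw [hwx x x.2, ← hg]; rfl
  let e : U2 ≃ₗ[F] Dual F U1 := LinearEquiv.ofBijective φ ⟨hinj, hsurj⟩
  let b := Module.finBasis F U1
  let ψ : U1 ≃ₗ[F] U2 := b.toDualEquiv.trans e.symm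
  have hψ : ∀ x y : U1, B (x : V) (ψ y : V) = b.toDual y x := by
    intro x y
    have h1 : e (ψ y) = b.toDualEquiv y := by
      exact e.apply_symm_apply _
    have h2 := congrArg (fun f : Dual F U1 => f x) h1
    exact h2
  have hsym : ∀ x y : U1, B (x : V) (ψ y : V) = B (y : V) (ψ x : V) := by
    intro x y
    rw [hψ, hψ]
    -- symmetry of toDual
    have h3 : ∀ x y : U1, b.toDual y x = ∑ i, b.repr y i * b.repr x i := by
      intro x y
      conv_lhs => rw [← b.sum_repr x]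
      rw [map_sum]
      refine Finset.sum_congr rfl fun i _ => ?_
      rw [map_smul, Basis.toDual_apply_left, smul_eq_mul, mul_comm]
    rw [h3, h3]
    exact Finset.sum_congr rfl fun i _ => mul_comm _ _
  have hcompl : IsCompl U1 U2 := by
    constructor
    · rw [Submodule.disjoint_def]
      intro x h1 h2
      exact h.disj hndV h1 h2
    · rw [codisjoint_iff]; exact h.sup
  let P1 := Submodule.projectionOnto U1 U2 hcompl
  let P2 := Submodule.projectionOnto U2 U1 hcompl.symm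
  let f : V →ₗ[F] V := U2.subtype ∘ₗ ψ.toLinearMap ∘ₗ P1 - U1.subtype ∘ₗ ψ.symm.toLinearMap ∘ₗ P2
  have hf1 : ∀ x : U1, f (x : V) = ψ x := by
    intro x
    have h1 : P1 (x : V) = x := Submodule.projectionOnto_apply_left hcompl x
    have h2 : P2 (x : V) = 0 := Submodule.projectionOnto_apply_right hcompl.symm x
    show ((ψ (P1 (x : V)) : U2) : V) - ((ψ.symm (P2 (x : V)) : U1) : V) = _
    rw [h1, h2]; simp
  have hf2 : ∀ x : U2, f (x : V) = -((ψ.symm x : U1) : V) := by
    intro x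
    have h1 : P1 (x : V) = 0 := Submodule.projectionOnto_apply_right hcompl x
    have h2 : P2 (x : V) = x := Submodule.projectionOnto_apply_left hcompl.symm x
    show ((ψ (P1 (x : V)) : U2) : V) - ((ψ.symm (P2 (x : V)) : U1) : V) = _
    rw [h1, h2]; simp
  have hiso : ∀ x y, B (f x) (f y) = B x y := by
    intro x y
    obtain ⟨a, ha, b', hb, rfl⟩ := h.decomp x
    obtain ⟨c, hc, d, hd, rfl⟩ := h.decomp y
    have e1 := hf1 ⟨a, ha⟩
    have e2 := hf2 ⟨b', hb⟩
    have e3 := hf1 ⟨c, hc⟩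
    have e4 := hf2 ⟨d, hd⟩
    simp only at e1 e2 e3 e4
    rw [map_add f, map_add f, e1, e2, e3, e4]
    simp only [map_add, map_neg, LinearMap.add_apply, LinearMap.neg_apply]
    rw [h.iso2 _ (ψ ⟨a, ha⟩).2 _ (ψ ⟨c, hc⟩).2, h.iso1 _ (ψ.symm ⟨b', hb⟩).2 _ (ψ.symm ⟨d, hd⟩).2,
      h.iso1 a ha c hc, h.iso2 b' hb d hd]
    have k1 : B ((ψ ⟨a, ha⟩ : U2) : V) ((ψ.symm ⟨d, hd⟩ : U1) : V) = - B a d := by
      rw [← LinearMap.BilinForm.IsAlt.neg_eq hB, hsym _ ⟨a, ha⟩, ψ.apply_symm_apply]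
    have k2 : B ((ψ.symm ⟨b', hb⟩ : U1) : V) ((ψ ⟨c, hc⟩ : U2) : V) = - B b' c := by
      rw [hsym, ψ.apply_symm_apply, LinearMap.BilinForm.IsAlt.neg_eq hB]
    rw [k1, k2]
    ring
  have hinj2 : Function.Injective f := by
    rw [← LinearMap.ker_eq_bot, LinearMap.ker_eq_bot']
    intro x hx
    apply hndV
    intro w
    rw [← hiso x w, hx]; simp
  refine ⟨LinearEquiv.ofInjectiveEndo f hinj2, fun x y => hiso x y, ?_, ?_⟩
  · intro x hx
    show f x ∈ U2
    rw [hf1 ⟨x, hx⟩]; exact Submodule.coe_mem _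
  · intro x hx
    show f x ∈ U1
    rw [hf2 ⟨x, hx⟩]; exact U1.neg_mem (Submodule.coe_mem _)


/-- All vectors of `U1` are centres as soon as one non-zero vector of `U1` is. -/
lemma Pair.cen_all (h : Pair B U1 U2) [FiniteDimensional F V] (hB : B.IsAlt)
    (hndV : ∀ v, (∀ w, B v w = 0) → v = 0) {M : Subgroup (V ≃ₗ[F] V)} (hMi : M ≤ isom B)
    (hH : ∀ g ∈ isom B, Perm2 U1 U2 g → g ∈ M) {u : V} (hu : u ∈ U1) (hu0 : u ≠ 0)
    (hc : Cen B hB M u) : ∀ u' ∈ U1, Cen B hB M u' := by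
  intro u' hu'
  by_cases hsp : u ∈ Submodule.span F {u' - u}
  · obtain ⟨a, ha⟩ := Submodule.mem_span_singleton.1 hsp
    have ha0 : a ≠ 0 := by rintro rfl; rw [zero_smul] at ha; exact hu0 ha.symm
    have : u' = (1 + a⁻¹) • u := by
      have h1 : u' - u = a⁻¹ • u := by rw [← ha, smul_smul, inv_mul_cancel₀ ha0, one_smul, ha]
      rw [add_smul, one_smul, ← h1]; abel
    rw [this]; exact hc.smul _
  · obtain ⟨f, hf, hf'⟩ := Submodule.exists_le_ker_of_notMem hsp
    obtain ⟨w, hw, hwx⟩ := h.dual hB hndV ((f u)⁻¹ • f)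
    have hfk : f (u' - u) = 0 := hf' (Submodule.mem_span_singleton_self _)
    have h1 : B (u' - u) w = 0 := by
      rw [hwx _ (U1.sub_mem hu' hu), LinearMap.smul_apply, hfk, smul_zero]
    have h2 : B u w = 1 := by
      rw [hwx _ hu, LinearMap.smul_apply, smul_eq_mul, inv_mul_cancel₀ hf]
    have hmem : sh B hB (u' - u) w h1 ∈ M := by
      apply hH _ (sh_mem_isom _ _ _ _ _)
      left
      constructor
      · intro x hx
        rw [sh_apply, h.iso1 x hx _ (U1.sub_mem hu' hu), zero_smul, add_zero]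
        exact U1.add_mem hx (U1.smul_mem _ (U1.sub_mem hu' hu))
      · intro x hx
        rw [sh_apply, h.iso2 x hx _ hw, zero_smul, add_zero]
        exact U2.add_mem hx (U2.smul_mem _ hw)
    have h3 : sh B hB (u' - u) w h1 u = u' := by
      rw [sh_apply, h2, h.iso1 u hu _ (U1.sub_mem hu' hu), zero_smul, one_smul]; abel
    rw [← h3]
    exact hc.map hmem (hMi hmem)

/-- From `U1 ∪ U2` to everything. -/
lemma Pair.cen_top (h : Pair B U1 U2) [FiniteDimensional F V] (hB : B.IsAlt)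
    (hndV : ∀ v, (∀ w, B v w = 0) → v = 0) {M : Subgroup (V ≃ₗ[F] V)}
    (h1 : ∀ u ∈ U1, Cen B hB M u) (h2 : ∀ u ∈ U2, Cen B hB M u) (v : V) : Cen B hB M v := by
  obtain ⟨a, ha, b, hb, rfl⟩ := h.decomp v
  by_cases hab : B a b = 0
  · by_cases ha0 : a = 0
    · rw [ha0, zero_add]; exact h2 b hb
    · obtain ⟨z, hz⟩ : ∃ z, B a z ≠ 0 := by
        by_contra hcon; push Not at hcon; exact ha0 (hndV a hcon)
      obtain ⟨c, hc, d, hd, rfl⟩ := h.decomp z
      have hd' : B a d ≠ 0 := by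
        rwa [map_add, h.iso1 a ha c hc, zero_add] at hz
      have e1 : Cen B hB M (a + d) := by
        have := (h1 a ha).add (h2 d hd) hd' 1
        rwa [one_smul] at this
      have e2 : Cen B hB M (b - d) := h2 _ (U2.sub_mem hb hd)
      have e3 : B (a + d) (b - d) ≠ 0 := by
        rw [map_add, LinearMap.add_apply, map_sub, hab, h.iso2 d hd _ (U2.sub_mem hb hd)]
        simpa using hd'
      have := e1.add e2 e3 1
      have e4 : a + d + (1 : F) • (b - d) = a + b := by rw [one_smul]; abel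
      rwa [e4] at this
  · have := (h1 a ha).add (h2 b hb) hab 1
    rwa [one_smul] at this

/-- Creation of a transvection centre. -/
lemma Pair.create (h : Pair B U1 U2) [FiniteDimensional F V] (hB : B.IsAlt)
    (h2F : (2 : F) ≠ 0) (hdim : 5 ≤ finrank F U1)
    (hndV : ∀ v, (∀ w, B v w = 0) → v = 0) {M : Subgroup (V ≃ₗ[F] V)} (hMi : M ≤ isom B)
    (hH : ∀ g ∈ isom B, Perm2 U1 U2 g → g ∈ M)
    (v w : V) (hvw : B v w = 0) (hsM : sh B hB v w hvw ∈ M)
    (hx : ∃ x ∈ U2, sh B hB v w hvw x ∉ U2) : ∃ u ∈ U1, u ≠ 0 ∧ Cen B hB M u := by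
  obtain ⟨x, hx2, hxn⟩ := hx
  set s := sh B hB v w hvw with hs
  have hsi : s ∈ isom B := sh_mem_isom _ _ _ _ _
  obtain ⟨d1, hd1, d2, hd2, hd⟩ := h.decomp (s x)
  have hd10 : d1 ≠ 0 := by
    rintro rfl
    rw [zero_add] at hd
    rw [← hd] at hxn
    exact hxn hd2
  -- choose u
  have hdimU : 2 ≤ finrank F (U1 ⊓ lperp B (Submodule.span F ({v, w, x} : Set V)) : Submodule F V) := by
    have e1 := Submodule.finrank_sup_add_finrank_inf_eq U1 (lperp B (Submodule.span F ({v, w, x} : Set V)))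
    have e2 := Submodule.finrank_le (U1 ⊔ (lperp B (Submodule.span F ({v, w, x} : Set V))))
    have e3 := finrank_lperp_ge B (Submodule.span F ({v, w, x} : Set V))
    have e4 := finrank_three_le (F := F) v w x
    omega
  have hnle : ¬ (U1 ⊓ lperp B (Submodule.span F ({v, w, x} : Set V)) : Submodule F V) ≤
      Submodule.span F {d1} := by
    intro hle
    have e1 := Submodule.finrank_mono hle
    have e2 := finrank_span_le_one (F := F) d1
    omega
  obtain ⟨u, huU, hud⟩ := SetLike.not_le_iff_exists.1 hnle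
  have hu1 : u ∈ U1 := huU.1
  have huv : B u v = 0 := mem_lperp.1 huU.2 v (Submodule.subset_span (by simp))
  have huw : B u w = 0 := mem_lperp.1 huU.2 w (Submodule.subset_span (by simp))
  have hux : B u x = 0 := mem_lperp.1 huU.2 x (Submodule.subset_span (by simp))
  have hu0 : u ≠ 0 := by rintro rfl; exact hud (Submodule.zero_mem _)
  have hsu : s u = u := by
    rw [hs, sh_apply, huv, huw]; simp
  have husx : B u (s x) = 0 := by
    have := hsi u x
    rw [hsu, hux] at this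
    exact this
  have hd1u : d1 ∉ Submodule.span F {u} := by
    intro hmem
    obtain ⟨a, ha⟩ := Submodule.mem_span_singleton.1 hmem
    apply hud
    have ha0 : a ≠ 0 := by rintro rfl; rw [zero_smul] at ha; exact hd10 ha.symm
    exact Submodule.mem_span_singleton.2 ⟨a⁻¹, by rw [← ha, smul_smul, inv_mul_cancel₀ ha0, one_smul]⟩
  obtain ⟨f, hf, hf'⟩ := Submodule.exists_le_ker_of_notMem hd1u
  obtain ⟨y, hy, hyx⟩ := h.dual hB hndV f
  have huy : B u y = 0 := by
    rw [hyx u hu1]; exact hf' (Submodule.mem_span_singleton_self _)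
  have hsxy : B (s x) y ≠ 0 := by
    rw [← hd, map_add, LinearMap.add_apply, hyx d1 hd1, h.iso2 d2 hd2 y hy, add_zero]; exact hf
  refine ⟨u, hu1, hu0, ?_⟩
  intro c
  -- scale y
  set a := c * (2 * B (s x) y)⁻¹ with ha
  have huay : B u (a • y) = 0 := by rw [map_smul, huy, smul_zero]
  have hperm : ∀ z ∈ U2, ∀ hz : B u z = 0, sh B hB u z hz ∈ M := by
    intro z hz huz
    apply hH _ (sh_mem_isom _ _ _ _ _)
    left
    constructor
    · intro p hp
      rw [sh_apply, h.iso1 p hp u hu1, zero_smul, add_zero]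
      exact U1.add_mem hp (U1.smul_mem _ hu1)
    · intro p hp
      rw [sh_apply, h.iso2 p hp z hz, zero_smul, add_zero]
      exact U2.add_mem hp (U2.smul_mem _ hz)
  have m1 : sh B hB u (a • y) huay ∈ M := hperm _ (U2.smul_mem _ hy) _
  have m2 : sh B hB u (s x) husx ∈ M := by
    have := M.mul_mem (M.mul_mem hsM (hperm x hx2 hux)) (M.inv_mem hsM)
    rw [sh_conj B hB u x hux s hsi] at this
    have e : sh B hB (s u) (s x) (by rw [hsi, hux]) = sh B hB u (s x) husx := by
      ext p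
      simp only [sh_apply, hsu]
    rwa [e] at this
  have m3 := M.mul_mem (M.mul_mem (M.mul_mem m1 m2) (M.inv_mem m1)) (M.inv_mem m2)
  rw [comm_sh B hB u (a • y) (s x) huay husx, map_smul, smul_eq_mul, ha] at m3
  have e5 : 2 * (c * (2 * B (s x) y)⁻¹ * B (s x) y) = c := by
    field_simp
  rwa [e5] at m3

lemma exists_ne_orth [FiniteDimensional F V] (B : LinearMap.BilinForm F V) (U : Submodule F V)
    (hU : 2 ≤ finrank F U) (z : V) : ∃ u ∈ U, u ≠ 0 ∧ B u z = 0 := by
  have e1 := Submodule.finrank_sup_add_finrank_inf_eq U (lperp B (Submodule.span F {z}))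
  have e2 := Submodule.finrank_le (U ⊔ (lperp B (Submodule.span F {z})))
  have e3 := finrank_lperp_ge B (Submodule.span F {z})
  have e4 := finrank_span_le_one (F := F) z
  have e5 : (U ⊓ lperp B (Submodule.span F {z}) : Submodule F V) ≠ ⊥ := by
    intro h0
    rw [h0, finrank_bot] at e1
    omega
  obtain ⟨u, hu, hu0⟩ := Submodule.exists_mem_ne_zero_of_ne_bot e5
  exact ⟨u, hu.1, hu0, mem_lperp.1 hu.2 z (Submodule.mem_span_singleton_self _)⟩

lemma Pair.zero_or (h : Pair B U1 U2) (hB : B.IsAlt)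
    (h2F : (2 : F) ≠ 0) (hndV : ∀ v, (∀ w, B v w = 0) → v = 0) {v w : V} (hv : v ∈ U2) (hw : w ∈ U2)
    (hc : ∀ x ∈ U1, B x w • v + B x v • w = 0) : v = 0 ∨ w = 0 := by
  by_contra hcon
  push Not at hcon
  obtain ⟨hv0, hw0⟩ := hcon
  have key : ∀ y ∈ U2, y ≠ 0 → ∃ x : U1, ((B.flip y).comp U1.subtype) x ≠ 0 := by
    intro y hy hy0
    by_contra hcon
    push Not at hcon
    apply hy0
    exact h.disj hndV (h.mem_of_orth' hB hndV (fun x hx => hcon ⟨x, hx⟩)) hy
  obtain ⟨x, hx1, hx2⟩ := exists_both_ne (key v hv hv0) (key w hw hw0)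
  have hx1' : B (x : V) v ≠ 0 := hx1
  have hx2' : B (x : V) w ≠ 0 := hx2
  have h1 := hc x x.2
  have h2 : B (x : V) w * B (x : V) v + B (x : V) v * B (x : V) w = 0 := by
    have := congrArg (B (x : V)) h1
    simpa only [map_add, map_smul, smul_eq_mul, map_zero] using this
  have h3 : (2 : F) * (B (x : V) w * B (x : V) v) = 0 := by rw [two_mul, mul_comm (B (x : V) w)]; rw [mul_comm (B (x : V) w)] at h2; exact h2
  rcases mul_eq_zero.1 h3 with h4 | h4
  · exact h2F h4
  · rcases mul_eq_zero.1 h4 with h5 | h5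
    · exact hx2' h5
    · exact hx1' h5

/-- Main theorem for pairs of complementary totally isotropic subspaces. -/
theorem Pair.overgroup (h : Pair B U1 U2) [FiniteDimensional F V] (hB : B.IsAlt)
    (h2F : (2 : F) ≠ 0) (hdim : 5 ≤ finrank F U1) (hdim2 : 5 ≤ finrank F U2)
    (hndV : ∀ v, (∀ w, B v w = 0) → v = 0) {M : Subgroup (V ≃ₗ[F] V)} (hMi : M ≤ isom B)
    (hH : ∀ g ∈ isom B, Perm2 U1 U2 g → g ∈ M) (hM : ∃ g ∈ M, ¬ Perm2 U1 U2 g) : isom B ≤ M := by
  obtain ⟨g, hg, hgP⟩ := hM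
  have hgi := hMi hg
  -- claim: some short root element conjugate is not preserving U1 or U2
  have hex : ∃ u ∈ U1, ∃ z ∈ U2, ∃ huz : B u z = 0, 
      (∃ x ∈ U2, sh B hB (g u) (g z) (by rw [hgi, huz]) x ∉ U2) ∨
      (∃ x ∈ U1, sh B hB (g u) (g z) (by rw [hgi, huz]) x ∉ U1) := by
    by_contra hcon
    push Not at hcon
    apply hgP
    -- for u ∈ U1, z ∈ U2 orthogonal, nonzero
    have key : ∀ u ∈ U1, ∀ z ∈ U2, u ≠ 0 → z ≠ 0 → B u z = 0 →
        (g u ∈ U1 ∧ g z ∈ U2) ∨ (g u ∈ U2 ∧ g z ∈ U1) := by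
      intro u hu z hz hu0 hz0 huz
      obtain ⟨c2, c1⟩ := hcon u hu z hz huz
      obtain ⟨v1, hv1, v2, hv2, hv⟩ := h.decomp (g u)
      obtain ⟨w1, hw1, w2, hw2, hw⟩ := h.decomp (g z)
      have d1 : v2 = 0 ∨ w2 = 0 := by
        apply h.zero_or hB h2F hndV hv2 hw2
        intro x hx
        have e1 := c1 x hx
        rw [sh_apply, ← hv, ← hw, map_add, map_add, h.iso1 x hx w1 hw1, h.iso1 x hx v1 hv1,
          zero_add, zero_add, add_assoc] at e1
        have e2 := (Submodule.add_mem_iff_right U1 hx).1 e1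
        have e3 : B x w2 • v2 + B x v2 • w2 ∈ U1 := by
          have e4 : B x w2 • v2 + B x v2 • w2 = (B x w2 • (v1 + v2) + B x v2 • (w1 + w2)) -
            (B x w2 • v1 + B x v2 • w1) := by simp only [smul_add]; abel
          rw [e4]
          exact U1.sub_mem e2 (U1.add_mem (U1.smul_mem _ hv1) (U1.smul_mem _ hw1))
        exact h.disj hndV e3 (U2.add_mem (U2.smul_mem _ hv2) (U2.smul_mem _ hw2))
      have d2 : v1 = 0 ∨ w1 = 0 := by
        apply h.symm.zero_or hB h2F hndV hv1 hw1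
        intro x hx
        have e1 := c2 x hx
        rw [sh_apply, ← hv, ← hw, map_add, map_add, h.iso2 x hx w2 hw2, h.iso2 x hx v2 hv2,
          add_zero, add_zero, add_assoc] at e1
        have e2 := (Submodule.add_mem_iff_right U2 hx).1 e1
        have e3 : B x w1 • v1 + B x v1 • w1 ∈ U2 := by
          have e4 : B x w1 • v1 + B x v1 • w1 = (B x w1 • (v1 + v2) + B x v1 • (w1 + w2)) -
            (B x w1 • v2 + B x v1 • w2) := by simp only [smul_add]; abel
          rw [e4]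
          exact U2.sub_mem e2 (U2.add_mem (U2.smul_mem _ hv2) (U2.smul_mem _ hw2))
        exact h.disj hndV (U1.add_mem (U1.smul_mem _ hv1) (U1.smul_mem _ hw1)) e3
      have hgu : g u ≠ 0 := by simpa using hu0
      have hgz : g z ≠ 0 := by simpa using hz0
      rcases d1 with d1 | d1 <;> rcases d2 with d2 | d2
      · exact absurd (by rw [← hv, d1, d2, add_zero]) hgu
      · left
        exact ⟨by rw [← hv, d1, add_zero]; exact hv1, by rw [← hw, d2, zero_add]; exact hw2⟩
      · right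
        exact ⟨by rw [← hv, d2, zero_add]; exact hv2, by rw [← hw, d1, add_zero]; exact hw1⟩
      · exact absurd (by rw [← hw, d1, d2, add_zero]) hgz
    have hor : U1 ≤ U1.comap (g : V →ₗ[F] V) ∨ U1 ≤ U2.comap (g : V →ₗ[F] V) := by
      apply le_or_le_of_subset_union
      intro u hu
      by_cases hu0 : u = 0
      · left; rw [hu0]; exact Submodule.zero_mem _
      obtain ⟨z, hz, hz0, hzu⟩ := exists_ne_orth B U2 (by omega) u
      have huz : B u z = 0 := by rw [← LinearMap.BilinForm.IsAlt.neg_eq hB z u, hzu, neg_zero]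
      rcases key u hu z hz hu0 hz0 huz with k | k
      · left; exact k.1
      · right; exact k.1
    have h2u : ∀ z ∈ U2, z ≠ 0 → ∃ u ∈ U1, u ≠ 0 ∧ ((g u ∈ U1 ∧ g z ∈ U2) ∨ (g u ∈ U2 ∧ g z ∈ U1)) := by
      intro z hz hz0
      obtain ⟨u, hu, hu0, huz⟩ := exists_ne_orth B U1 (by omega) z
      exact ⟨u, hu, hu0, key u hu z hz hu0 hz0 huz⟩
    rcases hor with h1 | h1
    · left
      refine ⟨fun x hx => h1 hx, fun z hz => ?_⟩
      by_cases hz0 : z = 0
      · rw [hz0, map_zero]; exact Submodule.zero_mem _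
      obtain ⟨u, hu, hu0, k | k⟩ := h2u z hz hz0
      · exact k.2
      · exact absurd (h.disj hndV (h1 hu) k.1) (by simpa using hu0)
    · right
      refine ⟨fun x hx => h1 hx, fun z hz => ?_⟩
      by_cases hz0 : z = 0
      · rw [hz0, map_zero]; exact Submodule.zero_mem _
      obtain ⟨u, hu, hu0, k | k⟩ := h2u z hz hz0
      · exact absurd (h.disj hndV k.1 (h1 hu)) (by simpa using hu0)
      · exact k.2
  obtain ⟨u, hu, z, hz, huz, hex⟩ := hex
  have hgg : sh B hB (g u) (g z) (by rw [hgi, huz]) ∈ M := by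
    rw [← sh_conj B hB u z huz g hgi]
    refine M.mul_mem (M.mul_mem hg (hH _ (sh_mem_isom _ _ _ _ _) ?_)) (M.inv_mem hg)
    left
    constructor
    · intro p hp
      rw [sh_apply, h.iso1 p hp u hu, zero_smul, add_zero]
      exact U1.add_mem hp (U1.smul_mem _ hu)
    · intro p hp
      rw [sh_apply, h.iso2 p hp z hz, zero_smul, add_zero]
      exact U2.add_mem hp (U2.smul_mem _ hz)
  obtain ⟨sw, hsw, hsw1, hsw2⟩ := h.exists_swap hB hndV
  have hswM : sw ∈ M := hH sw hsw (Or.inr ⟨hsw1, hsw2⟩)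
  have hH' : ∀ g ∈ isom B, Perm2 U2 U1 g → g ∈ M := fun g hg hp => hH g hg hp.symm
  -- centres in U1 and U2
  have hboth : (∀ u ∈ U1, Cen B hB M u) ∧ ∀ u ∈ U2, Cen B hB M u := by
    rcases hex with hex | hex
    · obtain ⟨c, hc, hc0, hcc⟩ := h.create hB h2F hdim hndV hMi hH _ _ _ hgg hex
      refine ⟨h.cen_all hB hndV hMi hH hc hc0 hcc, ?_⟩
      exact h.symm.cen_all hB hndV hMi hH' (hsw1 c hc) (by simpa using hc0) (hcc.map hswM hsw)
    · obtain ⟨c, hc, hc0, hcc⟩ := h.symm.create hB h2F hdim2 hndV hMi hH' _ _ _ hgg hex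
      refine ⟨?_, h.symm.cen_all hB hndV hMi hH' hc hc0 hcc⟩
      exact h.cen_all hB hndV hMi hH (hsw2 c hc) (by simpa using hc0) (hcc.map hswM hsw)
  exact isom_le_of_tr B hB hndV M (fun v c => h.cen_top hB hndV hboth.1 hboth.2 v c)

theorem Pair.exists_not (h : Pair B U1 U2) [FiniteDimensional F V] (hB : B.IsAlt)
    (hdim : 5 ≤ finrank F U1) (hndV : ∀ v, (∀ w, B v w = 0) → v = 0) :
    ∃ g ∈ isom B, ¬ Perm2 U1 U2 g := by
  have hne : U1 ≠ ⊥ := by
    intro h0; rw [h0, finrank_bot] at hdim; omega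
  obtain ⟨u, hu, hu0⟩ := Submodule.exists_mem_ne_zero_of_ne_bot hne
  -- x in U1 not in span u
  have hnle : ¬ U1 ≤ Submodule.span F {u} := by
    intro hle
    have e1 := Submodule.finrank_mono hle
    have e2 := finrank_span_le_one (F := F) u
    omega
  obtain ⟨x, hx, hxu⟩ := SetLike.not_le_iff_exists.1 hnle
  have hx0 : x ≠ 0 := by rintro rfl; exact hxu (Submodule.zero_mem _)
  obtain ⟨z, hz⟩ : ∃ z, B x z ≠ 0 := by
    by_contra hcon; push Not at hcon; exact hx0 (hndV x hcon)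
  obtain ⟨c, hc, d, hd, rfl⟩ := h.decomp z
  have hz' : B x d ≠ 0 := by rwa [map_add, h.iso1 x hx c hc, zero_add] at hz
  have hd0 : d ≠ 0 := by rintro rfl; simp at hz'
  refine ⟨tr B hB (u + d) 1, tr_mem_isom _ _ _ _, ?_⟩
  have hval : tr B hB (u + d) 1 x = (x + B x d • u) + B x d • d := by
    rw [tr_apply, map_add, h.iso1 x hx u hu, zero_add, one_mul, smul_add]; abel
  rintro (h1 | h1)
  · have := h1.1 x hx
    rw [hval] at this
    have h2 : B x d • d ∈ U1 :=
      (Submodule.add_mem_iff_right U1 (U1.add_mem hx (U1.smul_mem _ hu))).1 this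
    exact hd0 (h.disj hndV ((Submodule.smul_mem_iff U1 hz').1 h2) hd)
  · have := h1.1 x hx
    rw [hval] at this
    have h2 : x + B x d • u ∈ U2 := (Submodule.add_mem_iff_left U2 (U2.smul_mem _ hd)).1 this
    have h3 := h.disj hndV (U1.add_mem hx (U1.smul_mem _ hu)) h2
    apply hxu
    rw [Submodule.mem_span_singleton]
    exact ⟨-(B x d), by rw [neg_smul]; exact (eq_neg_of_add_eq_zero_left h3).symm⟩

end H95.SpSing
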