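import Mathlib
import Cfsg.Agent.Lib.H95.SpSing

set_option autoImplicit false

/-!
Overgroups of the stabiliser of a pair of complementary totally isotropic subspaces in the
symplectic group, odd characteristic: subspaces of dimension at least three.
-/

namespace H95.SpSingS

open Module H95.SpBasic H95.SpGeom H95.SpOrthEven H95.SpSing

variable {F V : Type*} [Field F] [AddCommGroup V] [Module F V]
variable {B : LinearMap.BilinForm F V} {U1 U2 : Submodule F V}

/-- Creation of a transvection centre, core. -/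
lemma core (h : Pair B U1 U2) [FiniteDimensional F V] (hB : B.IsAlt)
    (h2F : (2 : F) ≠ 0) 
    (hndV : ∀ v, (∀ w, B v w = 0) → v = 0) {M : Subgroup (V ≃ₗ[F] V)}
    (hH : ∀ g ∈ isom B, Perm2 U1 U2 g → g ∈ M)
    (v w : V) (hvw : B v w = 0) (hsM : sh B hB v w hvw ∈ M) {u x : V} (hu1 : u ∈ U1) (hu0 : u ≠ 0)
    (huv : B u v = 0) (huw : B u w = 0) (hx2 : x ∈ U2) (hux : B u x = 0)
    (hxn : sh B hB v w hvw x ∉ U2) : Cen B hB M u := by
  set s := sh B hB v w hvw with hs
  have hsi : s ∈ isom B := sh_mem_isom _ _ _ _ _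
  obtain ⟨d1, hd1, d2, hd2, hd⟩ := h.decomp (s x)
  have hd10 : d1 ≠ 0 := by
    rintro rfl
    rw [zero_add] at hd
    rw [← hd] at hxn
    exact hxn hd2
  have hsu : s u = u := by
    rw [hs, sh_apply, huv, huw]; simp
  have husx : B u (s x) = 0 := by
    have := hsi u x
    rw [hsu, hux] at this
    exact this
  have hperm : ∀ z ∈ U2, ∀ hz : B u z = 0, sh B hB u z hz ∈ M := by
    intro z hz huz
    apply hH _ (sh_mem_isom _ _ _ _ _)
    left
    constructor
    · intro p hp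
      rw [sh_apply, h.iso1 p hp u hu1, zero_smul, add_zero]
      exact U1.add_mem hp (U1.smul_mem _ hu1)
    · intro p hp
      rw [sh_apply, h.iso2 p hp z hz, zero_smul, add_zero]
      exact U2.add_mem hp (U2.smul_mem _ hz)
  have hconj : ∀ c : F, ∃ hc : B u (c • s x) = 0, sh B hB u (c • s x) hc ∈ M := by
    intro c
    have hcx : B u (c • x) = 0 := by rw [map_smul, hux, smul_zero]
    refine ⟨by rw [map_smul, husx, smul_zero], ?_⟩
    have := M.mul_mem (M.mul_mem hsM (hperm (c • x) (U2.smul_mem _ hx2) hcx)) (M.inv_mem hsM)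
    rw [sh_conj B hB u (c • x) hcx s hsi] at this
    have e : sh B hB (s u) (s (c • x)) (by rw [hsi, hcx]) = sh B hB u (c • s x)
        (by rw [map_smul, husx, smul_zero]) := by
      ext p
      simp only [sh_apply, hsu, map_smul]
    rwa [e] at this
  by_cases hd1u : d1 ∈ Submodule.span F {u}
  · obtain ⟨a, ha⟩ := Submodule.mem_span_singleton.1 hd1u
    have ha0 : a ≠ 0 := by rintro rfl; rw [zero_smul] at ha; exact hd10 ha.symm
    have hud2 : B u d2 = 0 := by
      rw [← hd, map_add, h.iso1 u hu1 d1 hd1, zero_add] at husx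
      exact husx
    intro c
    set b := c * (2 * a)⁻¹ with hb
    obtain ⟨hc1, m1⟩ := hconj b
    have hc2 : B u (-(b • d2)) = 0 := by rw [map_neg, map_smul, hud2, smul_zero, neg_zero]
    have m2 := hperm (-(b • d2)) (U2.neg_mem (U2.smul_mem _ hd2)) hc2
    have m3 := M.mul_mem m2 m1
    have e : sh B hB u (-(b • d2)) hc2 * sh B hB u (b • s x) hc1 = tr B hB u c := by
      ext p
      show sh B hB u (-(b • d2)) hc2 (sh B hB u (b • s x) hc1 p) = _
      have huu : B u u = 0 := hB u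
      have hdu : B d2 u = 0 := by rw [← LinearMap.BilinForm.IsAlt.neg_eq hB, hud2, neg_zero]
      have hd22 : B d2 d2 = 0 := hB d2
      have e1 : b * (2 * a) = c := by rw [hb]; field_simp
      simp only [sh_apply, tr_apply, ← hd, ← ha, map_add, map_smul, map_neg, LinearMap.add_apply, LinearMap.smul_apply,
        huu, hdu, hud2, hd22, smul_eq_mul, mul_zero, add_zero, zero_add, neg_zero, smul_zero]
      rw [← e1]
      module
    rwa [e] at m3
  · obtain ⟨f, hf, hf'⟩ := Submodule.exists_le_ker_of_notMem hd1u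
    obtain ⟨y, hy, hyx⟩ := h.dual hB hndV f
    have huy : B u y = 0 := by
      rw [hyx u hu1]; exact hf' (Submodule.mem_span_singleton_self _)
    have hsxy : B (s x) y ≠ 0 := by
      rw [← hd, map_add, LinearMap.add_apply, hyx d1 hd1, h.iso2 d2 hd2 y hy, add_zero]; exact hf
    intro c
    -- scale y
    set a := c * (2 * B (s x) y)⁻¹ with ha
    have huay : B u (a • y) = 0 := by rw [map_smul, huy, smul_zero]
    have m1 : sh B hB u (a • y) huay ∈ M := hperm _ (U2.smul_mem _ hy) _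
    have m2 : sh B hB u (s x) husx ∈ M := by
      obtain ⟨h1, h2⟩ := hconj 1
      have e : sh B hB u ((1 : F) • s x) h1 = sh B hB u (s x) husx := by
        ext p
        simp only [sh_apply, one_smul]
      rwa [e] at h2
    have m3 := M.mul_mem (M.mul_mem (M.mul_mem m1 m2) (M.inv_mem m1)) (M.inv_mem m2)
    rw [comm_sh B hB u (a • y) (s x) huay husx, map_smul, smul_eq_mul, ha] at m3
    have e5 : 2 * (c * (2 * B (s x) y)⁻¹ * B (s x) y) = c := by
      field_simp
    rwa [e5] at m3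

/-- separation by orthogonal vectors of `U2` -/
lemma sep (h : Pair B U1 U2) [FiniteDimensional F V] (hB : B.IsAlt)
    (hndV : ∀ v, (∀ w, B v w = 0) → v = 0) {u v : V} (hu : u ∈ U1) (hv : v ∈ U1)
    (hc : ∀ x ∈ U2, B u x = 0 → B v x = 0) : v ∈ Submodule.span F {u} := by
  by_contra hcon
  obtain ⟨f, hf, hf'⟩ := Submodule.exists_le_ker_of_notMem hcon
  obtain ⟨y, hy, hyx⟩ := h.dual hB hndV f
  apply hf
  rw [← hyx v hv]
  apply hc y hy
  rw [hyx u hu]
  exact hf' (Submodule.mem_span_singleton_self _)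

/-- if no `x` is good for `u`, then both components are multiples of `u` -/
lemma bad (h : Pair B U1 U2) [FiniteDimensional F V] (hB : B.IsAlt)
    (h2F : (2 : F) ≠ 0) (hndV : ∀ v, (∀ w, B v w = 0) → v = 0)
    {v1 w1 : V} (hv1 : v1 ∈ U1) (hw1 : w1 ∈ U1) (hv10 : v1 ≠ 0) (hw10 : w1 ≠ 0)
    {u : V} (hu1 : u ∈ U1) 
    (hc : ∀ x ∈ U2, B u x = 0 → B x w1 • v1 + B x v1 • w1 = 0) :
    v1 ∈ Submodule.span F {u} ∧ w1 ∈ Submodule.span F {u} := by
  have hsw : ∀ a b, B a b = 0 → B b a = 0 := fun a b h0 => by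
    rw [← LinearMap.BilinForm.IsAlt.neg_eq hB, h0, neg_zero]
  have hmul : ∀ x ∈ U2, B u x = 0 → B x w1 = 0 ∨ B x v1 = 0 := by
    intro x hx hux
    have h1 := congrArg (B x) (hc x hx hux)
    simp only [map_add, map_smul, smul_eq_mul, map_zero] at h1
    have h2 : (2 : F) * (B x w1 * B x v1) = 0 := by linear_combination h1
    exact mul_eq_zero.1 ((mul_eq_zero.1 h2).resolve_left h2F)
  -- the subspace X
  set X : Submodule F V := U2 ⊓ lperp B (Submodule.span F {u}) with hX
  have hXmem : ∀ x, x ∈ X ↔ x ∈ U2 ∧ B u x = 0 := by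
    intro x
    rw [hX, Submodule.mem_inf, mem_lperp]
    constructor
    · rintro ⟨h1, h2⟩
      exact ⟨h1, hsw _ _ (h2 u (Submodule.mem_span_singleton_self _))⟩
    · rintro ⟨h1, h2⟩
      refine ⟨h1, fun y hy => ?_⟩
      obtain ⟨a, rfl⟩ := Submodule.mem_span_singleton.1 hy
      rw [map_smul, hsw _ _ h2, smul_zero]
  have hor : X ≤ LinearMap.ker (B.flip w1) ∨ X ≤ LinearMap.ker (B.flip v1) := by
    apply le_or_le_of_subset_union
    intro x hx
    obtain ⟨h1, h2⟩ := (hXmem x).1 hx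
    rcases hmul x h1 h2 with h3 | h3
    · left; exact h3
    · right; exact h3
  have key : ∀ v1 w1 : V, v1 ∈ U1 → w1 ∈ U1 → w1 ≠ 0 → 
      (∀ x ∈ U2, B u x = 0 → B x w1 • v1 + B x v1 • w1 = 0) → X ≤ LinearMap.ker (B.flip w1) →
      v1 ∈ Submodule.span F {u} ∧ w1 ∈ Submodule.span F {u} := by
    intro v1 w1 hv1 hw1 hw10 hc hle
    refine ⟨sep h hB hndV hu1 hv1 ?_, sep h hB hndV hu1 hw1 ?_⟩
    · intro x hx hux
      have h1 : B x w1 = 0 := hle ((hXmem x).2 ⟨hx, hux⟩)
      have h2 := hc x hx hux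
      rw [h1, zero_smul, zero_add] at h2
      exact hsw _ _ ((smul_eq_zero.1 h2).resolve_right hw10)
    · intro x hx hux
      have h1 : B x w1 = 0 := hle ((hXmem x).2 ⟨hx, hux⟩)
      exact hsw _ _ h1
  rcases hor with h1 | h1
  · exact key v1 w1 hv1 hw1 hw10 hc h1
  · exact (key w1 v1 hw1 hv1 hv10 (fun x hx hux => by rw [add_comm]; exact hc x hx hux) h1).symm

lemma finrank_two_le [FiniteDimensional F V] (u v : V) :
    finrank F (Submodule.span F ({u, v} : Set V)) ≤ 2 := by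
  classical
  have h := finrank_span_finset_le_card (R := F) ({u, v} : Finset V)
  have h2 : ({u, v} : Finset V).card ≤ 2 := Finset.card_le_two
  have h3 : ((({u, v} : Finset V) : Set V)) = ({u, v} : Set V) := by simp
  rw [h3] at h
  exact h.trans h2

/-- Creation of a transvection centre. -/
lemma create (h : Pair B U1 U2) [FiniteDimensional F V] (hB : B.IsAlt)
    (h2F : (2 : F) ≠ 0) (hdim : 3 ≤ finrank F U1) (hdim2 : 3 ≤ finrank F U2)
    (hndV : ∀ v, (∀ w, B v w = 0) → v = 0) {M : Subgroup (V ≃ₗ[F] V)}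
    (hH : ∀ g ∈ isom B, Perm2 U1 U2 g → g ∈ M)
    (v w : V) (hvw : B v w = 0) (hsM : sh B hB v w hvw ∈ M)
    (hx : ∃ x ∈ U2, sh B hB v w hvw x ∉ U2) : (∃ u ∈ U1, u ≠ 0 ∧ Cen B hB M u) ∨
      ∃ u ∈ U2, u ≠ 0 ∧ Cen B hB M u := by
  have hsw : ∀ a b, B a b = 0 → B b a = 0 := fun a b h0 => by
    rw [← LinearMap.BilinForm.IsAlt.neg_eq hB, h0, neg_zero]
  obtain ⟨v1, hv1, v2, hv2, hv⟩ := h.decomp v
  obtain ⟨w1, hw1, w2, hw2, hw⟩ := h.decomp w
  -- membership of the image
  have him : ∀ x ∈ U2, sh B hB v w hvw x ∈ U2 ↔ B x w1 • v1 + B x v1 • w1 = 0 := by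
    intro x hx
    have e0 : sh B hB v w hvw x = (x + B x w1 • v2 + B x v1 • w2) + (B x w1 • v1 + B x v1 • w1) := by
      rw [sh_apply, ← hv, ← hw, map_add, map_add, h.iso2 x hx v2 hv2, h.iso2 x hx w2 hw2]
      simp only [smul_add, add_zero]; abel
    have e1 : x + B x w1 • v2 + B x v1 • w2 ∈ U2 :=
      U2.add_mem (U2.add_mem hx (U2.smul_mem _ hv2)) (U2.smul_mem _ hw2)
    rw [e0, Submodule.add_mem_iff_right U2 e1]
    constructor
    · intro h1
      exact h.disj hndV (U1.add_mem (U1.smul_mem _ hv1) (U1.smul_mem _ hw1)) h1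
    · intro h1
      rw [h1]; exact U2.zero_mem
  have him' : ∀ x ∈ U1, sh B hB v w hvw x ∈ U1 ↔ B x w2 • v2 + B x v2 • w2 = 0 := by
    intro x hx
    have e0 : sh B hB v w hvw x = (x + B x w2 • v1 + B x v2 • w1) + (B x w2 • v2 + B x v2 • w2) := by
      rw [sh_apply, ← hv, ← hw, map_add, map_add, h.iso1 x hx v1 hv1, h.iso1 x hx w1 hw1]
      simp only [smul_add, zero_add]; abel
    have e1 : x + B x w2 • v1 + B x v2 • w1 ∈ U1 :=
      U1.add_mem (U1.add_mem hx (U1.smul_mem _ hv1)) (U1.smul_mem _ hw1)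
    rw [e0, Submodule.add_mem_iff_right U1 e1]
    constructor
    · intro h1
      exact h.disj hndV h1 (U2.add_mem (U2.smul_mem _ hv2) (U2.smul_mem _ hw2))
    · intro h1
      rw [h1]; exact U1.zero_mem
  obtain ⟨x0, hx0, hx0n⟩ := hx
  have hne : v1 ≠ 0 ∧ w1 ≠ 0 := by
    constructor
    · rintro rfl
      apply hx0n
      rw [him x0 hx0]; simp
    · rintro rfl
      apply hx0n
      rw [him x0 hx0]; simp
  -- first u
  have hT : ∀ S : Submodule F V, finrank F (U1 ⊓ lperp B (Submodule.span F ({v, w} : Set V)) : Submodule F V) >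
      finrank F S → ∃ u ∈ U1, B u v = 0 ∧ B u w = 0 ∧ u ∉ S := by
    intro S hS
    have hnle : ¬ (U1 ⊓ lperp B (Submodule.span F ({v, w} : Set V)) : Submodule F V) ≤ S := by
      intro hle
      have e1 := Submodule.finrank_mono hle
      omega
    obtain ⟨u, huU, hud⟩ := SetLike.not_le_iff_exists.1 hnle
    exact ⟨u, huU.1, mem_lperp.1 huU.2 v (Submodule.subset_span (by simp)),
      mem_lperp.1 huU.2 w (Submodule.subset_span (by simp)), hud⟩
  have hdT : 1 ≤ finrank F (U1 ⊓ lperp B (Submodule.span F ({v, w} : Set V)) : Submodule F V) := by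
    have e1 := Submodule.finrank_sup_add_finrank_inf_eq U1 (lperp B (Submodule.span F ({v, w} : Set V)))
    have e2 := Submodule.finrank_le (U1 ⊔ (lperp B (Submodule.span F ({v, w} : Set V))))
    have e3 := finrank_lperp_ge B (Submodule.span F ({v, w} : Set V))
    have e4 := finrank_two_le (F := F) v w
    omega
  obtain ⟨u, hu1, huv, huw, hu0⟩ := hT ⊥ (by rw [finrank_bot]; omega)
  have hu0 : u ≠ 0 := fun h0 => hu0 (by rw [h0]; exact Submodule.zero_mem _)
  by_cases hgood : ∃ x ∈ U2, B u x = 0 ∧ sh B hB v w hvw x ∉ U2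
  · obtain ⟨x, hx2, hux, hxn⟩ := hgood
    left
    exact ⟨u, hu1, hu0, core h hB h2F hndV hH v w hvw hsM hu1 hu0 huv huw hx2 hux hxn⟩
  push Not at hgood
  obtain ⟨b1, b2⟩ := bad h hB h2F hndV hv1 hw1 hne.1 hne.2 hu1 (fun x hx hux => (him x hx).1 (hgood x hx hux))
  by_cases hTT : 2 ≤ finrank F (U1 ⊓ lperp B (Submodule.span F ({v, w} : Set V)) : Submodule F V)
  · obtain ⟨u', hu1', huv', huw', hu0'⟩ := hT (Submodule.span F {u}) (by
      have := finrank_span_le_one (F := F) u
      omega)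
    have hu0'' : u' ≠ 0 := fun h0 => hu0' (by rw [h0]; exact Submodule.zero_mem _)
    left
    refine ⟨u', hu1', hu0'', ?_⟩
    by_cases hgood' : ∃ x ∈ U2, B u' x = 0 ∧ sh B hB v w hvw x ∉ U2
    · obtain ⟨x, hx2, hux, hxn⟩ := hgood'
      exact core h hB h2F hndV hH v w hvw hsM hu1' hu0'' huv' huw' hx2 hux hxn
    push Not at hgood'
    obtain ⟨c1, -⟩ := bad h hB h2F hndV hv1 hw1 hne.1 hne.2 hu1' (fun x hx hux => (him x hx).1 (hgood' x hx hux))
    exfalso
    obtain ⟨a, ha⟩ := Submodule.mem_span_singleton.1 b1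
    obtain ⟨b, hb⟩ := Submodule.mem_span_singleton.1 c1
    have hb0 : b ≠ 0 := by rintro rfl; rw [zero_smul] at hb; exact hne.1 hb.symm
    apply hu0'
    exact Submodule.mem_span_singleton.2 ⟨b⁻¹ * a, by
      rw [mul_smul, ha, ← hb, smul_smul, inv_mul_cancel₀ hb0, one_smul]⟩
  · right
    -- the other side
    have hT1 : ∀ S : Submodule F V, U1 ⊓ lperp B S ≤ (U1 ⊓ lperp B (Submodule.span F ({v, w} : Set V)) : Submodule F V) →
        2 ≤ finrank F S := by
      intro S hle
      have e0 := Submodule.finrank_mono hle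
      have e1 := Submodule.finrank_sup_add_finrank_inf_eq U1 (lperp B S)
      have e2 := Submodule.finrank_le (U1 ⊔ (lperp B S))
      have e3 := finrank_lperp_ge B S
      omega
    obtain ⟨a, ha⟩ := Submodule.mem_span_singleton.1 b1
    obtain ⟨b, hb⟩ := Submodule.mem_span_singleton.1 b2
    -- v2, w2 nonzero
    have key : ∀ u'' ∈ U2, ¬ (v2 ∈ Submodule.span F {u''} ∧ w2 ∈ Submodule.span F {u''}) := by
      rintro u'' hu'' ⟨c1, c2⟩
      obtain ⟨a', ha'⟩ := Submodule.mem_span_singleton.1 c1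
      obtain ⟨b', hb'⟩ := Submodule.mem_span_singleton.1 c2
      have := hT1 (Submodule.span F {u''}) (by
        rintro x ⟨hx1, hx2⟩
        refine ⟨hx1, ?_⟩
        have hxu := mem_lperp.1 hx2 u'' (Submodule.mem_span_singleton_self _)
        rw [SetLike.mem_coe, mem_lperp]
        intro y hy
        obtain ⟨p, q, rfl⟩ := Submodule.mem_span_pair.1 hy
        have hxv : B x v = 0 := by
          rw [← hv, map_add, h.iso1 x hx1 v1 hv1, ← ha', map_smul, hxu, smul_zero, add_zero]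
        have hxw : B x w = 0 := by
          rw [← hw, map_add, h.iso1 x hx1 w1 hw1, ← hb', map_smul, hxu, smul_zero, add_zero]
        rw [map_add, map_smul, map_smul, hxv, hxw, smul_zero, smul_zero, add_zero])
      have h1 := finrank_span_le_one (F := F) u''
      omega
    have hv20 : v2 ≠ 0 := by
      rintro rfl
      exact key w2 hw2 ⟨Submodule.zero_mem _, Submodule.mem_span_singleton_self _⟩
    have hw20 : w2 ≠ 0 := by
      rintro rfl
      exact key v2 hv2 ⟨Submodule.mem_span_singleton_self _, Submodule.zero_mem _⟩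
    obtain ⟨u'', hu2, hu20, hu2u⟩ := exists_ne_orth B U2 (by omega) u
    have hu2v : B u'' v = 0 := by
      rw [← hv, map_add, h.iso2 u'' hu2 v2 hv2, ← ha, map_smul, hu2u, smul_zero, add_zero]
    have hu2w : B u'' w = 0 := by
      rw [← hw, map_add, h.iso2 u'' hu2 w2 hw2, ← hb, map_smul, hu2u, smul_zero, add_zero]
    refine ⟨u'', hu2, hu20, ?_⟩
    have hH' : ∀ g ∈ isom B, Perm2 U2 U1 g → g ∈ M := fun g hg hp => hH g hg hp.symm
    by_cases hgood' : ∃ x ∈ U1, B u'' x = 0 ∧ sh B hB v w hvw x ∉ U1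
    · obtain ⟨x, hx2, hux, hxn⟩ := hgood'
      exact core h.symm hB h2F hndV hH' v w hvw hsM hu2 hu20 hu2v hu2w hx2 hux hxn
    push Not at hgood'
    exact absurd (bad h.symm hB h2F hndV hv2 hw2 hv20 hw20 hu2
      (fun x hx hux => (him' x hx).1 (hgood' x hx hux))) (key u'' hu2)

/-- Main theorem for pairs of complementary totally isotropic subspaces. -/
theorem overgroup (h : Pair B U1 U2) [FiniteDimensional F V] (hB : B.IsAlt)
    (h2F : (2 : F) ≠ 0) (hdim : 3 ≤ finrank F U1) (hdim2 : 3 ≤ finrank F U2)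
    (hndV : ∀ v, (∀ w, B v w = 0) → v = 0) {M : Subgroup (V ≃ₗ[F] V)} (hMi : M ≤ isom B)
    (hH : ∀ g ∈ isom B, Perm2 U1 U2 g → g ∈ M) (hM : ∃ g ∈ M, ¬ Perm2 U1 U2 g) : isom B ≤ M := by
  obtain ⟨g, hg, hgP⟩ := hM
  have hgi := hMi hg
  -- claim: some short root element conjugate is not preserving U1 or U2
  have hex : ∃ u ∈ U1, ∃ z ∈ U2, ∃ huz : B u z = 0, 
      (∃ x ∈ U2, sh B hB (g u) (g z) (by rw [hgi, huz]) x ∉ U2) ∨
      (∃ x ∈ U1, sh B hB (g u) (g z) (by rw [hgi, huz]) x ∉ U1) := by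
    by_contra hcon
    push Not at hcon
    apply hgP
    -- for u ∈ U1, z ∈ U2 orthogonal, nonzero
    have key : ∀ u ∈ U1, ∀ z ∈ U2, u ≠ 0 → z ≠ 0 → B u z = 0 →
        (g u ∈ U1 ∧ g z ∈ U2) ∨ (g u ∈ U2 ∧ g z ∈ U1) := by
      intro u hu z hz hu0 hz0 huz
      obtain ⟨c2, c1⟩ := hcon u hu z hz huz
      obtain ⟨v1, hv1, v2, hv2, hv⟩ := h.decomp (g u)
      obtain ⟨w1, hw1, w2, hw2, hw⟩ := h.decomp (g z)
      have d1 : v2 = 0 ∨ w2 = 0 := by
        apply h.zero_or hB h2F hndV hv2 hw2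
        intro x hx
        have e1 := c1 x hx
        rw [sh_apply, ← hv, ← hw, map_add, map_add, h.iso1 x hx w1 hw1, h.iso1 x hx v1 hv1,
          zero_add, zero_add, add_assoc] at e1
        have e2 := (Submodule.add_mem_iff_right U1 hx).1 e1
        have e3 : B x w2 • v2 + B x v2 • w2 ∈ U1 := by
          have e4 : B x w2 • v2 + B x v2 • w2 = (B x w2 • (v1 + v2) + B x v2 • (w1 + w2)) -
            (B x w2 • v1 + B x v2 • w1) := by simp only [smul_add]; abel
          rw [e4]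
          exact U1.sub_mem e2 (U1.add_mem (U1.smul_mem _ hv1) (U1.smul_mem _ hw1))
        exact h.disj hndV e3 (U2.add_mem (U2.smul_mem _ hv2) (U2.smul_mem _ hw2))
      have d2 : v1 = 0 ∨ w1 = 0 := by
        apply h.symm.zero_or hB h2F hndV hv1 hw1
        intro x hx
        have e1 := c2 x hx
        rw [sh_apply, ← hv, ← hw, map_add, map_add, h.iso2 x hx w2 hw2, h.iso2 x hx v2 hv2,
          add_zero, add_zero, add_assoc] at e1
        have e2 := (Submodule.add_mem_iff_right U2 hx).1 e1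
        have e3 : B x w1 • v1 + B x v1 • w1 ∈ U2 := by
          have e4 : B x w1 • v1 + B x v1 • w1 = (B x w1 • (v1 + v2) + B x v1 • (w1 + w2)) -
            (B x w1 • v2 + B x v1 • w2) := by simp only [smul_add]; abel
          rw [e4]
          exact U2.sub_mem e2 (U2.add_mem (U2.smul_mem _ hv2) (U2.smul_mem _ hw2))
        exact h.disj hndV (U1.add_mem (U1.smul_mem _ hv1) (U1.smul_mem _ hw1)) e3
      have hgu : g u ≠ 0 := by simpa using hu0
      have hgz : g z ≠ 0 := by simpa using hz0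
      rcases d1 with d1 | d1 <;> rcases d2 with d2 | d2
      · exact absurd (by rw [← hv, d1, d2, add_zero]) hgu
      · left
        exact ⟨by rw [← hv, d1, add_zero]; exact hv1, by rw [← hw, d2, zero_add]; exact hw2⟩
      · right
        exact ⟨by rw [← hv, d2, zero_add]; exact hv2, by rw [← hw, d1, add_zero]; exact hw1⟩
      · exact absurd (by rw [← hw, d1, d2, add_zero]) hgz
    have hor : U1 ≤ U1.comap (g : V →ₗ[F] V) ∨ U1 ≤ U2.comap (g : V →ₗ[F] V) := by
      apply le_or_le_of_subset_union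
      intro u hu
      by_cases hu0 : u = 0
      · left; rw [hu0]; exact Submodule.zero_mem _
      obtain ⟨z, hz, hz0, hzu⟩ := exists_ne_orth B U2 (by omega) u
      have huz : B u z = 0 := by rw [← LinearMap.BilinForm.IsAlt.neg_eq hB z u, hzu, neg_zero]
      rcases key u hu z hz hu0 hz0 huz with k | k
      · left; exact k.1
      · right; exact k.1
    have h2u : ∀ z ∈ U2, z ≠ 0 → ∃ u ∈ U1, u ≠ 0 ∧ ((g u ∈ U1 ∧ g z ∈ U2) ∨ (g u ∈ U2 ∧ g z ∈ U1)) := by
      intro z hz hz0
      obtain ⟨u, hu, hu0, huz⟩ := exists_ne_orth B U1 (by omega) z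
      exact ⟨u, hu, hu0, key u hu z hz hu0 hz0 huz⟩
    rcases hor with h1 | h1
    · left
      refine ⟨fun x hx => h1 hx, fun z hz => ?_⟩
      by_cases hz0 : z = 0
      · rw [hz0, map_zero]; exact Submodule.zero_mem _
      obtain ⟨u, hu, hu0, k | k⟩ := h2u z hz hz0
      · exact k.2
      · exact absurd (h.disj hndV (h1 hu) k.1) (by simpa using hu0)
    · right
      refine ⟨fun x hx => h1 hx, fun z hz => ?_⟩
      by_cases hz0 : z = 0
      · rw [hz0, map_zero]; exact Submodule.zero_mem _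
      obtain ⟨u, hu, hu0, k | k⟩ := h2u z hz hz0
      · exact absurd (h.disj hndV k.1 (h1 hu)) (by simpa using hu0)
      · exact k.2
  obtain ⟨u, hu, z, hz, huz, hex⟩ := hex
  have hgg : sh B hB (g u) (g z) (by rw [hgi, huz]) ∈ M := by
    rw [← sh_conj B hB u z huz g hgi]
    refine M.mul_mem (M.mul_mem hg (hH _ (sh_mem_isom _ _ _ _ _) ?_)) (M.inv_mem hg)
    left
    constructor
    · intro p hp
      rw [sh_apply, h.iso1 p hp u hu, zero_smul, add_zero]
      exact U1.add_mem hp (U1.smul_mem _ hu)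
    · intro p hp
      rw [sh_apply, h.iso2 p hp z hz, zero_smul, add_zero]
      exact U2.add_mem hp (U2.smul_mem _ hz)
  obtain ⟨sw, hsw, hsw1, hsw2⟩ := h.exists_swap hB hndV
  have hswM : sw ∈ M := hH sw hsw (Or.inr ⟨hsw1, hsw2⟩)
  have hH' : ∀ g ∈ isom B, Perm2 U2 U1 g → g ∈ M := fun g hg hp => hH g hg hp.symm
  -- centres in U1 and U2
  have hboth : (∀ u ∈ U1, Cen B hB M u) ∧ ∀ u ∈ U2, Cen B hB M u := by
    have k1 : (∃ u ∈ U1, u ≠ 0 ∧ Cen B hB M u) → (∀ u ∈ U1, Cen B hB M u) ∧ ∀ u ∈ U2, Cen B hB M u := by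
      rintro ⟨c, hc, hc0, hcc⟩
      refine ⟨h.cen_all hB hndV hMi hH hc hc0 hcc, ?_⟩
      exact h.symm.cen_all hB hndV hMi hH' (hsw1 c hc) (by simpa using hc0) (hcc.map hswM hsw)
    have k2 : (∃ u ∈ U2, u ≠ 0 ∧ Cen B hB M u) → (∀ u ∈ U1, Cen B hB M u) ∧ ∀ u ∈ U2, Cen B hB M u := by
      rintro ⟨c, hc, hc0, hcc⟩
      refine ⟨?_, h.symm.cen_all hB hndV hMi hH' hc hc0 hcc⟩
      exact h.cen_all hB hndV hMi hH (hsw2 c hc) (by simpa using hc0) (hcc.map hswM hsw)
    rcases hex with hex | hex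
    · rcases create h hB h2F hdim hdim2 hndV hH _ _ _ hgg hex with h1 | h1
      · exact k1 h1
      · exact k2 h1
    · rcases create h.symm hB h2F hdim2 hdim hndV hH' _ _ _ hgg hex with h1 | h1
      · exact k2 h1
      · exact k1 h1
  exact isom_le_of_tr B hB hndV M (fun v c => h.cen_top hB hndV hboth.1 hboth.2 v c)

theorem exists_not (h : Pair B U1 U2) [FiniteDimensional F V] (hB : B.IsAlt)
    (hdim : 2 ≤ finrank F U1) (hndV : ∀ v, (∀ w, B v w = 0) → v = 0) :
    ∃ g ∈ isom B, ¬ Perm2 U1 U2 g := by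
  have hne : U1 ≠ ⊥ := by
    intro h0; rw [h0, finrank_bot] at hdim; omega
  obtain ⟨u, hu, hu0⟩ := Submodule.exists_mem_ne_zero_of_ne_bot hne
  -- x in U1 not in span u
  have hnle : ¬ U1 ≤ Submodule.span F {u} := by
    intro hle
    have e1 := Submodule.finrank_mono hle
    have e2 := finrank_span_le_one (F := F) u
    omega
  obtain ⟨x, hx, hxu⟩ := SetLike.not_le_iff_exists.1 hnle
  have hx0 : x ≠ 0 := by rintro rfl; exact hxu (Submodule.zero_mem _)
  obtain ⟨z, hz⟩ : ∃ z, B x z ≠ 0 := by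
    by_contra hcon; push Not at hcon; exact hx0 (hndV x hcon)
  obtain ⟨c, hc, d, hd, rfl⟩ := h.decomp z
  have hz' : B x d ≠ 0 := by rwa [map_add, h.iso1 x hx c hc, zero_add] at hz
  have hd0 : d ≠ 0 := by rintro rfl; simp at hz'
  refine ⟨tr B hB (u + d) 1, tr_mem_isom _ _ _ _, ?_⟩
  have hval : tr B hB (u + d) 1 x = (x + B x d • u) + B x d • d := by
    rw [tr_apply, map_add, h.iso1 x hx u hu, zero_add, one_mul, smul_add]; abel
  rintro (h1 | h1)
  · have := h1.1 x hx
    rw [hval] at this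
    have h2 : B x d • d ∈ U1 :=
      (Submodule.add_mem_iff_right U1 (U1.add_mem hx (U1.smul_mem _ hu))).1 this
    exact hd0 (h.disj hndV ((Submodule.smul_mem_iff U1 hz').1 h2) hd)
  · have := h1.1 x hx
    rw [hval] at this
    have h2 : x + B x d • u ∈ U2 := (Submodule.add_mem_iff_left U2 (U2.smul_mem _ hd)).1 this
    have h3 := h.disj hndV (U1.add_mem hx (U1.smul_mem _ hu)) h2
    apply hxu
    rw [Submodule.mem_span_singleton]
    exact ⟨-(B x d), by rw [neg_smul]; exact (eq_neg_of_add_eq_zero_left h3).symm⟩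

end H95.SpSingS
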