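import Cfsg.Agent.Lib.H95.S4Rat
import Cfsg.Agent.Lib.H95.SpOrthEven
import Cfsg.Agent.Lib.H95.SpSingS

set_option autoImplicit false
set_option linter.unusedSectionVars false

/-!
Four-dimensional symplectic groups in characteristic two: orthogonal groups.
-/

namespace H95.S4

open Module H95.SpBasic H95.SpOrthEven

variable {F V : Type*} [Field F] [CharP F 2] [AddCommGroup V] [Module F V]
variable {B : LinearMap.BilinForm F V} {Q : V → F}

lemma exists_fr [FiniteDimensional F V] (hB : B.IsAlt) (hV : finrank F V = 4)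
    (hnd : ∀ v, (∀ w, B v w = 0) → v = 0) {x y : V} (hxy : B x y = 1) : ∃ a b, Fr B x y a b := by
  have hyx : B y x = 1 := by rw [sym hB, hxy]
  obtain ⟨c, hc⟩ : ∃ c : V, ∀ s t : F, c ≠ s • x + t • y := by
    by_contra hcon
    push Not at hcon
    have h1 : (⊤ : Submodule F V) ≤ Submodule.span F ({x, y} : Set V) := by
      intro v _
      obtain ⟨s, t, h⟩ := hcon v
      exact Submodule.mem_span_pair.2 ⟨s, t, h.symm⟩
    have h2 := Submodule.finrank_mono h1
    rw [finrank_top, hV] at h2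
    have h3 := H95.SpSingS.finrank_two_le (F := F) x y
    omega
  obtain ⟨a, ha⟩ : ∃ a, a = c + B c y • x + B c x • y := ⟨_, rfl⟩
  have ha0 : a ≠ 0 := by
    intro h0
    have h1 : c + (B c y • x + B c x • y) = 0 := by rw [← h0, ha]; abel
    have h2 : (c + (B c y • x + B c x • y)) + (B c y • x + B c x • y) = c := by
      apply drop (F := F) (z := B c y • x + B c x • y)
      module
    rw [h1, zero_add] at h2
    exact hc (B c y) (B c x) h2.symm
  have hax : B a x = 0 := by
    rw [ha]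
    simp only [map_add, map_smul, LinearMap.add_apply, LinearMap.smul_apply, smul_eq_mul, hB x, hyx, mul_zero,
      add_zero, mul_one, CharTwo.add_self_eq_zero]
  have hay : B a y = 0 := by
    rw [ha]
    simp only [map_add, map_smul, LinearMap.add_apply, LinearMap.smul_apply, smul_eq_mul, hB y, hxy, mul_zero,
      add_zero, mul_one, CharTwo.add_self_eq_zero]
  obtain ⟨d, hd⟩ : ∃ d, B a d ≠ 0 := by
    by_contra hcon
    push Not at hcon
    exact ha0 (hnd a hcon)
  obtain ⟨b, hb⟩ : ∃ b, b = (B a d)⁻¹ • d + B ((B a d)⁻¹ • d) y • x + B ((B a d)⁻¹ • d) x • y := ⟨_, rfl⟩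
  refine ⟨a, b, hxy, ?_, by rw [sym hB, hax], ?_, by rw [sym hB, hay], ?_⟩
  · rw [hb]
    simp only [map_add, map_smul, smul_eq_mul, hax, hay, mul_zero, add_zero, inv_mul_cancel₀ hd]
  · rw [sym hB, hb]
    simp only [map_add, map_smul, LinearMap.add_apply, LinearMap.smul_apply, smul_eq_mul, hB x, hyx, mul_zero,
      add_zero, mul_one, CharTwo.add_self_eq_zero]
  · rw [sym hB, hb]
    simp only [map_add, map_smul, LinearMap.add_apply, LinearMap.smul_apply, smul_eq_mul, hB y, hxy, mul_zero,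
      add_zero, mul_one, CharTwo.add_self_eq_zero]

/-- values on a plane -/
lemma plane_val (hsq : ∀ a : F, IsSquare a) (h : IsQ B Q) {a b : V} (hab : B a b = 1) (c : F) :
    ∃ s t : F, Q (s • a + t • b) = c := by
  have key : ∀ v : V, Q v ≠ 0 → ∃ r : F, Q (r • v) = c := by
    intro v hv
    obtain ⟨r, hr⟩ := hsq (c * (Q v)⁻¹)
    refine ⟨r, ?_⟩
    rw [h.smul, pow_two, ← hr]
    field_simp
  by_cases ha : Q a = 0
  · by_cases hb : Q b = 0
    · obtain ⟨r, hr⟩ := key (a + b) (by rw [h.add, ha, hb, hab]; simp)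
      exact ⟨r, r, by rw [← smul_add]; exact hr⟩
    · obtain ⟨r, hr⟩ := key b hb
      exact ⟨0, r, by rw [zero_smul, zero_add]; exact hr⟩
  · obtain ⟨r, hr⟩ := key a ha
    exact ⟨r, 0, by rw [zero_smul, add_zero]; exact hr⟩

/-- from one singular transvection -/
lemma of_sing [FiniteDimensional F V] (hB : B.IsAlt) (hV : finrank F V = 4)
    (hnd : ∀ v, (∀ w, B v w = 0) → v = 0) (hsq : ∀ a : F, IsSquare a) (h : IsQ B Q)
    {M : Subgroup (V ≃ₗ[F] V)} (hMi : M ≤ isom B) (hM : ContO B Q M) {u : V} (hu : u ≠ 0) (hQu : Q u = 0)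
    (hT : tr B hB u 1 ∈ M) : isom B ≤ M := by
  have hmap : ∀ v, ∀ g ∈ M, tr B hB v 1 ∈ M → tr B hB (g v) 1 ∈ M := by
    intro v g hg hv
    rw [← tr_conj B hB v 1 g (hMi hg)]
    exact M.mul_mem (M.mul_mem hg hv) (M.inv_mem hg)
  have step : ∀ v w : V, Q v = 0 → Q w = 0 → B v w ≠ 0 → tr B hB v 1 ∈ M → tr B hB w 1 ∈ M := by
    intro v w hv hw hvw ht
    obtain ⟨g, hg, -, hgv⟩ := move1 hB h hM (hv.trans hw.symm) hvw
    rw [← hgv]
    exact hmap v g hg ht
  have stepC : ∀ v w : V, Q v = 0 → Q w = 0 → B v w ≠ 0 → tr B hB v 1 ∈ M → Cen B hB M w := by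
    intro v w hv hw hvw ht c
    obtain ⟨r, hr⟩ := hsq c
    by_cases hr0 : r = 0
    · rw [hr, hr0, mul_zero, tr_zero]; exact M.one_mem
    have h1 := step v (r • w) hv (by rw [h.smul, hw, mul_zero]) (by rw [map_smul]; exact smul_ne_zero hr0 hvw) ht
    rwa [tr_smul, one_mul, pow_two, ← hr] at h1
  obtain ⟨w1, hw1⟩ : ∃ w1, B u w1 = 1 := by
    obtain ⟨d, hd⟩ : ∃ d, B u d ≠ 0 := by
      by_contra hcon
      push Not at hcon
      exact hu (hnd u hcon)
    exact ⟨(B u d)⁻¹ • d, by rw [map_smul, smul_eq_mul, inv_mul_cancel₀ hd]⟩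
  obtain ⟨z, hz⟩ : ∃ z, z = w1 + Q w1 • u := ⟨_, rfl⟩
  have huz : B u z = 1 := by rw [hz, map_add, map_smul, hB u, smul_zero, add_zero, hw1]
  have hzu : B z u = 1 := by rw [sym hB, huz]
  have hQz : Q z = 0 := by
    rw [hz, h.add, h.smul, hQu, mul_zero, add_zero, map_smul, smul_eq_mul, sym hB w1 u, hw1, mul_one,
      CharTwo.add_self_eq_zero]
  have cz : Cen B hB M z := stepC u z hQu hQz (by rw [huz]; exact one_ne_zero) hT
  have cu : Cen B hB M u := stepC z u hQz hQu (by rw [hzu]; exact one_ne_zero) (cz 1)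
  obtain ⟨a, b, f⟩ := exists_fr hB hV hnd huz
  have cup : ∀ p : V, B u p = 0 → B z p = 0 → Cen B hB M (u + p) := by
    intro p h1 h2
    have h3 : Q (u + p + Q p • z) = 0 := by
      rw [h.add, h.add, h.smul, hQu, hQz, h1, mul_zero, zero_add, add_zero, add_zero, map_smul, map_add,
        LinearMap.add_apply, huz, sym hB p z, h2, add_zero, smul_eq_mul, mul_one, CharTwo.add_self_eq_zero]
    have h4 : B z (u + p + Q p • z) = 1 := by
      rw [map_add, map_add, map_smul, hB z, h2, hzu, smul_zero, add_zero, add_zero]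
    have h5 := stepC z _ hQz h3 (by rw [h4]; exact one_ne_zero) (cz 1)
    have h6 := h5.add cz (by rw [sym hB, h4]; exact one_ne_zero) (Q p)
    have h7 : u + p + Q p • z + Q p • z = u + p := by
      apply drop (F := F) (z := Q p • z)
      module
    rwa [h7] at h6
  have cp : ∀ p p' : V, B u p = 0 → B z p = 0 → B u p' = 0 → B z p' = 0 → B p p' ≠ 0 → Cen B hB M (p + p') := by
    intro p p' h1 h2 h3 h4 h5
    have h6 := (cup p h1 h2).add (cup p' h3 h4) (by
      rw [map_add, map_add, LinearMap.add_apply, LinearMap.add_apply, hB u, h3, sym hB p u, h1, zero_add, zero_add,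
        zero_add]
      exact h5) 1
    have h7 : u + p + (1 : F) • (u + p') = p + p' := by
      apply drop (F := F) (z := u)
      module
    rwa [h7] at h6
  have ca : Cen B hB M a := by
    have h1 := cp b (a + b) f.xw f.yw (by rw [map_add, f.xu, f.xw, add_zero]) (by rw [map_add, f.yu, f.yw, add_zero])
      (by rw [map_add, f.wu hB, hB b, add_zero]; exact one_ne_zero)
    have h7 : b + (a + b) = a := by
      apply drop (F := F) (z := b)
      module
    rwa [h7] at h1
  have cb : Cen B hB M b := by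
    have h1 := cp a (a + b) f.xu f.yu (by rw [map_add, f.xu, f.xw, add_zero]) (by rw [map_add, f.yu, f.yw, add_zero])
      (by rw [map_add, f.uw, hB a, zero_add]; exact one_ne_zero)
    have h7 : a + (a + b) = b := by
      apply drop (F := F) (z := a)
      module
    rwa [h7] at h1
  exact all_cen hB hV hnd f cu cz ca cb (cup a f.xu f.yu)

theorem orth4 [FiniteDimensional F V] (hB : B.IsAlt) (hV : finrank F V = 4)
    (hnd : ∀ v, (∀ w, B v w = 0) → v = 0) (hsq : ∀ a : F, IsSquare a) (hq : ∃ l : F, l ≠ 0 ∧ l ≠ 1) (h : IsQ B Q)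
    {M : Subgroup (V ≃ₗ[F] V)} (hMi : M ≤ isom B) (hM : ContO B Q M)
    (hg : ∃ g ∈ M, ∃ v, Q (g v) ≠ Q v) : isom B ≤ M := by
  obtain ⟨g, hgM, v0, hv0⟩ := hg
  have hgi := hMi hgM
  have h2F : (2 : F) = 0 := two0
  have hmap : ∀ v, ∀ g ∈ M, tr B hB v 1 ∈ M → tr B hB (g v) 1 ∈ M := by
    intro v g hg hv
    rw [← tr_conj B hB v 1 g (hMi hg)]
    exact M.mul_mem (M.mul_mem hg hv) (M.inv_mem hg)
  have hone : ∀ v, Q v = 1 → tr B hB v 1 ∈ M := by
    intro v hv
    exact hM _ (tr_mem_isom _ _ _ _) (fun x => tr_isQ hB h (by rw [hv, one_mul]) x)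
  have hadd : ∀ x y, Q (g (x + y)) = Q (g x) + Q (g y) + B x y := by
    intro x y; rw [map_add, h.add, hgi x y]
  have hsmul : ∀ (c : F) x, Q (g (c • x)) = c ^ 2 * Q (g x) := by
    intro c x; rw [map_smul, h.smul]
  -- a vector with different values and `Q (g u) = 1`
  obtain ⟨u, hu1, hu2⟩ : ∃ u, Q (g u) = 1 ∧ Q u ≠ 1 := by
    by_contra hcon
    push Not at hcon
    -- then the values agree whenever `Q (g u) ≠ 0`
    have h1 : ∀ u, Q (g u) ≠ 0 → Q u = Q (g u) := by
      intro u hu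
      obtain ⟨r, hr⟩ := hsq (Q (g u))⁻¹
      have h3 : Q (g (r • u)) = 1 := by rw [hsmul, pow_two, ← hr, inv_mul_cancel₀ hu]
      have h4 := hcon _ h3
      rw [h.smul, pow_two, ← hr] at h4
      field_simp at h4
      exact h4
    have hv1 : Q (g v0) = 0 := by
      by_contra h3
      exact hv0 (h1 v0 h3).symm
    have hv2 : Q v0 ≠ 0 := by rw [hv1] at hv0; exact hv0.symm
    obtain ⟨l, hl0, hl1⟩ := hq
    have h5 : ∀ k : V, Q (g k) = Q k → Q (g k) = B v0 k := by
      intro k hk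
      by_contra h6
      apply hv2
      have h7 : Q (g (v0 + k)) ≠ 0 := by
        rw [hadd, hv1, zero_add]
        intro h8
        apply h6
        linear_combination h8 - B v0 k * h2F
      have h8 := h1 _ h7
      rw [hadd, h.add, hv1, hk] at h8
      linear_combination h8
    have h6 : ∀ k : V, Q (g k) = Q k → B v0 k = 0 := by
      intro k hk
      have e1 := h5 k hk
      have e2 := h5 (l • k) (by rw [hsmul, h.smul, hk])
      rw [hsmul, map_smul, smul_eq_mul, e1] at e2
      have e3 : l * (l - 1) * B v0 k = 0 := by linear_combination e2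
      rcases mul_eq_zero.1 e3 with e4 | e4
      · rcases mul_eq_zero.1 e4 with e5 | e5
        · exact absurd e5 hl0
        · exact absurd (sub_eq_zero.1 e5) hl1
      · exact e4
    have h00 : (v0 : V) ≠ 0 := by
      rintro rfl
      exact hv2 h.zero
    apply h00
    apply hnd
    intro x
    obtain ⟨r, hr⟩ := hsq ((Q (g x) - Q x) / Q v0)
    have h7 := h6 (x + r • v0) (by
      rw [hadd, h.add, hsmul, h.smul, hv1, pow_two, ← hr, mul_zero, add_zero, div_mul_cancel₀ _ hv2]
      ring)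
    rwa [map_add, map_smul, hB v0, smul_zero, add_zero] at h7
  have hTu : tr B hB u 1 ∈ M := by
    have := hmap (g u) g⁻¹ (M.inv_mem hgM) (hone _ hu1)
    have h1 : g⁻¹ (g u) = u := g.symm_apply_apply _
    rwa [h1] at this
  have hu0 : u ≠ 0 := by
    rintro rfl
    rw [map_zero, h.zero] at hu1
    exact zero_ne_one hu1
  by_cases hs0 : Q u = 0
  · exact of_sing hB hV hnd hsq h hMi hM hu0 hs0 hTu
  -- a singular vector
  obtain ⟨s, hs⟩ : ∃ s, s = Q u := ⟨_, rfl⟩
  rw [← hs] at hu2 hs0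
  obtain ⟨r, hr⟩ := hsq s
  have hr0 : r ≠ 0 := by rintro rfl; rw [mul_zero] at hr; exact hs0 hr
  obtain ⟨v, hv⟩ : ∃ v, v = r⁻¹ • u := ⟨_, rfl⟩
  have huv : u = r • v := by rw [hv, smul_smul, mul_inv_cancel₀ hr0, one_smul]
  have hQv : Q v = 1 := by
    rw [hv, h.smul, ← hs, hr]; field_simp
  have hTv : tr B hB v s ∈ M := by
    rw [huv, tr_smul, one_mul, pow_two, ← hr] at hTu
    exact hTu
  have hss : s + s * s ≠ 0 := by
    intro h1
    have : s * (1 + s) = 0 := by linear_combination h1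
    rcases mul_eq_zero.1 this with h3 | h3
    · exact hs0 h3
    · exact hu2 (by linear_combination h3 - h2F)
  obtain ⟨β, hβ⟩ := hsq (s + s * s)⁻¹
  have hβ0 : β ≠ 0 := by rintro rfl; rw [mul_zero] at hβ; exact inv_ne_zero hss hβ
  have hv0' : v ≠ 0 := by
    rintro rfl
    rw [h.zero] at hQv
    exact zero_ne_one hQv
  obtain ⟨d, hd⟩ : ∃ d, B v d = 1 := by
    obtain ⟨d, hd⟩ : ∃ d, B v d ≠ 0 := by
      by_contra hcon
      push Not at hcon
      exact hv0' (hnd v hcon)
    exact ⟨(B v d)⁻¹ • d, by rw [map_smul, smul_eq_mul, inv_mul_cancel₀ hd]⟩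
  obtain ⟨a, b, f⟩ := exists_fr hB hV hnd hd
  obtain ⟨s1, t1, hst⟩ := plane_val hsq h f.uw (1 - Q (β • d))
  obtain ⟨w, hw⟩ : ∃ w, w = β • d + (s1 • a + t1 • b) := ⟨_, rfl⟩
  have hQw : Q w = 1 := by
    rw [hw, h.add, hst, map_add, map_smul, map_smul, map_smul, LinearMap.smul_apply, LinearMap.smul_apply, f.yu, f.yw]
    simp
  have hvw : B v w = β := by
    rw [hw, map_add, map_add, map_smul, map_smul, map_smul, hd, f.xu, f.xw]
    simp
  have hwv : B w v = β := by rw [sym hB, hvw]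
  obtain ⟨w', hw'⟩ : ∃ w', w' = tr B hB v s w := ⟨_, rfl⟩
  have hTw' : tr B hB w' 1 ∈ M := by rw [hw']; exact hmap w _ hTv (hone w hQw)
  have hQw' : Q w' = 0 := by
    rw [hw', tr_apply, h.add, h.smul, hQw, hQv, map_smul, smul_eq_mul, hwv]
    have h1 : (s + s * s) * (β * β) = 1 := by rw [← hβ, mul_inv_cancel₀ hss]
    linear_combination h1 + h2F - 0 * h2F
  have hw'0 : w' ≠ 0 := by
    intro h0
    have h1 : B w' v = β := by
      rw [hw', tr_apply, map_add, LinearMap.add_apply, map_smul, LinearMap.smul_apply, hB v, smul_zero, add_zero, hwv]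
    rw [h0, map_zero, LinearMap.zero_apply] at h1
    exact hβ0 h1.symm
  exact of_sing hB hV hnd hsq h hMi hM hw'0 hQw' hTw'

/-- some symplectic map is not a similarity -/
theorem orth4_not [FiniteDimensional F V] (hB : B.IsAlt) (hV : finrank F V = 4)
    (hnd : ∀ v, (∀ w, B v w = 0) → v = 0) (hsq : ∀ a : F, IsSquare a) (hq : ∃ l : F, l ≠ 0 ∧ l ≠ 1) (h : IsQ B Q) :
    ∃ g ∈ isom B, ¬ ∃ c : F, ∀ v, Q (g v) = c * Q v := by
  obtain ⟨v, hQv⟩ : ∃ v, Q v = 1 := by
    have : Nontrivial V := nontrivial_of_finrank_pos (R := F) (by omega)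
    obtain ⟨u, hu⟩ := exists_ne (0 : V)
    obtain ⟨d, hd⟩ : ∃ d, B u d ≠ 0 := by
      by_contra hcon
      push Not at hcon
      exact hu (hnd u hcon)
    obtain ⟨s, t, hst⟩ := plane_val hsq h (a := u) (b := (B u d)⁻¹ • d)
      (by rw [map_smul, smul_eq_mul, inv_mul_cancel₀ hd]) 1
    exact ⟨_, hst⟩
  have h2F : (2 : F) = 0 := two0
  have hv0' : v ≠ 0 := by
    rintro rfl
    rw [h.zero] at hQv
    exact zero_ne_one hQv
  obtain ⟨d, hd⟩ : ∃ d, B v d ≠ 0 := by
    by_contra hcon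
    push Not at hcon
    exact hv0' (hnd v hcon)
  obtain ⟨l, hl0, hl1⟩ := hq
  refine ⟨tr B hB v l, tr_mem_isom _ _ _ _, ?_⟩
  rintro ⟨c, hc⟩
  have h1 := hc v
  rw [tr_apply, hB v, mul_zero, zero_smul, add_zero, hQv, mul_one] at h1
  have h3 := hc d
  rw [tr_apply, h.add, h.smul, hQv, map_smul, smul_eq_mul, ← h1, sym hB d v] at h3
  have h4 : (B v d * B v d) * (l * (1 + l)) = 0 := by linear_combination h3
  rcases mul_eq_zero.1 h4 with h5 | h5
  · exact mul_ne_zero hd hd h5
  · rcases mul_eq_zero.1 h5 with h6 | h6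
    · exact hl0 h6
    · exact hl1 (by linear_combination h6 - h2F)

end H95.S4
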