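import Cfsg.Agent.Lib.H95.S4Rat2

set_option autoImplicit false
set_option linter.unusedSectionVars false

/-!
Four-dimensional symplectic groups in characteristic two: subfield groups, the strongly embedded case.
-/

namespace H95.S4

open Module H95.SpBasic

variable {F V : Type*} [Field F] [CharP F 2] [AddCommGroup V] [Module F V]
variable {B : LinearMap.BilinForm F V}
variable {F₀ : Subfield F} {R : V → Prop} {H : Subgroup (V ≃ₗ[F] V)}

lemma invol_orth (hB : B.IsAlt) {z : V ≃ₗ[F] V} (hz : z ∈ isom B) (hzz : z * z = 1) (u v : V) :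
    B (z u + u) (z v + v) = 0 := by
  have h1 : B (z u) v = B u (z v) := by
    have h2 := hz u (z v)
    have h3 : z (z v) = v := congrArg (fun g : V ≃ₗ[F] V => g v) hzz
    rwa [h3] at h2
  rw [map_add, map_add, LinearMap.add_apply, LinearMap.add_apply, hz, h1]
  have h2 : (2 : F) = 0 := two0
  linear_combination (B u v + B u (z v)) * h2

/-- all stabilisers of rational vectors act rationally -/
structure Sit2 (B : LinearMap.BilinForm F V) (F₀ : Subfield F) (R : V → Prop) (H : Subgroup (V ≃ₗ[F] V)) : Prop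
    extends Sit B F₀ R H where
  st : ∀ x y u w, Fr B x y u w → R x → R y → R u → R w → ∀ g ∈ H, g x = x →
    B (g u) u ∈ F₀ ∧ B (g u) w ∈ F₀ ∧ B (g w) u ∈ F₀ ∧ B (g w) w ∈ F₀
  sq : ∀ s : F, s * s ∈ F₀ → s ∈ F₀

namespace Sit2

variable [FiniteDimensional F V]

lemma c1 (h : Sit2 B F₀ R H) {z : V} (hz : R z) (hz0 : z ≠ 0) {c : F} (hc : tr B h.alt z c ∈ H) : c ∈ F₀ := by
  have hB := h.alt
  obtain ⟨y, u, w, hy, hu, hw, f⟩ := h.exists_frame hz hz0
  have h1 := (h.st u w y z ⟨f.uw, f.yx hB, f.uy hB, f.ux hB, f.wy hB, f.wx hB⟩ hu hw hy hz _ hc (by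
    rw [tr_apply, f.ux hB, mul_zero, zero_smul, add_zero])).1
  rw [tr_apply, f.yx hB, mul_one, map_add, LinearMap.add_apply, hB y, zero_add, map_smul, LinearMap.smul_apply, f.xy,
    smul_eq_mul, mul_one] at h1
  exact h1

lemma sx (h : Sit2 B F₀ R H) {x y u w : V} (f : Fr B x y u w) (hx : R x) (hy : R y) (hu : R u) (hw : R w)
    {g : V ≃ₗ[F] V} (hg : g ∈ H) {s : F} (hgu : g u = u + s • x) : s ∈ F₀ := by
  have hB := h.alt
  have h1 := H.mul_mem (H.mul_mem hg (h.trH hu F₀.one_mem)) (H.inv_mem hg)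
  rw [tr_conj B h.alt _ _ _ (h.le hg), hgu] at h1
  have h2 := H.mul_mem (h.trH hu F₀.one_mem) h1
  rw [tr_tr hB f.xu] at h2
  obtain ⟨k, hk, -, k1, -, k3, -⟩ := h.fmap f (f.swap hB) hx hy hu hw hu hw hx hy
  have hki := h.le hk
  have h3 := H.mul_mem (H.mul_mem hk h2) (H.inv_mem hk)
  have h4 : k * (E B hB x (s • u) * tr B hB x (s * s)) * k⁻¹ =
      (k * E B hB x (s • u) * k⁻¹) * (k * tr B hB x (s * s) * k⁻¹) := by group
  rw [h4, E_conj hB _ _ hki, tr_conj B hB _ _ _ hki, k1, map_smul, k3, E_swap hB f.xu] at h3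
  have h5 := H.mul_mem (H.inv_mem h2) h3
  have h6 : (E B hB x (s • u) * tr B hB x (s * s))⁻¹ * (E B hB x (s • u) * tr B hB u (s * s)) =
      (tr B hB x (s * s))⁻¹ * tr B hB u (s * s) := by group
  rw [h6, tr_inv] at h5
  have h7 := (h.st x y u w f hx hy hu hw _ h5 (by
    show tr B hB x (-(s * s)) (tr B hB u (s * s) x) = x
    rw [tr_apply, tr_apply, f.xu, mul_zero, zero_smul, add_zero, hB x, mul_zero, zero_smul, add_zero])).2.2.2
  have h8 : (tr B hB x (-(s * s)) * tr B hB u (s * s)) w = w + (s * s) • u := by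
    show tr B hB x (-(s * s)) (tr B hB u (s * s) w) = _
    rw [tr_apply, tr_apply, f.wu hB, mul_one, map_add, LinearMap.add_apply, f.wx hB, map_smul, LinearMap.smul_apply,
      f.ux hB, smul_zero, add_zero, mul_zero, zero_smul, add_zero]
  rw [h8, map_add, LinearMap.add_apply, hB w, zero_add, map_smul, LinearMap.smul_apply, f.uw, smul_eq_mul,
    mul_one] at h7
  exact h.sq s h7

lemma c2 (h : Sit2 B F₀ R H) {g : V ≃ₗ[F] V} (hg : g ∈ H) {x : V} (hx : R x) (hx0 : x ≠ 0) (hgx : R (g x)) :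
    ∀ v, R v → R (g v) := by
  have hB := h.alt
  obtain ⟨y, u, w, hy, hu, hw, f⟩ := h.exists_frame hx hx0
  obtain ⟨y', u', w', hy', hu', hw', f'⟩ := h.exists_frame hgx (by
    intro h0; exact hx0 ((LinearEquiv.map_eq_zero_iff g).1 h0))
  obtain ⟨k, hk, hkR, k1, -, -, -⟩ := h.fmap f f' hx hy hu hw hgx hy' hu' hw'
  obtain ⟨h0, hh0⟩ : ∃ h0, h0 = k⁻¹ * g := ⟨_, rfl⟩
  have m0 : h0 ∈ H := by rw [hh0]; exact H.mul_mem (H.inv_mem hk) hg
  have i0 := h.le m0
  have e0 : h0 x = x := by rw [hh0]; exact fix_conj k1.symm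
  obtain ⟨s1, s2, s3, s4⟩ := h.st x y u w f hx hy hu hw h0 m0 e0
  have hu1 := f.ex hB h.hV h.nd (h0 u)
  have hw1 := f.ex hB h.hV h.nd (h0 w)
  have hux : B (h0 u) x = 0 := by
    have := i0 u x
    rwa [e0, f.ux hB] at this
  have hwx : B (h0 w) x = 0 := by
    have := i0 w x
    rwa [e0, f.wx hB] at this
  rw [hux, zero_smul, add_zero] at hu1
  rw [hwx, zero_smul, add_zero] at hw1
  have hdet := i0 u w
  rw [f.uw] at hdet
  obtain ⟨a, ha⟩ : ∃ a, a = B (h0 u) w := ⟨_, rfl⟩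
  obtain ⟨b, hb⟩ : ∃ b, b = B (h0 u) u := ⟨_, rfl⟩
  obtain ⟨c, hc⟩ : ∃ c, c = B (h0 w) w := ⟨_, rfl⟩
  obtain ⟨d, hd⟩ : ∃ d, d = B (h0 w) u := ⟨_, rfl⟩
  obtain ⟨s, hs⟩ : ∃ s, s = B (h0 u) y := ⟨_, rfl⟩
  obtain ⟨t, ht⟩ : ∃ t, t = B (h0 w) y := ⟨_, rfl⟩
  rw [← ha, ← hb, ← hs] at hu1
  rw [← hc, ← hd, ← ht] at hw1
  rw [← ha] at s2
  rw [← hb] at s1
  rw [← hc] at s4
  rw [← hd] at s3
  have hdet' : a * d + b * c = 1 := by
    rw [hu1, hw1] at hdet
    simp only [map_add, map_smul, LinearMap.add_apply, LinearMap.smul_apply, smul_eq_mul, hB x, hB y, hB u, hB w,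
      f.xy, f.yx hB, f.uw, f.wu hB, f.xu, f.ux hB, f.xw, f.wx hB, f.yu, f.uy hB, f.yw, f.wy hB, mul_zero, mul_one,
      add_zero, zero_add] at hdet
    linear_combination hdet
  have f2 : Fr B x y (a • u + b • w) (c • u + d • w) := by
    refine ⟨f.xy, ?_, ?_, ?_, ?_, ?_⟩ <;>
    simp only [map_add, map_smul, LinearMap.add_apply, LinearMap.smul_apply, smul_eq_mul, hB x, hB y, hB u, hB w,
      f.xy, f.yx hB, f.uw, f.wu hB, f.xu, f.ux hB, f.xw, f.wx hB, f.yu, f.uy hB, f.yw, f.wy hB, mul_zero, mul_one,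
      add_zero, zero_add]
    linear_combination hdet'
  have Ru2 : R (a • u + b • w) := h.rat.add _ _ (h.rat.smul _ s2 _ hu) (h.rat.smul _ s1 _ hw)
  have Rw2 : R (c • u + d • w) := h.rat.add _ _ (h.rat.smul _ s4 _ hu) (h.rat.smul _ s3 _ hw)
  obtain ⟨l, hl, hlR, l1, l2, l3, l4⟩ := h.fmap f f2 hx hy hu hw hx hy Ru2 Rw2
  obtain ⟨h1, hh1⟩ : ∃ h1, h1 = l⁻¹ * h0 := ⟨_, rfl⟩
  have m1 : h1 ∈ H := by rw [hh1]; exact H.mul_mem (H.inv_mem hl) m0
  have i1 := h.le m1
  have li : ∀ v, l⁻¹ (l v) = v := fun v => l.symm_apply_apply v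
  have n1 : h1 x = x := by
    rw [hh1]; show l⁻¹ (h0 x) = x
    rw [e0]
    conv_lhs => rw [← l1]
    rw [li]
  have n2 : h1 u = u + s • x := by
    rw [hh1]; show l⁻¹ (h0 u) = _
    rw [hu1, show s • x + a • u + b • w = l u + s • l x by rw [l3, l1]; abel, map_add, map_smul, li, li]
  have n3 : h1 w = w + t • x := by
    rw [hh1]; show l⁻¹ (h0 w) = _
    rw [hw1, show t • x + c • u + d • w = l w + t • l x by rw [l4, l1]; abel, map_add, map_smul, li, li]
  have hsF := h.sx f hx hy hu hw m1 n2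
  have htF := h.sx (f.flip2 hB) hx hy hw hu m1 n3
  have n4 := f.ex hB h.hV h.nd (h1 y)
  have q1 : B (h1 y) x = 1 := by
    have := i1 y x
    rwa [n1, f.yx hB] at this
  have q2 : B (h1 y) w = t := by
    have h3 := i1 y w
    rw [n3, map_add, map_smul, q1, f.yw, smul_eq_mul, mul_one] at h3
    have h2 : (2 : F) = 0 := two0
    linear_combination h3 - t * h2
  have q3 : B (h1 y) u = s := by
    have h3 := i1 y u
    rw [n2, map_add, map_smul, q1, f.yu, smul_eq_mul, mul_one] at h3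
    have h2 : (2 : F) = 0 := two0
    linear_combination h3 - s * h2
  rw [q1, q2, q3, one_smul] at n4
  obtain ⟨ν, hν⟩ : ∃ ν, ν = B (h1 y) y := ⟨_, rfl⟩
  rw [← hν] at n4
  have Rz : R (t • u + s • w) := h.rat.add _ _ (h.rat.smul _ htF _ hu) (h.rat.smul _ hsF _ hw)
  have hxz : B x (t • u + s • w) = 0 := by rw [map_add, map_smul, map_smul, f.xu, f.xw]; simp
  have m3 := h.EH hx Rz
  have heq : h1 = tr B hB x ν * E B hB x (t • u + s • w) := by
    apply LinearEquiv.ext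
    intro v
    rw [f.ex hB h.hV h.nd v]
    simp only [map_add, map_smul]
    have k1' : (tr B hB x ν * E B hB x (t • u + s • w)) x = h1 x := by
      rw [n1]
      show tr B hB x ν (E B hB x _ x) = _
      rw [E_apply hB hxz, tr_apply, hxz, hB x]; simp [hB x]
    have k2' : (tr B hB x ν * E B hB x (t • u + s • w)) y = h1 y := by
      rw [n4]
      show tr B hB x ν (E B hB x _ y) = _
      rw [E_apply hB hxz, tr_apply]
      simp only [map_add, map_smul, LinearMap.add_apply, LinearMap.smul_apply, smul_eq_mul, hB x,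
        f.yx hB, f.ux hB, f.wx hB, f.yu, f.yw, mul_zero, mul_one, add_zero, one_smul, zero_smul]
      module
    have k3' : (tr B hB x ν * E B hB x (t • u + s • w)) u = h1 u := by
      rw [n2]
      show tr B hB x ν (E B hB x _ u) = _
      rw [E_apply hB hxz, tr_apply]
      simp only [map_add, map_smul, LinearMap.add_apply, LinearMap.smul_apply, smul_eq_mul, hB x, hB u,
        f.ux hB, f.uw, mul_zero, mul_one, add_zero, zero_add, zero_smul]
    have k4' : (tr B hB x ν * E B hB x (t • u + s • w)) w = h1 w := by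
      rw [n3]
      show tr B hB x ν (E B hB x _ w) = _
      rw [E_apply hB hxz, tr_apply]
      simp only [map_add, map_smul, LinearMap.add_apply, LinearMap.smul_apply, smul_eq_mul, hB x, hB w,
        f.wx hB, f.wu hB, mul_zero, mul_one, add_zero, zero_smul]
    rw [k1', k2', k3', k4']
  have m4 : tr B hB x ν ∈ H := by
    have := H.mul_mem m1 (H.inv_mem m3)
    rwa [heq, mul_inv_cancel_right] at this
  have hνF := h.c1 hx hx0 m4
  have hR1 : ∀ v, R v → R (h1 v) := by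
    intro v hv
    rw [f.ex hB h.hV h.nd v]
    simp only [map_add, map_smul]
    rw [n1, n2, n3, n4]
    exact h.rat.add _ _ (h.rat.add _ _ (h.rat.add _ _ (h.rat.smul _ (h.rat.form _ _ hv hy) _ hx)
      (h.rat.smul _ (h.rat.form _ _ hv hx) _ (h.rat.add _ _ (h.rat.add _ _ (h.rat.add _ _ (h.rat.smul _ hνF _ hx) hy)
        (h.rat.smul _ htF _ hu)) (h.rat.smul _ hsF _ hw))))
      (h.rat.smul _ (h.rat.form _ _ hv hw) _ (h.rat.add _ _ hu (h.rat.smul _ hsF _ hx))))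
      (h.rat.smul _ (h.rat.form _ _ hv hu) _ (h.rat.add _ _ hw (h.rat.smul _ htF _ hx)))
  intro v hv
  have h3 : g = k * (l * h1) := by rw [hh1, mul_inv_cancel_left, hh0, mul_inv_cancel_left]
  rw [h3]
  exact hkR _ (hlR _ (hR1 v hv))

lemma exists_ne (h : Sit2 B F₀ R H) {v : V} (hv : v ≠ 0) : ∃ u, R u ∧ B u v ≠ 0 := by
  have hB := h.alt
  obtain ⟨x, y, u, w, hx, hy, hu, hw, f⟩ := h.rat.frame
  by_contra hcon
  push Not at hcon
  apply hv
  rw [f.ex hB h.hV h.nd v, sym hB v x, sym hB v y, sym hB v u, sym hB v w, hcon x hx, hcon y hy, hcon u hu, hcon w hw]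
  simp

lemma c3 (h : Sit2 B F₀ R H) {g : V ≃ₗ[F] V} (hg : g ∈ H) {x x' : V} (hx : R x) (hx0 : x ≠ 0) (hx' : R x')
    (hx'0 : x' ≠ 0) (horth : B x (g x') = 0) : R (g x') := by
  have hB := h.alt
  obtain ⟨v, hv⟩ : ∃ v, v = g x' := ⟨_, rfl⟩
  have hv0 : v ≠ 0 := by rw [hv]; intro h0; exact hx'0 ((LinearEquiv.map_eq_zero_iff g).1 h0)
  rw [← hv] at horth ⊢
  have h1 := H.mul_mem (H.mul_mem hg (h.trH hx' F₀.one_mem)) (H.inv_mem hg)
  rw [tr_conj B h.alt _ _ _ (h.le hg), ← hv] at h1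
  have h2 := h.c2 h1 hx hx0 (by rw [tr_apply, horth, mul_zero, zero_smul, add_zero]; exact hx)
  obtain ⟨u, hu, huv⟩ := h.exists_ne hv0
  have h3 := h2 u hu
  rw [tr_apply, one_mul] at h3
  have h4 : R (B u v • v) := by
    have := h.rat.add _ _ (h.rat.smul _ (F₀.neg_mem F₀.one_mem) _ hu) h3
    rwa [show (-1 : F) • u + (u + B u v • v) = B u v • v by module] at this
  have h5 : tr B hB (B u v • v) ((B u v)⁻¹ * (B u v)⁻¹) ∈ H := by
    rw [tr_smul, show (B u v)⁻¹ * (B u v)⁻¹ * B u v ^ 2 = 1 by field_simp]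
    exact h1
  have h6 := h.sq _ (h.c1 h4 (smul_ne_zero huv hv0) h5)
  have h7 := h.rat.smul _ h6 _ h4
  rwa [smul_smul, inv_mul_cancel₀ huv, one_smul] at h7

lemma exists_move (h : Sit2 B F₀ R H) {z : V ≃ₗ[F] V} (hz : z ≠ 1) : ∃ u, R u ∧ z u + u ≠ 0 := by
  have hB := h.alt
  obtain ⟨x, y, u, w, hx, hy, hu, hw, f⟩ := h.rat.frame
  by_contra hcon
  push Not at hcon
  have h1 : ∀ u, R u → z u = u := by
    intro u hu
    have h3 := hcon u hu
    rw [← drop (F := F) (x := z u + (u + u)) (y := z u) (z := u) (by module), ← add_assoc, h3, zero_add]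
  apply hz
  apply LinearEquiv.ext
  intro v
  show z v = v
  conv_lhs => rw [f.ex hB h.hV h.nd v]
  simp only [map_add, map_smul]
  rw [h1 x hx, h1 y hy, h1 u hu, h1 w hw]
  exact (f.ex hB h.hV h.nd v).symm

lemma c4 (h : Sit2 B F₀ R H) {z : V ≃ₗ[F] V} (hz : z ∈ H) (hzR : ∀ v, R v → R (z v)) (hzz : z * z = 1) (hz1 : z ≠ 1)
    {k : V ≃ₗ[F] V} (hk : k ∈ H) (hkz : k * z = z * k) : ∀ v, R v → R (k v) := by
  have hB := h.alt
  obtain ⟨u, hu, hu0⟩ := h.exists_move hz1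
  have hx : R (z u + u) := h.rat.add _ _ (hzR u hu) hu
  have h1 : k (z u + u) = z (k u) + k u := by
    rw [map_add]
    congr 1
    exact congrArg (fun g : V ≃ₗ[F] V => g u) hkz
  have h2 : B (z u + u) (k (z u + u)) = 0 := by rw [h1]; exact invol_orth hB (h.le hz) hzz _ _
  exact h.c2 hk hx hu0 (h.c3 hk hx hu0 hx hu0 h2)

/-- the group is the rational group -/
theorem step2 (h : Sit2 B F₀ R H) [Finite V] {g : V ≃ₗ[F] V} (hg : g ∈ H) : ∀ v, R v → R (g v) := by
  classical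
  have hB := h.alt
  by_contra hcon
  obtain ⟨x, y, u, w, hx, hy, hu, hw, f⟩ := h.rat.frame
  have trR' : ∀ z v, R z → R v → R (tr B hB z 1 v) := fun z v hz hv => h.trR hz F₀.one_mem hv
  obtain ⟨a, ha⟩ : ∃ a, a = E B hB x u := ⟨_, rfl⟩
  have haH : a ∈ H := by rw [ha]; exact h.EH hx hu
  have haR : ∀ v, R v → R (a v) := by
    intro v hv
    rw [ha]
    exact trR' _ _ hu (trR' _ _ (h.rat.add _ _ hu hx) (trR' _ _ hx hv))
  have haa : a * a = 1 := by rw [ha]; exact E_sq hB f.xu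
  have haw : a w = w + x := by
    rw [ha, E_apply hB f.xu, f.wx hB, f.wu hB, zero_smul, add_zero, one_smul]
  have hay : a y = y + u := by
    rw [ha, E_apply hB f.xu, f.yx hB, f.yu, zero_smul, add_zero, one_smul]
  obtain ⟨s, hs⟩ : ∃ s, s = tr B hB x 1 := ⟨_, rfl⟩
  have hsH : s ∈ H := by rw [hs]; exact h.trH hx F₀.one_mem
  have hsR : ∀ v, R v → R (s v) := by rw [hs]; exact fun v hv => trR' _ _ hx hv
  have hss : s * s = 1 := by rw [hs]; exact tr_sq hB x 1
  have hs1 : s ≠ 1 := by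
    intro h0
    have h1 : s y = y := by rw [h0]; rfl
    rw [hs, tr_apply, f.yx hB, one_mul, one_smul, add_eq_left] at h1
    exact f.x0 h1
  obtain ⟨t, ht⟩ : ∃ t, t = g * a * g⁻¹ := ⟨_, rfl⟩
  have htH : t ∈ H := by rw [ht]; exact H.mul_mem (H.mul_mem hg haH) (H.inv_mem hg)
  have htt : t * t = 1 := by
    rw [ht, show g * a * g⁻¹ * (g * a * g⁻¹) = g * (a * a) * g⁻¹ by group, haa]; group
  have ha1 : a ≠ 1 := by
    intro h0
    have h1 : a w = w := by rw [h0]; rfl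
    rw [haw, add_eq_left] at h1
    exact f.x0 h1
  have ht1 : t ≠ 1 := by
    intro h0
    apply ha1
    have : a = g⁻¹ * t * g := by rw [ht]; group
    rw [this, h0]; group
  have htg : ∀ v, t (g v) = g (a v) := by
    intro v
    have : t * g = g * a := by rw [ht]; group
    exact congrArg (fun k : V ≃ₗ[F] V => k v) this
  have hnt : ¬ ∀ v, R v → R (t v) := by
    intro htR
    obtain ⟨v, hv, hv0⟩ := h.exists_move ht1
    have h1 : g x = t (g w) + g w := by
      rw [htg, ← map_add, haw]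
      congr 1
      symm
      apply drop (F := F) (z := w)
      module
    have h2 : B (t v + v) (g x) = 0 := by rw [h1]; exact invol_orth hB (h.le htH) htt _ _
    exact hcon (h.c2 hg hx f.x0 (h.c3 hg (h.rat.add _ _ (htR v hv) hv) hv0 hx f.x0 h2))
  obtain ⟨ρ, hρ⟩ : ∃ ρ, ρ = s * t := ⟨_, rfl⟩
  have hρH : ρ ∈ H := by rw [hρ]; exact H.mul_mem hsH htH
  have hts : t = s * ρ := by rw [hρ, ← mul_assoc, hss, one_mul]
  have hsi : s⁻¹ = s := inv_eq_of_mul_eq_one_left hss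
  have hti : t⁻¹ = t := inv_eq_of_mul_eq_one_left htt
  have hrel : ∀ n : ℕ, s * ρ ^ n * s = (ρ ^ n)⁻¹ := by
    intro n
    have h1 : s * ρ * s⁻¹ = ρ⁻¹ := by
      rw [hρ, hsi, mul_inv_rev, hsi, hti, ← mul_assoc, hss, one_mul]
    rw [← inv_pow, ← h1, conj_pow, hsi]
  have : Finite (V ≃ₗ[F] V) := Finite.of_injective (fun g : V ≃ₗ[F] V => (g : V → V)) DFunLike.coe_injective
  have hn := orderOf_pos ρ
  have hpow := pow_orderOf_eq_one ρ
  rcases Nat.even_or_odd' (orderOf ρ) with ⟨m, hm | hm⟩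
  · have hm0 : m ≠ 0 := by rintro rfl; omega
    obtain ⟨z, hz⟩ : ∃ z, z = ρ ^ m := ⟨_, rfl⟩
    have hzH : z ∈ H := by rw [hz]; exact H.pow_mem hρH m
    have hzz : z * z = 1 := by rw [hz, ← pow_add, ← two_mul, ← hm, hpow]
    have hzi : z⁻¹ = z := inv_eq_of_mul_eq_one_left hzz
    have hz1 : z ≠ 1 := by
      rw [hz]
      exact pow_ne_one_of_lt_orderOf hm0 (by omega)
    have hsz : z * s = s * z := by
      have := hrel m
      rw [← hz, hzi] at this
      calc z * s = (s * z * s) * s := by rw [this]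
        _ = s * z * (s * s) := by group
        _ = s * z := by rw [hss, mul_one]
    have hzρ : z * ρ = ρ * z := by rw [hz, ← pow_succ, ← pow_succ']
    have htz : t * z = z * t := by
      rw [hts, mul_assoc, ← hzρ, ← mul_assoc, ← hsz, mul_assoc]
    exact hnt (h.c4 hzH (h.c4 hsH hsR hss hs1 hzH hsz) hzz hz1 htH htz)
  · obtain ⟨k, hk⟩ : ∃ k, k = ρ ^ (m + 1) := ⟨_, rfl⟩
    have hkH : k ∈ H := by rw [hk]; exact H.pow_mem hρH _
    have h1 : k⁻¹ * s * k = t := by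
      have h2 := hrel (m + 1)
      rw [← hk] at h2
      rw [← h2, mul_assoc (s * k) s s, hss, mul_one, hts, mul_assoc]
      congr 1
      rw [hk, ← pow_add, show m + 1 + (m + 1) = (2 * m + 1) + 1 by ring, pow_succ, ← hm, hpow, one_mul]
    obtain ⟨l, hl⟩ : ∃ l, l = g⁻¹ * k⁻¹ := ⟨_, rfl⟩
    have hlH : l ∈ H := by rw [hl]; exact H.mul_mem (H.inv_mem hg) (H.inv_mem hkH)
    have h2 : a = l * s * l⁻¹ := by
      have : a = g⁻¹ * t * g := by rw [ht]; group
      rw [this, ← h1, hl]; group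
    rw [hs, tr_conj B hB _ _ _ (h.le hlH)] at h2
    obtain ⟨v, hv⟩ : ∃ v, v = l x := ⟨_, rfl⟩
    rw [← hv] at h2
    have h3 : B w v • v = x := by
      have := haw
      rw [h2, tr_apply, one_mul] at this
      exact add_left_cancel this
    have h4 : B y v • v = u := by
      have := hay
      rw [h2, tr_apply, one_mul] at this
      exact add_left_cancel this
    have h5 := f.xw
    have h6 := f.uw
    rw [← h3, map_smul, LinearMap.smul_apply, smul_eq_mul] at h5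
    rw [← h4, map_smul, LinearMap.smul_apply, smul_eq_mul] at h6
    rcases mul_eq_zero.1 h5 with h7 | h7
    · apply f.x0
      rw [← h3, h7, zero_smul]
    · rw [h7, mul_zero] at h6
      exact zero_ne_one h6

end Sit2

/-- the dichotomy -/
theorem rat4 [FiniteDimensional F V] [Finite F] [Finite V] (h : Sit B F₀ R H)
    (hst : ∀ U : AddSubgroup F, (∀ a ∈ F₀, ∀ u ∈ U, a * u ∈ U) →
      (∃ α : F, α ∉ F₀ ∧ ∀ u ∈ U, α * u ∈ U) → (∃ u ∈ U, u ≠ 0) → U = ⊤) (hsq : ∀ s : F, s * s ∈ F₀ → s ∈ F₀) :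
    isom B ≤ H ∨ ∀ g ∈ H, ∀ v, R v → R (g v) := by
  by_cases hc : ∃ x y u w, Fr B x y u w ∧ R x ∧ R y ∧ R u ∧ R w ∧ ∃ g ∈ H, g x = x ∧
      (B (g u) u ∉ F₀ ∨ B (g u) w ∉ F₀ ∨ B (g w) u ∉ F₀ ∨ B (g w) w ∉ F₀)
  · obtain ⟨x, y, u, w, f, hx, hy, hu, hw, g, hg, hgx, hnr⟩ := hc
    exact Or.inl (h.step1 hst f hx hy hu hw hg hgx hnr)
  · right
    intro g hg
    refine Sit2.step2 (F₀ := F₀) (B := B) ⟨h, ?_, hsq⟩ hg
    intro x y u w f hx hy hu hw g hg hgx
    by_contra hcon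
    apply hc
    refine ⟨x, y, u, w, f, hx, hy, hu, hw, g, hg, hgx, ?_⟩
    by_contra h2
    push Not at h2
    exact hcon ⟨h2.1, h2.2.1, h2.2.2.1, h2.2.2.2⟩

end H95.S4
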