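import Cfsg.Agent.Lib.H95.SpSmall3
import Cfsg.Agent.Lib.H95.S4Rat3
import Cfsg.Agent.Lib.H95.S4Ext
import Cfsg.Agent.Lib.H95.S4Orth

set_option autoImplicit false

/-!
Geometric maximal subgroups of four-dimensional symplectic groups in characteristic two.
-/

namespace H95.S4All

open Cfsg

lemma char2 {F : Type*} [Field F] [Fintype F] (heven : ¬ Odd (Fintype.card F)) : CharP F 2 := by
  have hring : ringChar F = 2 := by
    rw [FiniteField.even_card_iff_char_two]
    rw [Nat.not_odd_iff_even, Nat.even_iff] at heven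
    exact heven
  exact hring ▸ ringChar.charP F

lemma exists_l {F : Type*} [Field F] [Fintype F] (h4 : 4 ≤ Fintype.card F) : ∃ l : F, l ≠ 0 ∧ l ≠ 1 := by
  classical
  by_contra hcon
  push Not at hcon
  have h1 : (Finset.univ : Finset F) ⊆ {0, 1} := by
    intro t _
    simp only [Finset.mem_insert, Finset.mem_singleton]
    by_cases ht : t = 0
    · exact Or.inl ht
    · exact Or.inr (hcon t ht)
  have h2 := Finset.card_le_card h1
  have h3 : ({0, 1} : Finset F).card ≤ 2 := Finset.card_le_two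
  rw [Finset.card_univ] at h2
  omega

section
open H95.Bridge H95.SpBasic Module

theorem par_max {F : Type*} [Field F] [Fintype F] (m : ℕ) (W : Submodule F (Fin m ⊕ Fin m → F)) (hW0 : W ≠ ⊥) (hW : Cfsg.Geo.IsTotallySingularFor (Cfsg.sympForm m F) W) : Cfsg.Geo.IsMaximalIn (Cfsg.spGL m F) (Cfsg.Geo.subspaceStabilizer W ⊓ Cfsg.spGL m F) := by
  set B := spB m F with hBdef
  have hB : B.IsAlt := spB_isAlt m F
  have hndV : ∀ v, (∀ w, B v w = 0) → v = 0 := spB_nondeg m F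
  have hWi : ∀ x ∈ W, ∀ y ∈ W, B x y = 0 := fun x hx y hy => by
    rw [hBdef, spB_apply]; exact hW x hx y hy
  have hmem : ∀ g : GL (Fin m ⊕ Fin m) F, g ∈ spGL m F ↔ toEq _ F g ∈ isom B := fun g => mem_spGL
  apply isMaximalIn_of
  · obtain ⟨g, hg, w, hw, hgw⟩ := H95.SpPar.exists_not hB hndV hWi hW0
    refine ⟨(toEq _ F).symm g, ?_, ?_⟩
    · rw [hmem, MulEquiv.apply_symm_apply]; exact hg
    · rw [mem_subspaceStabilizer, MulEquiv.apply_symm_apply]
      intro h
      exact hgw ((h w).1 hw)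
  · intro M hHM hMK ⟨g, hg, hgS⟩
    refine le_of_map hmem (H95.SpPar.overgroup hB hndV hWi ?_ ?_ ?_)
    · rintro _ ⟨x, hx, rfl⟩
      exact (hmem x).1 (hMK hx)
    · intro x hx hσ
      rw [mem_map_toEq]
      refine hHM ⟨?_, ?_⟩
      · exact mem_subspaceStabilizer_of (by rw [MulEquiv.apply_symm_apply]; exact hσ)
      · exact (hmem _).2 (by rw [MulEquiv.apply_symm_apply]; exact hx)
    · refine ⟨toEq _ F g, ⟨g, hg, rfl⟩, ?_⟩
      by_contra hcon
      push Not at hcon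
      exact hgS (mem_subspaceStabilizer_of hcon)

theorem dec_max {F : Type*} [Field F] [Fintype F] (m : ℕ) {t : ℕ} (k : ℕ) (D : Fin t → Submodule F (Fin m ⊕ Fin m → F)) (hD : Cfsg.Geo.IsNondegenerateMDecomposition (Cfsg.sympForm m F) k D) (hex : ∃ l : F, l ≠ 0 ∧ l ≠ 1) : Cfsg.Geo.IsMaximalIn (Cfsg.spGL m F) (Cfsg.Geo.decompositionStabilizer D ⊓ Cfsg.spGL m F) := by
  set B := spB m F with hBdef
  have hB : B.IsAlt := spB_isAlt m F
  have hndV : ∀ v, (∀ w, B v w = 0) → v = 0 := spB_nondeg m F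
  have hnd : ∀ i, ∀ v ∈ D i, (∀ w ∈ D i, B v w = 0) → v = 0 := fun i =>
    spB_nondegOn (hD.nondegenerate i)
  have horth : ∀ i j, i ≠ j → ∀ u ∈ D i, ∀ v ∈ D j, B u v = 0 := by
    intro i j hij u hu v hv
    rw [hBdef, spB_apply]
    exact hD.orthogonal i j hij u hu v hv
  have hk : ∀ i, finrank F (D i) = k := hD.decomp.finrank_eq
  have hk0 : k ≠ 0 := hD.decomp.pos.ne'
  have ht := hD.decomp.two_le
  let i0 : Fin t := ⟨0, by omega⟩
  let i1 : Fin t := ⟨1, by omega⟩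
  have hi : i0 ≠ i1 := by simp [i0, i1]
  have hne : ∀ i, D i ≠ ⊥ := fun i h0 => by
    have := hk i
    rw [h0, finrank_bot] at this
    exact hk0 this.symm
  have hmem : ∀ g : GL (Fin m ⊕ Fin m) F, g ∈ spGL m F ↔ toEq _ F g ∈ isom B := fun g => mem_spGL
  apply isMaximalIn_of
  · obtain ⟨g, hg, x, hx, hgx⟩ := H95.SpWreath.exists_not_perm B hB D hnd horth hD.decomp.iSup_eq_top
      i0 i1 hi (hne _) (hne _)
    refine ⟨(toEq _ F).symm g, ?_, ?_⟩
    · rw [hmem, MulEquiv.apply_symm_apply]; exact hg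
    · rw [mem_decompositionStabilizer, MulEquiv.apply_symm_apply]
      rintro ⟨σ, hσ⟩
      apply hgx (σ i0)
      rw [← hσ i0]
      exact ⟨x, hx, rfl⟩
  · intro M hHM hMK ⟨g, hg, hgS⟩
    have key := H95.SpWreath.overgroup B hB hndV D k hk hnd horth hD.decomp.iSup_eq_top hk0 (Or.inr hex)
      (M.map (toEq _ F).toMonoidHom) (by
        rintro _ ⟨x, hx, rfl⟩
        exact (hmem x).1 (hMK hx)) (by
        intro x hx hσ
        refine ⟨(toEq _ F).symm x, hHM ⟨?_, ?_⟩, ?_⟩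
        · exact mem_decompositionStabilizer.2 (by rw [MulEquiv.apply_symm_apply]; exact hσ)
        · exact (hmem _).2 (by rw [MulEquiv.apply_symm_apply]; exact hx)
        · exact MulEquiv.apply_symm_apply _ _) ⟨toEq _ F g, ⟨g, hg, rfl⟩, fun hσ =>
          hgS (mem_decompositionStabilizer.2 hσ)⟩
    intro x hx
    obtain ⟨y, hy, hyx⟩ := key ((hmem x).1 hx)
    have : y = x := (toEq _ F).injective hyx
    rwa [← this]

end

section
open H95.Bridge H95.SpBasic Module

theorem orth_max {F : Type*} [Field F] [Fintype F] (heven : ¬ Odd (Fintype.card F)) (h4 : 4 ≤ Fintype.card F) (Q : (Fin 2 ⊕ Fin 2 → F) → F) (hQ : Cfsg.Geo.IsNondegenerateQuadraticForm Q) (hpol : ∀ u v, QuadraticMap.polar Q u v = Cfsg.sympForm 2 F u v) : Cfsg.Geo.IsMaximalIn (Cfsg.spGL 2 F) (Cfsg.Geo.quadSimilarityGroup Q ⊓ Cfsg.spGL 2 F) := by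
  set B := spB 2 F with hBdef
  have hB : B.IsAlt := spB_isAlt 2 F
  have hndV : ∀ v, (∀ w, B v w = 0) → v = 0 := spB_nondeg 2 F
  have hV : finrank F (Fin 2 ⊕ Fin 2 → F) = 4 := by
    rw [finrank_fintype_fun_eq_card]; simp
  have hmem : ∀ g : GL (Fin 2 ⊕ Fin 2) F, g ∈ spGL 2 F ↔ toEq _ F g ∈ isom B := fun g => mem_spGL
  have hring : ringChar F = 2 := by
    rw [FiniteField.even_card_iff_char_two]
    rw [Nat.not_odd_iff_even, Nat.even_iff] at heven
    exact heven
  have hchar : CharP F 2 := hring ▸ ringChar.charP F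
  have hsq : ∀ a : F, IsSquare a := fun a => FiniteField.isSquare_of_char_two hring a
  have hIsQ : H95.SpOrthEven.IsQ B Q := by
    refine ⟨hQ.smul, fun x y => ?_⟩
    rw [hBdef, spB_apply, ← hpol, QuadraticMap.polar]
    ring
  have hsim : ∀ g : GL (Fin 2 ⊕ Fin 2) F, (∀ v, Q (toEq _ F g v) = Q v) →
      g ∈ Cfsg.Geo.quadSimilarityGroup Q := by
    intro g hg
    refine ⟨1, fun v => ?_⟩
    rw [← toEq_apply, hg, Units.val_one, one_mul]
  apply isMaximalIn_of
  · obtain ⟨g, hg, hgc⟩ := H95.S4.orth4_not hB hV hndV hsq (exists_l h4) hIsQ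
    refine ⟨(toEq _ F).symm g, ?_, ?_⟩
    · rw [hmem, MulEquiv.apply_symm_apply]; exact hg
    · rintro ⟨c, hc⟩
      apply hgc
      refine ⟨c, fun v => ?_⟩
      rw [← hc v, toEq_symm_mulVec]
  · intro M hHM hMK ⟨g, hg, hgS⟩
    refine le_of_map hmem (H95.S4.orth4 hB hV hndV hsq (exists_l h4) hIsQ ?_ ?_ ?_)
    · rintro _ ⟨x, hx, rfl⟩
      exact (hmem x).1 (hMK hx)
    · intro x hx hσ
      rw [mem_map_toEq]
      refine hHM ⟨?_, ?_⟩
      · exact hsim _ (by rw [MulEquiv.apply_symm_apply]; exact hσ)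
      · exact (hmem _).2 (by rw [MulEquiv.apply_symm_apply]; exact hx)
    · refine ⟨toEq _ F g, ⟨g, hg, rfl⟩, ?_⟩
      by_contra hcon
      push Not at hcon
      exact hgS (hsim g hcon)

end

section
open H95.Bridge H95.SpBasic Module H7.ExtF H7.ExtSp H7.ExtBr
open scoped Matrix MatrixGroups

theorem ext_max {F : Type*} [Field F] [Fintype F] (heven : ¬ Odd (Fintype.card F)) (h4 : 4 ≤ Fintype.card F) (K : Subalgebra F (Matrix (Fin 2 ⊕ Fin 2) (Fin 2 ⊕ Fin 2) F)) (hK : Cfsg.Geo.IsFieldSubalgebra 2 K) (hsa : Cfsg.Geo.IsSelfAdjointFor (Cfsg.sympForm 2 F) K) (halt : ∀ k ∈ K, ∀ v : (Fin 2 ⊕ Fin 2 → F), Cfsg.sympForm 2 F (Matrix.mulVec k v) v = 0) : Cfsg.Geo.IsMaximalIn (Cfsg.spGL 2 F) (Cfsg.Geo.subalgebraNormalizer K ⊓ Cfsg.spGL 2 F) := by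
  have hchar := char2 heven
  obtain ⟨B, hBdef⟩ : ∃ B, B = spB 2 F := ⟨_, rfl⟩
  have hB : B.IsAlt := by rw [hBdef]; exact spB_isAlt 2 F
  have hndV : ∀ v, (∀ w, B v w = 0) → v = 0 := by rw [hBdef]; exact spB_nondeg 2 F
  have hV : finrank F (Fin 2 ⊕ Fin 2 → F) = 4 := by
    rw [finrank_fintype_fun_eq_card]; simp
  have hmem : ∀ g : GL (Fin 2 ⊕ Fin 2) F, g ∈ spGL 2 F ↔ toEq _ F g ∈ isom B := fun g => by
    rw [hBdef]; exact mem_spGL
  have hform : sympForm 2 F = fun u v => B u v := by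
    funext u v
    rw [hBdef, spB_apply]
  rw [hform] at hsa halt
  obtain ⟨E, i1, i2, i3, i4, φ, h1, h2, h3, hEr⟩ := exists_model hK (by norm_num)
  have : FiniteDimensional F E := Module.finite_of_finrank_pos (by rw [hEr]; norm_num)
  have : FiniteDimensional E (Fin 2 ⊕ Fin 2 → F) := FiniteDimensional.right F E _
  have hfr := Module.finrank_mul_finrank F E (Fin 2 ⊕ Fin 2 → F)
  rw [hEr, hV] at hfr
  have hE2 : finrank E (Fin 2 ⊕ Fin 2 → F) = 2 := by omega
  obtain ⟨κ, l0, h⟩ := exists_SE (F := F) (K := E) (V := Fin 2 ⊕ Fin 2 → F) (B := B) hndV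
    (fun k x y => by rw [h1, h1]; exact hsa _ (h2 k) x y) (fun k x => by rw [h1]; exact halt _ (h2 k) x)
  have hsymm : ∀ x : (Fin 2 ⊕ Fin 2 → F) ≃ₗ[F] (Fin 2 ⊕ Fin 2 → F), toEq (Fin 2 ⊕ Fin 2) F ((toEq _ F).symm x) = x :=
    fun x => by rw [MulEquiv.apply_symm_apply]
  apply isMaximalIn_of
  · obtain ⟨z, hz⟩ : ∃ z : Fin 2 ⊕ Fin 2 → F, z ≠ 0 := ⟨fun _ => 1, fun h0 =>
      one_ne_zero (congrFun h0 (Sum.inl ⟨0, by omega⟩))⟩
    refine ⟨(toEq _ F).symm (tr B hB z 1), ?_, ?_⟩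
    · rw [hmem, hsymm]; exact tr_mem_isom _ _ _ _
    · apply tr_not_mem (F := F) h1 h2 h3 (by rw [hEr]) (by simp) hz (f := B.flip z)
      · intro h0
        apply hz
        apply hndV
        intro w
        have := congrArg (fun t => t w) h0
        have h5 : B w z = 0 := this
        rw [← LinearMap.BilinForm.IsAlt.neg_eq hB w z, h5, neg_zero]
      · intro v
        rw [hsymm, tr_apply, one_mul]
        rfl
  · intro M hHM hMK ⟨g, hg, hgS⟩
    have hMB : M.map (toEq (Fin 2 ⊕ Fin 2) F).toMonoidHom ≤ isom B := by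
      rintro _ ⟨x, hx, rfl⟩
      exact (hmem x).1 (hMK hx)
    refine le_of_map hmem (H95.S4.ext4 h hEr hE2 (exists_l h4) ?_ hMB ?_)
    · intro x hx
      rw [mem_map_toEq]
      refine hHM ⟨?_, ?_⟩
      · exact comm_mem_normalizer h1 h2 h3 (fun v e => by rw [hsymm]; exact hx.1 e v)
      · exact (hmem _).2 (by rw [hsymm]; exact h.HK_isom hx)
    · refine ⟨toEq _ F g, ⟨g, hg, rfl⟩, ?_⟩
      by_contra hcon
      push Not at hcon
      exact hgS (mem_normalizer h1 h2 h3 hE2.ge hcon)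

end

section
open H95.Bridge H95.SpBasic Module H95.S4
open H95.RatBridge (jmap form₀ form₀_apply mem_subfield jmap_smul span_jmap jmap_injective prime_ext)
open scoped Matrix

theorem rat_max {F : Type*} [Field F] [Fintype F] (heven : ¬ Odd (Fintype.card F)) (F₀ : Subfield F) (r : ℕ) (hr : r.Prime) (hcard : Fintype.card F = Nat.card F₀ ^ r) (P : Matrix.GeneralLinearGroup (Fin 2 ⊕ Fin 2) F) (ζ : F) (hζ : ζ ≠ 0) (hP : Cfsg.Geo.IsFormRationalStructure (Cfsg.sympForm 2 F) F₀ ζ P) : Cfsg.Geo.IsMaximalIn (Cfsg.spGL 2 F) (Cfsg.Geo.subfieldSubgroup F₀ P ⊓ Cfsg.spGL 2 F) := by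
  have hcard' : Nat.card F = Nat.card F₀ ^ r := by rw [Nat.card_eq_fintype_card]; exact hcard
  have hchar := char2 heven
  have hring : ringChar F = 2 := by
    rw [FiniteField.even_card_iff_char_two]
    rw [Nat.not_odd_iff_even, Nat.even_iff] at heven
    exact heven
  obtain ⟨η, hη⟩ : ∃ η : F, ζ = η * η := FiniteField.isSquare_of_char_two hring ζ
  have hη0 : η ≠ 0 := by rintro rfl; rw [mul_zero] at hη; exact hζ hη
  obtain ⟨B, hBdef⟩ : ∃ B, B = spB 2 F := ⟨_, rfl⟩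
  have hB : B.IsAlt := by rw [hBdef]; exact spB_isAlt 2 F
  have hndV : ∀ v, (∀ w, B v w = 0) → v = 0 := by rw [hBdef]; exact spB_nondeg 2 F
  have hV : finrank F (Fin 2 ⊕ Fin 2 → F) = 4 := by
    rw [finrank_fintype_fun_eq_card]; simp
  have hmem : ∀ g : GL (Fin 2 ⊕ Fin 2) F, g ∈ spGL 2 F ↔ toEq _ F g ∈ isom B := fun g => by
    rw [hBdef]; exact mem_spGL
  obtain ⟨j, hj⟩ : ∃ j : (Fin 2 ⊕ Fin 2 → F₀) → (Fin 2 ⊕ Fin 2 → F), j = fun u => η • jmap F₀ P u := ⟨_, rfl⟩
  have hja : ∀ u v, j (u + v) = j u + j v := fun u v => by rw [hj]; simp only [map_add, smul_add]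
  have hjs : ∀ (c : F₀) u, j (c • u) = (c : F) • j u := fun c u => by
    rw [hj]; simp only [jmap_smul]; rw [smul_comm]
  have hrat : ∀ u v, B (j u) (j v) ∈ F₀ := by
    intro u v
    have h1 : B (j u) (j v) = ζ * sympForm 2 F (jmap F₀ P u) (jmap F₀ P v) := by
      rw [hj, ← spB_apply, ← hBdef]
      simp only [map_smul, LinearMap.smul_apply, smul_eq_mul]
      rw [hη]; ring
    rw [h1, H95.RatBridge.jmap_apply, H95.RatBridge.jmap_apply]
    exact hP (fun i => (u i : F)) (fun i => (v i : F)) (fun i => (u i).2) (fun i => (v i).2)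
  obtain ⟨f0, hf0⟩ : ∃ f0 : LinearMap.BilinForm F₀ (Fin 2 ⊕ Fin 2 → F₀),
      ∀ u v, ((f0 u v : F₀) : F) = B (j u) (j v) := by
    refine ⟨LinearMap.mk₂ F₀ (fun u v => ⟨B (j u) (j v), hrat u v⟩) ?_ ?_ ?_ ?_, fun u v => rfl⟩
    · intro a b c
      apply Subtype.ext
      show B (j (a + b)) (j c) = B (j a) (j c) + B (j b) (j c)
      rw [hja, map_add, LinearMap.add_apply]
    · intro a b c
      apply Subtype.ext
      show B (j (a • b)) (j c) = (a : F) * B (j b) (j c)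
      rw [hjs, map_smul, LinearMap.smul_apply, smul_eq_mul]
    · intro a b c
      apply Subtype.ext
      show B (j a) (j (b + c)) = B (j a) (j b) + B (j a) (j c)
      rw [hja, map_add]
    · intro a b c
      apply Subtype.ext
      show B (j b) (j (a • c)) = (a : F) * B (j b) (j c)
      rw [hjs, map_smul, smul_eq_mul]
  have hspan : ∀ x, (∀ u, B x (j u) = 0) → x = 0 := by
    intro x hx
    apply hndV
    intro v
    have hv := span_jmap F₀ P v
    induction hv using Submodule.span_induction with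
    | mem y hy =>
      obtain ⟨u, rfl⟩ := hy
      have h1 := hx u
      rw [hj] at h1
      simp only [map_smul, smul_eq_mul] at h1
      exact (mul_eq_zero.1 h1).resolve_left hη0
    | zero => exact map_zero _
    | add a b _ _ ha hb => rw [map_add, ha, hb, add_zero]
    | smul c a _ ha => rw [map_smul, ha, smul_zero]
  have hjinj : ∀ u, j u = 0 → u = 0 := by
    intro u hu
    rw [hj] at hu
    exact jmap_injective F₀ P ((smul_eq_zero.1 hu).resolve_left hη0)
  have f0alt : f0.IsAlt := fun u => Subtype.ext (by rw [hf0]; exact hB _)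
  have f0nd : ∀ u, (∀ v, f0 u v = 0) → u = 0 := by
    intro u hu
    apply hjinj
    apply hspan
    intro v
    rw [← hf0, hu]; rfl
  have hchar0 : CharP F₀ 2 := by
    refine (CharP.charP_iff_prime_eq_zero Nat.prime_two).2 ?_
    apply Subtype.ext
    exact (map_natCast F₀.subtype 2).trans (CharP.cast_eq_zero F 2)
  have hV0 : finrank F₀ (Fin 2 ⊕ Fin 2 → F₀) = 4 := by
    rw [finrank_fintype_fun_eq_card]; simp
  have R : Rat B F₀ (fun v => ∃ u, v = j u) := by
    refine ⟨?_, ?_, ?_, ?_, ?_⟩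
    · rintro _ _ ⟨u, rfl⟩ ⟨v, rfl⟩
      exact ⟨u + v, (hja u v).symm⟩
    · rintro c hc _ ⟨u, rfl⟩
      exact ⟨(⟨c, hc⟩ : F₀) • u, (hjs ⟨c, hc⟩ u).symm⟩
    · rintro _ _ ⟨u, rfl⟩ ⟨v, rfl⟩
      rw [← hf0]; exact (f0 u v).2
    · intro x hx
      let ℓ : (Fin 2 ⊕ Fin 2 → F₀) →ₗ[F₀] F₀ :=
        { toFun := fun u => ⟨B x (j u), hx _ ⟨u, rfl⟩⟩
          map_add' := fun u v => Subtype.ext (by
            show B x (j (u + v)) = B x (j u) + B x (j v)
            rw [hja, map_add])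
          map_smul' := fun c u => Subtype.ext (by
            show B x (j (c • u)) = (c : F) * B x (j u)
            rw [hjs, map_smul, smul_eq_mul]) }
      obtain ⟨w, hw⟩ := H95.SpSing.surj_dual f0nd ℓ
      refine ⟨w, ?_⟩
      rw [← sub_eq_zero]
      apply hspan
      intro u
      have h1 : B (j w) (j u) = B x (j u) := by
        rw [← hf0, hw]; rfl
      rw [map_sub, LinearMap.sub_apply, h1, sub_self]
    · -- a frame
      obtain ⟨x, y, hxy⟩ : ∃ x y, f0 x y = 1 := by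
        obtain ⟨x, hx⟩ : ∃ x : Fin 2 ⊕ Fin 2 → F₀, x ≠ 0 := ⟨fun _ => 1, fun h0 =>
          one_ne_zero (congrFun h0 (Sum.inl ⟨0, by omega⟩))⟩
        obtain ⟨y, hy⟩ : ∃ y, f0 x y ≠ 0 := by
          by_contra hcon
          push Not at hcon
          exact hx (f0nd x hcon)
        exact ⟨x, (f0 x y)⁻¹ • y, by rw [map_smul, smul_eq_mul, inv_mul_cancel₀ hy]⟩
      obtain ⟨a, b, f⟩ := exists_fr f0alt hV0 f0nd hxy
      refine ⟨j x, j y, j a, j b, ⟨x, rfl⟩, ⟨y, rfl⟩, ⟨a, rfl⟩, ⟨b, rfl⟩, ?_⟩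
      refine ⟨?_, ?_, ?_, ?_, ?_, ?_⟩
      · rw [← hf0, f.xy]; rfl
      · rw [← hf0, f.uw]; rfl
      · rw [← hf0, f.xu]; rfl
      · rw [← hf0, f.xw]; rfl
      · rw [← hf0, f.yu]; rfl
      · rw [← hf0, f.yw]; rfl
  have hsub : ∀ g : (Fin 2 ⊕ Fin 2 → F) ≃ₗ[F] (Fin 2 ⊕ Fin 2 → F), (∀ v, (∃ u, v = j u) → ∃ u, g v = j u) →
      (toEq _ F).symm g ∈ Cfsg.Geo.subfieldSubgroup F₀ P := by
    intro g hg
    rw [mem_subfield, MulEquiv.apply_symm_apply]
    refine ⟨1, one_ne_zero, fun x => ?_⟩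
    obtain ⟨y, hy⟩ := hg _ ⟨x, rfl⟩
    refine ⟨y, ?_⟩
    rw [hj] at hy
    simp only [map_smul] at hy
    rw [one_smul]
    exact smul_right_injective _ hη0 hy
  apply isMaximalIn_of
  · -- a coefficient outside F₀
    have hex : ∃ c : F, ∀ k : F₀, algebraMap F₀ F k ≠ c := by
      by_contra hcon
      push Not at hcon
      have hsurj : Function.Surjective (algebraMap F₀ F) := hcon
      have h1 : Nat.card F ≤ Nat.card F₀ := Nat.card_le_card_of_surjective _ hsurj
      have h2 : 1 < Nat.card F₀ := Finite.one_lt_card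
      rw [hcard'] at h1
      have h3 : Nat.card F₀ ^ 1 < Nat.card F₀ ^ r := Nat.pow_lt_pow_right h2 hr.one_lt
      rw [pow_one] at h3
      omega
    obtain ⟨c, hc⟩ := hex
    have hc0 : c ∉ F₀ := fun h1 => hc ⟨c, h1⟩ rfl
    obtain ⟨x, y, u, w, hx, hy, hu, hw, f⟩ := R.frame
    refine ⟨(toEq _ F).symm (tr B hB x c), ?_, ?_⟩
    · rw [hmem, MulEquiv.apply_symm_apply]; exact tr_mem_isom _ _ _ _
    · rw [mem_subfield, MulEquiv.apply_symm_apply]
      rintro ⟨l, hl, hl'⟩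
      have hl2 : ∀ v, (∃ u, v = j u) → ∃ v', (∃ u, v' = j u) ∧ tr B hB x c v = l • v' := by
        rintro _ ⟨u, rfl⟩
        obtain ⟨y, hy⟩ := hl' u
        refine ⟨j y, ⟨y, rfl⟩, ?_⟩
        rw [hj]
        simp only [map_smul]
        rw [hy, smul_comm]
      obtain ⟨x', hx', hxx⟩ := hl2 x hx
      obtain ⟨y', hy', hyy⟩ := hl2 y hy
      rw [tr_apply, hB x, mul_zero, zero_smul, add_zero] at hxx
      rw [tr_apply, f.yx hB, mul_one] at hyy
      have e1 : l⁻¹ ∈ F₀ := by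
        have h1 := R.form _ _ hx' hy
        have h2 : x' = l⁻¹ • x := by
          conv_rhs => rw [hxx]
          rw [smul_smul, inv_mul_cancel₀ hl, one_smul]
        rwa [h2, map_smul, LinearMap.smul_apply, f.xy, smul_eq_mul, mul_one] at h1
      have e2 : l ∈ F₀ := by rw [← inv_inv l]; exact F₀.inv_mem e1
      have e3 := R.form _ _ (R.smul l e2 _ hy') hy
      rw [← hyy, map_add, LinearMap.add_apply, hB y, zero_add, map_smul, LinearMap.smul_apply, f.xy, smul_eq_mul,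
        mul_one] at e3
      exact hc0 e3
  · intro M hHM hMK ⟨g, hg, hgS⟩
    have hMi : M.map (toEq _ F).toMonoidHom ≤ isom B := by
      rintro _ ⟨x, hx, rfl⟩
      exact (hmem x).1 (hMK hx)
    have hS : Sit B F₀ (fun v => ∃ u, v = j u) (M.map (toEq _ F).toMonoidHom) := by
      refine ⟨hB, hV, hndV, R, hMi, ?_⟩
      intro x hx hxR
      rw [mem_map_toEq]
      exact hHM (Subgroup.mem_inf.2 ⟨hsub x hxR, (hmem _).2 (by rw [MulEquiv.apply_symm_apply]; exact hx)⟩)
    have hst : ∀ U : AddSubgroup F, (∀ a ∈ F₀, ∀ u ∈ U, a * u ∈ U) →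
      (∃ α : F, α ∉ F₀ ∧ ∀ u ∈ U, α * u ∈ U) → (∃ u ∈ U, u ≠ 0) → U = ⊤ := by
      intro U hU1 hU2 hU3
      obtain ⟨α, hα, hαU⟩ := hU2
      obtain ⟨u0, hu0, hu0'⟩ := hU3
      let Y : Subring F :=
        { carrier := {a | ∀ u ∈ U, a * u ∈ U}
          mul_mem' := fun {a b} ha hb u hu => by rw [mul_assoc]; exact ha _ (hb _ hu)
          one_mem' := fun u hu => by rw [one_mul]; exact hu
          add_mem' := fun {a b} ha hb u hu => by rw [add_mul]; exact U.add_mem (ha _ hu) (hb _ hu)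
          zero_mem' := fun u hu => by rw [zero_mul]; exact U.zero_mem
          neg_mem' := fun {a} ha u hu => by rw [neg_mul]; exact U.neg_mem (ha _ hu) }
      rcases prime_ext hr hcard' Y (fun c u hu => hU1 _ c.2 u hu) with h1 | h1
      · obtain ⟨c, hc⟩ := h1 α hαU
        exact absurd (by rw [← hc]; exact c.2) hα
      · rw [eq_top_iff]
        intro a _
        have := h1 (a / u0) u0 hu0
        rwa [div_mul_cancel₀ _ hu0'] at this
    have hsq : ∀ s : F, s * s ∈ F₀ → s ∈ F₀ := by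
      intro s hs
      have hinj : Function.Injective (frobenius F₀ 2) := frobenius_inj F₀ 2
      obtain ⟨a, ha⟩ := Finite.surjective_of_injective hinj (⟨s * s, hs⟩ : F₀)
      rw [frobenius_def] at ha
      have h1 : (a : F) ^ 2 = s * s := by
        have := congrArg (Subtype.val) ha
        simpa using this
      have h2 : (a : F) = s := by
        have hinjF : Function.Injective (frobenius F 2) := frobenius_inj F 2
        apply hinjF
        rw [frobenius_def, frobenius_def, h1, pow_two]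
      rw [← h2]; exact a.2
    rcases rat4 hS hst hsq with h1 | h1
    · exact le_of_map hmem h1
    · exfalso
      apply hgS
      have := hsub (toEq _ F g) (h1 _ ⟨g, hg, rfl⟩)
      rwa [MulEquiv.symm_apply_apply] at this

end

end H95.S4All
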