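import Cfsg.Agent.Lib.H95.SpBasic

set_option autoImplicit false
set_option linter.unusedSectionVars false

/-!
Four-dimensional symplectic groups in characteristic two: Siegel elements.
-/

namespace H95.S4

open Module H95.SpBasic

variable {F V : Type*} [Field F] [CharP F 2] [AddCommGroup V] [Module F V]
variable {B : LinearMap.BilinForm F V}

lemma two0 : (2 : F) = 0 := CharTwo.two_eq_zero

lemma drop {x y z : V} (h : x = y + (2 : F) • z) : x = y := by rw [h, two0, zero_smul, add_zero]

lemma sym (hB : B.IsAlt) (x y : V) : B x y = B y x := by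
  have h := LinearMap.BilinForm.IsAlt.neg_eq hB x y
  rw [← h, CharTwo.neg_eq]

/-- the Siegel element -/
noncomputable def E (B : LinearMap.BilinForm F V) (hB : B.IsAlt) (x w : V) : V ≃ₗ[F] V :=
  tr B hB w 1 * tr B hB (w + x) 1 * tr B hB x 1

lemma E_apply (hB : B.IsAlt) {x w : V} (h : B x w = 0) (y : V) :
    E B hB x w y = y + B y x • w + B y w • x := by
  have h' : B w x = 0 := by rw [sym hB]; exact h
  show tr B hB w 1 (tr B hB (w + x) 1 (tr B hB x 1 y)) = _
  simp only [tr_apply, one_mul, map_add, LinearMap.add_apply, map_smul, LinearMap.smul_apply, smul_eq_mul, hB x, hB w,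
    h, h', mul_zero, add_zero, zero_add]
  apply drop (F := F) (z := B y x • x + B y w • w)
  module

lemma E_isom (hB : B.IsAlt) (x w : V) : E B hB x w ∈ isom B :=
  (isom B).mul_mem ((isom B).mul_mem (tr_mem_isom _ _ _ _) (tr_mem_isom _ _ _ _)) (tr_mem_isom _ _ _ _)

lemma E_conj (hB : B.IsAlt) (x w : V) {g : V ≃ₗ[F] V} (hg : g ∈ isom B) :
    g * E B hB x w * g⁻¹ = E B hB (g x) (g w) := by
  rw [E, E, ← map_add, ← tr_conj B hB w 1 g hg, ← tr_conj B hB (w + x) 1 g hg, ← tr_conj B hB x 1 g hg]
  group

lemma E_mul (hB : B.IsAlt) {x w w' : V} (h : B x w = 0) (h' : B x w' = 0) :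
    E B hB x w * E B hB x w' = E B hB x (w + w') * tr B hB x (B w w') := by
  have h1 : B w x = 0 := by rw [sym hB]; exact h
  have h1' : B w' x = 0 := by rw [sym hB]; exact h'
  apply LinearEquiv.ext
  intro y
  show E B hB x w (E B hB x w' y) = E B hB x (w + w') (tr B hB x (B w w') y)
  rw [E_apply hB h, E_apply hB h', E_apply hB (by rw [map_add, h, h', add_zero]), tr_apply]
  simp only [map_add, LinearMap.add_apply, map_smul, LinearMap.smul_apply, smul_eq_mul, hB x, hB w, hB w',
    h, h', h1, h1', mul_zero, add_zero, zero_add, sym hB w' w]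
  module

lemma E_tr (hB : B.IsAlt) {x w : V} (h : B x w = 0) (c : F) :
    E B hB x w * tr B hB x c = tr B hB x c * E B hB x w := by
  have h1 : B w x = 0 := by rw [sym hB]; exact h
  apply LinearEquiv.ext
  intro y
  show E B hB x w (tr B hB x c y) = tr B hB x c (E B hB x w y)
  rw [E_apply hB h, E_apply hB h, tr_apply, tr_apply]
  simp only [map_add, LinearMap.add_apply, map_smul, LinearMap.smul_apply, smul_eq_mul, hB x,
    h, h1, mul_zero, add_zero]
  module

lemma E_sq (hB : B.IsAlt) {x w : V} (h : B x w = 0) : E B hB x w * E B hB x w = 1 := by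
  rw [E_mul hB h h, hB w, tr_zero, mul_one]
  apply LinearEquiv.ext
  intro y
  rw [E_apply hB (by rw [map_add, h, add_zero])]
  show _ = y
  apply drop (F := F) (z := B y x • w + B y w • x)
  rw [map_add]
  module

lemma E_add_smul (hB : B.IsAlt) {x w : V} (h : B x w = 0) (s : F) : E B hB x (w + s • x) = E B hB x w := by
  apply LinearEquiv.ext
  intro y
  rw [E_apply hB h, E_apply hB (by rw [map_add, map_smul, h, hB x, smul_zero, add_zero])]
  apply drop (F := F) (z := (s * B y x) • x)
  rw [map_add, map_smul, smul_eq_mul]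
  module

lemma E_swap (hB : B.IsAlt) {x w : V} (h : B x w = 0) (s : F) : E B hB w (s • x) = E B hB x (s • w) := by
  have h1 : B w x = 0 := by rw [sym hB]; exact h
  apply LinearEquiv.ext
  intro y
  rw [E_apply hB (by rw [map_smul, h1, smul_zero]), E_apply hB (by rw [map_smul, h, smul_zero])]
  rw [map_smul, map_smul, smul_eq_mul, smul_eq_mul]
  module

lemma tr_tr (hB : B.IsAlt) {x w : V} (h : B x w = 0) (s : F) :
    tr B hB w 1 * tr B hB (w + s • x) 1 = E B hB x (s • w) * tr B hB x (s * s) := by
  have h1 : B w x = 0 := by rw [sym hB]; exact h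
  apply LinearEquiv.ext
  intro y
  show tr B hB w 1 (tr B hB (w + s • x) 1 y) = E B hB x (s • w) (tr B hB x (s * s) y)
  rw [E_apply hB (by rw [map_smul, h, smul_zero]), tr_apply, tr_apply, tr_apply]
  simp only [map_add, LinearMap.add_apply, map_smul, LinearMap.smul_apply, smul_eq_mul, hB x, hB w,
    h, h1, mul_zero, add_zero, one_mul]
  apply drop (F := F) (z := B y w • w)
  module

lemma tr_sq (hB : B.IsAlt) (v : V) (c : F) : tr B hB v c * tr B hB v c = 1 := by
  rw [tr_mul, CharTwo.add_self_eq_zero, tr_zero]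

lemma fix_conj {g h : V ≃ₗ[F] V} {x : V} (hx : g x = h x) : (h⁻¹ * g) x = x := by
  show h⁻¹ (g x) = x
  rw [hx]
  exact h.symm_apply_apply x

end H95.S4
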