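import Cfsg.Agent.Lib.H95.S4Base

set_option autoImplicit false
set_option linter.unusedSectionVars false

/-!
Four-dimensional symplectic groups in characteristic two: frames and overgroups of subfield groups.
-/

namespace H95.S4

open Module H95.SpBasic

variable {F V : Type*} [Field F] [CharP F 2] [AddCommGroup V] [Module F V]
variable {B : LinearMap.BilinForm F V}

/-- a symplectic basis -/
structure Fr (B : LinearMap.BilinForm F V) (x y u w : V) : Prop where
  xy : B x y = 1
  uw : B u w = 1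
  xu : B x u = 0
  xw : B x w = 0
  yu : B y u = 0
  yw : B y w = 0

namespace Fr

variable {x y u w : V}

lemma swap (f : Fr B x y u w) (hB : B.IsAlt) : Fr B u w x y :=
  ⟨f.uw, f.xy, by rw [sym hB, f.xu], by rw [sym hB, f.yu], by rw [sym hB, f.xw], by rw [sym hB, f.yw]⟩

lemma flip1 (f : Fr B x y u w) (hB : B.IsAlt) : Fr B y x u w :=
  ⟨by rw [sym hB, f.xy], f.uw, f.yu, f.yw, f.xu, f.xw⟩

lemma flip2 (f : Fr B x y u w) (hB : B.IsAlt) : Fr B x y w u :=
  ⟨f.xy, by rw [sym hB, f.uw], f.xw, f.xu, f.yw, f.yu⟩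

lemma yx (f : Fr B x y u w) (hB : B.IsAlt) : B y x = 1 := by rw [sym hB, f.xy]
lemma wu (f : Fr B x y u w) (hB : B.IsAlt) : B w u = 1 := by rw [sym hB, f.uw]
lemma ux (f : Fr B x y u w) (hB : B.IsAlt) : B u x = 0 := by rw [sym hB, f.xu]
lemma wx (f : Fr B x y u w) (hB : B.IsAlt) : B w x = 0 := by rw [sym hB, f.xw]
lemma uy (f : Fr B x y u w) (hB : B.IsAlt) : B u y = 0 := by rw [sym hB, f.yu]
lemma wy (f : Fr B x y u w) (hB : B.IsAlt) : B w y = 0 := by rw [sym hB, f.yw]

lemma x0 (f : Fr B x y u w) : x ≠ 0 := by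
  rintro rfl
  have := f.xy
  rw [map_zero, LinearMap.zero_apply] at this
  exact zero_ne_one this

lemma li (f : Fr B x y u w) (hB : B.IsAlt) : LinearIndependent F ![x, y, u, w] := by
  rw [Fintype.linearIndependent_iff]
  intro c hc
  rw [Fin.sum_univ_four] at hc
  simp only [Matrix.cons_val_zero, Matrix.cons_val_one, Matrix.cons_val] at hc
  have e0 := congrArg (fun z => B z y) hc
  have e1 := congrArg (fun z => B z x) hc
  have e2 := congrArg (fun z => B z w) hc
  have e3 := congrArg (fun z => B z u) hc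
  simp only [map_add, map_smul, LinearMap.add_apply, LinearMap.smul_apply, smul_eq_mul, hB x, hB y, hB u, hB w,
    f.xy, f.yx hB, f.uw, f.wu hB, f.xu, f.ux hB, f.xw, f.wx hB, f.yu, f.uy hB, f.yw, f.wy hB, map_zero,
    LinearMap.zero_apply, mul_zero, mul_one, add_zero, zero_add] at e0 e1 e2 e3
  intro i
  fin_cases i
  exacts [e0, e1, e2, e3]

variable [FiniteDimensional F V]

lemma ex (f : Fr B x y u w) (hB : B.IsAlt) (hV : finrank F V = 4) (hnd : ∀ v, (∀ w, B v w = 0) → v = 0) (v : V) :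
    v = B v y • x + B v x • y + B v w • u + B v u • w := by
  have hsp := (f.li hB).span_eq_top_of_card_eq_finrank (by rw [hV]; rfl)
  rw [← sub_eq_zero]
  apply hnd
  intro z
  have hz : z ∈ Submodule.span F (Set.range ![x, y, u, w]) := by rw [hsp]; exact Submodule.mem_top
  obtain ⟨c, rfl⟩ := (Submodule.mem_span_range_iff_exists_fun F).1 hz
  rw [Fin.sum_univ_four]
  simp only [Matrix.cons_val_zero, Matrix.cons_val_one, Matrix.cons_val]
  simp only [map_add, map_sub, map_smul, LinearMap.add_apply, LinearMap.sub_apply, LinearMap.smul_apply, smul_eq_mul,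
    hB x, hB y, hB u, hB w,
    f.xy, f.yx hB, f.uw, f.wu hB, f.xu, f.ux hB, f.xw, f.wx hB, f.yu, f.uy hB, f.yw, f.wy hB,
    mul_zero, mul_one, add_zero, zero_add]
  ring

/-- the map between two frames -/
lemma exists_map (f : Fr B x y u w) (hB : B.IsAlt) (hV : finrank F V = 4) (hnd : ∀ v, (∀ w, B v w = 0) → v = 0)
    {x' y' u' w' : V} (f' : Fr B x' y' u' w') :
    ∃ g ∈ isom B, g x = x' ∧ g y = y' ∧ g u = u' ∧ g w = w' ∧
      ∀ v, g v = B v y • x' + B v x • y' + B v w • u' + B v u • w' := by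
  let φ : V →ₗ[F] V :=
    { toFun := fun v => B v y • x' + B v x • y' + B v w • u' + B v u • w'
      map_add' := fun a b => by simp only [map_add, LinearMap.add_apply]; module
      map_smul' := fun c a => by
        simp only [map_smul, LinearMap.smul_apply, smul_eq_mul, RingHom.id_apply]; module }
  have hφ : ∀ v, φ v = B v y • x' + B v x • y' + B v w • u' + B v u • w' := fun v => rfl
  have hiso : ∀ a b, B (φ a) (φ b) = B a b := by
    intro a b
    rw [hφ, hφ]
    conv_rhs => rw [f.ex hB hV hnd a, f.ex hB hV hnd b]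
    simp only [map_add, map_smul, LinearMap.add_apply, LinearMap.smul_apply, smul_eq_mul, hB x, hB y, hB u, hB w,
      f.xy, f.yx hB, f.uw, f.wu hB, f.xu, f.ux hB, f.xw, f.wx hB, f.yu, f.uy hB, f.yw, f.wy hB,
      hB x', hB y', hB u', hB w',
      f'.xy, f'.yx hB, f'.uw, f'.wu hB, f'.xu, f'.ux hB, f'.xw, f'.wx hB, f'.yu, f'.uy hB, f'.yw, f'.wy hB]
  have hinj : Function.Injective φ := by
    rw [injective_iff_map_eq_zero]
    intro a ha
    apply hnd
    intro b
    rw [← hiso, ha, map_zero, LinearMap.zero_apply]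
  refine ⟨LinearEquiv.ofInjectiveEndo φ hinj, hiso, ?_, ?_, ?_, ?_, hφ⟩
  · show φ x = x'
    rw [hφ, hB x, f.xy, f.xu, f.xw]; simp
  · show φ y = y'
    rw [hφ, hB y, f.yx hB, f.yu, f.yw]; simp
  · show φ u = u'
    rw [hφ, hB u, f.ux hB, f.uy hB, f.uw]; simp
  · show φ w = w'
    rw [hφ, hB w, f.wx hB, f.wy hB, f.wu hB]; simp

end Fr

/-- all transvections from those on a frame -/
lemma all_cen [FiniteDimensional F V] (hB : B.IsAlt) (hV : finrank F V = 4) (hnd : ∀ v, (∀ w, B v w = 0) → v = 0)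
    {M : Subgroup (V ≃ₗ[F] V)} {x y u w : V} (f : Fr B x y u w) (hx : Cen B hB M x) (hy : Cen B hB M y)
    (hu : Cen B hB M u) (hw : Cen B hB M w) (hxu : Cen B hB M (x + u)) : isom B ≤ M := by
  have plane : ∀ a b : V, B a b = 1 → Cen B hB M a → Cen B hB M b → ∀ s t : F, Cen B hB M (s • a + t • b) := by
    intro a b hab ha hb s t
    by_cases hs : s = 0
    · rw [hs, zero_smul, zero_add]; exact hb.smul t
    · have h1 := (ha.add hb (by rw [hab]; exact one_ne_zero) (s⁻¹ * t)).smul s
      rw [smul_add, smul_smul, mul_inv_cancel_left₀ hs] at h1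
      exact h1
  have tran : ∀ a b : V, B a b = 1 → Cen B hB M a → Cen B hB M b → ∀ s t : F, s • a + t • b ≠ 0 →
      ∃ g ∈ M, g ∈ isom B ∧ g a = s • a + t • b ∧ ∀ z, B z a = 0 → B z b = 0 → g z = z := by
    intro a b hab ha hb s t hst
    have ha0 : a ≠ 0 := by
      rintro rfl
      rw [map_zero, LinearMap.zero_apply] at hab
      exact zero_ne_one hab
    have hba : B b a = 1 := by rw [sym hB, hab]
    have hmem : ∀ v ∈ Submodule.span F ({a, b} : Set V), ∃ s t : F, v = s • a + t • b := by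
      intro v hv
      obtain ⟨s, t, h⟩ := Submodule.mem_span_pair.1 hv
      exact ⟨s, t, h.symm⟩
    obtain ⟨g, hg, hgi, h1, h2, h3⟩ := ext_of_tr_move B hB (Submodule.span F ({a, b} : Set V)) (by
      intro v hv h0
      obtain ⟨s, t, rfl⟩ := hmem v hv
      have e1 := h0 b (Submodule.mem_span_pair.2 ⟨0, 1, by module⟩)
      have e2 := h0 a (Submodule.mem_span_pair.2 ⟨1, 0, by module⟩)
      rw [map_add, map_smul, map_smul, LinearMap.add_apply, LinearMap.smul_apply, LinearMap.smul_apply, hab, hB b,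
        smul_eq_mul, smul_eq_mul, mul_one, mul_zero, add_zero] at e1
      rw [map_add, map_smul, map_smul, LinearMap.add_apply, LinearMap.smul_apply, LinearMap.smul_apply, hba, hB a,
        smul_eq_mul, smul_eq_mul, mul_one, mul_zero, zero_add] at e2
      rw [e1, e2]; module) M (by
      intro v hv
      obtain ⟨s, t, rfl⟩ := hmem v hv
      exact plane a b hab ha hb s t) (x := a) (y := s • a + t • b)
      (Submodule.mem_span_pair.2 ⟨1, 0, by module⟩) (Submodule.mem_span_pair.2 ⟨s, t, rfl⟩) ha0 hst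
    refine ⟨g, hg, hgi, h1, fun z za zb => h2 z ?_⟩
    intro v hv
    obtain ⟨s, t, rfl⟩ := hmem v hv
    rw [map_add, map_smul, map_smul, za, zb, smul_zero, smul_zero, add_zero]
  apply isom_le_of_tr B hB hnd
  intro v
  rw [f.ex hB hV hnd v, show B v y • x + B v x • y + B v w • u + B v u • w = (B v y • x + B v x • y) +
    (B v w • u + B v u • w) by abel]
  by_cases h1 : B v y • x + B v x • y = 0
  · rw [h1, zero_add]; exact plane u w f.uw hu hw _ _
  by_cases h2 : B v w • u + B v u • w = 0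
  · rw [h2, add_zero]; exact plane x y f.xy hx hy _ _
  obtain ⟨g1, a1, a2, a3, a4⟩ := tran x y f.xy hx hy _ _ h1
  obtain ⟨g2, b1, b2, b3, b4⟩ := tran u w f.uw hu hw _ _ h2
  have h3 := (hxu.map b1 b2).map a1 a2
  rw [map_add, b3, b4 x f.xu f.xw, map_add, a3, map_add, map_smul, map_smul, a4 u (f.ux hB) (f.uy hB),
    a4 w (f.wx hB) (f.wy hB)] at h3
  exact h3

end H95.S4
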