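import Cfsg.Agent.Lib.H95.S4Rat

set_option autoImplicit false
set_option linter.unusedSectionVars false

/-!
Four-dimensional symplectic groups in characteristic two: overgroups of subfield groups.
-/

namespace H95.S4

open Module H95.SpBasic

variable {F V : Type*} [Field F] [CharP F 2] [AddCommGroup V] [Module F V]
variable {B : LinearMap.BilinForm F V}

/-- a rational structure -/
structure Rat (B : LinearMap.BilinForm F V) (F₀ : Subfield F) (R : V → Prop) : Prop where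
  add : ∀ x y, R x → R y → R (x + y)
  smul : ∀ c ∈ F₀, ∀ x, R x → R (c • x)
  form : ∀ x y, R x → R y → B x y ∈ F₀
  dual : ∀ x, (∀ y, R y → B x y ∈ F₀) → R x
  frame : ∃ x y u w, R x ∧ R y ∧ R u ∧ R w ∧ Fr B x y u w

/-- the situation -/
structure Sit (B : LinearMap.BilinForm F V) (F₀ : Subfield F) (R : V → Prop) (H : Subgroup (V ≃ₗ[F] V)) : Prop where
  alt : B.IsAlt
  hV : finrank F V = 4
  nd : ∀ v, (∀ w, B v w = 0) → v = 0
  rat : Rat B F₀ R
  le : H ≤ isom B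
  ge : ∀ g ∈ isom B, (∀ v, R v → R (g v)) → g ∈ H

variable {F₀ : Subfield F} {R : V → Prop} {H : Subgroup (V ≃ₗ[F] V)}

namespace Sit

variable [FiniteDimensional F V]

lemma trR (h : Sit B F₀ R H) {z : V} (hz : R z) {c : F} (hc : c ∈ F₀) {v : V} (hv : R v) :
    R (tr B h.alt z c v) := by
  rw [tr_apply]
  exact h.rat.add _ _ hv (h.rat.smul _ (F₀.mul_mem hc (h.rat.form _ _ hv hz)) _ hz)

lemma trH (h : Sit B F₀ R H) {z : V} (hz : R z) {c : F} (hc : c ∈ F₀) : tr B h.alt z c ∈ H :=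
  h.ge _ (tr_mem_isom _ _ _ _) fun _ hv => h.trR hz hc hv

lemma EH (h : Sit B F₀ R H) {x z : V} (hx : R x) (hz : R z) : E B h.alt x z ∈ H :=
  H.mul_mem (H.mul_mem (h.trH hz F₀.one_mem) (h.trH (h.rat.add _ _ hz hx) F₀.one_mem)) (h.trH hx F₀.one_mem)

/-- frame maps belong to the group -/
lemma fmap (h : Sit B F₀ R H) {x y u w x' y' u' w' : V} (f : Fr B x y u w) (f' : Fr B x' y' u' w')
    (hx : R x) (hy : R y) (hu : R u) (hw : R w) (hx' : R x') (hy' : R y') (hu' : R u') (hw' : R w') :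
    ∃ g ∈ H, (∀ v, R v → R (g v)) ∧ g x = x' ∧ g y = y' ∧ g u = u' ∧ g w = w' := by
  obtain ⟨g, hg, h1, h2, h3, h4, h5⟩ := f.exists_map h.alt h.hV h.nd f'
  have hR : ∀ v, R v → R (g v) := by
    intro v hv
    rw [h5]
    exact h.rat.add _ _ (h.rat.add _ _ (h.rat.add _ _ (h.rat.smul _ (h.rat.form _ _ hv hy) _ hx')
      (h.rat.smul _ (h.rat.form _ _ hv hx) _ hy')) (h.rat.smul _ (h.rat.form _ _ hv hw) _ hu'))
      (h.rat.smul _ (h.rat.form _ _ hv hu) _ hw')
  exact ⟨g, h.ge g hg hR, hR, h1, h2, h3, h4⟩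

/-- every rational vector lies in a frame -/
lemma exists_frame (h : Sit B F₀ R H) {x : V} (hx : R x) (hx0 : x ≠ 0) :
    ∃ y u w, R y ∧ R u ∧ R w ∧ Fr B x y u w := by
  have hB := h.alt
  obtain ⟨e1, f1, e2, f2, r1, r2, r3, r4, f⟩ := h.rat.frame
  -- moving a vector with non-zero product
  have key : ∀ a b : V, R a → R b → B a b ≠ 0 → (∃ y u w, R y ∧ R u ∧ R w ∧ Fr B a y u w) →
      ∃ y u w, R y ∧ R u ∧ R w ∧ Fr B b y u w := by
    rintro a b ha hb hab ⟨y, u, w, hy, hu, hw, f⟩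
    have hc : (B a b)⁻¹ ∈ F₀ := F₀.inv_mem (h.rat.form _ _ ha hb)
    have hz : R (b - a) := by
      rw [sub_eq_add_neg, ← neg_one_smul F a]
      exact h.rat.add _ _ hb (h.rat.smul _ (F₀.neg_mem F₀.one_mem) _ ha)
    obtain ⟨g, hg⟩ : ∃ g, g = tr B hB (b - a) (B a b)⁻¹ := ⟨_, rfl⟩
    have hgi : g ∈ isom B := by rw [hg]; exact tr_mem_isom _ _ _ _
    have hga : g a = b := by rw [hg]; exact tr_move B hB a b hab
    have hgR : ∀ v, R v → R (g v) := fun v hv => by rw [hg]; exact h.trR hz hc hv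
    refine ⟨g y, g u, g w, hgR _ hy, hgR _ hu, hgR _ hw, ?_⟩
    rw [← hga]
    exact ⟨by rw [hgi, f.xy], by rw [hgi, f.uw], by rw [hgi, f.xu], by rw [hgi, f.xw], by rw [hgi, f.yu],
      by rw [hgi, f.yw]⟩
  have h0 : ∃ y u w, R y ∧ R u ∧ R w ∧ Fr B e1 y u w := ⟨f1, e2, f2, r2, r3, r4, f⟩
  by_cases h1 : B e1 x = 0
  · obtain ⟨z, hz, hz1, hz2⟩ : ∃ z, R z ∧ B e1 z ≠ 0 ∧ B z x ≠ 0 := by
      by_cases h2 : B f1 x = 0
      · by_cases h3 : B e2 x = 0
        · have h4 : B f2 x ≠ 0 := by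
            intro h4
            apply hx0
            rw [f.ex hB h.hV h.nd x, sym hB x f1, sym hB x e1, sym hB x f2, sym hB x e2, h1, h2, h3, h4]
            simp
          exact ⟨f1 + f2, h.rat.add _ _ r2 r4, by rw [map_add, f.xy, f.xw, add_zero]; exact one_ne_zero,
            by rw [map_add, LinearMap.add_apply, h2, zero_add]; exact h4⟩
        · exact ⟨f1 + e2, h.rat.add _ _ r2 r3, by rw [map_add, f.xy, f.xu, add_zero]; exact one_ne_zero,
            by rw [map_add, LinearMap.add_apply, h2, zero_add]; exact h3⟩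
      · exact ⟨f1, r2, by rw [f.xy]; exact one_ne_zero, h2⟩
    exact key z x hz hx hz2 (key e1 z r1 hz hz1 h0)
  · exact key e1 x r1 hx h1 h0

/-- the module of Siegel elements -/
lemma modU (h : Sit B F₀ R H) (hst : ∀ U : AddSubgroup F, (∀ a ∈ F₀, ∀ u ∈ U, a * u ∈ U) →
      (∃ α : F, α ∉ F₀ ∧ ∀ u ∈ U, α * u ∈ U) → (∃ u ∈ U, u ≠ 0) → U = ⊤)
    {x y u w : V} (f : Fr B x y u w) (hx : R x) (hu : R u) (hw : R w) {g : V ≃ₗ[F] V} (hg : g ∈ H)
    (hgx : g x = x) (hnr : B (g u) u ∉ F₀ ∨ B (g u) w ∉ F₀ ∨ B (g w) u ∉ F₀ ∨ B (g w) w ∉ F₀) (l : F) :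
    ∃ c, E B h.alt x (l • u) * tr B h.alt x c ∈ H := by
  have hB := h.alt
  obtain ⟨A, hA⟩ : ∃ A : V → Prop, A = fun z => B x z = 0 ∧ ∃ c, E B h.alt x z * tr B h.alt x c ∈ H := ⟨_, rfl⟩
  have hA' : ∀ z, A z ↔ B x z = 0 ∧ ∃ c, E B h.alt x z * tr B h.alt x c ∈ H := fun z => by rw [hA]
  have Aadd : ∀ a b, A a → A b → A (a + b) := by
    intro a b ha hb
    rw [hA'] at ha hb ⊢
    obtain ⟨a1, c, ha⟩ := ha
    obtain ⟨b1, d, hb⟩ := hb
    refine ⟨by rw [map_add, a1, b1, add_zero], B a b + (c + d), ?_⟩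
    have h1 := H.mul_mem ha hb
    have h2 : E B h.alt x a * tr B h.alt x c * (E B h.alt x b * tr B h.alt x d) =
        E B h.alt x (a + b) * tr B h.alt x (B a b + (c + d)) := by
      rw [← tr_mul, ← tr_mul, ← mul_assoc (E B h.alt x (a + b)), ← E_mul h.alt a1 b1]
      rw [mul_assoc, ← mul_assoc (tr B h.alt x c), ← E_tr h.alt b1, mul_assoc, mul_assoc]
    rwa [h2] at h1
  have Ainv : ∀ k ∈ H, k x = x → ∀ a, A a → A (k a) := by
    intro k hk hkx a ha
    rw [hA'] at ha ⊢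
    obtain ⟨a1, c, ha⟩ := ha
    have hki := h.le hk
    refine ⟨by rw [← hkx, hki, a1], c, ?_⟩
    have h1 := H.mul_mem (H.mul_mem hk ha) (H.inv_mem hk)
    have h2 : k * (E B h.alt x a * tr B h.alt x c) * k⁻¹ = (k * E B h.alt x a * k⁻¹) * (k * tr B h.alt x c * k⁻¹) := by
      group
    rwa [h2, E_conj h.alt _ _ hki, tr_conj B h.alt _ _ _ hki, hkx] at h1
  have trx : ∀ z c, B x z = 0 → tr B h.alt z c x = x := by
    intro z c hz
    rw [tr_apply, hz, mul_zero, zero_smul, add_zero]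
  -- transvections give more elements
  have Atr : ∀ z c, R z → c ∈ F₀ → B x z = 0 → ∀ a, A a → A ((c * B a z) • z) := by
    intro z c hz hc hxz a ha
    have h1 := Aadd _ _ ha (Ainv _ (h.trH hz hc) (trx z c hxz) a ha)
    rw [tr_apply] at h1
    have h2 : a + (a + (c * B a z) • z) = (c * B a z) • z := by
      apply drop (F := F) (z := a)
      module
    rwa [h2] at h1
  have Au : ∀ s : F, A (s • u) ↔ A (s • w) := by
    intro s
    constructor
    · intro ha
      have := Atr w 1 hw F₀.one_mem f.xw _ ha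
      rwa [one_mul, map_smul, LinearMap.smul_apply, f.uw, smul_eq_mul, mul_one] at this
    · intro ha
      have := Atr u 1 hu F₀.one_mem f.xu _ ha
      rwa [one_mul, map_smul, LinearMap.smul_apply, f.wu hB, smul_eq_mul, mul_one] at this
  have Aw : ∀ a, A a → A (B a w • u) ∧ A (B a u • u) := by
    intro a ha
    constructor
    · rw [Au]
      have := Atr w 1 hw F₀.one_mem f.xw _ ha
      rwa [one_mul] at this
    · have := Atr u 1 hu F₀.one_mem f.xu _ ha
      rwa [one_mul] at this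
  let U : AddSubgroup F :=
    { carrier := {s | A (s • u)}
      zero_mem' := by
        show A ((0 : F) • u)
        rw [zero_smul, hA']
        refine ⟨map_zero _, 0, ?_⟩
        rw [tr_zero, mul_one]
        have : E B h.alt x 0 = 1 := by
          apply LinearEquiv.ext
          intro v
          rw [E_apply h.alt (map_zero _)]
          show _ = v
          simp
        rw [this]; exact H.one_mem
      add_mem' := fun {a b} ha hb => by
        show A ((a + b) • u)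
        rw [add_smul]; exact Aadd _ _ ha hb
      neg_mem' := fun {a} ha => by
        show A ((-a) • u)
        rw [CharTwo.neg_eq]; exact ha }
  have hU : ∀ s, s ∈ U ↔ A (s • u) := fun s => Iff.rfl
  have h1 : ∀ a ∈ F₀, ∀ s ∈ U, a * s ∈ U := by
    intro a ha s hs
    rw [hU] at hs ⊢
    rw [Au] at hs
    have := Atr u a hu ha f.xu _ hs
    rwa [map_smul, LinearMap.smul_apply, f.wu hB, smul_eq_mul, mul_one] at this
  have h2 : ∃ α : F, α ∉ F₀ ∧ ∀ s ∈ U, α * s ∈ U := by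
    have gu : ∀ s ∈ U, A (s • g u) := fun s hs => by
      rw [← map_smul]; exact Ainv g hg hgx _ hs
    have gw : ∀ s ∈ U, A (s • g w) := fun s hs => by
      rw [← map_smul]; exact Ainv g hg hgx _ ((Au s).1 hs)
    rcases hnr with h3 | h3 | h3 | h3
    · refine ⟨_, h3, fun s hs => ?_⟩
      have := (Aw _ (gu s hs)).2
      rw [map_smul, LinearMap.smul_apply, smul_eq_mul, mul_comm] at this
      exact this
    · refine ⟨_, h3, fun s hs => ?_⟩
      have := (Aw _ (gu s hs)).1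
      rw [map_smul, LinearMap.smul_apply, smul_eq_mul, mul_comm] at this
      exact this
    · refine ⟨_, h3, fun s hs => ?_⟩
      have := (Aw _ (gw s hs)).2
      rw [map_smul, LinearMap.smul_apply, smul_eq_mul, mul_comm] at this
      exact this
    · refine ⟨_, h3, fun s hs => ?_⟩
      have := (Aw _ (gw s hs)).1
      rw [map_smul, LinearMap.smul_apply, smul_eq_mul, mul_comm] at this
      exact this
  have h3 : ∃ s ∈ U, s ≠ 0 := by
    refine ⟨1, ?_, one_ne_zero⟩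
    rw [hU, one_smul, hA']
    exact ⟨f.xu, 0, by rw [tr_zero, mul_one]; exact h.EH hx hu⟩
  have h4 := hst U h1 h2 h3
  have h5 : l ∈ U := by rw [h4]; exact AddSubgroup.mem_top l
  exact ((hA' _).1 h5).2

/-- the first step -/
theorem step1 (h : Sit B F₀ R H) [Finite F] (hst : ∀ U : AddSubgroup F, (∀ a ∈ F₀, ∀ u ∈ U, a * u ∈ U) →
      (∃ α : F, α ∉ F₀ ∧ ∀ u ∈ U, α * u ∈ U) → (∃ u ∈ U, u ≠ 0) → U = ⊤)
    {x y u w : V} (f : Fr B x y u w) (hx : R x) (hy : R y) (hu : R u) (hw : R w) {g : V ≃ₗ[F] V} (hg : g ∈ H)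
    (hgx : g x = x) (hnr : B (g u) u ∉ F₀ ∨ B (g u) w ∉ F₀ ∨ B (g w) u ∉ F₀ ∨ B (g w) w ∉ F₀) :
    isom B ≤ H := by
  have hB := h.alt
  have key : ∀ x' y' u' w' : V, Fr B x' y' u' w' → R x' → R y' → R u' → R w' → ∀ l : F,
      ∃ c, E B h.alt x' (l • u') * tr B h.alt x' c ∈ H := by
    intro x' y' u' w' f' hx' hy' hu' hw' l
    obtain ⟨k, hk, -, k1, k2, k3, k4⟩ := h.fmap f f' hx hy hu hw hx' hy' hu' hw'
    have hki := h.le hk
    have i1 : k⁻¹ x' = x := by rw [← k1]; exact k.symm_apply_apply x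
    have i3 : k⁻¹ u' = u := by rw [← k3]; exact k.symm_apply_apply u
    have i4 : k⁻¹ w' = w := by rw [← k4]; exact k.symm_apply_apply w
    refine h.modU hst f' hx' hu' hw' (g := k * g * k⁻¹) (H.mul_mem (H.mul_mem hk hg) (H.inv_mem hk)) ?_ ?_ l
    · show k (g (k⁻¹ x')) = x'
      rw [i1, hgx, k1]
    · show B (k (g (k⁻¹ u'))) u' ∉ F₀ ∨ B (k (g (k⁻¹ u'))) w' ∉ F₀ ∨ B (k (g (k⁻¹ w'))) u' ∉ F₀ ∨
        B (k (g (k⁻¹ w'))) w' ∉ F₀
      rw [i3, i4, ← k3, ← k4, hki, hki, hki, hki]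
      exact hnr
  have cen : ∀ x y u w : V, Fr B x y u w → R x → R y → R u → R w → Cen B h.alt H w := by
    intro x y u w f hx hy hu hw c
    by_cases hc : c = 0
    · rw [hc, tr_zero]; exact H.one_mem
    obtain ⟨ν, hν⟩ : ∃ ν : F, ν * ν = c := by
      have hinj : Function.Injective (frobenius F 2) := frobenius_inj F 2
      obtain ⟨a, ha⟩ := Finite.surjective_of_injective hinj c
      rw [frobenius_def] at ha
      exact ⟨a, by rw [← ha]; ring⟩
    have hν0 : ν ≠ 0 := by rintro rfl; rw [mul_zero] at hν; exact hc hν.symm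
    obtain ⟨c1, h1⟩ := key x y u w f hx hy hu hw ν⁻¹
    obtain ⟨c2, h2⟩ := key w u y x ⟨f.wu hB, f.yx hB, f.wy hB, f.wx hB, f.uy hB, f.ux hB⟩ hw hu hy hx ν
    have e1 : (E B h.alt x (ν⁻¹ • u) * tr B h.alt x c1) w = w + ν⁻¹ • x := by
      show E B h.alt x (ν⁻¹ • u) (tr B h.alt x c1 w) = _
      rw [tr_apply, f.wx hB, mul_zero, zero_smul, add_zero, E_apply h.alt (by rw [map_smul, f.xu, smul_zero]),
        f.wx hB, zero_smul, add_zero, map_smul, f.wu hB, smul_eq_mul, mul_one]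
    have e2 : (E B h.alt w (ν • y) * tr B h.alt w c2) x = x + ν • w := by
      show E B h.alt w (ν • y) (tr B h.alt w c2 x) = _
      rw [tr_apply, f.xw, mul_zero, zero_smul, add_zero, E_apply h.alt (by rw [map_smul, f.wy hB, smul_zero]),
        f.xw, zero_smul, add_zero, map_smul, f.xy, smul_eq_mul, mul_one]
    have h3 := H.mul_mem (H.mul_mem h2 (h.trH hx F₀.one_mem)) (H.inv_mem h2)
    rw [tr_conj B h.alt _ _ _ (h.le h2), e2] at h3
    have e3 : x + ν • w = ν • (w + ν⁻¹ • x) := by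
      rw [smul_add, smul_smul, mul_inv_cancel₀ hν0, one_smul, add_comm]
    rw [e3, tr_smul, one_mul] at h3
    have h4 := H.mul_mem (H.mul_mem (H.inv_mem h1) h3) (H.inv_mem (H.inv_mem h1))
    rw [tr_conj B h.alt _ _ _ (h.le (H.inv_mem h1)), ← e1] at h4
    have e4 : (E B h.alt x (ν⁻¹ • u) * tr B h.alt x c1)⁻¹ ((E B h.alt x (ν⁻¹ • u) * tr B h.alt x c1) w) = w :=
      LinearEquiv.symm_apply_apply _ w
    rw [e4, pow_two, hν] at h4
    exact h4
  have cen' : ∀ z, R z → z ≠ 0 → Cen B h.alt H z := by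
    intro z hz hz0
    obtain ⟨y, u, w, hy, hu, hw, f⟩ := h.exists_frame hz hz0
    exact cen u w y z ⟨f.uw, f.yx hB, f.uy hB, f.ux hB, f.wy hB, f.wx hB⟩ hu hw hy hz
  refine all_cen h.alt h.hV h.nd f (cen' x hx f.x0) (cen' y hy (f.flip1 hB).x0) (cen' u hu (f.swap hB).x0)
    (cen' w hw ((f.swap hB).flip1 hB).x0) (cen' _ (h.rat.add _ _ hx hu) ?_)
  intro h0
  have := congrArg (B y) h0
  rw [map_add, f.yx hB, f.yu, map_zero, add_zero] at this
  exact one_ne_zero this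

end Sit

end H95.S4
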