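import Mathlib
import Cfsg.Agent.Lib.H95.UPair

set_option autoImplicit false

/-!
Small dimension versions (orthogonal complement of dimension at least 5).
-/

namespace H95.UPairS

open Module H95.UBasic H95.UPar H95.UPair

variable {F V : Type*} [Field F] [AddCommGroup V] [Module F V] {σ : F →+* F}

lemma line_value {h : V →ₗ[F] V →ₛₗ[σ] F} (H : IsSkew h) {k : V} (hk : h k k ≠ 0) (z : V) {s : F}
    (hs : σ s = - s) : ∃ t : F, h (z + t • k) (z + t • k) = s := by
  set c := h z k * (h k k)⁻¹ with hc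
  have hcy : c * h k k = h z k := by rw [hc, mul_assoc, inv_mul_cancel₀ hk, mul_one]
  set x' := z - c • k with hx'
  have h1 : h x' k = 0 := by
    rw [hx']; simp only [map_sub, LinearMap.sub_apply, map_smul, LinearMap.smul_apply, smul_eq_mul]
    rw [hcy, sub_self]
  have h2 : h k x' = 0 := H.symm_zero h1
  obtain ⟨μ, hμ⟩ := H.norm ((s - h x' x') * (h k k)⁻¹) (by
    rw [map_mul, map_inv₀, map_sub, H.self, H.self, hs, inv_neg]; ring)
  refine ⟨μ - c, ?_⟩
  have h3 : z + (μ - c) • k = x' + μ • k := by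
    rw [hx', sub_smul]; abel
  rw [h3]
  simp only [map_add, LinearMap.add_apply, map_smul, LinearMap.smul_apply, smul_eq_mul,
    map_smulₛₗ, h1, h2]
  have h4 : μ * σ μ * h k k = s - h x' x' := by
    rw [hμ, mul_assoc, inv_mul_cancel₀ hk, mul_one]
  linear_combination h4

lemma exists_noniso [FiniteDimensional F V] {h : V →ₗ[F] V →ₛₗ[σ] F} (H : IsSkew h)
    {U : Submodule F V} (hU : ∀ v ∈ U, (∀ w ∈ U, h v w = 0) → v = 0)
    {X : Submodule F V} (hXU : X ≤ U) (hd : finrank F U < 2 * finrank F X) :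
    ∃ k ∈ X, h k k ≠ 0 := by
  by_contra hcon
  push Not at hcon
  have := ti_finrank_le H hU hXU (ti_of_iso H hcon)
  omega

lemma trans_indep [FiniteDimensional F V] {h : V →ₗ[F] V →ₛₗ[σ] F} (H : IsSkew h)
    {U : Submodule F V} (hU : ∀ v ∈ U, (∀ w ∈ U, h v w = 0) → v = 0) (hd : 5 ≤ finrank F U)
    {x y : V} (hx : x ∈ U) (hy : y ∈ U) (hli : LinearIndependent F ![x, y])
    (hxy : h x x = h y y) : ∃ g ∈ TU h U, g x = y := by
  set ν := h x x with hν
  have hσν : σ ν = - ν := H.self x
  obtain ⟨z0, hz0, hz1⟩ := exists_dual H hU (x := ![x, y]) (by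
    intro i; fin_cases i <;> simp [hx, hy]) hli ![ν - 1, ν + 1]
  have hz1x : h z0 x = ν - 1 := hz1 0
  have hz1y : h z0 y = ν + 1 := hz1 1
  have hge := finrank_perpF_ge h U ![x, y]
  obtain ⟨k0, hk0, hkk⟩ := exists_noniso H hU (X := perpF h U ![x, y]) (fun u hu => hu.1) (by
    rw [Fintype.card_fin] at hge; omega)
  obtain ⟨t, ht⟩ := line_value H hkk z0 (s := ν) hσν
  set k := t • k0 with hk
  have hkm : k ∈ perpF h U ![x, y] := Submodule.smul_mem _ _ hk0
  have hkx : h k x = 0 := hkm.2 0
  have hky : h k y = 0 := hkm.2 1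
  have hzU : z0 + k ∈ U := U.add_mem hz0 hkm.1
  have hzz : h (z0 + k) (z0 + k) = ν := ht
  have hzx : h (z0 + k) x = ν - 1 := by
    simp only [map_add, LinearMap.add_apply, hkx, hz1x]; ring
  have hzy : h (z0 + k) y = ν + 1 := by
    simp only [map_add, LinearMap.add_apply, hky, hz1y]; ring
  have hxz : h x (z0 + k) = ν + 1 := by
    rw [H.skew, hzx, map_sub, hσν, map_one]; ring
  obtain ⟨g1, hg1, hg1'⟩ := trans_step H hx hzU (by rw [hzz]) (by rw [hxz, ← hν]; simp)
    (by rw [hxz, ← hν]; simp)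
  obtain ⟨g2, hg2, hg2'⟩ := trans_step H hzU hy (by rw [hzz, hxy]) (by rw [hzy, hzz]; simp)
    (by rw [hzy, hzz]; simp)
  exact ⟨g2 * g1, (TU h U).mul_mem hg2 hg1, by show g2 (g1 x) = y; rw [hg1', hg2']⟩

/-- Transvections in a non-degenerate subspace of dimension at least 5 are transitive on
non-zero vectors of the same norm. -/
theorem trans_norm [FiniteDimensional F V] {h : V →ₗ[F] V →ₛₗ[σ] F} (H : IsSkew h)
    {U : Submodule F V} (hU : ∀ v ∈ U, (∀ w ∈ U, h v w = 0) → v = 0) (hd : 5 ≤ finrank F U)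
    {x y : V} (hx : x ∈ U) (hy : y ∈ U) (hx0 : x ≠ 0) (hy0 : y ≠ 0)
    (hxy : h x x = h y y) : ∃ g ∈ TU h U, g x = y := by
  by_cases hdep : ∀ a : F, y ≠ a • x
  · exact trans_indep H hU hd hx hy (pair_indep hx0 hdep) hxy
  · push Not at hdep
    obtain ⟨l, rfl⟩ := hdep
    have hl : l ≠ 0 := fun h0 => hy0 (by rw [h0, zero_smul])
    obtain ⟨x1, hx1, hx1'⟩ := exists_indep (U := U) (by omega) x
    have hli := pair_indep hx0 hx1'
    obtain ⟨y1, hy1, hy1'⟩ := exists_dual H hU (x := ![x, x1]) (by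
      intro i; fin_cases i <;> simp [hx, hx1]) hli ![0, 1]
    have hy1x : h y1 x = 0 := hy1' 0
    have hy1x1 : h y1 x1 = 1 := hy1' 1
    have hge := finrank_perpF_ge h U ![y1]
    obtain ⟨k0, hk0, hkk⟩ := exists_noniso H hU (X := perpF h U ![y1]) (fun u hu => hu.1) (by
      rw [Fintype.card_fin] at hge; omega)
    obtain ⟨t, ht⟩ := line_value H hkk x1 (s := h x x) (H.self x)
    set k := t • k0 with hk
    have hkm : k ∈ perpF h U ![y1] := Submodule.smul_mem _ _ hk0
    have hky : h k y1 = 0 := hkm.2 0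
    have hyk : h y1 k = 0 := H.symm_zero hky
    have hzU : x1 + k ∈ U := U.add_mem hx1 hkm.1
    have hzz : h (x1 + k) (x1 + k) = h x x := ht
    have hyz : h y1 (x1 + k) = 1 := by rw [map_add, hyk, hy1x1, add_zero]
    have hz : ∀ a : F, x1 + k ≠ a • x := by
      intro a ha
      rw [ha, map_smulₛₗ, hy1x, smul_zero] at hyz
      exact zero_ne_one hyz
    have hz' : ∀ a : F, x1 + k ≠ a • (l • x) := by
      intro a; rw [smul_smul]; exact hz _
    have hli2 := pair_indep hx0 hz
    have hli3 := pair_indep hy0 hz'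
    obtain ⟨g1, hg1, hg1'⟩ := trans_indep H hU hd hx hzU hli2 hzz.symm
    obtain ⟨g2, hg2, hg2'⟩ := trans_indep H hU hd hy hzU hli3 (by rw [hzz, hxy])
    refine ⟨g2⁻¹ * g1, (TU h U).mul_mem ((TU h U).inv_mem hg2) hg1, ?_⟩
    show g2⁻¹ (g1 x) = _
    rw [hg1', ← hg2']
    exact g2.symm_apply_apply _

variable [FiniteDimensional F V] {h : V →ₗ[F] V →ₛₗ[σ] F} {W W' : Submodule F V}

/-- A vector of `U` with prescribed norm and product with a given vector. -/
lemma exists_norm_prod (H : IsSkew h) {U : Submodule F V}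
    (hU : ∀ v ∈ U, (∀ w ∈ U, h v w = 0) → v = 0) (hd : 5 ≤ Module.finrank F U)
    {x : V} (hx : x ∈ U) (hx0 : x ≠ 0) (τ : F) {s : F} (hs : σ s = -s) :
    ∃ u ∈ U, h u x = τ ∧ h u u = s := by
  have hli : LinearIndependent F ![x] := by
    rw [linearIndependent_unique_iff]; simpa using hx0
  obtain ⟨u0, hu0, hu1⟩ := exists_dual H hU (x := ![x]) (by intro i; fin_cases i; simpa using hx)
    hli ![τ]
  have hu1x : h u0 x = τ := hu1 0
  have hge := finrank_perpF_ge h U ![x, u0]
  obtain ⟨k, hk, hk2⟩ := exists_value H hU (X := perpF h U ![x, u0]) (fun u hu => hu.1) (by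
    rw [Fintype.card_fin] at hge; omega) (s := s - h u0 u0) (by
      rw [map_sub, hs, H.self]; ring)
  have hkx : h k x = 0 := hk.2 0
  have hku : h k u0 = 0 := hk.2 1
  have huk : h u0 k = 0 := H.symm_zero hku
  refine ⟨u0 + k, U.add_mem hu0 hk.1, ?_, ?_⟩
  · simp only [map_add, LinearMap.add_apply, hkx, hu1x]; ring
  · simp only [map_add, LinearMap.add_apply, hku, huk, hk2]; ring

/-- Overgroups of the stabiliser of a non-degenerate subspace. -/
theorem overgroup (H : IsSkew h) (P : OPair h W W') (hd : 5 ≤ Module.finrank F W') (hdV7 : 7 ≤ Module.finrank F V)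
    (hlt : Module.finrank F W < Module.finrank F W')
    (M : Subgroup (V ≃ₗ[F] V)) (hMS : M ≤ SU h)
    (hMW : ∀ g ∈ SU h, (∀ x ∈ W, g x ∈ W) → g ∈ M) (hne : ∃ g ∈ M, ¬ ∀ x ∈ W, g x ∈ W) :
    SU h ≤ M := by
  have hMI : M ≤ isom h := hMS.trans (SU_le h)
  have P' := P.symm H
  have hnd := P.nd H
  have hnd' := P'.nd H
  -- isotropic vectors in W or W' are centres
  have hcW : ∀ z ∈ W, h z z = 0 → Cen h M z := by
    intro z hz hzz
    refine ⟨hzz, fun c hc => hMW _ (tr_mem_SU H hzz hc) fun x hx => ?_⟩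
    rw [rf_apply (tr_good hzz hc)]
    exact W.add_mem hx (W.smul_mem _ hz)
  have hcW' : ∀ z ∈ W', h z z = 0 → Cen h M z := by
    intro z hz hzz
    refine ⟨hzz, fun c hc => hMW _ (tr_mem_SU H hzz hc) fun x hx => ?_⟩
    rw [rf_apply (tr_good hzz hc), P.orth x hx z hz]; simpa using hx
  have hTM : TU h W' ≤ M := TU_le fun v hv h0 c hc => (hcW' v hv h0).2 c hc
  -- existence of a centre outside
  have hex : ∃ v, Cen h M v ∧ v ∉ W ∧ v ∉ W' := by
    by_contra hcon
    push Not at hcon
    obtain ⟨g, hg, hg'⟩ := hne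
    obtain ⟨v0, hv0, hv0', hv00⟩ := exists_iso H (U := W') (by omega)
    have hgc : ∀ z ∈ W', h z z = 0 → g z ∈ W ∨ g z ∈ W' := by
      intro z hz hzz
      by_cases h1 : g z ∈ W
      · exact Or.inl h1
      · exact Or.inr (hcon _ ((hcW' z hz hzz).map hg (hMI hg)) h1)
    have hg0 : ∀ z, z ≠ 0 → g z ≠ 0 := fun z hz h0 => hz (by simpa using h0)
    -- all in the same member
    by_cases hc : g v0 ∈ W
    · have hall : ∀ z ∈ W', h z z = 0 → g z ∈ W := by
        intro z hz hzz
        by_cases hz0 : z = 0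
        · rw [hz0, map_zero]; exact W.zero_mem
        obtain ⟨y, hy, hyy, hy1, hy2⟩ := iso_conn H hnd' hv0 hz hv0' hz0 hv00 hzz
        have h1 : g y ∈ W := by
          rcases hgc y hy hyy with h1 | h1
          · exact h1
          · exfalso; apply hy1; rw [← hMI hg]; exact P.orth _ hc _ h1
        rcases hgc z hz hzz with h2 | h2
        · exact h2
        · exfalso; apply hy2; rw [← hMI hg]; exact P'.orth _ h2 _ h1
      have hle : W' ≤ W.comap (g : V →ₗ[F] V) :=
        iso_span H hnd' hv0 hv0' hv00 (fun z hz hzz => hall z hz hzz)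
      have hle2 : W'.map (g : V →ₗ[F] V) ≤ W := Submodule.map_le_iff_le_comap.2 hle
      have h3 := Submodule.finrank_mono hle2
      rw [LinearEquiv.finrank_map_eq] at h3
      omega
    · have hc' : g v0 ∈ W' := (hgc v0 hv0 hv00).resolve_left hc
      have hall : ∀ z ∈ W', h z z = 0 → g z ∈ W' := by
        intro z hz hzz
        by_cases hz0 : z = 0
        · rw [hz0, map_zero]; exact W'.zero_mem
        obtain ⟨y, hy, hyy, hy1, hy2⟩ := iso_conn H hnd' hv0 hz hv0' hz0 hv00 hzz
        have h1 : g y ∈ W' := by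
          rcases hgc y hy hyy with h1 | h1
          · exfalso; apply hy1; rw [← hMI hg]; exact P'.orth _ hc' _ h1
          · exact h1
        rcases hgc z hz hzz with h2 | h2
        · exfalso; apply hy2; rw [← hMI hg]; exact P.orth _ h2 _ h1
        · exact h2
      have hle : W' ≤ W'.comap (g : V →ₗ[F] V) :=
        iso_span H hnd' hv0 hv0' hv00 (fun z hz hzz => hall z hz hzz)
      have hle2 : W'.map (g : V →ₗ[F] V) ≤ W' := Submodule.map_le_iff_le_comap.2 hle
      have heq : W'.map (g : V →ₗ[F] V) = W' :=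
        Submodule.eq_of_le_of_finrank_eq hle2 (LinearEquiv.finrank_map_eq g W')
      apply hg'
      intro x hx
      apply P.mem_of_orth H
      intro w hw
      rw [← heq] at hw
      obtain ⟨w1, hw1, rfl⟩ := hw
      rw [LinearEquiv.coe_coe, hMI hg]
      exact P.orth x hx w1 hw1
  obtain ⟨v, hv, hvW, hvW'⟩ := hex
  obtain ⟨a, ha, b, hb, rfl⟩ := P.sup v
  have hb0 : b ≠ 0 := by rintro rfl; exact hvW (by rwa [add_zero])
  have ha0 : a ≠ 0 := by rintro rfl; exact hvW' (by rwa [zero_add])
  -- norm of a sum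
  have hsum : ∀ w ∈ W, ∀ w' ∈ W', h (w + w') (w + w') = h w w + h w' w' := by
    intro w hw w' hw'
    simp only [map_add, LinearMap.add_apply, P.orth w hw w' hw', P'.orth w' hw' w hw]
    ring
  -- the set of good components
  let A : Submodule F V :=
    { carrier := {w | w ∈ W ∧ ∀ w' ∈ W', h w' w' = - h w w → Cen h M (w + w')}
      zero_mem' := by
        refine ⟨W.zero_mem, fun w' hw' h0 => ?_⟩
        rw [zero_add]
        exact hcW' w' hw' (by simpa using h0)
      smul_mem' := by
        rintro μ w ⟨hw, hwA⟩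
        refine ⟨W.smul_mem _ hw, fun w' hw' h0 => ?_⟩
        by_cases hμ : μ = 0
        · subst hμ
          rw [zero_smul, zero_add]
          exact hcW' w' hw' (by simpa using h0)
        · have hσμ : σ μ ≠ 0 := fun h1 => hμ (H.inj h1)
          have h1 := hwA (μ⁻¹ • w') (W'.smul_mem _ hw') (by
            simp only [map_smul, LinearMap.smul_apply, smul_eq_mul, map_smulₛₗ] at h0 ⊢
            rw [h0, map_inv₀]
            field_simp)
          have h2 := h1.smul H μ
          rwa [smul_add, smul_smul, mul_inv_cancel₀ hμ, one_smul] at h2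
      add_mem' := by
        rintro w1 w2 ⟨hw1, hA1⟩ ⟨hw2, hA2⟩
        refine ⟨W.add_mem hw1 hw2, fun w' hw' h0 => ?_⟩
        by_cases hw'0 : w' = 0
        · subst hw'0
          rw [add_zero]
          refine hcW _ (W.add_mem hw1 hw2) ?_
          rw [← neg_eq_zero, ← h0]; simp
        · -- choose τ
          obtain ⟨τ0, hτ0⟩ := exists_sub_conj H (s := h w2 w2 - h w1 w1 + h w' w') (by
            rw [map_add, map_sub, H.self, H.self, H.self]; ring)
          obtain ⟨τ, hτ, hτ'⟩ : ∃ τ : F, τ - σ τ = h w2 w2 - h w1 w1 + h w' w' ∧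
              τ + h w1 w1 + h w1 w2 ≠ 0 := by
            by_cases h1 : τ0 + h w1 w1 + h w1 w2 = 0
            · refine ⟨τ0 + 1, by rw [map_add, map_one, ← hτ0]; ring, ?_⟩
              intro h2
              have : (1 : F) = 0 := by linear_combination h2 - h1
              exact one_ne_zero this
            · exact ⟨τ0, hτ0, h1⟩
          obtain ⟨w1', hw1', e1, e2⟩ := exists_norm_prod H hnd' hd hw' hw'0 τ (s := - h w1 w1) (by
            rw [map_neg, H.self])
          have e3 : h w' w1' = - σ τ := by rw [H.skew, e1]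
          set w2' := w' - w1' with hw2'
          have hw2'm : w2' ∈ W' := W'.sub_mem hw' hw1'
          have e4 : h w2' w2' = - h w2 w2 := by
            rw [hw2']
            simp only [map_sub, LinearMap.sub_apply, e1, e2, e3]
            linear_combination -hτ
          have c1 := hA1 w1' hw1' e2
          have c2 := hA2 w2' hw2'm e4
          have e5 : h w1' w2' = τ + h w1 w1 := by
            rw [hw2', map_sub, e1, e2]; ring
          have e6 : h (w1 + w1') (w2 + w2') = τ + h w1 w1 + h w1 w2 := by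
            simp only [map_add, LinearMap.add_apply, P.orth w1 hw1 w2' hw2'm,
              P'.orth w1' hw1' w2 hw2, e5]
            ring
          -- it is in the fixed field
          have e7 : σ (h (w1 + w1') (w2 + w2')) = h (w1 + w1') (w2 + w2') := by
            rw [e6, map_add, map_add, H.self]
            have h3 : h (w1 + w2) (w1 + w2) = h w1 w1 + h w1 w2 - σ (h w1 w2) + h w2 w2 := by
              simp only [map_add, LinearMap.add_apply]
              rw [H.skew w1 w2]; ring
            rw [h3] at h0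
            linear_combination - h0 - hτ
          have hinv : σ ((h (w1 + w1') (w2 + w2'))⁻¹) = (h (w1 + w1') (w2 + w2'))⁻¹ := by
            rw [map_inv₀, e7]
          have h4 := c1.map (c2.2 _ hinv) (rf_mem H _ _)
          rw [rf_apply (tr_good c2.1 hinv), inv_mul_cancel₀ (by rw [e6]; exact hτ'), one_smul] at h4
          have h5 : w1 + w2 + w' = w1 + w1' + (w2 + w2') := by rw [hw2']; abel
          rw [h5]; exact h4 }
  have memA : ∀ w, w ∈ A ↔ w ∈ W ∧ ∀ w' ∈ W', h w' w' = - h w w → Cen h M (w + w') := fun w => Iff.rfl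
  have haA : a ∈ A := by
    rw [memA]
    refine ⟨ha, fun w' hw' h0 => ?_⟩
    by_cases hw'0 : w' = 0
    · subst hw'0
      rw [add_zero]
      refine hcW a ha ?_
      rw [← neg_eq_zero, ← h0]; simp
    · have h1 : h b b = h w' w' := by
        rw [h0]
        have := hv.1
        rw [hsum a ha b hb] at this
        linear_combination this
      obtain ⟨g, hg, hg'⟩ := trans_norm H hnd' hd hb hw' hb0 hw'0 h1
      have h2 := hv.map (hTM hg) (hMI (hTM hg))
      rw [map_add, hg', TU_fix hg (fun u hu => P.orth a ha u hu)] at h2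
      exact h2
  -- A is invariant under elements of M stabilising both members
  have hAinv : ∀ g ∈ M, (∀ x ∈ W, g x ∈ W) → (∀ x ∈ W', g⁻¹ x ∈ W') → ∀ x ∈ A, g x ∈ A := by
    intro g hg hgW hgW' x hx
    rw [memA] at hx ⊢
    refine ⟨hgW x hx.1, fun w' hw' h0 => ?_⟩
    have e1 : g (g⁻¹ w') = w' := g.apply_symm_apply w'
    have h1 := hx.2 (g⁻¹ w') (hgW' w' hw') (by
      rw [← hMI hg, e1, h0, hMI hg])
    have h2 := h1.map hg (hMI hg)
    rw [map_add, e1] at h2
    exact h2
  have hAne : ∀ x ∈ W, h a x ≠ 0 → x ∈ A := by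
    intro x hx hax
    by_cases hxx : h x x = 0
    · have h1 : rf h x 1 ∈ M := (hcW x hx hxx).2 1 (map_one σ)
      have h2 := hAinv _ h1 (fun y hy => by
        rw [rf_apply (tr_good hxx (map_one σ))]; exact W.add_mem hy (W.smul_mem _ hx)) (fun y hy => by
        have h3 : rf h x 1 y = y := by
          rw [rf_apply (tr_good hxx (map_one σ)), P'.orth y hy x hx]; simp
        have h4 : (rf h x 1)⁻¹ y = y := by
          conv_lhs => rw [← h3]
          exact (rf h x 1).symm_apply_apply y
        rw [h4]; exact hy) a haA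
      rw [rf_apply (tr_good hxx (map_one σ))] at h2
      have h3 := (Submodule.add_mem_iff_right A haA).1 h2
      rw [one_mul] at h3
      exact (A.smul_mem_iff hax).1 h3
    · -- quasi-reflection corrected on W'
      obtain ⟨x', hx', hxx'⟩ := exists_value H hnd' (X := W') le_rfl (by omega) (s := h x x)
        (H.self x)
      obtain ⟨d, hd1⟩ := exists_sub_conj H (s := - h x x) (by rw [map_neg, H.self])
      have hd0 : d ≠ 0 := by
        rintro rfl
        rw [map_zero, sub_zero] at hd1
        exact hxx (by linear_combination hd1)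
      have hσd0 : σ d ≠ 0 := fun h0 => hd0 (H.inj h0)
      have hgood : σ d⁻¹ + d⁻¹ * σ d⁻¹ * h x x = d⁻¹ := by
        have : h x x = σ d - d := by linear_combination hd1
        rw [this, map_inv₀]
        field_simp
        ring
      have hgood' : σ (-σ d⁻¹) + (-σ d⁻¹) * σ (-σ d⁻¹) * h x' x' = -σ d⁻¹ := by
        rw [hxx']; exact (rf_inv H hgood).1
      set r := rf h x d⁻¹ with hr
      set r' := rf h x' (-σ d⁻¹) with hr'
      have hrx : ∀ y ∈ W', r y = y := fun y hy => by
        rw [hr, rf_apply hgood, P'.orth y hy x hx]; simp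
      have hr'x : ∀ y ∈ W, r' y = y := fun y hy => by
        rw [hr', rf_apply hgood', P.orth y hy x' hx']; simp
      have hdet : r' * r ∈ SU h := by
        rw [mem_SU]
        refine ⟨(isom h).mul_mem (rf_mem H _ _) (rf_mem H _ _), ?_⟩
        rw [map_mul, ← Units.val_inj, Units.val_mul, hr, hr', rf_det hgood, rf_det hgood', hxx']
        rw [Units.val_one]
        linear_combination (- h x x) * hgood
      have hrW : ∀ y ∈ W, (r' * r) y ∈ W := by
        intro y hy
        have h1 : r y ∈ W := by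
          rw [hr, rf_apply hgood]; exact W.add_mem hy (W.smul_mem _ hx)
        show r' (r y) ∈ W
        rw [hr'x _ h1]; exact h1
      have hrW' : ∀ y ∈ W', (r' * r)⁻¹ y ∈ W' := by
        intro y hy
        have h1 : r'⁻¹ y ∈ W' := by
          rw [hr', (rf_inv H hgood').2, rf_apply (rf_inv H hgood').1]
          exact W'.add_mem hy (W'.smul_mem _ hx')
        rw [mul_inv_rev]
        show r⁻¹ (r'⁻¹ y) ∈ W'
        have h2 : r⁻¹ (r'⁻¹ y) = r'⁻¹ y := by
          conv_lhs => rw [← hrx _ h1]
          exact r.symm_apply_apply _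
        rw [h2]; exact h1
      have h2 := hAinv _ (hMW _ hdet hrW) hrW hrW' a haA
      have h3 : (r' * r) a = a + (d⁻¹ * h a x) • x := by
        show r' (r a) = _
        have h1 : r a ∈ W := by
          rw [hr, rf_apply hgood]; exact W.add_mem ha (W.smul_mem _ hx)
        rw [hr'x _ h1, hr, rf_apply hgood]
      rw [h3] at h2
      have h4 := (Submodule.add_mem_iff_right A haA).1 h2
      exact (A.smul_mem_iff (mul_ne_zero (inv_ne_zero hd0) hax)).1 h4
  have hAW : ∀ x ∈ W, x ∈ A := by
    intro x hx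
    by_cases hax : h a x = 0
    · have h1 : ∃ y ∈ W, h a y ≠ 0 := by
        by_contra hcon; push Not at hcon; exact ha0 (hnd a ha hcon)
      obtain ⟨y, hy, hay⟩ := h1
      have h2 := hAne (x + y) (W.add_mem hx hy) (by rw [map_add, hax, zero_add]; exact hay)
      exact (Submodule.add_mem_iff_left A (hAne y hy hay)).1 h2
    · exact hAne x hx hax
  have hdV := P.finrank H
  apply SU_le_of_tr H (by omega)
  intro v hv
  obtain ⟨w, hw, w', hw', rfl⟩ := P.sup v
  have h1 := ((memA w).1 (hAW w hw)).2 w' hw' (by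
    rw [hsum w hw w' hw'] at hv
    linear_combination hv)
  exact h1.2

/-- Not everything stabilises `W`. -/
theorem exists_not (H : IsSkew h) (P : OPair h W W') (hW0 : W ≠ ⊥)
    (hd : 5 ≤ Module.finrank F W') : ∃ g ∈ SU h, ¬ ∀ x ∈ W, g x ∈ W := by
  obtain ⟨w, hw, hw0⟩ := Submodule.exists_mem_ne_zero_of_ne_bot hW0
  have h1 : ∃ x ∈ W, h x w ≠ 0 := by
    by_contra hcon; push Not at hcon
    exact hw0 (P.nd H w hw fun x hx => H.symm_zero (hcon x hx))
  obtain ⟨x, hx, hxw⟩ := h1
  obtain ⟨y0, hy0, hy00, -⟩ := exists_iso H (U := W') (by omega)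
  obtain ⟨w', hw', e1, e2⟩ := exists_norm_prod H ((P.symm H).nd H) hd hy0 hy00 1 (s := - h w w) (by
    rw [map_neg, H.self])
  have hw'0 : w' ≠ 0 := by
    rintro rfl; rw [map_zero, LinearMap.zero_apply] at e1; exact zero_ne_one e1
  have hvv : h (w + w') (w + w') = 0 := by
    simp only [map_add, LinearMap.add_apply, P.orth w hw w' hw', (P.symm H).orth w' hw' w hw, e2]
    ring
  refine ⟨_, tr_mem_SU H hvv (map_one σ), fun hcon => ?_⟩
  have h2 := hcon x hx
  rw [rf_apply (tr_good hvv (map_one σ)), map_add, P.orth x hx w' hw', add_zero, one_mul] at h2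
  have h3 := (Submodule.add_mem_iff_right W hx).1 h2
  have h4 := (W.smul_mem_iff hxw).1 h3
  have h5 := (Submodule.add_mem_iff_right W hw).1 h4
  exact hw'0 (Submodule.disjoint_def.1 (P.isCompl H).disjoint w' h5 hw')

end H95.UPairS
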