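import Mathlib
import Cfsg.Agent.Lib.H95.SUs1
import Cfsg.Agent.Lib.H95.RatBridge

set_option autoImplicit false

/-!
Versions of the rows on subfield subgroups of unitary groups for smaller dimensions.
-/

namespace H95.SUs

open Cfsg H95.Bridge H95.UBridge H95.UBasic H95.Pol H95.RatGeo H95.RatMain H95.RatBridge Module
open scoped Matrix

/-- correction to an isotropic vector -/
lemma corr_iso {F V : Type*} [Field F] [AddCommGroup V] [Module F V] {σ : F →+* F}
    [FiniteDimensional F V] {h : V →ₗ[F] V →ₛₗ[σ] F} (H : IsSkew h) (hd : 10 ≤ finrank F V)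
    (l : Fin 5 → V) (x : V) : ∃ x', h x' x' = 0 ∧ ∀ i, h x' (l i) = h x (l i) := by
  have hge := finrank_perpF_ge h ⊤ l
  rw [Fintype.card_fin, finrank_top] at hge
  set X := perpF h ⊤ l with hX
  by_cases h1 : ∃ k ∈ X, h k k ≠ 0
  · obtain ⟨k, hk, hkk⟩ := h1
    obtain ⟨t, ht⟩ := H95.UPairS.line_value H hkk x (s := 0) (by simp)
    refine ⟨x + t • k, ht, fun i => ?_⟩
    rw [map_add, LinearMap.add_apply, map_smul, LinearMap.smul_apply, hk.2 i, smul_zero, add_zero]
  push Not at h1
  have hti := ti_of_iso H h1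
  by_cases h2 : ∃ k ∈ X, h x k ≠ 0
  · obtain ⟨k, hk, hxk⟩ := h2
    obtain ⟨b, hb⟩ := exists_sub_conj H (s := - h x x) (by rw [map_neg, H.self])
    refine ⟨x + (σ (b * (h x k)⁻¹)) • k, ?_, fun i => ?_⟩
    · have e1 : h k x = - σ (h x k) := H.skew x k
      have e2 : σ (h x k) ≠ 0 := fun h0 => hxk (H.inj h0)
      simp only [map_add, LinearMap.add_apply, map_smul, LinearMap.smul_apply, smul_eq_mul,
        map_smulₛₗ, h1 k hk, e1, H.inv, map_mul, map_inv₀]
      have e3 : b * (h x k)⁻¹ * h x k = b := by rw [mul_assoc, inv_mul_cancel₀ hxk, mul_one]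
      have e4 : σ b * (σ (h x k))⁻¹ * σ (h x k) = σ b := by
        rw [mul_assoc, inv_mul_cancel₀ e2, mul_one]
      linear_combination e3 - e4 + hb
    · rw [map_add, LinearMap.add_apply, map_smul, LinearMap.smul_apply, hk.2 i, smul_zero, add_zero]
  push Not at h2
  refine ⟨x, ?_, fun i => rfl⟩
  apply h1
  -- `x` lies in the orthogonal of `X`, which is `X`
  have htop : ∀ v ∈ (⊤ : Submodule F V), (∀ w ∈ (⊤ : Submodule F V), h v w = 0) → v = 0 :=
    fun v _ hv => H.nd v fun w => hv w trivial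
  have hle := ti_finrank_le H htop (X := X) le_top hti
  rw [finrank_top] at hle
  let b := finBasis F X
  have hli : LinearIndependent F (fun i => (b i : V)) :=
    b.linearIndependent.map' X.subtype (Submodule.ker_subtype X)
  have h3 := finrank_perpF_eq H htop (x := fun i => (b i : V)) (fun i => trivial) hli
  rw [Fintype.card_fin, finrank_top] at h3
  have h4 : X ≤ perpF h ⊤ (fun i => (b i : V)) := fun y hy => ⟨trivial, fun i => hti y hy _ (b i).2⟩
  have h5 := Submodule.eq_of_le_of_finrank_le h4 (by omega)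
  rw [h5]
  exact ⟨trivial, fun i => h2 _ (b i).2⟩


open H95.Bridge H95.UBridge H95.UBasic H95.Pol H95.RatGeo H95.RatMain H95.RatBridge Module
open scoped Matrix

/-- Let F be the field with q² elements, n ≥ 13, and F₀ a subfield with |F| = |F₀| ^ r for an odd prime r. Let P be an invertible matrix such that the standard unitary form takes values in F₀ on the F₀-span of the columns of P. Then the elements of SU_n(q) lying in the subfield group of P (the conjugate by P of the product of GL_n(F₀) with the scalars) form a maximal subgroup of SU_n(q). -/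
theorem sub_odd_max {F : Type*} [Field F] [Fintype F] (n q : ℕ) (hF : Fintype.card F = q ^ 2) (hn : 10 ≤ n) (F₀ : Subfield F) (r : ℕ) (hr : r.Prime) (hro : Odd r) (hcard : Fintype.card F = Nat.card F₀ ^ r) (P : Matrix.GeneralLinearGroup (Fin n) F) (hP : Cfsg.Geo.IsFormRationalStructure (Cfsg.hermForm n F q) F₀ 1 P) : Cfsg.Geo.IsMaximalIn (Cfsg.GU n F q ⊓ Cfsg.Geo.specialLinear (Fin n) F) (Cfsg.Geo.subfieldSubgroup F₀ P ⊓ (Cfsg.GU n F q ⊓ Cfsg.Geo.specialLinear (Fin n) F)) := by
  classical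
  have : Fintype F₀ := Fintype.ofFinite F₀
  have hcard' : Nat.card F = Nat.card F₀ ^ r := by rw [Nat.card_eq_fintype_card]; exact hcard
  obtain ⟨k, hk⟩ := hro
  -- q₀
  obtain ⟨t, ht1, ht2⟩ : ∃ t, Fintype.card F₀ = t ^ 2 ∧ q = t ^ r := by
    have hs : 0 < Nat.card F₀ := Nat.card_pos
    have h1 : q ^ 2 = Nat.card F₀ ^ r := by rw [← hF, hcard]
    have h1' : q ^ 2 = (Nat.card F₀ ^ k) ^ 2 * Nat.card F₀ := by rw [h1, hk]; ring
    replace h1 := h1'
    have h2 : (Nat.card F₀ ^ k) ^ 2 ∣ q ^ 2 := ⟨_, h1⟩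
    obtain ⟨t, ht⟩ := (Nat.pow_dvd_pow_iff two_ne_zero).1 h2
    rw [ht, mul_pow] at h1
    have h3 : t ^ 2 = Nat.card F₀ := Nat.eq_of_mul_eq_mul_left (by positivity) h1
    refine ⟨t, by rw [← Nat.card_eq_fintype_card, h3], ?_⟩
    rw [ht, ← h3, hk]; ring
  obtain ⟨σ, hσ⟩ := exists_sigma hF
  obtain ⟨σ₀, hσ₀⟩ := exists_sigma (F := F₀) ht1
  have hσσ : ∀ c : F₀, σ c = σ₀ c := by
    intro c
    rw [hσ, hσ₀, ht2]
    have h1 : ∀ i : ℕ, (c : F) ^ (t ^ (2 * i + 1)) = (c : F) ^ t := by
      intro i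
      induction i with
      | zero => simp
      | succ i ih =>
        have e : t ^ (2 * (i + 1) + 1) = t ^ 2 * t ^ (2 * i + 1) := by ring
        have h2 : (c : F) ^ (t ^ 2) = c := by
          rw [← ht1]
          have := FiniteField.pow_card c
          exact_mod_cast congrArg (fun x : F₀ => (x : F)) this
        rw [e, pow_mul, h2, ih]
    rw [hk, h1]
    simp
  obtain ⟨l, hl⟩ := sigma_ne ht1 hσ₀
  set ζ : F := (l : F) - σ l with hζd
  have hζm : ζ ∈ F₀ := by
    rw [hζd, hσσ]; exact F₀.sub_mem l.2 (σ₀ l).2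
  have hζ : ζ ≠ 0 := by
    intro h0
    rw [hζd, hσσ, sub_eq_zero] at h0
    exact hl (Subtype.ext h0.symm)
  have hζσ : σ ζ = -ζ := by rw [hζd, map_sub, sigma_inv hF hσ, neg_sub]
  set h := uForm n σ ζ with hhd
  have H : IsSkew h := uForm_isSkew n hF hσ hζ hζσ
  have hh : ∀ u v, h u v = ζ * hermForm n F q u v := by
    intro u v
    rw [hhd, uForm_apply, hermForm]
    simp only [hσ]
  have hmem := mem_SUn hζ hh
  have hfr : finrank F (Fin n → F) = n := by rw [Module.finrank_fintype_fun_eq_card, Fintype.card_fin]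
  have hrat : ∀ u v, h (jmap F₀ P u) (jmap F₀ P v) ∈ F₀ := by
    intro u v
    rw [hh]
    have := hP _ _ (fun i => (u i).2) (fun i => (v i).2)
    rw [one_mul] at this
    exact F₀.mul_mem hζm this
  have R := mkRat (σ₀ := σ₀) (hσ := hσσ) (hr := hrat) hr hcard' H.isPol
    (by rw [Fintype.card_fin]; omega)
    (fun H₀ l x => by
      have HS : IsSkew (form₀ F₀ P h σ₀ hσσ hrat) :=
        ⟨H₀.inv, sigma_ne ht1 hσ₀, sigma_norm ht1 hσ₀, H₀.skew, H₀.nd⟩
      exact corr_iso HS (by rw [Module.finrank_fintype_fun_eq_card, Fintype.card_fin]; omega) l x)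
    (fun c hc => by
      obtain ⟨a, ha⟩ := H.norm c hc
      exact ⟨a, 0, by rw [ha]; simp⟩)
  apply isMaximalIn_of
  · -- a coefficient outside F₀
    have hex : ∃ c : F, σ c = c ∧ ∀ k : F₀, algebraMap F₀ F k ≠ c := by
      by_contra hcon
      push Not at hcon
      have hfix : ∀ c, σ c = c → c ∈ F₀ := by
        intro c hc
        obtain ⟨k, hk⟩ := hcon c hc
        rw [← hk]; exact k.2
      have hall : ∀ x : F, x ∈ F₀ := by
        intro x
        have hb : σ ((x - σ x) / ζ) = (x - σ x) / ζ := by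
          rw [map_div₀, map_sub, H.inv, hζσ]; field_simp; ring
        have ha : σ (x - (x - σ x) / ζ * l) = x - (x - σ x) / ζ * l := by
          rw [map_sub, map_mul, hb]
          have e : (x - σ x) / ζ * ζ = x - σ x := div_mul_cancel₀ _ hζ
          rw [hζd] at e ⊢
          linear_combination e
        have e : x = (x - (x - σ x) / ζ * l) + (x - σ x) / ζ * l := by ring
        rw [e]
        exact F₀.add_mem (hfix _ ha) (F₀.mul_mem (hfix _ hb) l.2)
      have hsurj : Function.Surjective (algebraMap F₀ F) := fun x => ⟨⟨x, hall x⟩, rfl⟩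
      have h1 : Nat.card F ≤ Nat.card F₀ := Nat.card_le_card_of_surjective _ hsurj
      have h2 : 1 < Nat.card F₀ := Finite.one_lt_card
      rw [hcard'] at h1
      have h3 : Nat.card F₀ ^ 1 < Nat.card F₀ ^ r := Nat.pow_lt_pow_right h2 hr.one_lt
      rw [pow_one] at h3
      omega
    obtain ⟨c, hcσ, hc⟩ := hex
    obtain ⟨u, hu, hu'⟩ := not_rat R (c := c) hcσ hc
    refine ⟨(toEq _ F).symm (rf h u c), ?_, ?_⟩
    · rw [hmem, MulEquiv.apply_symm_apply]; exact tr_mem_SU H hu hcσ
    · rw [mem_subfield, MulEquiv.apply_symm_apply]; exact hu'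
  · intro M hHM hMK ⟨g, hg, hgS⟩
    have hMi : M.map (toEq _ F).toMonoidHom ≤ isom h := by
      rintro _ ⟨x, hx, rfl⟩
      exact SU_le h ((hmem x).1 (hMK hx))
    have hE : HasE (form₀ F₀ P h σ₀ hσσ hrat) h (jmap F₀ P)
        (M.map (toEq _ F).toMonoidHom) := by
      intro u y c hv
      obtain ⟨v1, v2⟩ := Eg_rat R hv
      rw [mem_map_toEq]
      refine hHM (Subgroup.mem_inf.2 ⟨?_, ?_⟩)
      · rw [mem_subfield, MulEquiv.apply_symm_apply]
        exact ⟨1, one_ne_zero, fun x => ⟨_, by rw [one_smul]; exact v2 x⟩⟩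
      · rw [hmem, MulEquiv.apply_symm_apply]; exact Eg_mem H _ _ _
    rcases dichotomy R hE hMi with h1 | h1
    · exact le_of_map hmem (SU_le_of_tr H (by omega) _ h1)
    · exfalso
      apply hgS
      rw [mem_subfield]
      exact h1 _ ⟨g, hg, rfl⟩



open H95.Bridge H95.UBridge H95.UBasic H95.Pol H95.RatGeo H95.RatMain H95.RatBridge Module
open scoped Matrix

/-- A short root element with non-rational coefficient is not rational. -/
lemma not_rat2 {K F W V : Type*} [Field K] [Field F] [Algebra K F] [AddCommGroup W] [Module K W]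
    [AddCommGroup V] [Module F V] {σ₀ : K →+* K} {σ : F →+* F}
    {h₀ : W →ₗ[K] W →ₛₗ[σ₀] K} {h : V →ₗ[F] V →ₛₗ[σ] F} {j : W →+ V} [FiniteDimensional K W]
    (R : Rat h₀ h j) {c : F} (hcK : ∀ k : K, algebraMap K F k ≠ c) :
    ∃ u z, IP h₀ u z ∧ ¬ ∃ l : F, l ≠ 0 ∧ ∀ x : W, ∃ y : W, Eg h (j u) (c • j z) 0 (j x) = l • j y := by
  obtain ⟨u, hu, -, hu'⟩ := R.perp_iso (k := 0) (by omega) ![]
  have hu0 : u ≠ 0 := by
    rintro rfl; exact hu' (Submodule.zero_mem _)
  obtain ⟨z, hz, hz', hli⟩ := R.perp_iso (k := 1) (by omega) ![u]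
  have e1 : h₀ z u = 0 := hz' 0
  have l1 : LinearIndependent K ![z, u] := li_cons2 hu0 hli
  have P : IP h₀ u z := ⟨hu, hz, R.pol₀.symm_zero e1, li_swap l1⟩
  obtain ⟨x, hx, hx'⟩ := R.dual_iso (k := 2) (by omega) l1 ![0, 1]
  have e3 : h₀ x z = 0 := hx' 0
  have e4 : h₀ x u = 1 := hx' 1
  refine ⟨u, z, P, ?_⟩
  rintro ⟨l, hl, h1⟩
  obtain ⟨y, hy⟩ := h1 x
  rw [Eg_apply R.pol (P.val R c), map_smulₛₗ, R.form_zero.2 e3, R.form, e4, map_one] at hy
  have hy' : j x + c • j z = l • j y := by rw [← hy]; simp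
  have hli : LinearIndependent K ![z, x] := by
    apply pair_indep (li_ne0 l1)
    intro a ha
    rw [ha, map_smul, LinearMap.smul_apply, e1, smul_zero] at e4
    exact zero_ne_one e4
  have hsum : ∑ i, ![c / l, 1 / l] i • j (![z, x] i) = j y := by
    rw [Fin.sum_univ_two]
    show (c / l) • j z + (1 / l) • j x = j y
    have : (c / l) • j z + (1 / l) • j x = l⁻¹ • (j x + c • j z) := by
      rw [smul_add, smul_smul, div_eq_inv_mul, one_div]; abel
    rw [this, hy', smul_smul, inv_mul_cancel₀ hl, one_smul]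
  obtain ⟨a, ha⟩ := R.coeff hli hsum 0
  obtain ⟨b, hb⟩ := R.coeff hli hsum 1
  have ha' : algebraMap K F a = c / l := ha
  have hb' : algebraMap K F b = 1 / l := hb
  apply hcK (a / b)
  rw [map_div₀, ha', hb']
  field_simp

/-- Let F be the field with q² elements, n ≥ 13 even, and F₀ the subfield with q elements. Let ζ be a non-zero element with ζ + ζ^q = 0 and P an invertible matrix such that ζ times the standard unitary form takes values in F₀ on the F₀-span of the columns of P and the form vanishes on every pair (u, u) of that span (so ζ times the form restricts to a non-degenerate alternating form there). Then the elements of SU_n(q) lying in the subfield group of P form a maximal subgroup of SU_n(q). -/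
theorem sub_symp_max {F : Type*} [Field F] [Fintype F] (n q : ℕ) (hF : Fintype.card F = q ^ 2) (hn : 10 ≤ n) (F₀ : Subfield F) (hcard : Fintype.card F = Nat.card F₀ ^ 2) (ζ : F) (hζ0 : ζ ≠ 0) (hζ : ζ + ζ ^ q = 0) (P : Matrix.GeneralLinearGroup (Fin n) F) (hP : Cfsg.Geo.IsFormRationalStructure (Cfsg.hermForm n F q) F₀ ζ P) (halt : ∀ u : Fin n → F, (∀ i, u i ∈ F₀) → Cfsg.hermForm n F q (Matrix.mulVec (P : Matrix (Fin n) (Fin n) F) u) (Matrix.mulVec (P : Matrix (Fin n) (Fin n) F) u) = 0) : Cfsg.Geo.IsMaximalIn (Cfsg.GU n F q ⊓ Cfsg.Geo.specialLinear (Fin n) F) (Cfsg.Geo.subfieldSubgroup F₀ P ⊓ (Cfsg.GU n F q ⊓ Cfsg.Geo.specialLinear (Fin n) F)) := by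
  classical
  have : Fintype F₀ := Fintype.ofFinite F₀
  have hcard' : Nat.card F = Nat.card F₀ ^ 2 := by rw [Nat.card_eq_fintype_card]; exact hcard
  have hq : Fintype.card F₀ = q := by
    rw [← Nat.card_eq_fintype_card]
    rw [hF] at hcard
    exact (Nat.pow_left_injective (n := 2) (by norm_num) hcard).symm
  obtain ⟨σ, hσ⟩ := exists_sigma hF
  have hσσ : ∀ c : F₀, σ c = (RingHom.id F₀ c : F₀) := by
    intro c
    rw [hσ, ← hq]
    have := FiniteField.pow_card c
    exact_mod_cast congrArg (fun x : F₀ => (x : F)) this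
  have hζσ : σ ζ = -ζ := by rw [hσ]; exact (neg_eq_of_add_eq_zero_right hζ).symm
  set h := uForm n σ ζ with hhd
  have H : IsSkew h := uForm_isSkew n hF hσ hζ0 hζσ
  have hh : ∀ u v, h u v = ζ * hermForm n F q u v := by
    intro u v
    rw [hhd, uForm_apply, hermForm]
    simp only [hσ]
  have hmem := mem_SUn hζ0 hh
  have hfr : finrank F (Fin n → F) = n := by rw [Module.finrank_fintype_fun_eq_card, Fintype.card_fin]
  have hrat : ∀ u v, h (jmap F₀ P u) (jmap F₀ P v) ∈ F₀ := by
    intro u v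
    rw [hh]
    exact hP _ _ (fun i => (u i).2) (fun i => (v i).2)
  have halt' : ∀ x, h (jmap F₀ P x) (jmap F₀ P x) = 0 := by
    intro x
    rw [hh, jmap_apply, halt _ (fun i => (x i).2), mul_zero]
  have R := mkRat (σ₀ := RingHom.id F₀) (hσ := hσσ) (hr := hrat) Nat.prime_two hcard' H.isPol
    (by rw [Fintype.card_fin]; omega)
    (fun _ l x => ⟨x, Subtype.ext (halt' _), fun i => rfl⟩)
    (fun c hc => by
      obtain ⟨a, ha⟩ := H.norm c hc
      exact ⟨a, 0, by rw [ha]; simp⟩)
  apply isMaximalIn_of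
  · -- a coefficient outside F₀
    have hex : ∃ c : F, ∀ k : F₀, algebraMap F₀ F k ≠ c := by
      by_contra hcon
      push Not at hcon
      have hsurj : Function.Surjective (algebraMap F₀ F) := hcon
      have h1 : Nat.card F ≤ Nat.card F₀ := Nat.card_le_card_of_surjective _ hsurj
      have h2 : 1 < Nat.card F₀ := Finite.one_lt_card
      rw [hcard'] at h1
      nlinarith
    obtain ⟨c, hc⟩ := hex
    obtain ⟨u, z, -, hu'⟩ := not_rat2 R (c := c) hc
    refine ⟨(toEq _ F).symm (Eg h (jmap F₀ P u) (c • jmap F₀ P z) 0), ?_, ?_⟩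
    · rw [hmem, MulEquiv.apply_symm_apply]; exact Eg_mem H _ _ _
    · rw [mem_subfield, MulEquiv.apply_symm_apply]; exact hu'
  · intro M hHM hMK ⟨g, hg, hgS⟩
    have hMi : M.map (toEq _ F).toMonoidHom ≤ isom h := by
      rintro _ ⟨x, hx, rfl⟩
      exact SU_le h ((hmem x).1 (hMK hx))
    have hE : HasE (form₀ F₀ P h (RingHom.id F₀) hσσ hrat) h (jmap F₀ P)
        (M.map (toEq _ F).toMonoidHom) := by
      intro u y c hv
      obtain ⟨v1, v2⟩ := Eg_rat R hv
      rw [mem_map_toEq]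
      refine hHM (Subgroup.mem_inf.2 ⟨?_, ?_⟩)
      · rw [mem_subfield, MulEquiv.apply_symm_apply]
        exact ⟨1, one_ne_zero, fun x => ⟨_, by rw [one_smul]; exact v2 x⟩⟩
      · rw [hmem, MulEquiv.apply_symm_apply]; exact Eg_mem H _ _ _
    rcases dichotomy R hE hMi with h1 | h1
    · exact le_of_map hmem (SU_le_of_tr H (by omega) _ h1)
    · exfalso
      apply hgS
      rw [mem_subfield]
      exact h1 _ ⟨g, hg, rfl⟩


end H95.SUs
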