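import Mathlib
import Cfsg.Agent.Lib.H95.SUs2
import Cfsg.Agent.Lib.H95.RatOs2

set_option autoImplicit false

/-!
Orthogonal type subfield subgroups of unitary groups, smaller dimensions.
-/

namespace H95.SUs

open Cfsg H95.Bridge H95.UBridge H95.UBasic H95.Pol H95.RatGeo H95.RatBridge Module
  H95.RatOs H95.OGeo H48.QuadSplit QuadraticMap
open scoped Matrix

/-- A transvection with rational centre is not rational. -/
lemma not_rat3 {K F W V : Type*} [Field K] [Field F] [Algebra K F] [AddCommGroup W] [Module K W]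
    [AddCommGroup V] [Module F V] {σ : F →+* F} [Finite K]
    {Q : QuadraticForm K W} {h : V →ₗ[F] V →ₛₗ[σ] F} {j : W →+ V} {ζ : F} [FiniteDimensional K W]
    (R : RO Q h j ζ) :
    ∃ u, Q u = 0 ∧ ¬ ∃ l : F, l ≠ 0 ∧ ∀ x : W, ∃ y : W, rf h (j u) 1 (j x) = l • j y := by
  have hdim := R.dim
  have hfr : ∀ {k : ℕ} (x : Fin k → W), finrank K (Submodule.span K (Set.range x)) ≤ k := by
    intro k x
    have := finrank_range_le_card (R := K) x
    rw [Fintype.card_fin] at this
    exact this
  have f0 := hfr (![] : Fin 0 → W)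
  obtain ⟨u, hu, -, hu'⟩ := perp_val R.nd (k := 0) (by omega) ![]
      (T := Submodule.span K (Set.range (![] : Fin 0 → W))) (by omega) 0
  have hu0 : u ≠ 0 := by
    rintro rfl; exact hu' (Submodule.zero_mem _)
  obtain ⟨x, hx⟩ := dual R.nd (x := ![u]) (by
    rw [linearIndependent_unique_iff]; simpa using hu0) ![1]
  have e1 : polar Q x u = 1 := hx 0
  refine ⟨u, hu, ?_⟩
  rintro ⟨l, hl, h1⟩
  obtain ⟨y, hy⟩ := h1 x
  rw [tr_apply (R.sing hu) (map_one σ), R.form, e1, map_one, mul_one, one_mul] at hy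
  have hli : LinearIndependent K ![u, x] := by
    apply pair_indep hu0
    intro a ha
    rw [ha, p_smul, p_self, hu, mul_zero, mul_zero] at e1
    exact zero_ne_one e1
  have hsum : ∑ i, ![ζ / l, 1 / l] i • j (![u, x] i) = j y := by
    rw [Fin.sum_univ_two]
    show (ζ / l) • j u + (1 / l) • j x = j y
    have : (ζ / l) • j u + (1 / l) • j x = l⁻¹ • (j x + ζ • j u) := by
      rw [smul_add, smul_smul, div_eq_inv_mul, one_div]; abel
    rw [this, hy, smul_smul, inv_mul_cancel₀ hl, one_smul]
  obtain ⟨a, ha⟩ := R.coeff hli hsum 0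
  obtain ⟨b, hb⟩ := R.coeff hli hsum 1
  have ha' : algebraMap K F a = ζ / l := ha
  have hb' : algebraMap K F b = 1 / l := hb
  have h2 : algebraMap K F (-(a / b)) + ζ * algebraMap K F 1 = 0 := by
    rw [map_neg, map_div₀, ha', hb', map_one]
    field_simp
    ring
  exact one_ne_zero (R.uniqF h2).2

/-- Let F be the field with q² elements, q odd, n ≥ 13, and F₀ the subfield with q elements. Let P be an invertible matrix such that the standard unitary form takes values in F₀ on the F₀-span of the columns of P (so it restricts to a non-degenerate symmetric bilinear form there). Then the elements of SU_n(q) lying in the subfield group of P form a maximal subgroup of SU_n(q). -/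
theorem sub_orth_max {F : Type*} [Field F] [Fintype F] (n q : ℕ) (hF : Fintype.card F = q ^ 2) (hn : 10 ≤ n) (hodd : Odd q) (F₀ : Subfield F) (hcard : Fintype.card F = Nat.card F₀ ^ 2) (P : Matrix.GeneralLinearGroup (Fin n) F) (hP : Cfsg.Geo.IsFormRationalStructure (Cfsg.hermForm n F q) F₀ 1 P) : Cfsg.Geo.IsMaximalIn (Cfsg.GU n F q ⊓ Cfsg.Geo.specialLinear (Fin n) F) (Cfsg.Geo.subfieldSubgroup F₀ P ⊓ (Cfsg.GU n F q ⊓ Cfsg.Geo.specialLinear (Fin n) F)) := by
  classical
  have : Fintype F₀ := Fintype.ofFinite F₀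
  have hcard' : Nat.card F = Nat.card F₀ ^ 2 := by rw [Nat.card_eq_fintype_card]; exact hcard
  have hq : Fintype.card F₀ = q := by
    rw [← Nat.card_eq_fintype_card]
    rw [hF] at hcard
    exact (Nat.pow_left_injective (n := 2) (by norm_num) hcard).symm
  have h2K : (2 : F₀) ≠ 0 := by
    apply Ring.two_ne_zero
    intro h2
    rw [FiniteField.even_card_iff_char_two, hq] at h2
    rw [Nat.odd_iff] at hodd
    omega
  obtain ⟨σ, hσ⟩ := exists_sigma hF
  have hσσ : ∀ c : F₀, σ c = (RingHom.id F₀ c : F₀) := by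
    intro c
    rw [hσ, ← hq]
    have := FiniteField.pow_card c
    exact_mod_cast congrArg (fun x : F₀ => (x : F)) this
  have hinv := sigma_inv hF hσ
  obtain ⟨ζ, hζ0, hζσ⟩ : ∃ ζ : F, ζ ≠ 0 ∧ σ ζ = -ζ := by
    obtain ⟨l, hl⟩ := sigma_ne hF hσ
    exact ⟨l - σ l, fun h0 => hl (sub_eq_zero.1 h0).symm, by rw [map_sub, hinv, neg_sub]⟩
  have hfix : ∀ a, σ a = a → ∃ c : F₀, algebraMap F₀ F c = a := by
    let Y : Subring F :=
      { carrier := {a | σ a = a}
        mul_mem' := fun {a b} ha hb => by
          show σ (a * b) = a * b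
          rw [map_mul, show σ a = a from ha, show σ b = b from hb]
        one_mem' := map_one σ
        add_mem' := fun {a b} ha hb => by
          show σ (a + b) = a + b
          rw [map_add, show σ a = a from ha, show σ b = b from hb]
        zero_mem' := map_zero σ
        neg_mem' := fun {a} ha => by
          show σ (-a) = -a
          rw [map_neg, show σ a = a from ha] }
    rcases prime_ext Nat.prime_two hcard' Y (fun c => hσσ c) with h1 | h1
    · exact fun a ha => h1 a ha
    · exfalso
      obtain ⟨l, hl⟩ := sigma_ne hF hσ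
      exact hl (h1 l)
  have h2F : (2 : F) ≠ 0 := by
    intro h0
    apply h2K
    apply Subtype.ext
    exact h0
  have hdec : ∀ a : F, ∃ c d : F₀, a = c + ζ * d := by
    intro a
    obtain ⟨c, hc⟩ := hfix ((a + σ a) / 2) (by
      rw [map_div₀, map_add, hinv, add_comm, map_ofNat])
    obtain ⟨d, hd⟩ := hfix ((a - σ a) / (2 * ζ)) (by
      rw [map_div₀, map_sub, hinv, map_mul, hζσ, map_ofNat, mul_neg, div_neg, ← neg_div,
        neg_sub])
    refine ⟨c, d, ?_⟩
    have hc' : (c : F) = (a + σ a) / 2 := hc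
    have hd' : (d : F) = (a - σ a) / (2 * ζ) := hd
    rw [hc', hd']
    field_simp
    ring
  set h := uForm n σ ζ with hhd
  have H : IsSkew h := uForm_isSkew n hF hσ hζ0 hζσ
  have hh : ∀ u v, h u v = ζ * hermForm n F q u v := by
    intro u v
    rw [hhd, uForm_apply, hermForm]
    simp only [hσ]
  have hh1 : ∀ u v, uForm n σ 1 u v = hermForm n F q u v := by
    intro u v
    rw [uForm_apply, hermForm, one_mul]
    simp only [hσ]
  have hmem := mem_SUn hζ0 hh
  have hfr : finrank F (Fin n → F) = n := by rw [Module.finrank_fintype_fun_eq_card, Fintype.card_fin]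
  have hr : ∀ u v, uForm n σ 1 (jmap F₀ P u) (jmap F₀ P v) ∈ F₀ := by
    intro u v
    rw [hh1, ← one_mul (hermForm n F q _ _)]
    exact hP _ _ (fun i => (u i).2) (fun i => (v i).2)
  set B := form₀ F₀ P (uForm n σ 1) (RingHom.id F₀) hσσ hr with hB
  have hBa : ∀ u v, ((B u v : F₀) : F) = hermForm n F q (jmap F₀ P u) (jmap F₀ P v) := by
    intro u v
    rw [hB, form₀_apply, hh1]
  have hBs : ∀ u v, B u v = B v u := by
    intro u v
    apply Subtype.ext
    have h1 : ζ * ((B u v : F₀) : F) = - σ (ζ * (B v u : F₀)) := by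
      rw [hBa, hBa, ← hh, ← hh, H.skew]
    rw [map_mul, hζσ, hσσ] at h1
    have h2 : ζ * ((B u v : F₀) : F) = ζ * ((B v u : F₀) : F) := by
      rw [h1]; simp
    exact mul_left_cancel₀ hζ0 h2
  let Q₀ : QuadraticForm F₀ (Fin n → F₀) :=
    LinearMap.BilinMap.toQuadraticMap ((2 : F₀)⁻¹ • (B : (Fin n → F₀) →ₗ[F₀] (Fin n → F₀) →ₗ[F₀] F₀))
  have hpol : ∀ u v, polar Q₀ u v = B u v := by
    intro u v
    rw [LinearMap.BilinMap.polar_toQuadraticMap]
    simp only [LinearMap.smul_apply, smul_eq_mul]
    rw [hBs v u, ← two_mul, ← mul_assoc, mul_inv_cancel₀ h2K, one_mul]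
  have hform : ∀ x y, h (jmap F₀ P x) (jmap F₀ P y) = ζ * algebraMap F₀ F (polar Q₀ x y) := by
    intro x y
    rw [hh, hpol, ← hBa]; rfl
  have R : RO Q₀ h (jmap F₀ P) ζ :=
    { pol := H.isPol
      nd := by
        intro x hx
        apply jmap_injective F₀ P
        apply H.nd
        intro w
        induction span_jmap F₀ P w using Submodule.span_induction with
        | mem y hy =>
          obtain ⟨z, rfl⟩ := hy
          rw [hform, hx, map_zero, mul_zero]
        | zero => simp
        | add x y _ _ hx hy => rw [map_add, hx, hy, add_zero]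
        | smul a x _ hx => rw [map_smulₛₗ, hx, smul_zero]
      two := h2K
      ζ0 := hζ0
      ζs := hζσ
      smul := fun c x => jmap_smul F₀ P c x
      form := hform
      sig := fun c => hσσ c
      fix := hfix
      dec := by
        intro v
        choose c d hcd using fun i => hdec ((((P⁻¹ : GL (Fin n) F) : Matrix (Fin n) (Fin n) F) *ᵥ v) i)
        refine ⟨c, d, ?_⟩
        rw [jmap_apply, jmap_apply, ← Matrix.mulVec_smul, ← Matrix.mulVec_add]
        have : (fun i => (c i : F)) + ζ • (fun i => (d i : F)) =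
            ((P⁻¹ : GL (Fin n) F) : Matrix (Fin n) (Fin n) F) *ᵥ v := by
          funext i
          rw [hcd i]; rfl
        rw [this, Matrix.mulVec_mulVec, ← Units.val_mul, mul_inv_cancel, Units.val_one,
          Matrix.one_mulVec]
      dim := by rw [Module.finrank_fintype_fun_eq_card, Fintype.card_fin]; exact hn }
  apply isMaximalIn_of
  · obtain ⟨u, hu, hu'⟩ := not_rat3 R
    refine ⟨(toEq _ F).symm (rf h (jmap F₀ P u) 1), ?_, ?_⟩
    · rw [hmem, MulEquiv.apply_symm_apply]; exact tr_mem_SU H (R.sing hu) (map_one σ)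
    · rw [mem_subfield, MulEquiv.apply_symm_apply]; exact hu'
  · intro M hHM hMK ⟨g, hg, hgS⟩
    have hMi : M.map (toEq _ F).toMonoidHom ≤ isom h := by
      rintro _ ⟨x, hx, rfl⟩
      exact SU_le h ((hmem x).1 (hMK hx))
    have hS : HasS Q₀ h (jmap F₀ P) ζ (M.map (toEq _ F).toMonoidHom) := by
      intro u y hu huy
      rw [mem_map_toEq]
      refine hHM (Subgroup.mem_inf.2 ⟨?_, ?_⟩)
      · rw [mem_subfield, MulEquiv.apply_symm_apply]
        exact ⟨1, one_ne_zero, fun x => ⟨_, by rw [one_smul]; exact R.sg_rat hu huy x⟩⟩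
      · rw [hmem, MulEquiv.apply_symm_apply]; exact Eg_mem H _ _ _
    rcases dichotomy R hS hMi with h1 | h1
    · exact le_of_map hmem (SU_le_of_tr H (by omega) _ h1)
    · exfalso
      apply hgS
      rw [mem_subfield]
      exact h1 _ ⟨g, hg, rfl⟩


end H95.SUs
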