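import Mathlib
import Cfsg.Agent.Lib.H95.SpSingS

set_option autoImplicit false

/-!
Orthogonal groups in symplectic groups, characteristic two (Dye): dimension at least six.
-/

namespace H95.SpOrthS

open Module H95.SpBasic H95.SpGeom H95.SpOrthEven

variable {F V : Type*} [Field F] [AddCommGroup V] [Module F V]
variable {Q : V → F}

/-- In characteristic two all values are taken on large subspaces. -/
lemma exists_value' [FiniteDimensional F V] {B : LinearMap.BilinForm F V} (hB : B.IsAlt)
    (hndV : ∀ v, (∀ w, B v w = 0) → v = 0) (h : IsQ B Q)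
    (hsq : ∀ a : F, IsSquare a) {v w p : V} (hvw : B v w = 0) (hvp : B v p ≠ 0) (U : Submodule F V)
    (hUe : U = lperp B (Submodule.span F ({v, w, p} : Set V))) (hU : finrank F V ≤ 2 * finrank F U)
    (a : F) : ∃ k ∈ U, Q k = a := by
  have hsw : ∀ a b, B a b = 0 → B b a = 0 := fun a b h0 => by
    rw [← LinearMap.BilinForm.IsAlt.neg_eq hB, h0, neg_zero]
  have : ∃ x ∈ U, Q x ≠ 0 := by
    by_contra hcon
    push Not at hcon
    have hUU : ∀ x ∈ U, ∀ y ∈ U, B x y = 0 := by
      intro x hx y hy
      have := h.add x y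
      rw [hcon x hx, hcon y hy, hcon _ (U.add_mem hx hy)] at this
      simpa using this.symm
    have hUm : ∀ x ∈ U, B x v = 0 ∧ B x w = 0 ∧ B x p = 0 := by
      intro x hx
      rw [hUe, mem_lperp] at hx
      exact ⟨hx v (Submodule.subset_span (by simp)), hx w (Submodule.subset_span (by simp)),
        hx p (Submodule.subset_span (by simp))⟩
    have h1 := isotropic_finrank_le B hndV (U ⊔ Submodule.span F {v}) (by
      intro x hx y hy
      obtain ⟨x1, hx1, x2, hx2, rfl⟩ := Submodule.mem_sup.1 hx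
      obtain ⟨y1, hy1, y2, hy2, rfl⟩ := Submodule.mem_sup.1 hy
      obtain ⟨a, rfl⟩ := Submodule.mem_span_singleton.1 hx2
      obtain ⟨b, rfl⟩ := Submodule.mem_span_singleton.1 hy2
      have e1 := (hUm x1 hx1).1
      have e2 := hsw _ _ (hUm y1 hy1).1
      have e3 : B v v = 0 := hB v
      simp only [map_add, map_smul, LinearMap.add_apply, LinearMap.smul_apply, hUU x1 hx1 y1 hy1, e1, e2, e3,
        smul_eq_mul, mul_zero, add_zero])
    have h2 : U ≤ U ⊔ Submodule.span F {v} := le_sup_left
    have h3 : U = U ⊔ Submodule.span F {v} := Submodule.eq_of_le_of_finrank_le h2 (by omega)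
    have h4 : v ∈ U := by
      rw [h3]
      exact Submodule.mem_sup_right (Submodule.mem_span_singleton_self _)
    exact hvp (hUm v h4).2.2
  obtain ⟨x, hx, hx0⟩ := this
  obtain ⟨r, hr⟩ := hsq (a * (Q x)⁻¹)
  refine ⟨r • x, U.smul_mem _ hx, ?_⟩
  rw [h.smul, pow_two, ← hr]
  field_simp

lemma move [FiniteDimensional F V] {B : LinearMap.BilinForm F V} (hB : B.IsAlt) [CharP F 2]
    (hsq : ∀ a : F, IsSquare a)
    (hndV : ∀ v, (∀ w, B v w = 0) → v = 0) (h : IsQ B Q) (hdim : 6 ≤ finrank F V)
    {M : Subgroup (V ≃ₗ[F] V)} (hM : ContO B Q M) {v w : V} (hvw : Q v = Q w) (hv : v ≠ 0)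
    (hw : w ≠ 0) : ∃ g ∈ M, g ∈ isom B ∧ g v = w := by
  by_cases hb : B v w = 0
  · obtain ⟨p, hp1, hp2⟩ := exists_both_ne (f := B v) (g := B w)
      (by by_contra hcon; push Not at hcon; exact hv (hndV v hcon))
      (by by_contra hcon; push Not at hcon; exact hw (hndV w hcon))
    set U := lperp B (Submodule.span F ({v, w, p} : Set V)) with hU
    have h1 := finrank_lperp_ge B (Submodule.span F ({v, w, p} : Set V))
    have h2 := finrank_three_le (F := F) v w p
    rw [← hU] at h1
    obtain ⟨k, hk, hkQ⟩ := exists_value' hB hndV h hsq hb hp1 U hU (by omega) (Q v - Q p)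
    rw [hU, mem_lperp] at hk
    have hkv : B k v = 0 := hk v (Submodule.subset_span (by simp))
    have hkw : B k w = 0 := hk w (Submodule.subset_span (by simp))
    have hkp : B k p = 0 := hk p (Submodule.subset_span (by simp))
    have hvk : B v k = 0 := by rw [← LinearMap.BilinForm.IsAlt.neg_eq hB k v, hkv, neg_zero]
    have hpk : B p k = 0 := by rw [← LinearMap.BilinForm.IsAlt.neg_eq hB k p, hkp, neg_zero]
    have hz : Q (p + k) = Q v := by rw [h.add, hkQ, hpk]; ring
    obtain ⟨g, hg, hgi, hgv⟩ := move1 hB h hM hz.symm (by rw [map_add, hvk, add_zero]; exact hp1)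
    obtain ⟨g', hg', hgi', hgv'⟩ := move1 hB h hM (hz.trans hvw) (by
      rw [map_add, LinearMap.add_apply, hkw, add_zero, ← LinearMap.BilinForm.IsAlt.neg_eq hB w p]
      exact neg_ne_zero.2 hp2)
    refine ⟨g' * g, M.mul_mem hg' hg, (isom B).mul_mem hgi' hgi, ?_⟩
    show g' (g v) = w
    rw [hgv, hgv']
  · exact move1 hB h hM hvw hb

theorem overgroup [FiniteDimensional F V] {B : LinearMap.BilinForm F V} (hB : B.IsAlt) [CharP F 2]
    (hsq : ∀ a : F, IsSquare a)
    (hndV : ∀ v, (∀ w, B v w = 0) → v = 0) (h : IsQ B Q) (hdim : 6 ≤ finrank F V)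
    {M : Subgroup (V ≃ₗ[F] V)} (hMi : M ≤ isom B) (hM : ContO B Q M)
    (hg : ∃ g ∈ M, ∃ v, Q (g v) ≠ Q v) : isom B ≤ M := by
  obtain ⟨g, hgM, v0, hv0⟩ := hg
  have hgi := hMi hgM
  have hmap : ∀ v, ∀ g ∈ M, tr B hB v 1 ∈ M → tr B hB (g v) 1 ∈ M := by
    intro v g hg hv
    rw [← tr_conj B hB v 1 g (hMi hg)]
    exact M.mul_mem (M.mul_mem hg hv) (M.inv_mem hg)
  have hone : ∀ v, Q v = 1 → tr B hB v 1 ∈ M := by
    intro v hv
    exact hM _ (tr_mem_isom _ _ _ _) (fun x => tr_isQ hB h (by rw [hv, one_mul]) x)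
  -- the semilinear functional
  let q' : V → F := fun x => Q (g x) - Q x
  have hq'add : ∀ x y, q' (x + y) = q' x + q' y := by
    intro x y
    simp only [q', map_add, h.add, hgi x y]
    ring
  have hq'smul : ∀ c x, q' (c • x) = c ^ 2 * q' x := by
    intro c x
    simp only [q', map_smul, h.smul]
    ring
  let K : Submodule F V :=
    { carrier := {x | q' x = 0}
      zero_mem' := by show q' 0 = 0; simp [q']
      add_mem' := by
        intro a b ha hb
        show q' (a + b) = 0
        rw [hq'add]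
        have ha' : q' a = 0 := ha
        have hb' : q' b = 0 := hb
        rw [ha', hb', add_zero]
      smul_mem' := by
        intro c a ha
        show q' (c • a) = 0
        have ha' : q' a = 0 := ha
        rw [hq'smul, ha', mul_zero] }
  have hK : ∀ x, x ∈ K ↔ q' x = 0 := fun x => Iff.rfl
  have hv0' : q' v0 ≠ 0 := sub_ne_zero.2 hv0
  have hsurj : ∀ a : F, ∃ c : F, q' (c • v0) = a := by
    intro a
    obtain ⟨r, hr⟩ := hsq (a * (q' v0)⁻¹)
    refine ⟨r, ?_⟩
    rw [hq'smul, pow_two, ← hr]
    field_simp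
  have hKdim : finrank F V ≤ finrank F K + 1 := by
    have h1 : K ⊔ Submodule.span F {v0} = ⊤ := by
      rw [eq_top_iff]
      intro x _
      obtain ⟨c, hc⟩ := hsurj (q' x)
      rw [Submodule.mem_sup]
      refine ⟨x - c • v0, ?_, c • v0, Submodule.smul_mem _ _ (Submodule.mem_span_singleton_self _),
        by abel⟩
      rw [hK]
      have := hq'add (x - c • v0) (c • v0)
      rw [sub_add_cancel, hc] at this
      simpa using this
    have h2 := Submodule.finrank_add_le_finrank_add_finrank K (Submodule.span F {v0})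
    rw [h1, finrank_top] at h2
    have h3 : finrank F (Submodule.span F {v0}) ≤ 1 := by
      exact finrank_span_le_one v0
    omega
  -- all values different from one are taken by centres
  have hval : ∀ a : F, a ≠ 1 → ∃ v, v ≠ 0 ∧ Q v = a ∧ tr B hB v 1 ∈ M := by
    intro a ha
    obtain ⟨c, hc⟩ := hsurj (1 - a)
    set x := c • v0 with hx
    have h1 : finrank F V ≤ finrank F (K ⊓ lperp B (Submodule.span F {x}) : Submodule F V) + 2 := by
      have h2 := Submodule.finrank_sup_add_finrank_inf_eq K (lperp B (Submodule.span F {x}))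
      have h3 := Submodule.finrank_le (K ⊔ lperp B (Submodule.span F {x}))
      have h4 := finrank_lperp_ge B (Submodule.span F {x})
      have h5 : finrank F (Submodule.span F {x}) ≤ 1 := by
        exact finrank_span_le_one x
      omega
    obtain ⟨k, hk, hkQ⟩ := exists_value hndV h hsq (K ⊓ lperp B (Submodule.span F {x})) (by omega)
      (a - Q x)
    have hk1 : q' k = 0 := hk.1
    have hk2 : B k x = 0 := mem_lperp.1 hk.2 x (Submodule.mem_span_singleton_self _)
    have hk3 : B x k = 0 := by rw [← LinearMap.BilinForm.IsAlt.neg_eq hB k x, hk2, neg_zero]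
    have hQ : Q (x + k) = a := by rw [h.add, hkQ, hk3]; ring
    have hq : q' (x + k) = 1 - a := by rw [hq'add, hc, hk1, add_zero]
    have hgQ : Q (g (x + k)) = 1 := by
      have : q' (x + k) = Q (g (x + k)) - Q (x + k) := rfl
      rw [this, hQ] at hq
      have := sub_left_inj.1 hq
      exact this
    refine ⟨x + k, ?_, hQ, ?_⟩
    · intro h0
      rw [h0] at hq
      have : q' 0 = 0 := by simp [q']
      rw [this] at hq
      exact ha (sub_eq_zero.1 hq.symm).symm
    · have := hmap (g (x + k)) g⁻¹ (M.inv_mem hgM) (hone _ hgQ)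
      have h1 : g⁻¹ (g (x + k)) = x + k := g.symm_apply_apply _
      rwa [h1] at this
  have hall1 : ∀ v, tr B hB v 1 ∈ M := by
    intro v
    by_cases hv : v = 0
    · have : tr B hB v 1 = 1 := by ext x; simp [hv]
      rw [this]; exact M.one_mem
    by_cases h1 : Q v = 1
    · exact hone v h1
    · obtain ⟨w, hw0, hwQ, hwM⟩ := hval (Q v) h1
      obtain ⟨g', hg', -, hgw⟩ := move hB hsq hndV h hdim hM hwQ hw0 hv
      have := hmap w g' hg' hwM
      rwa [hgw] at this
  apply isom_le_of_tr B hB hndV M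
  intro v c
  obtain ⟨r, hr⟩ := hsq c
  have := hall1 (r • v)
  rw [tr_smul, one_mul, pow_two, ← hr] at this
  exact this

theorem exists_not [FiniteDimensional F V] {B : LinearMap.BilinForm F V} (hB : B.IsAlt) [CharP F 2]
    (hsq : ∀ a : F, IsSquare a)
    (hndV : ∀ v, (∀ w, B v w = 0) → v = 0) (h : IsQ B Q) (hdim : 6 ≤ finrank F V) :
    ∃ g ∈ isom B, ¬ ∃ c : F, ∀ v, Q (g v) = c * Q v := by
  -- a singular non-zero vector
  have hsing : ∃ v, v ≠ 0 ∧ Q v = 0 := by
    have : Nontrivial V := nontrivial_of_finrank_pos (R := F) (by omega)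
    obtain ⟨u, hu⟩ := exists_ne (0 : V)
    by_cases hu0 : Q u = 0
    · exact ⟨u, hu, hu0⟩
    have h4 := finrank_lperp_ge B (Submodule.span F {u})
    rw [finrank_span_singleton hu] at h4
    -- a complement of u inside u⊥
    obtain ⟨w, hw⟩ : ∃ w, B u w ≠ 0 := by
      by_contra hcon; push Not at hcon; exact hu (hndV u hcon)
    have h5 := finrank_lperp_ge B (Submodule.span F ({u, w, w} : Set V))
    have h6 := H95.SpSingS.finrank_two_le (F := F) u w
    have h6' : ({u, w, w} : Set V) = {u, w} := by simp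
    rw [← h6'] at h6
    obtain ⟨k, hk, hkQ⟩ := exists_value hndV h hsq (lperp B (Submodule.span F ({u, w, w} : Set V)))
      (by omega) (Q u)
    rw [mem_lperp] at hk
    have hku : B k u = 0 := hk u (Submodule.subset_span (by simp))
    have hkw : B k w = 0 := hk w (Submodule.subset_span (by simp))
    refine ⟨k + u, ?_, ?_⟩
    · intro h0
      have : B (k + u) w = 0 := by rw [h0]; simp
      rw [map_add, LinearMap.add_apply, hkw, zero_add] at this
      exact hw this
    · rw [h.add, hkQ, hku, CharTwo.add_self_eq_zero, add_zero]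
  obtain ⟨v, hv, hv0⟩ := hsing
  refine ⟨tr B hB v 1, tr_mem_isom _ _ _ _, ?_⟩
  rintro ⟨c, hc⟩
  have hform : ∀ x, Q (tr B hB v 1 x) = Q x + (B x v) ^ 2 := by
    intro x
    rw [tr_apply, h.add, h.smul, hv0, map_smul, smul_eq_mul]
    ring
  have h4 := finrank_lperp_ge B (Submodule.span F {v})
  rw [finrank_span_singleton hv] at h4
  obtain ⟨k, hk, hkQ⟩ := exists_value hndV h hsq (lperp B (Submodule.span F {v})) (by omega) 1
  have hkv : B k v = 0 := mem_lperp.1 hk v (Submodule.mem_span_singleton_self _)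
  have hc1 : c = 1 := by
    have := hc k
    rw [hform, hkv, hkQ] at this
    simpa using this.symm
  obtain ⟨w, hw⟩ : ∃ w, B v w ≠ 0 := by
    by_contra hcon; push Not at hcon; exact hv (hndV v hcon)
  have := hc w
  rw [hform, hc1, one_mul] at this
  have h7 : B w v = 0 := by simpa using this
  rw [← LinearMap.BilinForm.IsAlt.neg_eq hB w v, h7, neg_zero] at hw
  exact hw rfl

end H95.SpOrthS
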