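import Mathlib
import Cfsg.Agent.Lib.H95.SpWreath

set_option autoImplicit false

/-!
The stabiliser of a non-degenerate subspace of less than half dimension in the symplectic group.
-/

namespace H95.SpPair

open Module H95.SpBasic H95.SpGeom H95.SpMax

variable {F V : Type*} [Field F] [AddCommGroup V] [Module F V]

/-- The orthogonal complement as a submodule. -/
def perp (B : LinearMap.BilinForm F V) (W : Submodule F V) : Submodule F V where
  carrier := {x | ∀ w ∈ W, B x w = 0}
  zero_mem' := by intro w _; simp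
  add_mem' := by
    intro a b ha hb w hw
    rw [map_add, LinearMap.add_apply, ha w hw, hb w hw, add_zero]
  smul_mem' := by
    intro c a ha w hw
    rw [map_smul, LinearMap.smul_apply, ha w hw, smul_zero]

lemma mem_perp {B : LinearMap.BilinForm F V} {W : Submodule F V} {x : V} :
    x ∈ perp B W ↔ ∀ w ∈ W, B x w = 0 := Iff.rfl

/-- The decomposition `W, W⊥`. -/
def pairD (B : LinearMap.BilinForm F V) (W : Submodule F V) : Fin 2 → Submodule F V :=
  ![W, perp B W]

lemma sup_perp [FiniteDimensional F V] {B : LinearMap.BilinForm F V} {W : Submodule F V}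
    (hW : ∀ v ∈ W, (∀ w ∈ W, B v w = 0) → v = 0) : W ⊔ perp B W = ⊤ := by
  obtain ⟨p, hp1, hp2⟩ := exists_proj B W hW
  rw [eq_top_iff]
  intro x _
  rw [Submodule.mem_sup]
  refine ⟨p x, hp1 x, x - p x, ?_, by abel⟩
  intro w hw
  rw [map_sub, LinearMap.sub_apply, hp2 x w hw, sub_self]

lemma perp_nondeg [FiniteDimensional F V] {B : LinearMap.BilinForm F V} (hB : B.IsAlt)
    {W : Submodule F V} (hndV : ∀ v, (∀ w, B v w = 0) → v = 0)
    (hW : ∀ v ∈ W, (∀ w ∈ W, B v w = 0) → v = 0) :
    ∀ v ∈ perp B W, (∀ w ∈ perp B W, B v w = 0) → v = 0 := by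
  intro v hv h
  apply hndV
  intro w
  have hw : w ∈ W ⊔ perp B W := by rw [sup_perp hW]; trivial
  obtain ⟨a, ha, b, hb, rfl⟩ := Submodule.mem_sup.1 hw
  rw [map_add, hv a ha, h b hb, add_zero]

lemma disj_perp {B : LinearMap.BilinForm F V} {W : Submodule F V}
    (hW : ∀ v ∈ W, (∀ w ∈ W, B v w = 0) → v = 0) : W ⊓ perp B W = ⊥ := by
  rw [eq_bot_iff]
  intro x hx
  exact hW x hx.1 hx.2

lemma finrank_perp [FiniteDimensional F V] {B : LinearMap.BilinForm F V} {W : Submodule F V}
    (hW : ∀ v ∈ W, (∀ w ∈ W, B v w = 0) → v = 0) :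
    finrank F W + finrank F (perp B W) = finrank F V := by
  have := Submodule.finrank_sup_add_finrank_inf_eq W (perp B W)
  rw [sup_perp hW, disj_perp hW, finrank_top, finrank_bot] at this
  omega

theorem overgroup [FiniteDimensional F V] (B : LinearMap.BilinForm F V) (hB : B.IsAlt)
    (hndV : ∀ v, (∀ w, B v w = 0) → v = 0) (W : Submodule F V)
    (hW : ∀ v ∈ W, (∀ w ∈ W, B v w = 0) → v = 0) (hW0 : W ≠ ⊥)
    (hdim : 2 * finrank F W < finrank F V)
    (M : Subgroup (V ≃ₗ[F] V)) (hMi : M ≤ isom B)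
    (hH : ∀ g ∈ isom B, (∀ w ∈ W, g w ∈ W) → g ∈ M)
    (hM : ∃ g ∈ M, ∃ w ∈ W, g w ∉ W) : isom B ≤ M := by
  classical
  have hP := perp_nondeg hB hndV hW
  have hfr := finrank_perp hW
  have hnd : ∀ i, ∀ v ∈ pairD B W i, (∀ w ∈ pairD B W i, B v w = 0) → v = 0 := by
    intro i; fin_cases i
    · exact hW
    · exact hP
  have horth : ∀ i j, i ≠ j → ∀ u ∈ pairD B W i, ∀ v ∈ pairD B W j, B u v = 0 := by
    intro i j hij u hu v hv
    fin_cases i <;> fin_cases j
    · exact absurd rfl hij
    · rw [← LinearMap.BilinForm.IsAlt.neg_eq hB v u]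
      have : B v u = 0 := hv u hu
      rw [this, neg_zero]
    · exact hu v hv
    · exact absurd rfl hij
  have hsup : iSup (pairD B W) = ⊤ := by
    rw [eq_top_iff, ← sup_perp hW]
    exact sup_le (le_iSup (pairD B W) 0) (le_iSup (pairD B W) 1)
  obtain ⟨p, h⟩ := exists_OD B (pairD B W) hnd horth hsup
  have hD : ∀ i, ∀ v ∈ pairD B W i, Cen B hB M v := by
    intro i v hv c
    apply hH _ (tr_mem_isom _ _ _ _)
    intro w hw
    rw [tr_apply]
    fin_cases i
    · exact W.add_mem hw (W.smul_mem _ hv)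
    · have h1 : B v w = 0 := hv w hw
      rw [← LinearMap.BilinForm.IsAlt.neg_eq hB v w, h1]
      simpa using hw
  have hnb : ∀ i, pairD B W i ≠ ⊥ := by
    intro i; fin_cases i
    · exact hW0
    · intro h0
      have h0' : perp B W = ⊥ := h0
      rw [h0', finrank_bot] at hfr
      omega
  by_cases hc : ∃ y, Cen B hB M y ∧ 1 < (h.supp y).card
  · obtain ⟨y, hy, hyc⟩ := hc
    have h2 : (h.supp y).card ≤ 2 := by
      have := Finset.card_le_univ (h.supp y)
      simpa using this
    have huniv : ∀ x, (h.supp x).card = 2 → h.supp x = Finset.univ := fun x hx =>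
      Finset.eq_univ_of_card _ (by simpa using hx)
    have := h.all_of_pairs hB hD (fun x hx => h.full hB hD hy x (by
      rw [huniv x hx, huniv y (by omega)]))
    exact isom_le_of_tr B hB hndV M (fun v c => this v c)
  · exfalso
    push Not at hc
    obtain ⟨g, hg, w, hw, hgw⟩ := hM
    obtain ⟨σ, hσ⟩ := h.permutes hB hMi hD hnb hc hg
    have h0 := hσ 0
    have h1 : σ 0 = 0 := by
      by_contra hne
      have h2 : σ 0 = 1 := by omega
      rw [h2] at h0
      have h3 : finrank F ((pairD B W 0).map (g : V →ₗ[F] V)) = finrank F (pairD B W 0) :=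
        LinearEquiv.finrank_map_eq g _
      rw [h0] at h3
      have h4 : finrank F (pairD B W 1) = finrank F (perp B W) := rfl
      have h5 : finrank F (pairD B W 0) = finrank F W := rfl
      omega
    rw [h1] at h0
    apply hgw
    have : g w ∈ (pairD B W 0).map (g : V →ₗ[F] V) := ⟨w, hw, rfl⟩
    rw [h0] at this
    exact this

theorem exists_not_stab [FiniteDimensional F V] (B : LinearMap.BilinForm F V) (hB : B.IsAlt)
    (W : Submodule F V)
    (hW : ∀ v ∈ W, (∀ w ∈ W, B v w = 0) → v = 0) (hW0 : W ≠ ⊥)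
    (hdim : finrank F W < finrank F V) : ∃ g ∈ isom B, ∃ w ∈ W, g w ∉ W := by
  have hfr := finrank_perp hW
  obtain ⟨u, hu, v, hv, huv⟩ := exists_hyp B W hW hW0
  have hne : perp B W ≠ ⊥ := by
    intro h0; rw [h0, finrank_bot] at hfr; omega
  obtain ⟨z, hz, hz0⟩ := Submodule.exists_mem_ne_zero_of_ne_bot hne
  have huz : B u z = 0 := by
    rw [← LinearMap.BilinForm.IsAlt.neg_eq hB z u, hz u hu, neg_zero]
  refine ⟨tr B hB (v + z) 1, tr_mem_isom _ _ _ _, u, hu, ?_⟩
  rw [tr_apply, map_add, huv, huz]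
  simp only [add_zero, one_mul, one_smul]
  intro hcon
  have h1 : z ∈ W := by
    have h2 : v + z ∈ W := (Submodule.add_mem_iff_right W hu).1 hcon
    exact (Submodule.add_mem_iff_right W hv).1 h2
  exact hz0 (hW z h1 hz)

end H95.SpPair
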