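import Mathlib
import Cfsg.Agent.Lib.H95.SpSing

set_option autoImplicit false

/-!
Overgroups of stabilisers of totally isotropic subspaces in the symplectic group.
-/

namespace H95.SpPar

open Module H95.SpBasic H95.SpGeom H95.SpOrthEven H95.SpSing

variable {F V : Type*} [Field F] [AddCommGroup V] [Module F V]

lemma double_perp [FiniteDimensional F V] {B : LinearMap.BilinForm F V} (hB : B.IsAlt)
    (hndV : ∀ v, (∀ w, B v w = 0) → v = 0) {W : Submodule F V} {x : V}
    (hx : ∀ y, (∀ w ∈ W, B y w = 0) → B x y = 0) : x ∈ W := by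
  by_contra hcon
  obtain ⟨f, hf, hf'⟩ := Submodule.exists_le_ker_of_notMem hcon
  obtain ⟨y, hy⟩ := surj_dual hndV f
  apply hf
  have h1 : B x y = 0 := hx y (fun w hw => by rw [hy]; exact hf' hw)
  rw [← hy x, ← LinearMap.BilinForm.IsAlt.neg_eq hB x y, h1, neg_zero]

theorem overgroup [FiniteDimensional F V] {B : LinearMap.BilinForm F V} (hB : B.IsAlt)
    (hndV : ∀ v, (∀ w, B v w = 0) → v = 0) {W : Submodule F V}
    (hW : ∀ x ∈ W, ∀ y ∈ W, B x y = 0)
    {M : Subgroup (V ≃ₗ[F] V)} (hMi : M ≤ isom B)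
    (hH : ∀ g ∈ isom B, (∀ w ∈ W, g w ∈ W) → g ∈ M) (hM : ∃ g ∈ M, ∃ w ∈ W, g w ∉ W) :
    isom B ≤ M := by
  set P := lperp B W with hP
  have hWP : ∀ w ∈ W, w ∈ P := fun w hw => mem_lperp.2 (fun u hu => hW w hw u hu)
  have hPcen : ∀ y ∈ P, Cen B hB M y := by
    intro y hy c
    apply hH _ (tr_mem_isom _ _ _ _)
    intro w hw
    have h1 : B y w = 0 := mem_lperp.1 hy w hw
    rw [tr_apply, ← LinearMap.BilinForm.IsAlt.neg_eq hB y w, h1]
    simpa using hw
  -- a centre outside P
  obtain ⟨v, hv, hvP⟩ : ∃ v, Cen B hB M v ∧ v ∉ P := by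
    by_contra hcon
    push Not at hcon
    obtain ⟨g, hg, w, hw, hgw⟩ := hM
    have hgi := hMi hg
    apply hgw
    apply double_perp hB hndV
    intro y hy
    -- y = g (g⁻¹ y), with g⁻¹ y ∈ P
    have h1 : Cen B hB M (g⁻¹ y) := (hPcen y (mem_lperp.2 hy)).map (M.inv_mem hg) (hMi (M.inv_mem hg))
    have h2 := mem_lperp.1 (hcon _ h1) w hw
    have h3 : g (g⁻¹ y) = y := g.apply_symm_apply y
    rw [← hgi, h3] at h2
    rw [← LinearMap.BilinForm.IsAlt.neg_eq hB y, h2, neg_zero]
  have hex : ∀ v, v ∉ P → ∃ w ∈ W, B v w ≠ 0 := by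
    intro v hv
    by_contra hcon
    push Not at hcon
    exact hv (mem_lperp.2 hcon)
  -- v + P consists of centres
  have hcoset : ∀ v, Cen B hB M v → v ∉ P → ∀ z ∈ P, Cen B hB M (v + z) := by
    intro v hv hvP z hz
    by_cases hvz : B v z = 0
    · obtain ⟨w, hw, hvw⟩ := hex v hvP
      have h1 : Cen B hB M (v + w) := by
        have := hv.add (hPcen w (hWP w hw)) hvw 1
        rwa [one_smul] at this
      have h2 : B w z = 0 := by
        rw [← LinearMap.BilinForm.IsAlt.neg_eq hB z w, mem_lperp.1 hz w hw, neg_zero]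
      have h3 : B (v + w) (z - w) ≠ 0 := by
        have h4 : B w w = 0 := hB w
        rw [map_add, LinearMap.add_apply, map_sub, map_sub, hvz, h2, h4]
        simpa using hvw
      have := h1.add (hPcen _ (P.sub_mem hz (hWP w hw))) h3 1
      have e : v + w + (1 : F) • (z - w) = v + z := by rw [one_smul]; abel
      rwa [e] at this
    · have := hv.add (hPcen z hz) hvz 1
      rwa [one_smul] at this
  have hdep : ∀ c : F, ∀ x, x ∉ P → x - c • v ∈ P → Cen B hB M x := by
    intro c x hx hxc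
    have hc : c ≠ 0 := by
      rintro rfl
      rw [zero_smul, sub_zero] at hxc
      exact hx hxc
    have h1 : c • v ∉ P := fun h => hvP ((Submodule.smul_mem_iff P hc).1 h)
    have := hcoset _ (hv.smul c) h1 _ hxc
    have e : c • v + (x - c • v) = x := by abel
    rwa [e] at this
  have hall : ∀ x, Cen B hB M x := by
    intro x
    by_cases hxP : x ∈ P
    · exact hPcen x hxP
    -- independence discussion
    by_cases hxv : x - v ∈ P
    · exact hdep 1 x hxP (by rwa [one_smul])
    obtain ⟨w1, hw1, hw1'⟩ := hex _ hxv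
    set w1' := (B (x - v) w1)⁻¹ • w1 with hw1d
    have hw1m : w1' ∈ W := W.smul_mem _ hw1
    have hw1e : B (x - v) w1' = 1 := by
      rw [hw1d, map_smul, smul_eq_mul, inv_mul_cancel₀ hw1']
    set a := B v w1' with ha
    by_cases hd : v - a • (x - v) ∈ P
    · have ha0 : a ≠ 0 := by
        intro h0
        rw [h0, zero_smul, sub_zero] at hd
        exact hvP hd
      refine hdep (a⁻¹ * (1 + a)) x hxP ?_
      have h5 := P.smul_mem (-a⁻¹) hd
      have e : -a⁻¹ • (v - a • (x - v)) = x - (a⁻¹ * (1 + a)) • v := by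
        have e1 : a⁻¹ * (1 + a) = a⁻¹ + 1 := by rw [mul_add, mul_one, inv_mul_cancel₀ ha0]
        rw [e1, smul_sub, smul_smul, neg_mul, inv_mul_cancel₀ ha0, add_smul, one_smul, neg_smul,
          neg_smul, one_smul]
        abel
      rwa [e] at h5
    · obtain ⟨w2, hw2, hw2'⟩ := hex _ hd
      set w := w2 - B (x - v) w2 • w1' with hw
      have hwm : w ∈ W := W.sub_mem hw2 (W.smul_mem _ hw1m)
      have e1 : B (x - v) w = 0 := by
        rw [hw, map_sub, map_smul, smul_eq_mul, hw1e, mul_one, sub_self]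
      have e2 : B v w ≠ 0 := by
        have : B v w = B (v - a • (x - v)) w2 := by
          rw [hw, map_sub, map_smul, smul_eq_mul, ← ha, map_sub B v, LinearMap.sub_apply,
            map_smul B, LinearMap.smul_apply, smul_eq_mul]
          ring
        rw [this]; exact hw2'
      -- normalise w
      set u := (B v w)⁻¹ • w with hu
      have hum : u ∈ W := W.smul_mem _ hwm
      have e3 : B v u = 1 := by rw [hu, map_smul, smul_eq_mul, inv_mul_cancel₀ e2]
      have e4 : B u (x - v) = 0 := by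
        rw [← LinearMap.BilinForm.IsAlt.neg_eq hB (x - v) u, hu, map_smul, e1, smul_zero, neg_zero]
      have hsM : sh B hB u (x - v) e4 ∈ M := by
        apply hH _ (sh_mem_isom _ _ _ _ _)
        intro p hp
        rw [sh_apply, hW p hp u hum, zero_smul, add_zero]
        exact W.add_mem hp (W.smul_mem _ hum)
      have h6 := hv.map hsM (hMi hsM)
      rw [sh_apply, e3, one_smul] at h6
      -- h6 : Cen (v + B v (x - v) • u + (x - v))
      have h7 : v + B v (x - v) • u + (x - v) ∉ P := by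
        intro h8
        have h9 : v + B v (x - v) • u + (x - v) = x + B v (x - v) • u := by abel
        rw [h9] at h8
        exact hxP ((Submodule.add_mem_iff_left P (P.smul_mem _ (hWP u hum))).1 h8)
      have h10 := hcoset _ h6 h7 (-(B v (x - v) • u)) (P.neg_mem (P.smul_mem _ (hWP u hum)))
      have e5 : v + B v (x - v) • u + (x - v) + -(B v (x - v) • u) = x := by abel
      rwa [e5] at h10
  exact isom_le_of_tr B hB hndV M (fun v c => hall v c)

theorem exists_not [FiniteDimensional F V] {B : LinearMap.BilinForm F V} (hB : B.IsAlt)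
    (hndV : ∀ v, (∀ w, B v w = 0) → v = 0) {W : Submodule F V}
    (hW : ∀ x ∈ W, ∀ y ∈ W, B x y = 0) (hW0 : W ≠ ⊥) :
    ∃ g ∈ isom B, ∃ w ∈ W, g w ∉ W := by
  obtain ⟨w, hw, hw0⟩ := Submodule.exists_mem_ne_zero_of_ne_bot hW0
  obtain ⟨z, hz⟩ : ∃ z, B w z ≠ 0 := by
    by_contra hcon; push Not at hcon; exact hw0 (hndV w hcon)
  refine ⟨tr B hB z 1, tr_mem_isom _ _ _ _, w, hw, ?_⟩
  rw [tr_apply, one_mul]
  intro h
  have h1 : B w z • z ∈ W := (Submodule.add_mem_iff_right W hw).1 h
  have h2 : z ∈ W := (Submodule.smul_mem_iff W hz).1 h1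
  exact hz (hW w hw z h2)

end H95.SpPar
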