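import Cfsg.Agent.Lib.H7.SpUni3

set_option autoImplicit false

/-!
Overgroups of the normaliser of a quadratic extension (unitary type) in symplectic groups, odd characteristic:
dimension at least ten (after helper7).
-/

namespace H95.SpUs

open Module QuadraticMap H48.QuadSplit H48.QuadWitt H95.OGeo H95.SpBasic H7.SpUni

variable {F V : Type*} [Field F] [AddCommGroup V] [Module F V]
variable {B : LinearMap.BilinForm F V} {J : V →ₗ[F] V} {ε : F} {M : Subgroup (V ≃ₗ[F] V)}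
variable [FiniteDimensional F V] [Finite F]

/-- isotropic vectors with given products with `z` and `J z` -/
lemma partnerS (h : SJ B J ε) (hn : 10 ≤ finrank F V) {z : V} (hz : z ≠ 0) (a b : F) :
    ∃ y, B y (J y) = 0 ∧ B z y = a ∧ B z (J y) = b := by
  have hli : LinearIndependent F ![z, J z] := by
    rw [LinearIndependent.pair_iff]
    intro s t hst
    exact h.ind hz hst
  obtain ⟨y, hy, hy'⟩ := dual_val (nd_NQ h) (k := 2) (by omega) hli ![2 * b, -(2 * ε * a)] 0
  have h0 : polar (NQ B J) y z = 2 * b := hy' 0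
  have h1 : polar (NQ B J) y (J z) = -(2 * ε * a) := hy' 1
  refine ⟨y, hy, ?_, ?_⟩
  · rw [polar_NQ h, h.sq, map_smul, smul_eq_mul] at h1
    rw [h.sw z y]
    have h2 : (2 * ε) * (B y z + a) = 0 := by linear_combination h1
    rcases mul_eq_zero.1 h2 with h3 | h3
    · exact absurd h3 (mul_ne_zero h.two h.e0)
    · linear_combination -h3
  · rw [polar_NQ h] at h0
    rw [h.sym z y]
    exact mul_left_cancel₀ h.two h0

/-- the torus -/
lemma torusS (h : SJ B J ε) (hM : HasU B J M) (hn : 10 ≤ finrank F V) {z : V} (hz : z ≠ 0)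
    (hzz : B z (J z) = 0) {p q : F} (hpq : p ≠ 0 ∨ q ≠ 0) :
    ∃ g ∈ M, g ∈ isom B ∧ g z = p • z + q • J z ∧ g (J z) = p • J z + (q * ε) • z := by
  obtain ⟨y, hyy, hzy, hzJy⟩ := partnerS h hn hz 1 0
  have hnn := h.norm hpq
  obtain ⟨n, hn'⟩ : ∃ n, n = p * p - ε * (q * q) := ⟨_, rfl⟩
  rw [← hn'] at hnn
  obtain ⟨p', hp'⟩ : ∃ p', p' = p / n := ⟨_, rfl⟩
  obtain ⟨q', hq'⟩ : ∃ q', q' = q / n := ⟨_, rfl⟩
  have hε := h.e0
  have hp1 : p' * p - ε * (q' * q) = 1 := by
    rw [hp', hq']; field_simp; rw [hn']; ring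
  have hp2 : p' * q = q' * p := by
    rw [hp', hq']; field_simp
  -- values
  have v1 : B y z = -1 := by rw [h.sw, hzy]
  have v2 : B (J y) z = 0 := by rw [h.sw, hzJy, neg_zero]
  have v3 : B (J z) y = 0 := by rw [h.adj, hzJy, neg_zero]
  have v4 : B y (J z) = 0 := by rw [h.sw, v3, neg_zero]
  have v5 : B (J z) (J y) = -ε := by rw [h.JJ, hzy, mul_one]
  have v6 : B (J y) (J z) = ε := by rw [h.sw, v5, neg_neg]
  have v7 : B (J z) z = 0 := by rw [h.sw, hzz, neg_zero]
  have v8 : B (J y) y = 0 := by rw [h.sw, hyy, neg_zero]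
  have v9 : B z z = 0 := h.alt z
  have v10 : B y y = 0 := h.alt y
  have v11 : B (J z) (J z) = 0 := h.alt _
  have v12 : B (J y) (J y) = 0 := h.alt _
  -- the linear map
  let G : V →ₗ[F] V := LinearMap.id + ((p - 1) • B.flip y - q • B.flip (J y)).smulRight z +
    (q • B.flip y - ((p - 1) / ε) • B.flip (J y)).smulRight (J z) +
    (-(p' - 1) • B.flip z + q' • B.flip (J z)).smulRight y +
    (-q' • B.flip z + ((p' - 1) / ε) • B.flip (J z)).smulRight (J y)
  have hG : ∀ v, G v = v + ((p - 1) * B v y - q * B v (J y)) • z + (q * B v y - (p - 1) / ε * B v (J y)) • J z +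
      (-(p' - 1) * B v z + q' * B v (J z)) • y + (-q' * B v z + (p' - 1) / ε * B v (J z)) • J y := fun v => rfl
  have hGi : ∀ u v, B (G u) (G v) = B u v := by
    intro u v
    have a1 : B z v = - B v z := h.sw _ _
    have a2 : B y v = - B v y := h.sw _ _
    have a3 : B (J z) v = - B v (J z) := h.sw _ _
    have a4 : B (J y) v = - B v (J y) := h.sw _ _
    rw [hG, hG]
    simp only [map_add, LinearMap.add_apply, map_smul, LinearMap.smul_apply, smul_eq_mul, hzy, hzJy, v1, v2, v3, v4,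
      v5, v6, v7, v8, v9, v10, v11, v12, hyy, hzz, a1, a2, a3, a4]
    field_simp
    linear_combination (ε * (B u (J y) * B v (J z)) - ε * (B u (J z) * B v (J y)) +
      ε ^ 2 * (B u z * B v y - B u y * B v z)) * hp1 + ε ^ 2 * (B u (J y) * B v z - B v (J z) * B u y +
      B u (J z) * B v y - B v (J y) * B u z) * hp2
  have hinj : Function.Injective G := by
    rw [← LinearMap.ker_eq_bot, LinearMap.ker_eq_bot']
    intro m hm
    apply h.nd
    intro w
    rw [← hGi, hm, map_zero, LinearMap.zero_apply]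
  obtain ⟨g, hg⟩ : ∃ g : V ≃ₗ[F] V, g = LinearEquiv.ofInjectiveEndo G hinj := ⟨_, rfl⟩
  have hgx : ∀ v, g v = G v := fun v => by rw [hg]; rfl
  have hgi : g ∈ isom B := by
    intro u v
    show B (g u) (g v) = B u v
    rw [hgx, hgx, hGi]
  refine ⟨g, hM g hgi ?_, hgi, ?_, ?_⟩
  · intro v
    rw [hgx, hgx, hG, hG]
    simp only [map_add, map_smul, h.sq, h.JJ]
    rw [h.adj v y, h.adj v z]
    match_scalars <;> field_simp <;> ring
  · rw [hgx, hG]
    rw [hzy, hzJy, v9, hzz]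
    module
  · rw [hgx, hG]
    rw [v3, v5, v7, v11]
    have e1 : (p - 1) / ε * -ε = -(p - 1) := by field_simp
    rw [e1]
    module

lemma cen_lineS (h : SJ B J ε) (hM : HasU B J M) (hn : 10 ≤ finrank F V) {z : V} (hz : z ≠ 0)
    (hzz : B z (J z) = 0) (hC : Cen B h.alt M z) (p q : F) : Cen B h.alt M (p • z + q • J z) := by
  by_cases hpq : p ≠ 0 ∨ q ≠ 0
  · obtain ⟨g, hg, hgi, hgz, -⟩ := torusS h hM hn hz hzz hpq
    rw [← hgz]
    exact hC.map hg hgi
  · push Not at hpq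
    rw [hpq.1, hpq.2, zero_smul, zero_smul, add_zero]
    exact Cen.zero _ _ _

lemma cen_stepS (h : SJ B J ε) (hM : HasU B J M) (hMB : M ≤ isom B) (hn : 10 ≤ finrank F V) {x y : V}
    (hC : Cen B h.alt M x) (hy : y ≠ 0)
    (hyy : B y (J y) = 0) (hxy : B x y ≠ 0 ∨ B x (J y) ≠ 0) : Cen B h.alt M y := by
  obtain ⟨g, hg, hgf⟩ := hM.el h hyy 1
  obtain ⟨p, hp⟩ : ∃ p, p = ε * B x y := ⟨_, rfl⟩
  obtain ⟨q, hq⟩ : ∃ q, q = - B x (J y) := ⟨_, rfl⟩
  have hpq : p ≠ 0 ∨ q ≠ 0 := by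
    rcases hxy with h1 | h1
    · left; rw [hp]; exact mul_ne_zero h.e0 h1
    · right; rw [hq]; exact neg_ne_zero.2 h1
  have hgx : g x = x + (p • y + q • J y) := by
    rw [hgf, hp, hq]; module
  have hxx : B x x = 0 := h.alt x
  have h1 : B (g x) x ≠ 0 := by
    rw [h.sw, hgx]
    apply neg_ne_zero.2
    have := h.norm' hxy
    intro h0
    apply this
    rw [map_add, map_add, map_smul, map_smul, hxx, hp, hq, smul_eq_mul, smul_eq_mul] at h0
    linear_combination h0
  have h2 := (hC.map hg (hMB hg)).add hC h1 (-1)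
  have h3 : g x + (-1 : F) • x = p • y + q • J y := by
    rw [hgx]; module
  rw [h3] at h2
  obtain ⟨a, b, hab⟩ := back h hpq y
  rw [hab]
  exact cen_lineS h hM hn (line_ne h hy hpq) (line_iso h hyy p q) h2 a b

/-- an overgroupS containing transvections at an isotropic vector is everything -/
theorem cen_isoS (h : SJ B J ε) (hM : HasU B J M) (hMB : M ≤ isom B) (hn : 10 ≤ finrank F V) {x : V}
    (hx : x ≠ 0) (hC : Cen B h.alt M x) : isom B ≤ M := by
  have key : ∀ y, y ≠ 0 → B y (J y) = 0 → Cen B h.alt M y := by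
    intro y hy hyy
    obtain ⟨z, hz, hzx, hzy⟩ := conn (nd_NQ h) (by omega) hx hy 0
    have hz0 : z ≠ 0 := by
      rintro rfl
      apply hzx
      rw [p_zero]
    rw [polar_NQ h] at hzx hzy
    have h1 : B x (J z) ≠ 0 := by
      rw [h.sym]; exact right_ne_zero_of_mul hzx
    have h2 : B z (J y) ≠ 0 := right_ne_zero_of_mul hzy
    exact cen_stepS h hM hMB hn (cen_stepS h hM hMB hn hC hz0 hz (Or.inr h1)) hy hyy (Or.inr h2)
  apply isom_le_of_tr B h.alt h.nd
  intro v
  change Cen B h.alt M v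
  by_cases hv : v = 0
  · rw [hv]; exact Cen.zero _ _ _
  by_cases hvv : B v (J v) = 0
  · exact key v hv hvv
  have hli : LinearIndependent F ![v, J v] := by
    rw [LinearIndependent.pair_iff]
    intro s t hst
    exact h.ind hv hst
  obtain ⟨y, hy, hy'⟩ := dual_val (nd_NQ h) (k := 2) (by omega) hli ![B v (J v), 2 * ε] 0
  have h0 : polar (NQ B J) y v = B v (J v) := hy' 0
  have h1 : polar (NQ B J) y (J v) = 2 * ε := hy' 1
  have h1' : B y v = 1 := by
    rw [polar_NQ h, h.sq, map_smul, smul_eq_mul] at h1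
    have h2 : (2 * ε) * (B y v - 1) = 0 := by linear_combination h1
    rcases mul_eq_zero.1 h2 with h3 | h3
    · exact absurd h3 (mul_ne_zero h.two h.e0)
    · linear_combination h3
  have hyy : B y y = 0 := h.alt y
  have hy0 : y ≠ 0 := by
    rintro rfl
    rw [map_zero, LinearMap.zero_apply] at h1'
    exact zero_ne_one h1'
  have hvy0 : v - y ≠ 0 := by
    intro h2
    rw [sub_eq_zero] at h2
    rw [h2, hyy] at h1'
    exact zero_ne_one h1'
  have h3 : B (v - y) (J (v - y)) = 0 := by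
    have : NQ B J (v - y) = 0 := by
      rw [Q_sub, hy, p_comm, h0, NQ_apply]
      ring
    exact this
  have h4 : B y (v - y) ≠ 0 := by
    rw [map_sub, hyy, h1', sub_zero]; exact one_ne_zero
  have h5 := (key y hy0 hy).add (key _ hvy0 h3) h4 1
  rw [one_smul, add_sub_cancel] at h5
  exact h5

/-- step 2a -/
lemma cen_of_elS (h : SJ B J ε) (hM : HasU B J M) (hMB : M ≤ isom B) (hn : 10 ≤ finrank F V) {z : V} (hz : z ≠ 0)
    (hzz : B z (J z) = 0) {α β : F} (hab : α ≠ 0 ∨ β ≠ 0) (hE : El B M z (J z) α β 0) : Cen B h.alt M z := by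
  have hzz' : B (J z) z = 0 := by rw [h.sw, hzz, neg_zero]
  have step : ∀ α β : F, El B M z (J z) α β 0 → ∀ t, El B M z (J z) (4 * ε * β * t) (α * t) 0 := by
    intro α β hE t
    obtain ⟨s, hs⟩ : ∃ s, s = t / 2 := ⟨_, rfl⟩
    have hst : t = 2 * s := by rw [hs]; field_simp [h.two]
    obtain ⟨g, hg, hgi, hgz, hgJ⟩ := torusS h hM hn hz hzz (p := 1) (q := s) (Or.inl one_ne_zero)
    obtain ⟨g', hg', hgi', hgz', hgJ'⟩ := torusS h hM hn hz hzz (p := 1) (q := -s) (Or.inl one_ne_zero)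
    have e1 := hE.conj hg hgi
    have e2 := hE.conj hg' hgi'
    rw [hgz, hgJ, add_comm ((1 : F) • J z)] at e1
    rw [hgz', hgJ', add_comm ((1 : F) • J z)] at e2
    have e3 := (e1.basis.add h.alt hzz hzz' (e2.basis.neg h.alt hzz hzz')).add h.alt hzz hzz'
      (hM.el h hzz (4 * β * s))
    have a1 : α * (1 * 1) + 2 * β * (1 * (s * ε)) + 0 * (s * ε * (s * ε)) +
        -(α * (1 * 1) + 2 * β * (1 * (-s * ε)) + 0 * (-s * ε * (-s * ε))) + 4 * β * s * ε = 4 * ε * β * t := by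
      rw [hst]; ring
    have a2 : α * (1 * s) + β * (1 * 1 + s * (s * ε)) + 0 * (s * ε * 1) +
        -(α * (1 * -s) + β * (1 * 1 + -s * (-s * ε)) + 0 * (-s * ε * 1)) + 0 = α * t := by
      rw [hst]; ring
    have a3 : α * (s * s) + 2 * β * (s * 1) + 0 * (1 * 1) + -(α * (-s * -s) + 2 * β * (-s * 1) + 0 * (1 * 1)) +
        -(4 * β * s) = 0 := by ring
    rw [a1, a2, a3] at e3
    exact e3
  have hk : α * α - ε * ((2 * β) * (2 * β)) ≠ 0 := h.norm (by
    rcases hab with h1 | h1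
    · exact Or.inl h1
    · exact Or.inr (mul_ne_zero h.two h1))
  have h4 : (4 : F) * ε ≠ 0 := by
    have : (4 : F) = 2 * 2 := by norm_num
    rw [this]
    exact mul_ne_zero (mul_ne_zero h.two h.two) h.e0
  intro c
  obtain ⟨u, hu⟩ : ∃ u, u * (α * α - ε * ((2 * β) * (2 * β))) = c := ⟨_, div_mul_cancel₀ _ hk⟩
  obtain ⟨w, hw⟩ : ∃ w, 4 * ε * w = α * u := ⟨_, mul_div_cancel₀ _ h4⟩
  have e1 := step _ _ (step α β hE 1) w
  have e2 := step α β hE (-β * u)
  have e3 := e1.add h.alt hzz hzz' e2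
  have b1 : 4 * ε * (α * 1) * w + 4 * ε * β * (-β * u) = c := by
    linear_combination α * hw + hu
  have b2 : 4 * ε * β * 1 * w + α * (-β * u) = 0 := by
    linear_combination β * hw
  rw [b1, b2, add_zero] at e3
  exact e3.tr h.alt

/-- an isotropic pair orthogonal to a hyperbolic plane -/
lemma pairS (h : SJ B J ε) (hn : 10 ≤ finrank F V) {e e' : V} (hJe : B e (J e) = 0) (hee' : B e e' = 1) :
    ∃ u1 u2 : V, B u1 (J u1) = 0 ∧ B u2 (J u2) = 0 ∧ B u2 u1 ≠ 0 ∧
      B e u1 = 0 ∧ B e (J u1) = 0 ∧ B e' u1 = 0 ∧ B e' (J u1) = 0 ∧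
      B e u2 = 0 ∧ B e (J u2) = 0 ∧ B e' u2 = 0 ∧ B e' (J u2) = 0 := by
  have hε := h.e0
  obtain ⟨E, hE⟩ : ∃ E : Submodule F V, E = Submodule.span F (Set.range ![e, J e, e', J e']) := ⟨_, rfl⟩
  obtain ⟨P, hP⟩ : ∃ P : Submodule F V, P = orth (NQ B J) E := ⟨_, rfl⟩
  have hmemP : ∀ u, u ∈ P ↔ B e u = 0 ∧ B e (J u) = 0 ∧ B e' u = 0 ∧ B e' (J u) = 0 := by
    intro u
    rw [hP, mem_orth, hE]
    constructor
    · intro hu
      have k0 : polar (NQ B J) e u = 0 := hu e (Submodule.subset_span ⟨0, rfl⟩)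
      have k1 : polar (NQ B J) (J e) u = 0 := hu (J e) (Submodule.subset_span ⟨1, rfl⟩)
      have k2 : polar (NQ B J) e' u = 0 := hu e' (Submodule.subset_span ⟨2, rfl⟩)
      have k3 : polar (NQ B J) (J e') u = 0 := hu (J e') (Submodule.subset_span ⟨3, rfl⟩)
      rw [polar_NQ h] at k0 k1 k2 k3
      rw [h.JJ] at k1 k3
      refine ⟨?_, (mul_eq_zero.1 k0).resolve_left h.two, ?_, (mul_eq_zero.1 k2).resolve_left h.two⟩
      · exact (mul_eq_zero.1 (neg_eq_zero.1 ((mul_eq_zero.1 k1).resolve_left h.two))).resolve_left hε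
      · exact (mul_eq_zero.1 (neg_eq_zero.1 ((mul_eq_zero.1 k3).resolve_left h.two))).resolve_left hε
    · rintro ⟨k0, k1, k2, k3⟩ s hs
      induction hs using Submodule.span_induction with
      | mem s hs =>
        obtain ⟨i, rfl⟩ := hs
        fin_cases i
        · show polar (NQ B J) e u = 0
          rw [polar_NQ h, k1, mul_zero]
        · show polar (NQ B J) (J e) u = 0
          rw [polar_NQ h, h.JJ, k0]; ring
        · show polar (NQ B J) e' u = 0
          rw [polar_NQ h, k3, mul_zero]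
        · show polar (NQ B J) (J e') u = 0
          rw [polar_NQ h, h.JJ, k2]; ring
      | zero => exact p_zero _ _
      | add a b _ _ ha hb => rw [p_add, ha, hb, add_zero]
      | smul a b _ hb => rw [p_smul, hb, mul_zero]
  have hJP : ∀ u ∈ P, J u ∈ P := by
    intro u hu
    rw [hmemP] at hu ⊢
    obtain ⟨k0, k1, k2, k3⟩ := hu
    rw [h.sq, map_smul, map_smul, k0, k2]
    exact ⟨k1, smul_zero _, k3, smul_zero _⟩
  obtain ⟨s, hs⟩ : ∃ s, s = B e' (J e) := ⟨_, rfl⟩
  have hsε : s * s - ε ≠ 0 := fun h0 => h.ns s (by linear_combination h0)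
  have hs' : B e (J e') = s := by rw [h.sym, hs]
  have hee : B e e = 0 := h.alt e
  have he'e : B e' e = -1 := by rw [h.sw, hee']
  have hspan : ∀ x ∈ E, ∃ a b c d : F, x = a • e + b • J e + c • e' + d • J e' := by
    intro x hx
    rw [hE] at hx
    obtain ⟨c, rfl⟩ := (Submodule.mem_span_range_iff_exists_fun F).1 hx
    refine ⟨c 0, c 1, c 2, c 3, ?_⟩
    rw [Fin.sum_univ_four]
    rfl
  have hPnd : ND ((NQ B J).restrict P) := by
    intro x hx
    have hxE : (x : V) ∈ E := by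
      rw [← orth_orth (nd_NQ h) E, ← hP, mem_orth]
      intro y hy
      have := hx ⟨y, hy⟩
      rw [p_comm]
      exact this
    obtain ⟨a, b, c, d, hx'⟩ := hspan x hxE
    obtain ⟨k0, k1, k2, k3⟩ := (hmemP x).1 x.2
    have z1 : B e (J e) = 0 := hJe
    rw [hx'] at k0 k1
    simp only [map_add, map_smul, smul_eq_mul, h.sq, hee, hJe, hee', hs'] at k0 k1
    have hd : d = 0 := by
      have : d * (s * s - ε) = 0 := by linear_combination s * k0 - k1
      exact (mul_eq_zero.1 this).resolve_right hsε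
    have hc : c = 0 := by rw [hd] at k0; linear_combination k0
    rw [hx', hc, hd] at k2 k3
    simp only [map_add, map_smul, smul_eq_mul, h.sq, he'e, ← hs, zero_smul, add_zero] at k2 k3
    have hb : b = 0 := by
      have : b * (s * s - ε) = 0 := by linear_combination s * k2 + k3
      exact (mul_eq_zero.1 this).resolve_right hsε
    have ha : a = 0 := by rw [hb] at k2; linear_combination -k2
    apply Subtype.ext
    rw [hx', ha, hb, hc, hd]
    simp
  have hfin : 6 ≤ finrank F P := by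
    have h1 := finrank_orth (nd_NQ h) E
    have h2 : finrank F E ≤ 4 := by
      rw [hE]
      have := finrank_range_le_card (R := F) ![e, J e, e', J e']
      rw [Fintype.card_fin] at this
      exact this
    rw [← hP] at h1
    omega
  obtain ⟨u1, -, hu1, hq1⟩ := exists_sing ((NQ B J).restrict P) (U := ⊤) (by rw [finrank_top]; omega)
  have hJu : (⟨J u1, hJP u1 u1.2⟩ : P) ≠ 0 := by
    intro h0
    apply hu1
    apply Subtype.ext
    exact h.J_inj (congrArg Subtype.val h0)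
  obtain ⟨u2, hu2, hu2'⟩ := dual_val hPnd (k := 1) (by omega) (x := ![⟨J u1, hJP u1 u1.2⟩])
    (LinearIndependent.of_subsingleton 0 hJu) ![1] 0
  obtain ⟨k0, k1, k2, k3⟩ := (hmemP u1).1 u1.2
  obtain ⟨l0, l1, l2, l3⟩ := (hmemP u2).1 u2.2
  refine ⟨u1, u2, hq1, hu2, ?_, k0, k1, k2, k3, l0, l1, l2, l3⟩
  have h1 : polar (NQ B J) (u2 : V) (J u1) = 1 := hu2' 0
  rw [polar_NQ h, h.sq, map_smul, smul_eq_mul] at h1
  intro h0
  rw [h0, mul_zero, mul_zero] at h1
  exact zero_ne_one h1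

/-- step 2b, the field with three elements -/
lemma cen_of_two3S (h : SJ B J ε) {J' : V →ₗ[F] V} (h' : SJ B J' ε) (hM : HasU B J M) (hM' : HasU B J' M)
    (hMB : M ≤ isom B) (hn : 10 ≤ finrank F V) {x : V}
    (hx : B x (J x) = 0) (hx' : B x (J' x) = 0) (hκ : B (J x) (J' x) ≠ 0) (h3 : ∀ a : F, a ≠ 0 → a * a = 1) :
    Cen B h.alt M (J x) := by
  have t3 : (3 : F) = 0 := by linear_combination h3 2 h.two
  obtain ⟨κ, hκd⟩ : ∃ κ, κ = B (J x) (J' x) := ⟨_, rfl⟩
  rw [← hκd] at hκ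
  have hκ2 := h3 κ hκ
  have hε2 := h3 ε h.e0
  obtain ⟨e, he⟩ : ∃ e, e = J x := ⟨_, rfl⟩
  obtain ⟨f, hf⟩ : ∃ f, f = J' x := ⟨_, rfl⟩
  have hxx : B x x = 0 := h.alt x
  have hee : B e e = 0 := h.alt e
  have hff : B f f = 0 := h.alt f
  have hxe : B x e = 0 := by rw [he, hx]
  have hxf : B x f = 0 := by rw [hf, hx']
  have hex : B e x = 0 := by rw [h.sw, hxe, neg_zero]
  have hfx : B f x = 0 := by rw [h.sw, hxf, neg_zero]
  have hef : B e f = κ := by rw [he, hf, hκd]
  have hfe : B f e = -κ := by rw [h.sw, hef]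
  obtain ⟨g0, hg0, hg0f⟩ := hM.el h hx 1
  obtain ⟨g1, hg1, hg1f⟩ := hM'.el h' hx' 1
  rw [← he] at hg0f
  rw [← hf] at hg1f
  obtain ⟨n, hn'⟩ : ∃ n, n = g0 * g1 * g0 := ⟨_, rfl⟩
  have hnM : n ∈ M := by rw [hn']; exact M.mul_mem (M.mul_mem hg0 hg1) hg0
  have hnf : ∀ y, n y = y - (B y e + κ * B y f) • e - (B y f - κ * B y e) • f := by
    intro y
    rw [hn']
    show g0 (g1 (g0 y)) = _
    rw [hg0f, hg1f, hg0f]
    simp only [map_add, LinearMap.add_apply, map_smul, LinearMap.smul_apply, smul_eq_mul, hxx, hee, hff, hxe, hxf,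
      hex, hfx, hef, hfe]
    match_scalars
    · ring
    · linear_combination ε * B y x * t3
    · linear_combination B y e * hκ2
    · ring
  obtain ⟨e', he'⟩ : ∃ e', e' = κ • f := ⟨_, rfl⟩
  have hee' : B e e' = 1 := by rw [he', map_smul, smul_eq_mul, hef, hκ2]
  have he'e : B e' e = -1 := by rw [h.sw, hee']
  have he'e' : B e' e' = 0 := h.alt e'
  have hrf : ∀ y, (n * n) y = y + B y e' • e - B y e • e' := by
    intro y
    show n (n y) = _
    rw [hnf (n y), hnf y, he']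
    simp only [map_sub, LinearMap.sub_apply, map_smul, LinearMap.smul_apply, smul_eq_mul, hee, hff, hef, hfe]
    match_scalars
    · ring
    · linear_combination (-κ * B y f) * t3 + (2 * B y e + κ * B y f) * hκ2
    · linear_combination (κ * B y e) * t3 + (2 * B y f - κ * B y e) * hκ2
  have hrM : n * n ∈ M := M.mul_mem hnM hnM
  obtain ⟨r, hr⟩ : ∃ r, r = n * n := ⟨_, rfl⟩
  rw [← hr] at hrf hrM
  have key : ∀ w, B w (J w) = 0 → B e w = 0 → B e (J w) = 0 → B e' w = ε → B e' (J w) = 0 →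
      El B M e w (-ε) 1 0 := by
    intro w hw h1 h2 h3 h4
    obtain ⟨g, hg, hgf⟩ := hM.el h hw 1
    have hge : g e = e := by rw [hgf, h1, h2]; module
    have hge' : g e' = e' + w := by
      rw [hgf, h3, h4, show (1 * ε * ε + 0 * 0 : F) = 1 by linear_combination hε2]; module
    refine ⟨g * r * g⁻¹ * r, M.mul_mem (M.mul_mem (M.mul_mem hg hrM) (M.inv_mem hg)) hrM, fun y => ?_⟩
    have hs : ∀ y, (g * r * g⁻¹) y = y + B y (e' + w) • e - B y e • (e' + w) := by
      intro y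
      show g (r (g⁻¹ y)) = _
      rw [hrf, map_sub, map_add, map_smul, map_smul, apply_inv, ← isom_inv' (hMB hg), ← isom_inv' (hMB hg), hge, hge']
    show (g * r * g⁻¹) (r y) = _
    rw [hs, hrf]
    simp only [map_add, map_sub, LinearMap.add_apply, LinearMap.sub_apply, map_smul, LinearMap.smul_apply,
      smul_eq_mul, hee, hee', he'e, he'e', h1, h3]
    match_scalars
    · ring
    · linear_combination (B y e') * t3
    · linear_combination (-B y e) * t3
    · linear_combination (-B y e) * t3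
  have hε := h.e0
  have hJe : B e (J e) = 0 := by rw [he, h.sq, map_smul, smul_eq_mul, h.sw, hx]; ring
  have he0 : e ≠ 0 := by
    rintro h0
    rw [h0, map_zero, LinearMap.zero_apply] at hee'
    exact zero_ne_one hee'
  obtain ⟨u1, u2, hu1, hu2, hu12, p1, p2, p3, p4, q1, q2, q3, q4⟩ := pairS h hn hJe hee'
  obtain ⟨s, hs⟩ : ∃ s, s = B e' (J e) := ⟨_, rfl⟩
  have hsε : s * s - ε ≠ 0 := fun h0 => h.ns s (by linear_combination h0)
  obtain ⟨p, hp⟩ : ∃ p, p * (s * s - ε) = ε * ε := ⟨ε * ε / (s * s - ε), div_mul_cancel₀ _ hsε⟩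
  obtain ⟨q, hq⟩ : ∃ q, q * ε = p * s := ⟨p * s / ε, div_mul_cancel₀ _ hε⟩
  have hJe' : B (J e) e = 0 := by rw [h.sw, hJe, neg_zero]
  have hJJ : B (J e) (J e) = 0 := h.alt _
  have hwv : ∀ u, B u (J u) = 0 → B e u = 0 → B e (J u) = 0 → B e' u = 0 → B e' (J u) = 0 →
      B (p • e + q • J e + u) (J (p • e + q • J e + u)) = 0 ∧ B e (p • e + q • J e + u) = 0 ∧
      B e (J (p • e + q • J e + u)) = 0 ∧ B e' (p • e + q • J e + u) = ε ∧
      B e' (J (p • e + q • J e + u)) = 0 := by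
    intro u k0 k1 k2 k3 k4
    have k5 : B (J e) u = 0 := by rw [h.adj, k2, neg_zero]
    have k6 : B (J e) (J u) = 0 := by rw [h.JJ, k1, mul_zero, neg_zero]
    have k7 : B u e = 0 := by rw [h.sw, k1, neg_zero]
    have k8 : B u (J e) = 0 := by rw [h.sw, k5, neg_zero]
    simp only [map_add, LinearMap.add_apply, map_smul, LinearMap.smul_apply, smul_eq_mul, h.sq, hee, hJe, hJe', hJJ,
      k0, k1, k2, k3, k4, k5, k6, k7, k8, ← hs, he'e]
    refine ⟨by ring, by ring, by ring, ?_, ?_⟩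
    · apply mul_right_cancel₀ hε
      linear_combination s * hq + hp
    · linear_combination -hq
  obtain ⟨w1, hw1d⟩ : ∃ w, w = p • e + q • J e + u1 := ⟨_, rfl⟩
  obtain ⟨w2, hw2d⟩ : ∃ w, w = p • e + q • J e + u2 := ⟨_, rfl⟩
  obtain ⟨hw1, a1, a2, a3, a4⟩ := hwv u1 hu1 p1 p2 p3 p4
  obtain ⟨hw2, b1, b2, b3, b4⟩ := hwv u2 hu2 q1 q2 q3 q4
  rw [← hw1d] at hw1 a1 a2 a3 a4
  rw [← hw2d] at hw2 b1 b2 b3 b4
  have hm : B w2 w1 ≠ 0 := by
    have k5 : B (J e) u1 = 0 := by rw [h.adj, p2, neg_zero]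
    have k7 : B u2 e = 0 := by rw [h.sw, q1, neg_zero]
    have k8 : B u2 (J e) = 0 := by rw [h.sym, q2]
    rw [hw1d, hw2d]
    simp only [map_add, LinearMap.add_apply, map_smul, LinearMap.smul_apply, smul_eq_mul, hee, hJe, hJe', hJJ,
      p1, k5, k7, k8]
    intro h0
    apply hu12
    linear_combination h0
  obtain ⟨m, hmd⟩ : ∃ m, m = B w2 w1 := ⟨_, rfl⟩
  rw [← hmd] at hm
  have E1 := key w1 hw1 a1 a2 a3 a4
  have E2 := key w2 hw2 b1 b2 b3 b4
  obtain ⟨g, hg, hgf⟩ := E1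
  have c1 : B w1 e = 0 := by rw [h.sw, a1, neg_zero]
  have c2 : B w2 e = 0 := by rw [h.sw, b1, neg_zero]
  have hge : g e = e := by rw [hgf, hee, a1]; module
  have hgw : g w2 = m • e + w2 := by
    rw [hgf, c2, ← hmd]; module
  have E3 := E2.conj hg (hMB hg)
  rw [hge, hgw] at E3
  have E4 : El B M e w2 _ _ _ := El.basis (p := 1) (q := 0) (r := m) (s := 1) (by
    rw [one_smul, zero_smul, add_zero, one_smul]; exact E3)
  have E5 := (E4.add h.alt b1 c2 (E2.neg h.alt b1 c2))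
  have d1 : -ε * (1 * 1) + 2 * 1 * (1 * m) + 0 * (m * m) + - -ε = 2 * m := by ring
  have d2 : -ε * (1 * 0) + 1 * (1 * 1 + 0 * m) + 0 * (m * 1) + -1 = 0 := by ring
  have d3 : -ε * (0 * 0) + 2 * 1 * (0 * 1) + 0 * (1 * 1) + -0 = 0 := by ring
  rw [d1, d2, d3] at E5
  intro c
  by_cases hc : c = 0
  · rw [hc, tr_zero]; exact M.one_mem
  have hc2 := h3 c hc
  have hm2 := h3 (2 * m) (mul_ne_zero h.two hm)
  have : (c - 2 * m) * (c + 2 * m) = 0 := by linear_combination hc2 - hm2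
  rw [← he]
  rcases mul_eq_zero.1 this with h1 | h1
  · rw [sub_eq_zero.1 h1]
    exact E5.tr h.alt
  · rw [eq_neg_of_add_eq_zero_left h1]
    have := (E5.neg h.alt b1 c2)
    rw [neg_zero] at this
    exact this.tr h.alt

/-- an isotropic vector not killed by two nonzero maps -/
lemma exists_isoS (h : SJ B J ε) (hn : 10 ≤ finrank F V) {A A' : V →ₗ[F] V} (hA : ∃ v, A v ≠ 0)
    (hA' : ∃ v, A' v ≠ 0) : ∃ x, B x (J x) = 0 ∧ A x ≠ 0 ∧ A' x ≠ 0 := by
  have key : ∀ A : V →ₗ[F] V, (∃ v, A v ≠ 0) → ∃ z, z ≠ 0 ∧ ∀ x, polar (NQ B J) x z ≠ 0 → A x ≠ 0 := by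
    rintro A ⟨v, hv⟩
    obtain ⟨φ, hφ⟩ : ∃ φ : Module.Dual F V, φ (A v) ≠ 0 := by
      by_contra hcon
      push Not at hcon
      exact hv ((Module.forall_dual_apply_eq_zero_iff F _).1 hcon)
    obtain ⟨z, hz⟩ := exists_represent (nd_iff.1 (nd_NQ h)) (φ ∘ₗ A)
    refine ⟨z, ?_, fun x hx h0 => ?_⟩
    · rintro rfl
      apply hφ
      have := hz v
      rw [p_zero'] at this
      exact this.symm
    · apply hx
      rw [hz, LinearMap.comp_apply, h0, map_zero]
  obtain ⟨z, hz, hz'⟩ := key A hA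
  obtain ⟨w, hw, hw'⟩ := key A' hA'
  obtain ⟨x, hx, hxz, hxw⟩ := conn (nd_NQ h) (by omega) hz hw 0
  exact ⟨x, hx, hz' x hxz, hw' x hxw⟩

/-- maximality of the normaliser -/
theorem overgroupS (h : SJ B J ε) (hM : HasU B J M) (hMB : M ≤ isom B) (hn : 10 ≤ finrank F V)
    (hg : ∃ g ∈ M, (∃ v, g (J v) ≠ J (g v)) ∧ ∃ v, g (J v) ≠ - J (g v)) : isom B ≤ M := by
  obtain ⟨g, hg, ⟨v, hv⟩, ⟨v', hv'⟩⟩ := hg
  obtain ⟨x0, hx0, hA, hA'⟩ := exists_isoS h hn (A := (g : V →ₗ[F] V) ∘ₗ J - J ∘ₗ g)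
    (A' := (g : V →ₗ[F] V) ∘ₗ J + J ∘ₗ g) ⟨v, sub_ne_zero.2 hv⟩ ⟨v', fun h0 => hv' (eq_neg_of_add_eq_zero_left h0)⟩
  change g (J x0) - J (g x0) ≠ 0 at hA
  change g (J x0) + J (g x0) ≠ 0 at hA'
  have hx00 : x0 ≠ 0 := by
    rintro rfl
    rw [map_zero, map_zero, map_zero, sub_zero] at hA
    exact hA rfl
  obtain ⟨z, hz⟩ : ∃ z, z = g x0 := ⟨_, rfl⟩
  obtain ⟨w, hw⟩ : ∃ w, w = g (J x0) := ⟨_, rfl⟩
  rw [← hz, ← hw] at hA hA'
  have hgi := hMB hg
  have hzw : B z w = 0 := by rw [hz, hw, hgi, hx0]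
  have hwz : B w z = 0 := by rw [h.sw, hzw, neg_zero]
  have hEl : ∀ c, El B M z w (c * ε) 0 (-c) := by
    intro c
    have := (hM.el h hx0 c).conj hg hgi
    rwa [← hz, ← hw] at this
  have hind : ∀ a b : F, a • z + b • w = 0 → a = 0 ∧ b = 0 := by
    intro a b hab
    rw [hz, hw, ← map_smul, ← map_smul, ← map_add] at hab
    exact h.ind hx00 ((LinearEquiv.map_eq_zero_iff g).1 hab)
  have hz0 : z ≠ 0 := by
    intro h0
    have := hind 1 0 (by rw [h0, smul_zero, zero_smul, add_zero])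
    exact one_ne_zero this.1
  by_cases hcase : ∃ a b : F, w = a • z + b • J z
  · obtain ⟨a, b, hab⟩ := hcase
    have hb : b ≠ 0 := by
      rintro rfl
      have := hind a (-1) (by rw [hab]; module)
      exact neg_ne_zero.2 one_ne_zero this.2
    have hzz : B z (J z) = 0 := by
      rw [hab, map_add, map_smul, map_smul, h.alt z, smul_zero, zero_add, smul_eq_mul] at hzw
      exact (mul_eq_zero.1 hzw).resolve_left hb
    have hzz' : B (J z) z = 0 := by rw [h.sw, hzz, neg_zero]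
    have E1 : El B M z (J z) _ _ _ := El.basis (p := 1) (q := 0) (r := a) (s := b) (by
      rw [one_smul, zero_smul, add_zero, ← hab]; exact hEl 1)
    have E2 := E1.add h.alt hzz hzz' (hM.el h hzz (-(b * b)))
    have d1 : 1 * ε * (1 * 1) + 2 * 0 * (1 * a) + -1 * (a * a) + -(b * b) * ε = ε - a * a - b * b * ε := by ring
    have d2 : 1 * ε * (1 * 0) + 0 * (1 * b + 0 * a) + -1 * (a * b) + 0 = -(a * b) := by ring
    have d3 : 1 * ε * (0 * 0) + 2 * 0 * (0 * b) + -1 * (b * b) + - -(b * b) = 0 := by ring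
    rw [d1, d2, d3] at E2
    refine cen_isoS h hM hMB hn hz0 (cen_of_elS h hM hMB hn hz0 hzz ?_ E2)
    by_contra hcon
    push Not at hcon
    obtain ⟨e1, e2⟩ := hcon
    have ha : a = 0 := by
      have := neg_eq_zero.1 e2
      exact (mul_eq_zero.1 this).resolve_right hb
    rw [ha] at e1
    have e3 : ε * ((1 - b) * (1 + b)) = 0 := by linear_combination e1
    rcases mul_eq_zero.1 ((mul_eq_zero.1 e3).resolve_left h.e0) with e4 | e4
    · apply hA
      rw [hab, ha, ← sub_eq_zero.1 e4]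
      module
    · apply hA'
      rw [hab, ha, show b = -1 by linear_combination e4]
      module
  · push Not at hcase
    obtain ⟨g1, hg1, hg1f⟩ := hEl 1
    have hg1i := hMB hg1
    have hli : LinearIndependent F ![J z, J w, z] := by
      rw [Fintype.linearIndependent_iff]
      intro c hc
      rw [Fin.sum_univ_three] at hc
      simp only [Matrix.cons_val_zero, Matrix.cons_val_one, Matrix.cons_val] at hc
      have hc' := congrArg J hc
      simp only [map_add, map_smul, h.sq, map_zero] at hc'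
      have hc1 : c 1 = 0 := by
        by_contra hc1
        apply hcase (-(c 0 / c 1)) (-(c 2 / (c 1 * ε)))
        have h1 : w = (c 1 * ε)⁻¹ • (c 1 • ε • w) := by
          rw [smul_smul, smul_smul, mul_assoc, inv_mul_cancel₀ (mul_ne_zero hc1 h.e0), one_smul]
        rw [h1, show c 1 • ε • w = -(c 0 • ε • z) - c 2 • J z by
          rw [← sub_eq_zero, ← hc']; abel]
        have hε := h.e0
        match_scalars <;> field_simp
      rw [hc1, zero_smul, add_zero, add_comm] at hc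
      have := h.ind hz0 hc
      intro i
      fin_cases i
      · exact this.2
      · exact hc1
      · exact this.1
    obtain ⟨x, hx, hx'⟩ := dual_val (nd_NQ h) (k := 3) (by omega) hli ![0, 0, 1] 0
    have x0' : polar (NQ B J) x (J z) = 0 := hx' 0
    have x1 : polar (NQ B J) x (J w) = 0 := hx' 1
    have x2 : polar (NQ B J) x z = 1 := hx' 2
    rw [polar_NQ h, h.sq, map_smul, smul_eq_mul] at x0' x1
    rw [polar_NQ h] at x2
    have hxz : B x z = 0 := (mul_eq_zero.1 ((mul_eq_zero.1 x0').resolve_left h.two)).resolve_left h.e0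
    have hxw : B x w = 0 := (mul_eq_zero.1 ((mul_eq_zero.1 x1).resolve_left h.two)).resolve_left h.e0
    have hx2 : B (J x) z ≠ 0 := by
      rw [h.adj]
      intro h0
      rw [neg_eq_zero.1 h0, mul_zero] at x2
      exact zero_ne_one x2
    have hg1x : g1 x = x := by rw [hg1f, hxz, hxw]; module
    have hg1x' : g1⁻¹ x = x := by
      apply g1.injective
      rw [apply_inv, hg1x]
    have hxx : B x (J x) = 0 := hx
    have hJ'x : cj J g1 x = g1 (J x) := by rw [cj_apply, hg1x']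
    have hxx' : B x (cj J g1 x) = 0 := by rw [hJ'x, isom_inv' hg1i, hg1x', hxx]
    have hκ : B (J x) (cj J g1 x) ≠ 0 := by
      have := h.norm' (Or.inl hx2 : B (J x) z ≠ 0 ∨ B (J x) w ≠ 0)
      intro h0
      apply this
      rw [hJ'x, hg1f] at h0
      simp only [map_add, map_smul, smul_eq_mul, h.alt (J x)] at h0
      linear_combination h0
    have hx00 : x ≠ 0 := by
      rintro rfl
      rw [map_zero, map_zero, LinearMap.zero_apply] at hx2
      exact hx2 rfl
    by_cases h3 : ∃ a : F, a ≠ 0 ∧ a * a ≠ 1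
    · exact cen_isoS h hM hMB hn hx00 (cen_of_two h (h.cj hg1i) hM (hM.cj hg1 hg1i) hMB hxx hxx' hκ h3)
    · push Not at h3
      exact cen_isoS h hM hMB hn (fun h0 => hx00 (h.J_inj h0))
        (cen_of_two3S h (h.cj hg1i) hM (hM.cj hg1 hg1i) hMB hn hxx hxx' hκ h3)

end H95.SpUs
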