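import Cfsg.Agent.Lib.H7.ExtBr
import Cfsg.Agent.Lib.H7.ExtSp3
import Cfsg.Agent.Lib.H7.SpUniB
import Cfsg.Agent.Lib.H95.Bridge
import Cfsg.Agent.Lib.H95.Bridge2
import Cfsg.Agent.Lib.H95.RatBridge
import Cfsg.Agent.Lib.H95.SpBasic
import Cfsg.Agent.Lib.H95.SpOrthEven
import Cfsg.Agent.Lib.H95.SpPair
import Cfsg.Agent.Lib.H95.SpPar
import Cfsg.Agent.Lib.H95.SpSing
import Cfsg.Agent.Lib.H95.SpUs
import Cfsg.Agent.Lib.H95.SpWreath

set_option autoImplicit false

/-!
Maximal subgroups of symplectic groups of small rank: the generic families with weaker bounds.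
-/

namespace H95.SpSmall

open Cfsg

section
open H95.Bridge H95.SpBasic Module

theorem par_max {F : Type*} [Field F] [Fintype F] (m : ℕ) (hm : 3 ≤ m) (W : Submodule F (Fin m ⊕ Fin m → F)) (hW0 : W ≠ ⊥) (hW : Cfsg.Geo.IsTotallySingularFor (Cfsg.sympForm m F) W) : Cfsg.Geo.IsMaximalIn (Cfsg.spGL m F) (Cfsg.Geo.subspaceStabilizer W ⊓ Cfsg.spGL m F) := by
  set B := spB m F with hBdef
  have hB : B.IsAlt := spB_isAlt m F
  have hndV : ∀ v, (∀ w, B v w = 0) → v = 0 := spB_nondeg m F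
  have hWi : ∀ x ∈ W, ∀ y ∈ W, B x y = 0 := fun x hx y hy => by
    rw [hBdef, spB_apply]; exact hW x hx y hy
  have hmem : ∀ g : GL (Fin m ⊕ Fin m) F, g ∈ spGL m F ↔ toEq _ F g ∈ isom B := fun g => mem_spGL
  apply isMaximalIn_of
  · obtain ⟨g, hg, w, hw, hgw⟩ := H95.SpPar.exists_not hB hndV hWi hW0
    refine ⟨(toEq _ F).symm g, ?_, ?_⟩
    · rw [hmem, MulEquiv.apply_symm_apply]; exact hg
    · rw [mem_subspaceStabilizer, MulEquiv.apply_symm_apply]
      intro h
      exact hgw ((h w).1 hw)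
  · intro M hHM hMK ⟨g, hg, hgS⟩
    refine le_of_map hmem (H95.SpPar.overgroup hB hndV hWi ?_ ?_ ?_)
    · rintro _ ⟨x, hx, rfl⟩
      exact (hmem x).1 (hMK hx)
    · intro x hx hσ
      rw [mem_map_toEq]
      refine hHM ⟨?_, ?_⟩
      · exact mem_subspaceStabilizer_of (by rw [MulEquiv.apply_symm_apply]; exact hσ)
      · exact (hmem _).2 (by rw [MulEquiv.apply_symm_apply]; exact hx)
    · refine ⟨toEq _ F g, ⟨g, hg, rfl⟩, ?_⟩
      by_contra hcon
      push Not at hcon
      exact hgS (mem_subspaceStabilizer_of hcon)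

end

section
open H95.Bridge H95.SpBasic Module

theorem nd_max {F : Type*} [Field F] [Fintype F] (m : ℕ) (hm : 3 ≤ m) (W : Submodule F (Fin m ⊕ Fin m → F)) (hW0 : W ≠ ⊥) (hW : Cfsg.Geo.IsNondegenerateOn (Cfsg.sympForm m F) W) (hdim : Module.finrank F W < m) : Cfsg.Geo.IsMaximalIn (Cfsg.spGL m F) (Cfsg.Geo.subspaceStabilizer W ⊓ Cfsg.spGL m F) := by
  set B := spB m F with hBdef
  have hB : B.IsAlt := spB_isAlt m F
  have hndV : ∀ v, (∀ w, B v w = 0) → v = 0 := spB_nondeg m F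
  have hnd : ∀ v ∈ W, (∀ w ∈ W, B v w = 0) → v = 0 := spB_nondegOn hW
  have hV : finrank F (Fin m ⊕ Fin m → F) = 2 * m := by
    rw [finrank_fintype_fun_eq_card]; simp; omega
  have hmem : ∀ g : GL (Fin m ⊕ Fin m) F, g ∈ spGL m F ↔ toEq _ F g ∈ isom B := fun g => mem_spGL
  apply isMaximalIn_of
  · obtain ⟨g, hg, w, hw, hgw⟩ := H95.SpPair.exists_not_stab B hB W hnd hW0 (by omega)
    refine ⟨(toEq _ F).symm g, ?_, ?_⟩
    · rw [hmem, MulEquiv.apply_symm_apply]; exact hg
    · rw [mem_subspaceStabilizer, MulEquiv.apply_symm_apply]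
      intro h
      exact hgw ((h w).1 hw)
  · intro M hHM hMK ⟨g, hg, hgS⟩
    refine le_of_map hmem (H95.SpPair.overgroup B hB hndV W hnd hW0 (by omega) _ ?_ ?_ ?_)
    · rintro _ ⟨x, hx, rfl⟩
      exact (hmem x).1 (hMK hx)
    · intro x hx hσ
      rw [mem_map_toEq]
      refine hHM ⟨?_, ?_⟩
      · exact mem_subspaceStabilizer_of (by rw [MulEquiv.apply_symm_apply]; exact hσ)
      · exact (hmem _).2 (by rw [MulEquiv.apply_symm_apply]; exact hx)
    · refine ⟨toEq _ F g, ⟨g, hg, rfl⟩, ?_⟩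
      by_contra hcon
      push Not at hcon
      exact hgS (mem_subspaceStabilizer_of hcon)

end

section
open H95.Bridge H95.SpBasic Module

theorem dec_max {F : Type*} [Field F] [Fintype F] (m : ℕ) (hm : 3 ≤ m) {t : ℕ} (k : ℕ) (D : Fin t → Submodule F (Fin m ⊕ Fin m → F)) (hD : Cfsg.Geo.IsNondegenerateMDecomposition (Cfsg.sympForm m F) k D) (hex : ¬ (k = 2 ∧ Fintype.card F = 2)) : Cfsg.Geo.IsMaximalIn (Cfsg.spGL m F) (Cfsg.Geo.decompositionStabilizer D ⊓ Cfsg.spGL m F) := by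
  set B := spB m F with hBdef
  have hB : B.IsAlt := spB_isAlt m F
  have hndV : ∀ v, (∀ w, B v w = 0) → v = 0 := spB_nondeg m F
  have hnd : ∀ i, ∀ v ∈ D i, (∀ w ∈ D i, B v w = 0) → v = 0 := fun i =>
    spB_nondegOn (hD.nondegenerate i)
  have horth : ∀ i j, i ≠ j → ∀ u ∈ D i, ∀ v ∈ D j, B u v = 0 := by
    intro i j hij u hu v hv
    rw [hBdef, spB_apply]
    exact hD.orthogonal i j hij u hu v hv
  have hk : ∀ i, finrank F (D i) = k := hD.decomp.finrank_eq
  have hk0 : k ≠ 0 := hD.decomp.pos.ne'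
  have ht := hD.decomp.two_le
  let i0 : Fin t := ⟨0, by omega⟩
  let i1 : Fin t := ⟨1, by omega⟩
  have hi : i0 ≠ i1 := by simp [i0, i1]
  have hne : ∀ i, D i ≠ ⊥ := fun i h0 => by
    have := hk i
    rw [h0, finrank_bot] at this
    exact hk0 this.symm
  have hmem : ∀ g : GL (Fin m ⊕ Fin m) F, g ∈ spGL m F ↔ toEq _ F g ∈ isom B := fun g => mem_spGL
  apply isMaximalIn_of
  · obtain ⟨g, hg, x, hx, hgx⟩ := H95.SpWreath.exists_not_perm B hB D hnd horth hD.decomp.iSup_eq_top
      i0 i1 hi (hne _) (hne _)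
    refine ⟨(toEq _ F).symm g, ?_, ?_⟩
    · rw [hmem, MulEquiv.apply_symm_apply]; exact hg
    · rw [mem_decompositionStabilizer, MulEquiv.apply_symm_apply]
      rintro ⟨σ, hσ⟩
      apply hgx (σ i0)
      rw [← hσ i0]
      exact ⟨x, hx, rfl⟩
  · intro M hHM hMK ⟨g, hg, hgS⟩
    have hk3 : 3 ≤ k ∨ ∃ a : F, a ≠ 0 ∧ a ≠ 1 := by
      by_cases hq : Fintype.card F = 2
      · left
        have hk2 : k ≠ 2 := fun h => hex ⟨h, hq⟩
        have hk1 : k ≠ 1 := by
          intro h1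
          obtain ⟨u, hu, v, hv, huv⟩ := H95.SpGeom.exists_hyp B (D i0) (hnd i0) (hne i0)
          have hu0 : u ≠ 0 := by rintro rfl; simp at huv
          have h2 := hk i0
          rw [h1] at h2
          obtain ⟨c, hc⟩ := exists_smul_eq_of_finrank_eq_one h2
            (x := ⟨u, hu⟩) (by simpa using hu0) ⟨v, hv⟩
          have hc' : c • u = v := congrArg Subtype.val hc
          rw [← hc', map_smul, hB u, smul_zero] at huv
          exact zero_ne_one huv
        omega
      · right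
        exact exists_ne01 hq
    have key := H95.SpWreath.overgroup B hB hndV D k hk hnd horth hD.decomp.iSup_eq_top hk0 hk3
      (M.map (toEq _ F).toMonoidHom) (by
        rintro _ ⟨x, hx, rfl⟩
        exact (hmem x).1 (hMK hx)) (by
        intro x hx hσ
        refine ⟨(toEq _ F).symm x, hHM ⟨?_, ?_⟩, ?_⟩
        · exact mem_decompositionStabilizer.2 (by rw [MulEquiv.apply_symm_apply]; exact hσ)
        · exact (hmem _).2 (by rw [MulEquiv.apply_symm_apply]; exact hx)
        · exact MulEquiv.apply_symm_apply _ _) ⟨toEq _ F g, ⟨g, hg, rfl⟩, fun hσ =>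
          hgS (mem_decompositionStabilizer.2 hσ)⟩
    intro x hx
    obtain ⟨y, hy, hyx⟩ := key ((hmem x).1 hx)
    have : y = x := (toEq _ F).injective hyx
    rwa [← this]

end

section
open H95.Bridge H95.Bridge2 H95.SpBasic H95.SpSing Module

theorem sing_max {F : Type*} [Field F] [Fintype F] (m : ℕ) (hm : 5 ≤ m) (hodd : Odd (Fintype.card F)) (D : Fin 2 → Submodule F (Fin m ⊕ Fin m → F)) (hD : Cfsg.Geo.IsMDecomposition m D) (hts : ∀ i, Cfsg.Geo.IsTotallySingularFor (Cfsg.sympForm m F) (D i)) : Cfsg.Geo.IsMaximalIn (Cfsg.spGL m F) (Cfsg.Geo.decompositionStabilizer D ⊓ Cfsg.spGL m F) := by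
  set B := spB m F with hBdef
  have hB : B.IsAlt := spB_isAlt m F
  have hndV : ∀ v, (∀ w, B v w = 0) → v = 0 := spB_nondeg m F
  have hmem : ∀ g : GL (Fin m ⊕ Fin m) F, g ∈ spGL m F ↔ toEq _ F g ∈ isom B := fun g => mem_spGL
  have h0 := hD.finrank_eq 0
  have h1 := hD.finrank_eq 1
  have hr : finrank F (D 0) = finrank F (D 1) := by rw [h0, h1]
  have h2F : (2 : F) ≠ 0 := by
    intro h2
    have h3 : ringChar F = 2 := by
      have h4 : ringChar F ∣ 2 := (ringChar.spec F 2).1 (by exact_mod_cast h2)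
      rcases (Nat.dvd_prime Nat.prime_two).1 h4 with h5 | h5
      · exact absurd h5 (CharP.ringChar_ne_one)
      · exact h5
    rw [FiniteField.even_card_iff_char_two] at h3
    rw [Nat.odd_iff] at hodd
    omega
  have hP : Pair B (D 0) (D 1) := by
    refine ⟨fun x hx y hy => ?_, fun x hx y hy => ?_, iSup_two D hD.iSup_eq_top⟩
    · rw [hBdef, spB_apply]; exact hts 0 x hx y hy
    · rw [hBdef, spB_apply]; exact hts 1 x hx y hy
  apply isMaximalIn_of
  · obtain ⟨g, hg, hgp⟩ := hP.exists_not hB (by omega) hndV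
    refine ⟨(toEq _ F).symm g, ?_, ?_⟩
    · rw [hmem, MulEquiv.apply_symm_apply]; exact hg
    · rw [mem_decomp_two hr, MulEquiv.apply_symm_apply]
      exact hgp
  · intro M hHM hMK ⟨g, hg, hgS⟩
    refine le_of_map hmem (hP.overgroup hB h2F (by omega) (by omega) hndV ?_ ?_ ?_)
    · rintro _ ⟨x, hx, rfl⟩
      exact (hmem x).1 (hMK hx)
    · intro x hx hσ
      rw [mem_map_toEq]
      refine hHM ⟨?_, ?_⟩
      · exact (mem_decomp_two hr).2 (by rw [MulEquiv.apply_symm_apply]; exact hσ)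
      · exact (hmem _).2 (by rw [MulEquiv.apply_symm_apply]; exact hx)
    · exact ⟨toEq _ F g, ⟨g, hg, rfl⟩, fun hp => hgS ((mem_decomp_two hr).2 hp)⟩

end

section
open H95.Bridge H95.UBasic H95.Pol H95.RatGeo H95.RatMain H95.RatBridge Module
open scoped Matrix

lemma diff_sq {F : Type*} [Field F] [Finite F] (c : F) : ∃ a b : F, c = a * a - b * b := by
  by_cases h2 : (2 : F) = 0
  · have : CharP F 2 := CharTwo.of_one_ne_zero_of_two_eq_zero one_ne_zero h2
    have hinj : Function.Injective (frobenius F 2) := frobenius_inj F 2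
    obtain ⟨a, ha⟩ := Finite.surjective_of_injective hinj c
    rw [frobenius_def] at ha
    exact ⟨a, 0, by rw [← ha]; ring⟩
  · exact ⟨(c + 1) / 2, (c - 1) / 2, by field_simp; ring⟩

theorem rat_max {F : Type*} [Field F] [Fintype F] (m : ℕ) (hm : 5 ≤ m) (F₀ : Subfield F) (r : ℕ) (hr : r.Prime) (hcard : Fintype.card F = Nat.card F₀ ^ r) (P : Matrix.GeneralLinearGroup (Fin m ⊕ Fin m) F) (ζ : F) (hζ : ζ ≠ 0) (hP : Cfsg.Geo.IsFormRationalStructure (Cfsg.sympForm m F) F₀ ζ P) : Cfsg.Geo.IsMaximalIn (Cfsg.spGL m F) (Cfsg.Geo.subfieldSubgroup F₀ P ⊓ Cfsg.spGL m F) := by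
  have hcard' : Nat.card F = Nat.card F₀ ^ r := by rw [Nat.card_eq_fintype_card]; exact hcard
  -- the scaled form
  let h : (Fin m ⊕ Fin m → F) →ₗ[F] (Fin m ⊕ Fin m → F) →ₛₗ[RingHom.id F] F := ζ • spB m F
  have hh : ∀ x y, h x y = ζ * spB m F x y := fun x y => rfl
  have hmem : ∀ g : Matrix.GeneralLinearGroup (Fin m ⊕ Fin m) F, g ∈ spGL m F ↔ toEq _ F g ∈ isom h := by
    intro g
    rw [mem_spGL, mem_isom]
    simp only [hh]
    constructor
    · intro h1 x y; rw [h1]
    · intro h1 x y; exact mul_left_cancel₀ hζ (h1 x y)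
  have H : IsPol h := by
    refine ⟨fun a => rfl, fun x y => ?_, fun v hv => ?_⟩
    · rw [hh, hh, RingHom.id_apply, ← LinearMap.BilinForm.IsAlt.neg_eq (spB_isAlt m F) y x]; ring
    · apply spB_nondeg m F
      intro w
      have := hv w
      rw [hh] at this
      exact (mul_eq_zero.1 this).resolve_left hζ
  have halt : ∀ x, h x x = 0 := fun x => by rw [hh, spB_isAlt m F x, mul_zero]
  have hrat : ∀ u v, h (jmap F₀ P u) (jmap F₀ P v) ∈ F₀ := by
    intro u v
    rw [hh, spB_apply]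
    exact hP _ _ (fun i => (u i).2) (fun i => (v i).2)
  have R := mkRat (σ₀ := RingHom.id F₀) (hσ := fun c => rfl) (hr := hrat) hr hcard' H
    (by rw [Fintype.card_sum, Fintype.card_fin]; omega)
    (fun _ l x => ⟨x, Subtype.ext (halt _), fun i => rfl⟩)
    (fun c _ => diff_sq c)
  apply isMaximalIn_of
  · -- a coefficient outside F₀
    have hex : ∃ c : F, ∀ k : F₀, algebraMap F₀ F k ≠ c := by
      by_contra hcon
      push Not at hcon
      have hsurj : Function.Surjective (algebraMap F₀ F) := hcon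
      have h1 : Nat.card F ≤ Nat.card F₀ := Nat.card_le_card_of_surjective _ hsurj
      have h2 : 1 < Nat.card F₀ := Finite.one_lt_card
      rw [hcard'] at h1
      have h3 : Nat.card F₀ ^ 1 < Nat.card F₀ ^ r := Nat.pow_lt_pow_right h2 hr.one_lt
      rw [pow_one] at h3
      omega
    obtain ⟨c, hc⟩ := hex
    obtain ⟨u, hu, hu'⟩ := not_rat R (c := c) rfl hc
    refine ⟨(toEq _ F).symm (rf h u c), ?_, ?_⟩
    · rw [hmem, MulEquiv.apply_symm_apply]; exact tr_mem H hu rfl
    · rw [mem_subfield, MulEquiv.apply_symm_apply]; exact hu'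
  · intro M hHM hMK ⟨g, hg, hgS⟩
    have hMi : M.map (toEq _ F).toMonoidHom ≤ isom h := by
      rintro _ ⟨x, hx, rfl⟩
      exact (hmem x).1 (hMK hx)
    have hE : HasE (form₀ F₀ P h (RingHom.id F₀) (fun c => rfl) hrat) h (jmap F₀ P)
        (M.map (toEq _ F).toMonoidHom) := by
      intro u y c hv
      obtain ⟨v1, v2⟩ := Eg_rat R hv
      rw [mem_map_toEq]
      refine hHM (Subgroup.mem_inf.2 ⟨?_, ?_⟩)
      · rw [mem_subfield, MulEquiv.apply_symm_apply]
        exact ⟨1, one_ne_zero, fun x => ⟨_, by rw [one_smul]; exact v2 x⟩⟩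
      · rw [hmem, MulEquiv.apply_symm_apply]; exact Eg_isom H v1
    rcases dichotomy R hE hMi with h1 | h1
    · refine le_of_map hmem ?_
      have hle := H95.SpBasic.isom_le_of_tr (spB m F) (spB_isAlt m F) (spB_nondeg m F)
        (M.map (toEq _ F).toMonoidHom) (fun v c => by
          have h2 := h1 v (halt v) (ζ⁻¹ * c) rfl
          have h3 : rf h v (ζ⁻¹ * c) = H95.SpBasic.tr (spB m F) (spB_isAlt m F) v c := by
            apply LinearEquiv.ext
            intro x
            rw [tr_apply (halt v) rfl, H95.SpBasic.tr_apply, hh]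
            congr 2
            field_simp
          rwa [h3] at h2)
      intro x hx
      apply hle
      rw [H95.SpBasic.mem_isom]
      intro a b
      have := hx a b
      rw [hh, hh] at this
      exact mul_left_cancel₀ hζ this
    · exfalso
      apply hgS
      rw [mem_subfield]
      exact h1 _ ⟨g, hg, rfl⟩

end

section
open H95.Bridge H95.SpBasic Module

theorem orth_max {F : Type*} [Field F] [Fintype F] (m : ℕ) (hm : 4 ≤ m) (heven : ¬ Odd (Fintype.card F)) (Q : (Fin m ⊕ Fin m → F) → F) (hQ : Cfsg.Geo.IsNondegenerateQuadraticForm Q) (hpol : ∀ u v, QuadraticMap.polar Q u v = Cfsg.sympForm m F u v) : Cfsg.Geo.IsMaximalIn (Cfsg.spGL m F) (Cfsg.Geo.quadSimilarityGroup Q ⊓ Cfsg.spGL m F) := by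
  set B := spB m F with hBdef
  have hB : B.IsAlt := spB_isAlt m F
  have hndV : ∀ v, (∀ w, B v w = 0) → v = 0 := spB_nondeg m F
  have hV : finrank F (Fin m ⊕ Fin m → F) = 2 * m := by
    rw [finrank_fintype_fun_eq_card]; simp; omega
  have hmem : ∀ g : GL (Fin m ⊕ Fin m) F, g ∈ spGL m F ↔ toEq _ F g ∈ isom B := fun g => mem_spGL
  have hring : ringChar F = 2 := by
    rw [FiniteField.even_card_iff_char_two]
    rw [Nat.not_odd_iff_even, Nat.even_iff] at heven
    exact heven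
  have hchar : CharP F 2 := hring ▸ ringChar.charP F
  have hsq : ∀ a : F, IsSquare a := fun a => FiniteField.isSquare_of_char_two hring a
  have hIsQ : H95.SpOrthEven.IsQ B Q := by
    refine ⟨hQ.smul, fun x y => ?_⟩
    rw [hBdef, spB_apply, ← hpol, QuadraticMap.polar]
    ring
  have hsim : ∀ g : GL (Fin m ⊕ Fin m) F, (∀ v, Q (toEq _ F g v) = Q v) →
      g ∈ Cfsg.Geo.quadSimilarityGroup Q := by
    intro g hg
    refine ⟨1, fun v => ?_⟩
    rw [← toEq_apply, hg, Units.val_one, one_mul]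
  apply isMaximalIn_of
  · obtain ⟨g, hg, hgc⟩ := H95.SpOrthEven.exists_not hB hsq hndV hIsQ (by omega)
    refine ⟨(toEq _ F).symm g, ?_, ?_⟩
    · rw [hmem, MulEquiv.apply_symm_apply]; exact hg
    · rintro ⟨c, hc⟩
      apply hgc
      refine ⟨c, fun v => ?_⟩
      rw [← hc v, toEq_symm_mulVec]
  · intro M hHM hMK ⟨g, hg, hgS⟩
    refine le_of_map hmem (H95.SpOrthEven.overgroup hB hsq hndV hIsQ (by omega) ?_ ?_ ?_)
    · rintro _ ⟨x, hx, rfl⟩
      exact (hmem x).1 (hMK hx)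
    · intro x hx hσ
      rw [mem_map_toEq]
      refine hHM ⟨?_, ?_⟩
      · exact hsim _ (by rw [MulEquiv.apply_symm_apply]; exact hσ)
      · exact (hmem _).2 (by rw [MulEquiv.apply_symm_apply]; exact hx)
    · refine ⟨toEq _ F g, ⟨g, hg, rfl⟩, ?_⟩
      by_contra hcon
      push Not at hcon
      exact hgS (hsim g hcon)

end

section
open H95.Bridge H95.SpBasic Module H7.ExtF H7.ExtSp H7.ExtBr
open scoped Matrix MatrixGroups

theorem ext_max {F : Type*} [Field F] [Fintype F] (m : ℕ) (hm : 3 ≤ m) (r : ℕ) (hr : r.Prime) (K : Subalgebra F (Matrix (Fin m ⊕ Fin m) (Fin m ⊕ Fin m) F)) (hK : Cfsg.Geo.IsFieldSubalgebra r K) (hsa : Cfsg.Geo.IsSelfAdjointFor (Cfsg.sympForm m F) K) (halt : ∀ k ∈ K, ∀ v : (Fin m ⊕ Fin m → F), Cfsg.sympForm m F (Matrix.mulVec k v) v = 0) : Cfsg.Geo.IsMaximalIn (Cfsg.spGL m F) (Cfsg.Geo.subalgebraNormalizer K ⊓ Cfsg.spGL m F) := by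
  obtain ⟨B, hBdef⟩ : ∃ B, B = spB m F := ⟨_, rfl⟩
  have hB : B.IsAlt := by rw [hBdef]; exact spB_isAlt m F
  have hndV : ∀ v, (∀ w, B v w = 0) → v = 0 := by rw [hBdef]; exact spB_nondeg m F
  have hV : finrank F (Fin m ⊕ Fin m → F) = 2 * m := by
    rw [finrank_fintype_fun_eq_card]; simp; omega
  have hmem : ∀ g : GL (Fin m ⊕ Fin m) F, g ∈ spGL m F ↔ toEq _ F g ∈ isom B := fun g => by
    rw [hBdef]; exact mem_spGL
  have hform : sympForm m F = fun u v => B u v := by
    funext u v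
    rw [hBdef, spB_apply]
  rw [hform] at hsa halt
  obtain ⟨E, i1, i2, i3, i4, φ, h1, h2, h3, hEr⟩ := exists_model hK hr.pos
  have : FiniteDimensional F E := Module.finite_of_finrank_pos (by rw [hEr]; exact hr.pos)
  have : FiniteDimensional E (Fin m ⊕ Fin m → F) := FiniteDimensional.right F E _
  have hfr := Module.finrank_mul_finrank F E (Fin m ⊕ Fin m → F)
  rw [hEr, hV] at hfr
  obtain ⟨κ, l0, h⟩ := exists_SE (F := F) (K := E) (V := Fin m ⊕ Fin m → F) (B := B) hndV
    (fun k x y => by rw [h1, h1]; exact hsa _ (h2 k) x y) (fun k x => by rw [h1]; exact halt _ (h2 k) x)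
  -- the dimension over the extension is at least two
  have hev : 2 ≤ finrank E (Fin m ⊕ Fin m → F) := by
    obtain ⟨x, hx⟩ : ∃ x : Fin m ⊕ Fin m → F, x ≠ 0 := ⟨fun _ => 1, fun h0 =>
      one_ne_zero (congrFun h0 (Sum.inl ⟨0, by omega⟩))⟩
    obtain ⟨y, hy⟩ : ∃ y, κ x y ≠ 0 := by
      by_contra hcon
      push Not at hcon
      exact hx (h.nd x hcon)
    have hli : LinearIndependent E ![x, y] := by
      rw [LinearIndependent.pair_iff]
      intro s t hst
      have e1 := congrArg (fun z => κ z y) hst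
      simp only [map_add, map_smul, LinearMap.add_apply, LinearMap.smul_apply, h.alt y, smul_zero, add_zero, map_zero,
        LinearMap.zero_apply, smul_eq_mul, mul_zero] at e1
      have hs : s = 0 := (mul_eq_zero.1 e1).resolve_right hy
      rw [hs, zero_smul, zero_add] at hst
      have hy0 : y ≠ 0 := by rintro rfl; rw [map_zero] at hy; exact hy rfl
      exact ⟨hs, (smul_eq_zero.1 hst).resolve_right hy0⟩
    have := hli.fintype_card_le_finrank
    simpa using this
  have hcase : (2 : F) ≠ 0 ∨ 3 ≤ finrank F E ∨ 3 ≤ finrank E (Fin m ⊕ Fin m → F) := by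
    right
    rw [hEr]
    by_contra hcon
    push Not at hcon
    obtain ⟨c1, c2⟩ := hcon
    have : r * finrank E (Fin m ⊕ Fin m → F) ≤ 2 * 2 := Nat.mul_le_mul (by omega) (by omega)
    omega
  have hsymm : ∀ x : (Fin m ⊕ Fin m → F) ≃ₗ[F] (Fin m ⊕ Fin m → F), toEq (Fin m ⊕ Fin m) F ((toEq _ F).symm x) = x :=
    fun x => by rw [MulEquiv.apply_symm_apply]
  apply isMaximalIn_of
  · obtain ⟨z, hz⟩ : ∃ z : Fin m ⊕ Fin m → F, z ≠ 0 := ⟨fun _ => 1, fun h0 =>
      one_ne_zero (congrFun h0 (Sum.inl ⟨0, by omega⟩))⟩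
    refine ⟨(toEq _ F).symm (tr B hB z 1), ?_, ?_⟩
    · rw [hmem, hsymm]; exact tr_mem_isom _ _ _ _
    · apply tr_not_mem (F := F) h1 h2 h3 (by rw [hEr]; exact hr.two_le) (by simp; omega) hz (f := B.flip z)
      · intro h0
        apply hz
        apply hndV
        intro w
        have := congrArg (fun t => t w) h0
        have h5 : B w z = 0 := this
        rw [← LinearMap.BilinForm.IsAlt.neg_eq hB w z, h5, neg_zero]
      · intro v
        rw [hsymm, tr_apply, one_mul]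
        rfl
  · intro M hHM hMK ⟨g, hg, hgS⟩
    have hMB : M.map (toEq (Fin m ⊕ Fin m) F).toMonoidHom ≤ isom B := by
      rintro _ ⟨x, hx, rfl⟩
      exact (hmem x).1 (hMK hx)
    refine le_of_map hmem (overgroup h (by rw [hEr]; exact hr) ?_ hMB ?_ hcase)
    · intro x hx
      rw [mem_map_toEq]
      refine hHM ⟨?_, ?_⟩
      · exact comm_mem_normalizer h1 h2 h3 (fun v e => by rw [hsymm]; exact hx.1 e v)
      · exact (hmem _).2 (by rw [hsymm]; exact h.HK_isom hx)
    · refine ⟨toEq _ F g, ⟨g, hg, rfl⟩, ?_⟩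
      by_contra hcon
      push Not at hcon
      exact hgS (mem_normalizer h1 h2 h3 hev hcon)

end

section
open H95.Bridge H95.SpBasic Module QuadraticMap H48.QuadSplit H48.QuadWitt H95.OGeo H7.OAUni H7.SpUni
open scoped Matrix MatrixGroups

theorem uni_max {F : Type*} [Field F] [Fintype F] (m : ℕ) (hm : 5 ≤ m) (hodd : Odd (Fintype.card F)) (K : Subalgebra F (Matrix (Fin m ⊕ Fin m) (Fin m ⊕ Fin m) F)) (hK : Cfsg.Geo.IsFieldSubalgebra 2 K) (hac : Cfsg.Geo.IsAdjointClosedFor (Cfsg.sympForm m F) K) (hnsa : ¬ Cfsg.Geo.IsSelfAdjointFor (Cfsg.sympForm m F) K) : Cfsg.Geo.IsMaximalIn (Cfsg.spGL m F) (Cfsg.Geo.subalgebraNormalizer K ⊓ Cfsg.spGL m F) := by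
  obtain ⟨B, hBdef⟩ : ∃ B, B = spB m F := ⟨_, rfl⟩
  have hB : B.IsAlt := by rw [hBdef]; exact spB_isAlt m F
  have hndV : ∀ v, (∀ w, B v w = 0) → v = 0 := by rw [hBdef]; exact spB_nondeg m F
  have hV : finrank F (Fin m ⊕ Fin m → F) = 2 * m := by
    rw [finrank_fintype_fun_eq_card]; simp; omega
  have hmem : ∀ g : GL (Fin m ⊕ Fin m) F, g ∈ spGL m F ↔ toEq _ F g ∈ isom B := fun g => by
    rw [hBdef]; exact mem_spGL
  have hform : sympForm m F = fun u v => B u v := by
    funext u v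
    rw [hBdef, spB_apply]
  have h2 : (2 : F) ≠ 0 := by
    intro h0
    have h1 : ringChar F = 2 := by
      apply CharP.ringChar_of_prime_eq_zero Nat.prime_two
      exact_mod_cast h0
    have h3 := FiniteField.even_card_iff_char_two.1 h1
    rw [Nat.odd_iff] at hodd
    omega
  rw [hform] at hac hnsa
  have : Nonempty (Fin m ⊕ Fin m) := ⟨Sum.inl ⟨0, by omega⟩⟩
  obtain ⟨W, hW, a, ε, hgen, hli, hind, h⟩ := data_of hB hndV h2 hK hac hnsa
  obtain ⟨J, hJd⟩ : ∃ J : (Fin m ⊕ Fin m → F) →ₗ[F] (Fin m ⊕ Fin m → F),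
    J = (2 : F) • Matrix.toLin' W - a • LinearMap.id := ⟨_, rfl⟩
  rw [← hJd] at h
  have hJ : ∀ v, J v = (2 : F) • (Matrix.toLin' W v) - a • v := fun v => by
    rw [hJd, LinearMap.sub_apply, LinearMap.smul_apply, LinearMap.smul_apply, LinearMap.id_apply]
  have hW' : ∀ v, Matrix.toLin' W v = (2 : F)⁻¹ • J v + ((2 : F)⁻¹ * a) • v := by
    intro v
    rw [hJ]
    match_scalars <;> field_simp
    ring
  have hfin : Finite F := inferInstance
  have hcomm : ∀ g : (Fin m ⊕ Fin m → F) ≃ₗ[F] (Fin m ⊕ Fin m → F), (∀ v, g (J v) = J (g v)) →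
      NJ (Matrix.toLin' W) g := by
    intro g hg
    refine ⟨0, 1, fun v => ?_⟩
    rw [hW', hW', map_add, map_smul, map_smul, hg]; module
  have hanti : ∀ g : (Fin m ⊕ Fin m → F) ≃ₗ[F] (Fin m ⊕ Fin m → F), (∀ v, g (J v) = - J (g v)) →
      NJ (Matrix.toLin' W) g := by
    intro g hg
    refine ⟨a, -1, fun v => ?_⟩
    rw [hW', hW', map_add, map_smul, map_smul, hg]
    match_scalars <;> field_simp
    ring
  have hnorm := mem_normalizer_iff hW hgen hli
  have hsymm : ∀ x : (Fin m ⊕ Fin m → F) ≃ₗ[F] (Fin m ⊕ Fin m → F), toEq (Fin m ⊕ Fin m) F ((toEq _ F).symm x) = x :=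
    fun x => by rw [MulEquiv.apply_symm_apply]
  apply isMaximalIn_of
  · obtain ⟨z, hz⟩ : ∃ z : Fin m ⊕ Fin m → F, z ≠ 0 := ⟨fun _ => 1, fun h0 =>
      one_ne_zero (congrFun h0 (Sum.inl ⟨0, by omega⟩))⟩
    refine ⟨(toEq _ F).symm (tr B hB z 1), ?_, ?_⟩
    · rw [hmem, hsymm]; exact tr_mem_isom _ _ _ _
    · rw [hnorm, hsymm]
      rintro ⟨a', b', hab⟩
      obtain ⟨y, hy, hy', hyT⟩ := perp_val (nd_NQ h) (k := 2) (by omega) ![z, J z]
        (T := (⊥ : Submodule F (Fin m ⊕ Fin m → F))) (by rw [finrank_bot]; omega) 0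
      have hy0 : y ≠ 0 := fun h0 => hyT ((Submodule.mem_bot F).2 h0)
      have e1 : polar (NQ B J) y z = 0 := hy' 0
      have e2 : polar (NQ B J) y (J z) = 0 := hy' 1
      rw [polar_NQ h] at e1 e2
      rw [h.sq, map_smul, smul_eq_mul] at e2
      have e3 : B y z = 0 := (mul_eq_zero.1 ((mul_eq_zero.1 e2).resolve_left h.two)).resolve_left h.e0
      have e4 : B (J y) z = 0 := by
        rw [h.adj, (mul_eq_zero.1 e1).resolve_left h.two, neg_zero]
      have t1 : tr B hB z 1 y = y := by rw [tr_apply, e3, mul_zero, zero_smul, add_zero]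
      have t2 : tr B hB z 1 (J y) = J y := by rw [tr_apply, e4, mul_zero, zero_smul, add_zero]
      have t3 : tr B hB z 1 (Matrix.toLin' W y) = Matrix.toLin' W y := by
        rw [hW', map_add, map_smul, map_smul, t1, t2]
      have t4 := hab y
      rw [t3, t1] at t4
      obtain ⟨u1, u2⟩ := hind y hy0 a' (b' - 1) (by
        rw [Matrix.toLin'_apply] at t4
        rw [sub_smul, one_smul, add_sub, ← t4, sub_self])
      have hcm : ∀ v, tr B hB z 1 (J v) = J (tr B hB z 1 v) := by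
        intro v
        have := hab v
        rw [u1, sub_eq_zero.1 u2, zero_smul, zero_add, one_smul] at this
        rw [hJ, hJ, map_sub, map_smul, map_smul, this]
      obtain ⟨v, hv⟩ : ∃ v, B z v ≠ 0 := by
        by_contra hcon
        push Not at hcon
        exact hz (hndV z hcon)
      have h5 := hcm v
      rw [tr_apply, tr_apply, map_add, map_smul, one_mul, one_mul, add_right_inj] at h5
      have h6 := h.ind hz (a := B (J v) z) (b := - B v z) (by rw [h5]; module)
      apply hv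
      rw [h.sw]
      exact h6.2
  · intro M hHM hMK ⟨g, hg, hgS⟩
    have hMB : M.map (toEq (Fin m ⊕ Fin m) F).toMonoidHom ≤ isom B := by
      rintro _ ⟨x, hx, rfl⟩
      exact (hmem x).1 (hMK hx)
    refine le_of_map hmem (H95.SpUs.overgroupS h ?_ hMB (by omega) ?_)
    · intro x hx hxJ
      rw [mem_map_toEq]
      refine hHM ⟨?_, ?_⟩
      · exact (hnorm _).2 (by rw [hsymm]; exact hcomm x hxJ)
      · exact (hmem _).2 (by rw [hsymm]; exact hx)
    · refine ⟨toEq _ F g, ⟨g, hg, rfl⟩, ?_, ?_⟩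
      · by_contra hcon
        push Not at hcon
        exact hgS ((hnorm g).2 (hcomm _ hcon))
      · by_contra hcon
        push Not at hcon
        exact hgS ((hnorm g).2 (hanti _ hcon))

end

end H95.SpSmall
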