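import Cfsg.Agent.Lib.H7.SpUni3
import Cfsg.Agent.Lib.H95.SpSingS

set_option autoImplicit false

/-!
Overgroups of the normaliser of a quadratic extension (unitary type) in symplectic groups, odd characteristic:
dimension at least ten (after helper7).
-/

namespace H95.SpUsS

open Module QuadraticMap H48.QuadSplit H48.QuadWitt H95.OGeo H95.SpBasic H7.SpUni

variable {F V : Type*} [Field F] [AddCommGroup V] [Module F V]
variable {B : LinearMap.BilinForm F V} {J : V →ₗ[F] V} {ε : F} {M : Subgroup (V ≃ₗ[F] V)}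
variable [FiniteDimensional F V] [Finite F]

/-- an isotropic partner of an isotropic vector -/
lemma partnerS (h : SJ B J ε) {z : V} (hz : z ≠ 0) (hzz : B z (J z) = 0) :
    ∃ y, B y (J y) = 0 ∧ B z y = 1 ∧ B z (J y) = 0 := by
  have hli : LinearIndependent F ![z, J z] := by
    rw [LinearIndependent.pair_iff]
    intro s t hst
    exact h.ind hz hst
  obtain ⟨y, hy'⟩ := dual (nd_NQ h) (k := 2) hli ![0, -(2 * ε)]
  have h0 : polar (NQ B J) y z = 0 := hy' 0
  have h1 : polar (NQ B J) y (J z) = -(2 * ε) := hy' 1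
  have hε := h.e0
  have h2' := h.two
  have e1 : B z y = 1 := by
    rw [polar_NQ h, h.sq, map_smul, smul_eq_mul] at h1
    rw [h.sw z y]
    have h2 : (2 * ε) * (B y z + 1) = 0 := by linear_combination h1
    rcases mul_eq_zero.1 h2 with h3 | h3
    · exact absurd h3 (mul_ne_zero h.two h.e0)
    · linear_combination -h3
  have e2 : B z (J y) = 0 := by
    rw [polar_NQ h] at h0
    rw [h.sym z y]
    exact (mul_eq_zero.1 h0).resolve_left h.two
  have e3 : B (J z) z = 0 := by rw [h.sw, hzz, neg_zero]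
  have e4 : B (J z) (J y) = -ε := by rw [h.JJ, e1, mul_one]
  have e5 : B y z = -1 := by rw [h.sw, e1]
  have e6 : B z z = 0 := h.alt z
  obtain ⟨t, ht⟩ : ∃ t, t * (2 * ε) = B y (J y) := ⟨_, div_mul_cancel₀ _ (mul_ne_zero h.two h.e0)⟩
  refine ⟨y + t • J z, ?_, ?_, ?_⟩
  · simp only [map_add, map_smul, LinearMap.add_apply, LinearMap.smul_apply, smul_eq_mul, h.sq, e3, e4, e5]
    linear_combination -ht
  · simp only [map_add, map_smul, smul_eq_mul, hzz, e1, mul_zero, add_zero]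
  · simp only [map_add, map_smul, smul_eq_mul, h.sq, e2, e6, mul_zero, add_zero]

/-- the torus -/
lemma torusS (h : SJ B J ε) (hM : HasU B J M) (hn : 6 ≤ finrank F V) {z : V} (hz : z ≠ 0)
    (hzz : B z (J z) = 0) {p q : F} (hpq : p ≠ 0 ∨ q ≠ 0) :
    ∃ g ∈ M, g ∈ isom B ∧ g z = p • z + q • J z ∧ g (J z) = p • J z + (q * ε) • z := by
  obtain ⟨y, hyy, hzy, hzJy⟩ := partnerS h hz hzz
  have hnn := h.norm hpq
  obtain ⟨n, hn'⟩ : ∃ n, n = p * p - ε * (q * q) := ⟨_, rfl⟩
  rw [← hn'] at hnn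
  obtain ⟨p', hp'⟩ : ∃ p', p' = p / n := ⟨_, rfl⟩
  obtain ⟨q', hq'⟩ : ∃ q', q' = q / n := ⟨_, rfl⟩
  have hε := h.e0
  have hp1 : p' * p - ε * (q' * q) = 1 := by
    rw [hp', hq']; field_simp; rw [hn']; ring
  have hp2 : p' * q = q' * p := by
    rw [hp', hq']; field_simp
  -- values
  have v1 : B y z = -1 := by rw [h.sw, hzy]
  have v2 : B (J y) z = 0 := by rw [h.sw, hzJy, neg_zero]
  have v3 : B (J z) y = 0 := by rw [h.adj, hzJy, neg_zero]
  have v4 : B y (J z) = 0 := by rw [h.sw, v3, neg_zero]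
  have v5 : B (J z) (J y) = -ε := by rw [h.JJ, hzy, mul_one]
  have v6 : B (J y) (J z) = ε := by rw [h.sw, v5, neg_neg]
  have v7 : B (J z) z = 0 := by rw [h.sw, hzz, neg_zero]
  have v8 : B (J y) y = 0 := by rw [h.sw, hyy, neg_zero]
  have v9 : B z z = 0 := h.alt z
  have v10 : B y y = 0 := h.alt y
  have v11 : B (J z) (J z) = 0 := h.alt _
  have v12 : B (J y) (J y) = 0 := h.alt _
  -- the linear map
  let G : V →ₗ[F] V := LinearMap.id + ((p - 1) • B.flip y - q • B.flip (J y)).smulRight z +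
    (q • B.flip y - ((p - 1) / ε) • B.flip (J y)).smulRight (J z) +
    (-(p' - 1) • B.flip z + q' • B.flip (J z)).smulRight y +
    (-q' • B.flip z + ((p' - 1) / ε) • B.flip (J z)).smulRight (J y)
  have hG : ∀ v, G v = v + ((p - 1) * B v y - q * B v (J y)) • z + (q * B v y - (p - 1) / ε * B v (J y)) • J z +
      (-(p' - 1) * B v z + q' * B v (J z)) • y + (-q' * B v z + (p' - 1) / ε * B v (J z)) • J y := fun v => rfl
  have hGi : ∀ u v, B (G u) (G v) = B u v := by
    intro u v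
    have a1 : B z v = - B v z := h.sw _ _
    have a2 : B y v = - B v y := h.sw _ _
    have a3 : B (J z) v = - B v (J z) := h.sw _ _
    have a4 : B (J y) v = - B v (J y) := h.sw _ _
    rw [hG, hG]
    simp only [map_add, LinearMap.add_apply, map_smul, LinearMap.smul_apply, smul_eq_mul, hzy, hzJy, v1, v2, v3, v4,
      v5, v6, v7, v8, v9, v10, v11, v12, hyy, hzz, a1, a2, a3, a4]
    field_simp
    linear_combination (ε * (B u (J y) * B v (J z)) - ε * (B u (J z) * B v (J y)) +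
      ε ^ 2 * (B u z * B v y - B u y * B v z)) * hp1 + ε ^ 2 * (B u (J y) * B v z - B v (J z) * B u y +
      B u (J z) * B v y - B v (J y) * B u z) * hp2
  have hinj : Function.Injective G := by
    rw [← LinearMap.ker_eq_bot, LinearMap.ker_eq_bot']
    intro m hm
    apply h.nd
    intro w
    rw [← hGi, hm, map_zero, LinearMap.zero_apply]
  obtain ⟨g, hg⟩ : ∃ g : V ≃ₗ[F] V, g = LinearEquiv.ofInjectiveEndo G hinj := ⟨_, rfl⟩
  have hgx : ∀ v, g v = G v := fun v => by rw [hg]; rfl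
  have hgi : g ∈ isom B := by
    intro u v
    show B (g u) (g v) = B u v
    rw [hgx, hgx, hGi]
  refine ⟨g, hM g hgi ?_, hgi, ?_, ?_⟩
  · intro v
    rw [hgx, hgx, hG, hG]
    simp only [map_add, map_smul, h.sq, h.JJ]
    rw [h.adj v y, h.adj v z]
    match_scalars <;> field_simp <;> ring
  · rw [hgx, hG]
    rw [hzy, hzJy, v9, hzz]
    module
  · rw [hgx, hG]
    rw [v3, v5, v7, v11]
    have e1 : (p - 1) / ε * -ε = -(p - 1) := by field_simp
    rw [e1]
    module

lemma cen_lineS (h : SJ B J ε) (hM : HasU B J M) (hn : 6 ≤ finrank F V) {z : V} (hz : z ≠ 0)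
    (hzz : B z (J z) = 0) (hC : Cen B h.alt M z) (p q : F) : Cen B h.alt M (p • z + q • J z) := by
  by_cases hpq : p ≠ 0 ∨ q ≠ 0
  · obtain ⟨g, hg, hgi, hgz, -⟩ := torusS h hM hn hz hzz hpq
    rw [← hgz]
    exact hC.map hg hgi
  · push Not at hpq
    rw [hpq.1, hpq.2, zero_smul, zero_smul, add_zero]
    exact Cen.zero _ _ _

lemma cen_stepS (h : SJ B J ε) (hM : HasU B J M) (hMB : M ≤ isom B) (hn : 6 ≤ finrank F V) {x y : V}
    (hC : Cen B h.alt M x) (hy : y ≠ 0)
    (hyy : B y (J y) = 0) (hxy : B x y ≠ 0 ∨ B x (J y) ≠ 0) : Cen B h.alt M y := by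
  obtain ⟨g, hg, hgf⟩ := hM.el h hyy 1
  obtain ⟨p, hp⟩ : ∃ p, p = ε * B x y := ⟨_, rfl⟩
  obtain ⟨q, hq⟩ : ∃ q, q = - B x (J y) := ⟨_, rfl⟩
  have hpq : p ≠ 0 ∨ q ≠ 0 := by
    rcases hxy with h1 | h1
    · left; rw [hp]; exact mul_ne_zero h.e0 h1
    · right; rw [hq]; exact neg_ne_zero.2 h1
  have hgx : g x = x + (p • y + q • J y) := by
    rw [hgf, hp, hq]; module
  have hxx : B x x = 0 := h.alt x
  have h1 : B (g x) x ≠ 0 := by
    rw [h.sw, hgx]
    apply neg_ne_zero.2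
    have := h.norm' hxy
    intro h0
    apply this
    rw [map_add, map_add, map_smul, map_smul, hxx, hp, hq, smul_eq_mul, smul_eq_mul] at h0
    linear_combination h0
  have h2 := (hC.map hg (hMB hg)).add hC h1 (-1)
  have h3 : g x + (-1 : F) • x = p • y + q • J y := by
    rw [hgx]; module
  rw [h3] at h2
  obtain ⟨a, b, hab⟩ := back h hpq y
  rw [hab]
  exact cen_lineS h hM hn (line_ne h hy hpq) (line_iso h hyy p q) h2 a b

/-- values on the orthogonal of a non-isotropic line -/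
lemma val_perp (h : SJ B J ε) (hn : 6 ≤ finrank F V) {v : V} (hv : B v (J v) ≠ 0) (a : F) :
    ∃ u, B u (J u) = a ∧ B v u = 0 ∧ B v (J u) = 0 := by
  have hε := h.e0
  obtain ⟨E, hE⟩ : ∃ E : Submodule F V, E = Submodule.span F (Set.range ![v, J v]) := ⟨_, rfl⟩
  obtain ⟨P, hP⟩ : ∃ P : Submodule F V, P = orth (NQ B J) E := ⟨_, rfl⟩
  have hmemP : ∀ u, u ∈ P → B v u = 0 ∧ B v (J u) = 0 := by
    intro u hu
    rw [hP, mem_orth, hE] at hu
    have k0 : polar (NQ B J) v u = 0 := hu v (Submodule.subset_span ⟨0, rfl⟩)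
    have k1 : polar (NQ B J) (J v) u = 0 := hu (J v) (Submodule.subset_span ⟨1, rfl⟩)
    rw [polar_NQ h] at k0 k1
    rw [h.JJ] at k1
    exact ⟨(mul_eq_zero.1 (neg_eq_zero.1 ((mul_eq_zero.1 k1).resolve_left h.two))).resolve_left hε,
      (mul_eq_zero.1 k0).resolve_left h.two⟩
  have hPnd : ND ((NQ B J).restrict P) := by
    intro x hx
    have hxE : (x : V) ∈ E := by
      rw [← orth_orth (nd_NQ h) E, ← hP, mem_orth]
      intro y hy
      have := hx ⟨y, hy⟩
      rw [p_comm]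
      exact this
    rw [hE] at hxE
    obtain ⟨c, hc⟩ := (Submodule.mem_span_range_iff_exists_fun F).1 hxE
    rw [Fin.sum_univ_two] at hc
    simp only [Matrix.cons_val_zero, Matrix.cons_val_one] at hc
    obtain ⟨k0, k1⟩ := hmemP x x.2
    have z1 : B v v = 0 := h.alt v
    rw [← hc] at k0 k1
    simp only [map_add, map_smul, smul_eq_mul, h.sq, z1, mul_zero, zero_add, add_zero] at k0 k1
    have hb : c 1 = 0 := (mul_eq_zero.1 k0).resolve_right hv
    have ha : c 0 = 0 := (mul_eq_zero.1 k1).resolve_right hv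
    apply Subtype.ext
    rw [← hc, ha, hb]
    simp
  have hfin : 4 ≤ finrank F P := by
    have h1 := finrank_orth (nd_NQ h) E
    have h2 : finrank F E ≤ 2 := by
      rw [hE]
      have := finrank_range_le_card (R := F) ![v, J v]
      rw [Fintype.card_fin] at this
      exact this
    rw [← hP] at h1
    omega
  obtain ⟨u, hu, -⟩ := dual_val hPnd (k := 0) (by omega) (x := ![]) linearIndependent_empty_type ![] a
  obtain ⟨k0, k1⟩ := hmemP u u.2
  exact ⟨u, hu, k0, k1⟩

/-- an overgroupS containing transvections at an isotropic vector is everything -/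
theorem cen_isoS (h : SJ B J ε) (hM : HasU B J M) (hMB : M ≤ isom B) (hn : 6 ≤ finrank F V) {x : V}
    (hx : x ≠ 0) (hxx : B x (J x) = 0) (hC : Cen B h.alt M x) : isom B ≤ M := by
  have key : ∀ y, y ≠ 0 → B y (J y) = 0 → Cen B h.alt M y := by
    intro y hy hyy
    by_cases hxy : B x y ≠ 0 ∨ B x (J y) ≠ 0
    · exact cen_stepS h hM hMB hn hC hy hyy hxy
    push Not at hxy
    obtain ⟨z', hz1, hz2⟩ := H95.SpBasic.exists_both_ne (f := B x) (g := B y)
      (by by_contra hcon; push Not at hcon; exact hx (h.nd x hcon))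
      (by by_contra hcon; push Not at hcon; exact hy (h.nd y hcon))
    have q1 : B z' x ≠ 0 := by rw [h.sw]; exact neg_ne_zero.2 hz1
    obtain ⟨b, hb⟩ : ∃ b, b * (2 * ε * B z' x) = - B z' (J z') := ⟨_, div_mul_cancel₀ _
      (mul_ne_zero (mul_ne_zero h.two h.e0) q1)⟩
    have e1 : B (J x) y = 0 := by rw [h.adj, hxy.2, neg_zero]
    have e1' : B y (J x) = 0 := by rw [h.sw, e1, neg_zero]
    have e2 : B (J x) x = 0 := by rw [h.sw, hxx, neg_zero]
    have e3 : B (J x) (J z') = -(ε * B x z') := h.JJ _ _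
    have e4 : B x z' = - B z' x := h.sw _ _
    have f1 : B x (z' + b • J x) ≠ 0 := by
      rw [map_add, map_smul, hxx, smul_zero, add_zero]; exact hz1
    have f2 : B (z' + b • J x) y ≠ 0 := by
      rw [map_add, LinearMap.add_apply, map_smul, LinearMap.smul_apply, e1, smul_zero, add_zero, h.sw]
      exact neg_ne_zero.2 hz2
    have f3 : B (z' + b • J x) (J (z' + b • J x)) = 0 := by
      simp only [map_add, map_smul, LinearMap.add_apply, LinearMap.smul_apply, smul_eq_mul, h.sq, e2, e3, e4]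
      linear_combination hb
    have f4 : z' + b • J x ≠ 0 := by
      intro h0
      rw [h0, map_zero] at f1
      exact f1 rfl
    exact cen_stepS h hM hMB hn (cen_stepS h hM hMB hn hC f4 f3 (Or.inl f1)) hy hyy (Or.inl f2)
  apply isom_le_of_tr B h.alt h.nd
  intro v
  change Cen B h.alt M v
  by_cases hv : v = 0
  · rw [hv]; exact Cen.zero _ _ _
  by_cases hvv : B v (J v) = 0
  · exact key v hv hvv
  obtain ⟨N, hN⟩ : ∃ N, N = B v (J v) := ⟨_, rfl⟩
  have hN0 : N ≠ 0 := by rw [hN]; exact hvv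
  obtain ⟨b, hb⟩ : ∃ b, b * N = -1 := ⟨_, div_mul_cancel₀ _ hN0⟩
  obtain ⟨a, ha⟩ : ∃ a : F, 2 * a = 1 := ⟨2⁻¹, mul_inv_cancel₀ h.two⟩
  obtain ⟨u, hu, hvu, hvu'⟩ := val_perp h hn hvv (-((a * a - ε * (b * b)) * N))
  have e1 : B u v = 0 := by rw [h.sw, hvu, neg_zero]
  have e2 : B u (J v) = 0 := by rw [h.sym, hvu']
  have e3 : B (J v) u = 0 := by rw [h.sw, e2, neg_zero]
  have e4 : B (J v) (J u) = 0 := by rw [h.JJ, hvu, mul_zero, neg_zero]
  have e5 : B (J v) v = -N := by rw [h.sw, ← hN]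
  have e6 : B v v = 0 := h.alt v
  have e7 : B (J v) (J v) = 0 := h.alt _
  obtain ⟨y, hyd⟩ : ∃ y, y = a • v + b • J v + u := ⟨_, rfl⟩
  have hy : B y (J y) = 0 := by
    rw [hyd]
    simp only [map_add, map_smul, LinearMap.add_apply, LinearMap.smul_apply, smul_eq_mul, h.sq, hu, hvu, hvu', e1, e2,
      e3, e4, e5, e6, e7, ← hN]
    ring
  have h1' : B y v = 1 := by
    rw [hyd]
    simp only [map_add, map_smul, LinearMap.add_apply, LinearMap.smul_apply, smul_eq_mul, e1, e5, e6]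
    linear_combination -hb
  have h0 : B y (J v) = a * N := by
    rw [hyd]
    simp only [map_add, map_smul, LinearMap.add_apply, LinearMap.smul_apply, smul_eq_mul, e2, e7, ← hN]
    ring
  have h0' : B v (J y) = a * N := by rw [h.sym, h0]
  have hyy : B y y = 0 := h.alt y
  have hy0 : y ≠ 0 := by
    rintro h9
    rw [h9, map_zero, LinearMap.zero_apply] at h1'
    exact zero_ne_one h1'
  have hvy0 : v - y ≠ 0 := by
    intro h2
    rw [sub_eq_zero] at h2
    rw [h2, hyy] at h1'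
    exact zero_ne_one h1'
  have h3 : B (v - y) (J (v - y)) = 0 := by
    simp only [map_sub, LinearMap.sub_apply, hy, h0, h0', ← hN]
    linear_combination -N * ha
  have h4 : B y (v - y) ≠ 0 := by
    rw [map_sub, hyy, h1', sub_zero]; exact one_ne_zero
  have h5 := (key y hy0 hy).add (key _ hvy0 h3) h4 1
  rw [one_smul, add_sub_cancel] at h5
  exact h5

/-- step 2a -/
lemma cen_of_elS (h : SJ B J ε) (hM : HasU B J M) (hMB : M ≤ isom B) (hn : 6 ≤ finrank F V) {z : V} (hz : z ≠ 0)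
    (hzz : B z (J z) = 0) {α β : F} (hab : α ≠ 0 ∨ β ≠ 0) (hE : El B M z (J z) α β 0) : Cen B h.alt M z := by
  have hzz' : B (J z) z = 0 := by rw [h.sw, hzz, neg_zero]
  have step : ∀ α β : F, El B M z (J z) α β 0 → ∀ t, El B M z (J z) (4 * ε * β * t) (α * t) 0 := by
    intro α β hE t
    obtain ⟨s, hs⟩ : ∃ s, s = t / 2 := ⟨_, rfl⟩
    have hst : t = 2 * s := by rw [hs]; field_simp [h.two]
    obtain ⟨g, hg, hgi, hgz, hgJ⟩ := torusS h hM hn hz hzz (p := 1) (q := s) (Or.inl one_ne_zero)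
    obtain ⟨g', hg', hgi', hgz', hgJ'⟩ := torusS h hM hn hz hzz (p := 1) (q := -s) (Or.inl one_ne_zero)
    have e1 := hE.conj hg hgi
    have e2 := hE.conj hg' hgi'
    rw [hgz, hgJ, add_comm ((1 : F) • J z)] at e1
    rw [hgz', hgJ', add_comm ((1 : F) • J z)] at e2
    have e3 := (e1.basis.add h.alt hzz hzz' (e2.basis.neg h.alt hzz hzz')).add h.alt hzz hzz'
      (hM.el h hzz (4 * β * s))
    have a1 : α * (1 * 1) + 2 * β * (1 * (s * ε)) + 0 * (s * ε * (s * ε)) +
        -(α * (1 * 1) + 2 * β * (1 * (-s * ε)) + 0 * (-s * ε * (-s * ε))) + 4 * β * s * ε = 4 * ε * β * t := by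
      rw [hst]; ring
    have a2 : α * (1 * s) + β * (1 * 1 + s * (s * ε)) + 0 * (s * ε * 1) +
        -(α * (1 * -s) + β * (1 * 1 + -s * (-s * ε)) + 0 * (-s * ε * 1)) + 0 = α * t := by
      rw [hst]; ring
    have a3 : α * (s * s) + 2 * β * (s * 1) + 0 * (1 * 1) + -(α * (-s * -s) + 2 * β * (-s * 1) + 0 * (1 * 1)) +
        -(4 * β * s) = 0 := by ring
    rw [a1, a2, a3] at e3
    exact e3
  have hk : α * α - ε * ((2 * β) * (2 * β)) ≠ 0 := h.norm (by
    rcases hab with h1 | h1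
    · exact Or.inl h1
    · exact Or.inr (mul_ne_zero h.two h1))
  have h4 : (4 : F) * ε ≠ 0 := by
    have : (4 : F) = 2 * 2 := by norm_num
    rw [this]
    exact mul_ne_zero (mul_ne_zero h.two h.two) h.e0
  intro c
  obtain ⟨u, hu⟩ : ∃ u, u * (α * α - ε * ((2 * β) * (2 * β))) = c := ⟨_, div_mul_cancel₀ _ hk⟩
  obtain ⟨w, hw⟩ : ∃ w, 4 * ε * w = α * u := ⟨_, mul_div_cancel₀ _ h4⟩
  have e1 := step _ _ (step α β hE 1) w
  have e2 := step α β hE (-β * u)
  have e3 := e1.add h.alt hzz hzz' e2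
  have b1 : 4 * ε * (α * 1) * w + 4 * ε * β * (-β * u) = c := by
    linear_combination α * hw + hu
  have b2 : 4 * ε * β * 1 * w + α * (-β * u) = 0 := by
    linear_combination β * hw
  rw [b1, b2, add_zero] at e3
  exact e3.tr h.alt

/-- a non-isotropic vector orthogonal to a line -/
lemma exists_nonisoS (h : SJ B J ε) (hn : 6 ≤ finrank F V) (e : V) :
    ∃ u, B u (J u) ≠ 0 ∧ B e u = 0 ∧ B e (J u) = 0 := by
  by_contra hcon
  push Not at hcon
  obtain ⟨P, hP⟩ : ∃ P : Submodule F V, P = H95.SpOrthEven.lperp B (Submodule.span F (Set.range ![e, J e])) := ⟨_, rfl⟩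
  have hmem : ∀ u ∈ P, B u e = 0 ∧ B u (J e) = 0 := by
    intro u hu
    rw [hP, H95.SpOrthEven.mem_lperp] at hu
    exact ⟨hu e (Submodule.subset_span ⟨0, rfl⟩), hu (J e) (Submodule.subset_span ⟨1, rfl⟩)⟩
  have hmem' : ∀ u, B u e = 0 → B u (J e) = 0 → u ∈ P := by
    intro u hu1 hu2
    rw [hP, H95.SpOrthEven.mem_lperp]
    intro s hs
    induction hs using Submodule.span_induction with
    | mem s hs =>
      obtain ⟨i, rfl⟩ := hs
      fin_cases i
      · exact hu1
      · exact hu2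
    | zero => exact map_zero _
    | add a b _ _ ha hb => rw [map_add, ha, hb, add_zero]
    | smul a b _ hb => rw [map_smul, hb, smul_zero]
  have hJ : ∀ u ∈ P, J u ∈ P := by
    intro u hu
    obtain ⟨h1, h2⟩ := hmem u hu
    apply hmem'
    · rw [h.adj, h2, neg_zero]
    · rw [h.JJ, h1, mul_zero, neg_zero]
  have hsing : ∀ u ∈ P, B u (J u) = 0 := by
    intro u hu
    by_contra h0
    obtain ⟨h1, h2⟩ := hmem u hu
    exact hcon u h0 (by rw [h.sw, h1, neg_zero]) (by rw [h.sym, h2])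
  have hsing2 : ∀ u ∈ P, ∀ v ∈ P, B u (J v) = 0 := by
    intro u hu v hv
    have h1 := hsing _ (P.add_mem hu hv)
    simp only [map_add, LinearMap.add_apply, hsing u hu, hsing v hv, h.sym v u] at h1
    have h2 : 2 * B u (J v) = 0 := by linear_combination h1
    exact (mul_eq_zero.1 h2).resolve_left h.two
  have h1 := H95.SpOrthEven.isotropic_finrank_le B h.nd P (by
    intro x hx y hy
    have h2 := hsing2 x hx (J y) (hJ y hy)
    rw [h.sq, map_smul, smul_eq_mul] at h2
    exact (mul_eq_zero.1 h2).resolve_left h.e0)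
  have h2 := H95.SpOrthEven.finrank_lperp_ge B (Submodule.span F (Set.range ![e, J e]))
  have h3 := finrank_range_le_card (R := F) ![e, J e]
  rw [Fintype.card_fin] at h3
  change finrank F (Submodule.span F (Set.range ![e, J e])) ≤ 2 at h3
  rw [← hP] at h2
  omega

/-- Heisenberg elements -/
lemma heisS (h : SJ B J ε) (hM : HasU B J M) {e u : V} (hee : B e (J e) = 0) (hu1 : B e u = 0)
    (hu2 : B e (J u) = 0) : ∃ g ∈ M, g ∈ isom B ∧ ∃ c : F, ∀ v, g v = v + B v u • e - (ε⁻¹ * B v (J u)) • J e +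
      B v e • u - (ε⁻¹ * B v (J e)) • J u + c • (B v e • J e - B v (J e) • e) := by
  have hε := h.e0
  have h2 := h.two
  obtain ⟨c, hc⟩ : ∃ c, c * (2 * ε) = - B u (J u) := ⟨_, div_mul_cancel₀ _ (mul_ne_zero h.two h.e0)⟩
  let G : V →ₗ[F] V := LinearMap.id + (B.flip u).smulRight e - (ε⁻¹ • B.flip (J u)).smulRight (J e) +
    (B.flip e).smulRight u - (ε⁻¹ • B.flip (J e)).smulRight (J u) +
    c • ((B.flip e).smulRight (J e) - (B.flip (J e)).smulRight e)
  have hG : ∀ v, G v = v + B v u • e - (ε⁻¹ * B v (J u)) • J e +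
      B v e • u - (ε⁻¹ * B v (J e)) • J u + c • (B v e • J e - B v (J e) • e) := fun v => rfl
  have v1 : B e e = 0 := h.alt e
  have v2 : B u u = 0 := h.alt u
  have v3 : B (J e) (J e) = 0 := h.alt _
  have v4 : B (J u) (J u) = 0 := h.alt _
  have v5 : B (J e) e = 0 := by rw [h.sw, hee, neg_zero]
  have v6 : B u e = 0 := by rw [h.sw, hu1, neg_zero]
  have v7 : B u (J e) = 0 := by rw [h.sym, hu2]
  have v8 : B (J e) u = 0 := by rw [h.sw, v7, neg_zero]
  have v9 : B (J u) e = 0 := by rw [h.sw, hu2, neg_zero]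
  have v10 : B (J e) (J u) = 0 := by rw [h.JJ, hu1, mul_zero, neg_zero]
  have v11 : B (J u) (J e) = 0 := by rw [h.JJ, v6, mul_zero, neg_zero]
  have v12 : B (J u) u = - B u (J u) := h.sw _ _
  have hGi : ∀ u' v, B (G u') (G v) = B u' v := by
    intro u' v
    have a1 : B e v = - B v e := h.sw _ _
    have a2 : B u v = - B v u := h.sw _ _
    have a3 : B (J e) v = - B v (J e) := h.sw _ _
    have a4 : B (J u) v = - B v (J u) := h.sw _ _
    rw [hG, hG]
    simp only [map_add, map_sub, LinearMap.add_apply, LinearMap.sub_apply, map_smul, LinearMap.smul_apply, smul_eq_mul,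
      hee, hu1, hu2, v1, v2, v3, v4, v5, v6, v7, v8, v9, v10, v11, v12, a1, a2, a3, a4]
    field_simp
    linear_combination ε * (B u' (J e) * B v e - B u' e * B v (J e)) * hc
  have hinj : Function.Injective G := by
    rw [← LinearMap.ker_eq_bot, LinearMap.ker_eq_bot']
    intro m hm
    apply h.nd
    intro w
    rw [← hGi, hm, map_zero, LinearMap.zero_apply]
  obtain ⟨g, hg⟩ : ∃ g : V ≃ₗ[F] V, g = LinearEquiv.ofInjectiveEndo G hinj := ⟨_, rfl⟩
  have hgx : ∀ v, g v = G v := fun v => by rw [hg]; rfl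
  have hgi : g ∈ isom B := by
    intro u v
    show B (g u) (g v) = B u v
    rw [hgx, hgx, hGi]
  refine ⟨g, hM g hgi ?_, hgi, c, fun v => by rw [hgx, hG]⟩
  intro v
  rw [hgx, hgx, hG, hG]
  simp only [map_add, map_sub, map_smul, h.sq, h.JJ]
  rw [h.adj v e, h.adj v u]
  match_scalars <;> field_simp <;> ring

/-- step 2b, the field with three elements -/
lemma cen_of_two3S (h : SJ B J ε) {J' : V →ₗ[F] V} (h' : SJ B J' ε) (hM : HasU B J M) (hM' : HasU B J' M)
    (hMB : M ≤ isom B) (hn : 6 ≤ finrank F V) {x : V}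
    (hx : B x (J x) = 0) (hx' : B x (J' x) = 0) (hκ : B (J x) (J' x) ≠ 0) (h3 : ∀ a : F, a ≠ 0 → a * a = 1) :
    Cen B h.alt M (J x) := by
  have t3 : (3 : F) = 0 := by linear_combination h3 2 h.two
  obtain ⟨κ, hκd⟩ : ∃ κ, κ = B (J x) (J' x) := ⟨_, rfl⟩
  rw [← hκd] at hκ
  have hκ2 := h3 κ hκ
  have hε2 := h3 ε h.e0
  obtain ⟨e, he⟩ : ∃ e, e = J x := ⟨_, rfl⟩
  obtain ⟨f, hf⟩ : ∃ f, f = J' x := ⟨_, rfl⟩
  have hxx : B x x = 0 := h.alt x
  have hee : B e e = 0 := h.alt e
  have hff : B f f = 0 := h.alt f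
  have hxe : B x e = 0 := by rw [he, hx]
  have hxf : B x f = 0 := by rw [hf, hx']
  have hex : B e x = 0 := by rw [h.sw, hxe, neg_zero]
  have hfx : B f x = 0 := by rw [h.sw, hxf, neg_zero]
  have hef : B e f = κ := by rw [he, hf, hκd]
  have hfe : B f e = -κ := by rw [h.sw, hef]
  obtain ⟨g0, hg0, hg0f⟩ := hM.el h hx 1
  obtain ⟨g1, hg1, hg1f⟩ := hM'.el h' hx' 1
  rw [← he] at hg0f
  rw [← hf] at hg1f
  obtain ⟨n, hn'⟩ : ∃ n, n = g0 * g1 * g0 := ⟨_, rfl⟩
  have hnM : n ∈ M := by rw [hn']; exact M.mul_mem (M.mul_mem hg0 hg1) hg0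
  have hnf : ∀ y, n y = y - (B y e + κ * B y f) • e - (B y f - κ * B y e) • f := by
    intro y
    rw [hn']
    show g0 (g1 (g0 y)) = _
    rw [hg0f, hg1f, hg0f]
    simp only [map_add, LinearMap.add_apply, map_smul, LinearMap.smul_apply, smul_eq_mul, hxx, hee, hff, hxe, hxf,
      hex, hfx, hef, hfe]
    match_scalars
    · ring
    · linear_combination ε * B y x * t3
    · linear_combination B y e * hκ2
    · ring
  obtain ⟨e', he'⟩ : ∃ e', e' = κ • f := ⟨_, rfl⟩
  have hee' : B e e' = 1 := by rw [he', map_smul, smul_eq_mul, hef, hκ2]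
  have he'e : B e' e = -1 := by rw [h.sw, hee']
  have he'e' : B e' e' = 0 := h.alt e'
  have hrf : ∀ y, (n * n) y = y + B y e' • e - B y e • e' := by
    intro y
    show n (n y) = _
    rw [hnf (n y), hnf y, he']
    simp only [map_sub, LinearMap.sub_apply, map_smul, LinearMap.smul_apply, smul_eq_mul, hee, hff, hef, hfe]
    match_scalars
    · ring
    · linear_combination (-κ * B y f) * t3 + (2 * B y e + κ * B y f) * hκ2
    · linear_combination (κ * B y e) * t3 + (2 * B y f - κ * B y e) * hκ2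
  have hrM : n * n ∈ M := M.mul_mem hnM hnM
  obtain ⟨r, hr⟩ : ∃ r, r = n * n := ⟨_, rfl⟩
  rw [← hr] at hrf hrM
  have key : ∀ g ∈ M, g e = e → ∀ w, g e' = e' + w → El B M e w (-B e' w) 1 0 := by
    intro g hg hge w hge'
    have h1 : B e w = 0 := by
      have h8 : B (g e) (g e') = B e e' := hMB hg e e'
      rw [hge, hge', map_add] at h8
      linear_combination h8
    refine ⟨g * r * g⁻¹ * r, M.mul_mem (M.mul_mem (M.mul_mem hg hrM) (M.inv_mem hg)) hrM, fun y => ?_⟩
    have hs : ∀ y, (g * r * g⁻¹) y = y + B y (e' + w) • e - B y e • (e' + w) := by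
      intro y
      show g (r (g⁻¹ y)) = _
      rw [hrf, map_sub, map_add, map_smul, map_smul, apply_inv, ← isom_inv' (hMB hg), ← isom_inv' (hMB hg), hge, hge']
    show (g * r * g⁻¹) (r y) = _
    rw [hs, hrf]
    simp only [map_add, map_sub, LinearMap.add_apply, LinearMap.sub_apply, map_smul, LinearMap.smul_apply,
      smul_eq_mul, hee, hee', he'e, he'e', h1]
    match_scalars
    · ring
    · linear_combination (B y e') * t3
    · linear_combination (-B y e) * t3
    · linear_combination (-B y e) * t3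
  have hε := h.e0
  have hJe : B e (J e) = 0 := by rw [he, h.sq, map_smul, smul_eq_mul, h.sw, hx]; ring
  have hs : B e' (J e) = 0 := by
    rw [he', he, h.sq]
    simp only [map_smul, LinearMap.smul_apply, hfx, smul_zero]
  obtain ⟨u, huu, heu, heu'⟩ := exists_nonisoS h hn e
  have hJJe : B e (J (J u)) = 0 := by rw [h.sq, map_smul, heu, smul_zero]
  obtain ⟨g1', hg1', hgi1, c1, hgf1⟩ := heisS h hM hJe heu heu'
  obtain ⟨g2', hg2', hgi2, c2, hgf2⟩ := heisS h hM hJe heu' hJJe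
  have hue : B u e = 0 := by rw [h.sw, heu, neg_zero]
  have huJe : B u (J e) = 0 := by rw [h.sym, heu']
  have hJue : B (J u) e = 0 := by rw [h.sw, heu', neg_zero]
  have hJuJe : B (J u) (J e) = 0 := by rw [h.JJ, hue, mul_zero, neg_zero]
  have hJeu : B (J e) u = 0 := by rw [h.sw, huJe, neg_zero]
  have hJee : B (J e) e = 0 := by rw [h.sw, hJe, neg_zero]
  have hJeJe : B (J e) (J e) = 0 := h.alt _
  have hJuu : B (J u) u = - B u (J u) := h.sw _ _
  obtain ⟨w1, hw1d⟩ : ∃ w, w = (B e' u) • e - (ε⁻¹ * B e' (J u)) • J e - u - c1 • J e := ⟨_, rfl⟩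
  obtain ⟨w2, hw2d⟩ : ∃ w, w = (B e' (J u)) • e - (ε⁻¹ * B e' (J (J u))) • J e - J u - c2 • J e := ⟨_, rfl⟩
  have hfix : ∀ (g : V ≃ₗ[F] V) (c : F) (u : V), B e u = 0 → B e (J u) = 0 → 
      (∀ v, g v = v + B v u • e - (ε⁻¹ * B v (J u)) • J e +
      B v e • u - (ε⁻¹ * B v (J e)) • J u + c • (B v e • J e - B v (J e) • e)) → g e = e ∧
      g e' = e' + ((B e' u) • e - (ε⁻¹ * B e' (J u)) • J e - u - c • J e) := by
    intro g c u k1 k2 k3
    constructor
    · rw [k3, k1, k2, hee, hJe]; module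
    · rw [k3, he'e, hs]; module
  have E1 := key g1' hg1' (hfix g1' c1 u heu heu' hgf1).1 _ (hfix g1' c1 u heu heu' hgf1).2
  have E2 := key g2' hg2' (hfix g2' c2 (J u) heu' hJJe hgf2).1 _ (hfix g2' c2 (J u) heu' hJJe hgf2).2
  rw [← hw1d] at E1
  rw [← hw2d] at E2
  have a1 : B e w1 = 0 := by
    rw [hw1d]
    simp only [map_sub, map_smul, smul_eq_mul, hee, hJe, heu]; ring
  have b1 : B e w2 = 0 := by
    rw [hw2d]
    simp only [map_sub, map_smul, smul_eq_mul, hee, hJe, heu']; ring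
  have hm : B w2 w1 ≠ 0 := by
    rw [hw1d, hw2d]
    simp only [map_sub, LinearMap.sub_apply, map_smul, LinearMap.smul_apply, smul_eq_mul, hee, hJe, hJee, hJeJe,
      heu, hJeu, hJue, hJuJe, hJuu]
    intro h0
    apply huu
    linear_combination -h0
  obtain ⟨m, hmd⟩ : ∃ m, m = B w2 w1 := ⟨_, rfl⟩
  rw [← hmd] at hm
  obtain ⟨g, hg, hgf⟩ := E1
  have c1' : B w1 e = 0 := by rw [h.sw, a1, neg_zero]
  have c2' : B w2 e = 0 := by rw [h.sw, b1, neg_zero]
  have hge : g e = e := by rw [hgf, hee, a1]; module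
  have hgw : g w2 = m • e + w2 := by
    rw [hgf, c2', ← hmd]; module
  obtain ⟨α2, hα2⟩ : ∃ α, α = - B e' w2 := ⟨_, rfl⟩
  rw [← hα2] at E2
  have E3 := E2.conj hg (hMB hg)
  rw [hge, hgw] at E3
  have E4 : El B M e w2 _ _ _ := El.basis (p := 1) (q := 0) (r := m) (s := 1) (by
    rw [one_smul, zero_smul, add_zero, one_smul]; exact E3)
  have E5 := (E4.add h.alt b1 c2' (E2.neg h.alt b1 c2'))
  have d1 : α2 * (1 * 1) + 2 * 1 * (1 * m) + 0 * (m * m) + -α2 = 2 * m := by ring
  have d2 : α2 * (1 * 0) + 1 * (1 * 1 + 0 * m) + 0 * (m * 1) + -1 = 0 := by ring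
  have d3 : α2 * (0 * 0) + 2 * 1 * (0 * 1) + 0 * (1 * 1) + -0 = 0 := by ring
  rw [d1, d2, d3] at E5
  intro c
  by_cases hc : c = 0
  · rw [hc, tr_zero]; exact M.one_mem
  have hc2 := h3 c hc
  have hm2 := h3 (2 * m) (mul_ne_zero h.two hm)
  have : (c - 2 * m) * (c + 2 * m) = 0 := by linear_combination hc2 - hm2
  rw [← he]
  rcases mul_eq_zero.1 this with h1 | h1
  · rw [sub_eq_zero.1 h1]
    exact E5.tr h.alt
  · rw [eq_neg_of_add_eq_zero_left h1]
    have := (E5.neg h.alt b1 c2')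
    rw [neg_zero] at this
    exact this.tr h.alt

/-- an isotropic vector not killed by two nonzero semilinear maps -/
lemma exists_isoS (h : SJ B J ε) (hn : 6 ≤ finrank F V) {A A' : V →ₗ[F] V} (hA : ∃ v, A v ≠ 0)
    (hA' : ∃ v, A' v ≠ 0) (hJA : ∀ v, A (J v) = - J (A v)) (hJA' : ∀ v, A' (J v) = J (A' v)) :
    ∃ x, B x (J x) = 0 ∧ A x ≠ 0 ∧ A' x ≠ 0 := by
  have key : ∀ A : V →ₗ[F] V, (∃ v, A v ≠ 0) → ∃ x, B x (J x) = 0 ∧ A x ≠ 0 := by
    rintro A ⟨v, hv⟩
    obtain ⟨φ, hφ⟩ : ∃ φ : Module.Dual F V, φ (A v) ≠ 0 := by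
      by_contra hcon
      push Not at hcon
      exact hv ((Module.forall_dual_apply_eq_zero_iff F _).1 hcon)
    obtain ⟨z, hz⟩ := exists_represent (nd_iff.1 (nd_NQ h)) (φ ∘ₗ A)
    have hz0 : z ≠ 0 := by
      rintro rfl
      apply hφ
      have := hz v
      rw [p_zero'] at this
      exact this.symm
    obtain ⟨x, hx, hx'⟩ := dual_val (nd_NQ h) (k := 1) (by omega) (x := ![z])
      (LinearIndependent.of_subsingleton 0 hz0) ![1] 0
    refine ⟨x, hx, fun h0 => ?_⟩
    have h1 : polar (NQ B J) x z = 1 := hx' 0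
    rw [hz, LinearMap.comp_apply, h0, map_zero] at h1
    exact zero_ne_one h1
  obtain ⟨x1, hx1, hx1'⟩ := key A hA
  obtain ⟨x2, hx2, hx2'⟩ := key A' hA'
  by_cases c1 : A' x1 = 0
  · by_cases c2 : A x2 = 0
    · obtain ⟨a, b, hab, hab'⟩ : ∃ a b : F, (a ≠ 0 ∨ b ≠ 0) ∧ a * B x1 (J x2) + b * (ε * B x1 x2) = 0 := by
        by_cases h0 : B x1 (J x2) = 0
        · by_cases h1 : B x1 x2 = 0
          · exact ⟨1, 0, Or.inl one_ne_zero, by rw [h0, h1]; ring⟩
          · exact ⟨1, 0, Or.inl one_ne_zero, by rw [h0]; ring⟩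
        · exact ⟨-(ε * B x1 x2), B x1 (J x2), Or.inr h0, by ring⟩
      refine ⟨x1 + (a • x2 + b • J x2), ?_, ?_, ?_⟩
      · have e1 := line_iso h hx2 a b
        have e2' : ∀ y, B (x1 + y) (J (x1 + y)) = B x1 (J x1) + 2 * B x1 (J y) + B y (J y) := by
          intro y
          simp only [map_add, LinearMap.add_apply, h.sym y x1]; ring
        have e2 := e2' (a • x2 + b • J x2)
        rw [e2, e1, hx1, map_add J, map_smul, map_smul, h.sq, map_add, map_smul, map_smul, map_smul]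
        simp only [smul_eq_mul]
        linear_combination 2 * hab'
      · rw [map_add, map_add, map_smul, map_smul, hJA, c2, map_zero, neg_zero, smul_zero, smul_zero, add_zero, add_zero]
        exact hx1'
      · rw [map_add, c1, zero_add, map_add, map_smul, map_smul, hJA']
        exact line_ne h hx2' hab
    · exact ⟨x2, hx2, c2, hx2'⟩
  · exact ⟨x1, hx1, hx1', c1⟩

omit [FiniteDimensional F V] in
/-- values of the norm form -/
lemma norm_surj (h2 : (2 : F) ≠ 0) (hε : ε ≠ 0) (c : F) : ∃ a b : F, a * a - ε * (b * b) = c := by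
  classical
  have := Fintype.ofFinite F
  have hodd : Fintype.card F % 2 = 1 := by
    by_contra hcon
    have h3 : Fintype.card F % 2 = 0 := by omega
    have h4 := FiniteField.even_card_iff_char_two.2 h3
    have : CharP F 2 := h4 ▸ ringChar.charP F
    exact h2 CharTwo.two_eq_zero
  obtain ⟨a, b, hab⟩ := FiniteField.exists_root_sum_quadratic (R := F) (f := Polynomial.X ^ 2)
    (g := Polynomial.C (-ε) * Polynomial.X ^ 2 + Polynomial.C (-c)) (by simp) (by
      have hne : -ε ≠ 0 := neg_ne_zero.2 hε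
      compute_degree!) hodd
  refine ⟨a, b, ?_⟩
  simp only [Polynomial.eval_pow, Polynomial.eval_X, Polynomial.eval_add, Polynomial.eval_mul, Polynomial.eval_C] at hab
  linear_combination hab

/-- an isotropic vector for the last step -/
lemma exists_xS (h : SJ B J ε) (hn : 6 ≤ finrank F V) {z w : V} (hz0 : z ≠ 0)
    (hcase : ∀ a b : F, w ≠ a • z + b • J z) : ∃ x, B x (J x) = 0 ∧ B x z = 0 ∧ B x w = 0 ∧ B x (J z) ≠ 0 := by
  have hli := h.ind4 hz0 hcase
  -- separation
  have sepB : ∀ p : V, p ∉ Submodule.span F (Set.range ![z, w]) → ∃ x, B x z = 0 ∧ B x w = 0 ∧ B x p ≠ 0 := by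
    intro p hp
    obtain ⟨f, hf, hf'⟩ := Submodule.exists_le_ker_of_notMem hp
    obtain ⟨x, hx⟩ := H95.SpSing.surj_dual h.nd f
    refine ⟨x, ?_, ?_, by rw [hx]; exact hf⟩
    · rw [hx]; exact hf' (Submodule.subset_span ⟨0, rfl⟩)
    · rw [hx]; exact hf' (Submodule.subset_span ⟨1, rfl⟩)
  have hJz : J z ∉ Submodule.span F (Set.range ![z, w]) := by
    intro hmem
    obtain ⟨c, hc⟩ := (Submodule.mem_span_range_iff_exists_fun F).1 hmem
    rw [Fin.sum_univ_two] at hc
    simp only [Matrix.cons_val_zero, Matrix.cons_val_one] at hc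
    have h1 := Fintype.linearIndependent_iff.1 hli ![c 0, -1, c 1, 0] (by
      rw [Fin.sum_univ_four]
      simp only [Matrix.cons_val_zero, Matrix.cons_val_one, Matrix.cons_val]
      rw [← hc]; module) 1
    have h2 : (-1 : F) = 0 := h1
    exact neg_ne_zero.2 one_ne_zero h2
  obtain ⟨x2, hx2z, hx2w, hx2J⟩ := sepB _ hJz
  -- u
  obtain ⟨u, hu0, huz, huJz, huw, huJw⟩ : ∃ u, u ≠ 0 ∧ B u z = 0 ∧ B u (J z) = 0 ∧ B u w = 0 ∧ B u (J w) = 0 := by
    have h2 := H95.SpOrthEven.finrank_lperp_ge B (Submodule.span F (Set.range ![z, J z, w, J w]))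
    have h3 := finrank_range_le_card (R := F) ![z, J z, w, J w]
    rw [Fintype.card_fin] at h3
    change finrank F (Submodule.span F (Set.range ![z, J z, w, J w])) ≤ 4 at h3
    have h4 : H95.SpOrthEven.lperp B (Submodule.span F (Set.range ![z, J z, w, J w])) ≠ ⊥ := by
      intro h0
      rw [h0, finrank_bot] at h2
      omega
    obtain ⟨u, hu, hu0⟩ := Submodule.exists_mem_ne_zero_of_ne_bot h4
    rw [H95.SpOrthEven.mem_lperp] at hu
    exact ⟨u, hu0, hu z (Submodule.subset_span ⟨0, rfl⟩), hu (J z) (Submodule.subset_span ⟨1, rfl⟩),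
      hu w (Submodule.subset_span ⟨2, rfl⟩), hu (J w) (Submodule.subset_span ⟨3, rfl⟩)⟩
  have hJuz : B (J u) z = 0 := by rw [h.adj, huJz, neg_zero]
  have hJuw : B (J u) w = 0 := by rw [h.adj, huJw, neg_zero]
  have hJuJz : B (J u) (J z) = 0 := by rw [h.JJ, huz, mul_zero, neg_zero]
  by_cases huu : B u (J u) = 0
  · obtain ⟨u', hu', hu'z, hu'w, hu'J, x1, hx1z, hx1w, hx1u⟩ : ∃ u', B u' (J u') = 0 ∧ B u' z = 0 ∧ B u' w = 0 ∧
        B u' (J z) = 0 ∧ ∃ x1, B x1 z = 0 ∧ B x1 w = 0 ∧ B x1 (J u') ≠ 0 := by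
      by_cases hm : J u ∈ Submodule.span F (Set.range ![z, w])
      · refine ⟨J u, ?_, hJuz, hJuw, hJuJz, ?_⟩
        · rw [h.sq, map_smul, h.sw, huu, neg_zero, smul_zero]
        · apply sepB
          intro hm2
          rw [h.sq] at hm2
          have hm3 : u ∈ Submodule.span F (Set.range ![z, w]) := (Submodule.smul_mem_iff _ h.e0).1 hm2
          obtain ⟨c, hc⟩ := (Submodule.mem_span_range_iff_exists_fun F).1 hm
          obtain ⟨d, hd⟩ := (Submodule.mem_span_range_iff_exists_fun F).1 hm3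
          rw [Fin.sum_univ_two] at hc hd
          simp only [Matrix.cons_val_zero, Matrix.cons_val_one] at hc hd
          have h1 := Fintype.linearIndependent_iff.1 hli ![c 0, -d 0, c 1, -d 1] (by
            rw [Fin.sum_univ_four]
            simp only [Matrix.cons_val_zero, Matrix.cons_val_one, Matrix.cons_val]
            have h5 := congrArg J hd
            rw [← hc, map_add, map_smul, map_smul] at h5
            have h6 : c 0 • z + -d 0 • J z + c 1 • w + -d 1 • J w = (c 0 • z + c 1 • w) - (d 0 • J z + d 1 • J w) := by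
              module
            rw [h6, h5, sub_self])
          have c0 : d 0 = 0 := neg_eq_zero.1 (h1 1)
          have c1 : d 1 = 0 := neg_eq_zero.1 (h1 3)
          apply hu0
          rw [← hd, c0, c1, zero_smul, zero_smul, add_zero]
      · exact ⟨u, huu, huz, huw, huJz, sepB _ hm⟩
    obtain ⟨x0, hx0z, hx0w, hx0J, hx0u⟩ : ∃ x0, B x0 z = 0 ∧ B x0 w = 0 ∧ B x0 (J z) ≠ 0 ∧ B x0 (J u') ≠ 0 := by
      by_cases h1 : B x1 (J z) = 0
      · by_cases h2 : B x2 (J u') = 0
        · refine ⟨x1 + x2, ?_, ?_, ?_, ?_⟩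
          · rw [map_add, LinearMap.add_apply, hx1z, hx2z, add_zero]
          · rw [map_add, LinearMap.add_apply, hx1w, hx2w, add_zero]
          · rw [map_add, LinearMap.add_apply, h1, zero_add]; exact hx2J
          · rw [map_add, LinearMap.add_apply, h2, add_zero]; exact hx1u
        · exact ⟨x2, hx2z, hx2w, hx2J, h2⟩
      · exact ⟨x1, hx1z, hx1w, h1, hx1u⟩
    obtain ⟨t, ht⟩ : ∃ t, t * (2 * B x0 (J u')) = - B x0 (J x0) := ⟨_, div_mul_cancel₀ _ (mul_ne_zero h.two hx0u)⟩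
    refine ⟨x0 + t • u', ?_, ?_, ?_, ?_⟩
    · have e1 : B u' (J x0) = B x0 (J u') := h.sym _ _
      simp only [map_add, map_smul, LinearMap.add_apply, LinearMap.smul_apply, smul_eq_mul, hu', e1]
      linear_combination ht
    · rw [map_add, LinearMap.add_apply, map_smul, LinearMap.smul_apply, hx0z, hu'z, smul_zero, add_zero]
    · rw [map_add, LinearMap.add_apply, map_smul, LinearMap.smul_apply, hx0w, hu'w, smul_zero, add_zero]
    · rw [map_add, LinearMap.add_apply, map_smul, LinearMap.smul_apply, hu'J, smul_zero, add_zero]; exact hx0J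
  · obtain ⟨N, hN⟩ : ∃ N, N = B u (J u) := ⟨_, rfl⟩
    rw [← hN] at huu
    obtain ⟨α, hα⟩ : ∃ α, α * N = B x2 (J u) := ⟨_, div_mul_cancel₀ _ huu⟩
    obtain ⟨β, hβ⟩ : ∃ β, β * N = - B x2 u := ⟨_, div_mul_cancel₀ _ huu⟩
    obtain ⟨C, hC⟩ : ∃ C, C * N = - (B x2 (J x2) - (α * α - ε * (β * β)) * N) := ⟨_, div_mul_cancel₀ _ huu⟩
    obtain ⟨a, b, hab⟩ := norm_surj h.two h.e0 C
    refine ⟨x2 + ((a - α) • u + (b - β) • J u), ?_, ?_, ?_, ?_⟩
    · have e1 : B u (J x2) = B x2 (J u) := h.sym _ _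
      have e2 : B (J u) (J x2) = ε * B x2 u := by rw [h.JJ, h.sw u x2]; ring
      have e3 : B (J u) u = -N := by rw [h.sw, ← hN]
      have e4 : B u u = 0 := h.alt u
      have e5 : B (J u) (J u) = 0 := h.alt _
      simp only [map_add, map_smul, LinearMap.add_apply, LinearMap.smul_apply, smul_eq_mul, h.sq, e1, e2, e3, e4, e5,
        ← hN]
      linear_combination hC + N * hab - 2 * (a - α) * hα + 2 * ε * (b - β) * hβ
    · rw [map_add, LinearMap.add_apply, map_add, LinearMap.add_apply, map_smul, LinearMap.smul_apply, map_smul,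
        LinearMap.smul_apply, hx2z, huz, hJuz]; simp
    · rw [map_add, LinearMap.add_apply, map_add, LinearMap.add_apply, map_smul, LinearMap.smul_apply, map_smul,
        LinearMap.smul_apply, hx2w, huw, hJuw]; simp
    · rw [map_add, LinearMap.add_apply, map_add, LinearMap.add_apply, map_smul, LinearMap.smul_apply, map_smul,
        LinearMap.smul_apply, huJz, hJuJz]; simpa using hx2J

/-- maximality of the normaliser -/
theorem overgroupS (h : SJ B J ε) (hM : HasU B J M) (hMB : M ≤ isom B) (hn : 6 ≤ finrank F V)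
    (hg : ∃ g ∈ M, (∃ v, g (J v) ≠ J (g v)) ∧ ∃ v, g (J v) ≠ - J (g v)) : isom B ≤ M := by
  obtain ⟨g, hg, ⟨v, hv⟩, ⟨v', hv'⟩⟩ := hg
  obtain ⟨x0, hx0, hA, hA'⟩ := exists_isoS h hn (A := (g : V →ₗ[F] V) ∘ₗ J - J ∘ₗ g)
    (A' := (g : V →ₗ[F] V) ∘ₗ J + J ∘ₗ g) ⟨v, sub_ne_zero.2 hv⟩ ⟨v', fun h0 => hv' (eq_neg_of_add_eq_zero_left h0)⟩
    (fun v => by
      show g (J (J v)) - J (g (J v)) = - J (g (J v) - J (g v))
      rw [h.sq, map_sub, h.sq, map_smul]; abel)
    (fun v => by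
      show g (J (J v)) + J (g (J v)) = J (g (J v) + J (g v))
      rw [h.sq, map_add, h.sq, map_smul]; abel)
  change g (J x0) - J (g x0) ≠ 0 at hA
  change g (J x0) + J (g x0) ≠ 0 at hA'
  have hx00 : x0 ≠ 0 := by
    rintro rfl
    rw [map_zero, map_zero, map_zero, sub_zero] at hA
    exact hA rfl
  obtain ⟨z, hz⟩ : ∃ z, z = g x0 := ⟨_, rfl⟩
  obtain ⟨w, hw⟩ : ∃ w, w = g (J x0) := ⟨_, rfl⟩
  rw [← hz, ← hw] at hA hA'
  have hgi := hMB hg
  have hzw : B z w = 0 := by rw [hz, hw, hgi, hx0]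
  have hwz : B w z = 0 := by rw [h.sw, hzw, neg_zero]
  have hEl : ∀ c, El B M z w (c * ε) 0 (-c) := by
    intro c
    have := (hM.el h hx0 c).conj hg hgi
    rwa [← hz, ← hw] at this
  have hind : ∀ a b : F, a • z + b • w = 0 → a = 0 ∧ b = 0 := by
    intro a b hab
    rw [hz, hw, ← map_smul, ← map_smul, ← map_add] at hab
    exact h.ind hx00 ((LinearEquiv.map_eq_zero_iff g).1 hab)
  have hz0 : z ≠ 0 := by
    intro h0
    have := hind 1 0 (by rw [h0, smul_zero, zero_smul, add_zero])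
    exact one_ne_zero this.1
  by_cases hcase : ∃ a b : F, w = a • z + b • J z
  · obtain ⟨a, b, hab⟩ := hcase
    have hb : b ≠ 0 := by
      rintro rfl
      have := hind a (-1) (by rw [hab]; module)
      exact neg_ne_zero.2 one_ne_zero this.2
    have hzz : B z (J z) = 0 := by
      rw [hab, map_add, map_smul, map_smul, h.alt z, smul_zero, zero_add, smul_eq_mul] at hzw
      exact (mul_eq_zero.1 hzw).resolve_left hb
    have hzz' : B (J z) z = 0 := by rw [h.sw, hzz, neg_zero]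
    have E1 : El B M z (J z) _ _ _ := El.basis (p := 1) (q := 0) (r := a) (s := b) (by
      rw [one_smul, zero_smul, add_zero, ← hab]; exact hEl 1)
    have E2 := E1.add h.alt hzz hzz' (hM.el h hzz (-(b * b)))
    have d1 : 1 * ε * (1 * 1) + 2 * 0 * (1 * a) + -1 * (a * a) + -(b * b) * ε = ε - a * a - b * b * ε := by ring
    have d2 : 1 * ε * (1 * 0) + 0 * (1 * b + 0 * a) + -1 * (a * b) + 0 = -(a * b) := by ring
    have d3 : 1 * ε * (0 * 0) + 2 * 0 * (0 * b) + -1 * (b * b) + - -(b * b) = 0 := by ring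
    rw [d1, d2, d3] at E2
    refine cen_isoS h hM hMB hn hz0 hzz (cen_of_elS h hM hMB hn hz0 hzz ?_ E2)
    by_contra hcon
    push Not at hcon
    obtain ⟨e1, e2⟩ := hcon
    have ha : a = 0 := by
      have := neg_eq_zero.1 e2
      exact (mul_eq_zero.1 this).resolve_right hb
    rw [ha] at e1
    have e3 : ε * ((1 - b) * (1 + b)) = 0 := by linear_combination e1
    rcases mul_eq_zero.1 ((mul_eq_zero.1 e3).resolve_left h.e0) with e4 | e4
    · apply hA
      rw [hab, ha, ← sub_eq_zero.1 e4]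
      module
    · apply hA'
      rw [hab, ha, show b = -1 by linear_combination e4]
      module
  · push Not at hcase
    obtain ⟨g1, hg1, hg1f⟩ := hEl 1
    have hg1i := hMB hg1
    obtain ⟨x, hx, hxz, hxw, hx2'⟩ := exists_xS h hn hz0 hcase
    have hx2 : B (J x) z ≠ 0 := by
      rw [h.adj]; exact neg_ne_zero.2 hx2'
    have hg1x : g1 x = x := by rw [hg1f, hxz, hxw]; module
    have hg1x' : g1⁻¹ x = x := by
      apply g1.injective
      rw [apply_inv, hg1x]
    have hxx : B x (J x) = 0 := hx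
    have hJ'x : cj J g1 x = g1 (J x) := by rw [cj_apply, hg1x']
    have hxx' : B x (cj J g1 x) = 0 := by rw [hJ'x, isom_inv' hg1i, hg1x', hxx]
    have hκ : B (J x) (cj J g1 x) ≠ 0 := by
      have := h.norm' (Or.inl hx2 : B (J x) z ≠ 0 ∨ B (J x) w ≠ 0)
      intro h0
      apply this
      rw [hJ'x, hg1f] at h0
      simp only [map_add, map_smul, smul_eq_mul, h.alt (J x)] at h0
      linear_combination h0
    have hx00 : x ≠ 0 := by
      rintro rfl
      rw [map_zero, map_zero, LinearMap.zero_apply] at hx2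
      exact hx2 rfl
    by_cases h3 : ∃ a : F, a ≠ 0 ∧ a * a ≠ 1
    · exact cen_isoS h hM hMB hn hx00 hxx (cen_of_two h (h.cj hg1i) hM (hM.cj hg1 hg1i) hMB hxx hxx' hκ h3)
    · push Not at h3
      exact cen_isoS h hM hMB hn (fun h0 => hx00 (h.J_inj h0)) (by rw [h.sq, map_smul, h.sw, hxx, neg_zero, smul_zero])
        (cen_of_two3S h (h.cj hg1i) hM (hM.cj hg1 hg1i) hMB hn hxx hxx' hκ h3)

end H95.SpUsS
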