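import Mathlib
import Cfsg.Agent.Lib.H95.TE1

set_option autoImplicit false
set_option linter.unusedSectionVars false
set_option linter.unusedVariables false
set_option linter.unusedSimpArgs false

/-!
Subalgebras of the endomorphism algebra of a field containing the multiplications.
-/

namespace H95.TE

open Module H95.UBasic H95.TVG H95.TV

section dich

variable {F K : Type*} [Field F] [Field K] [Algebra F K] [FiniteDimensional F K]

theorem alg_dich (hp : (finrank F K).Prime) (N : Subalgebra F (Module.End F K)) (hN : ∀ c : K, LinearMap.mulLeft F c ∈ N) :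
    (∀ n, n ∈ N) ∨ ∀ n ∈ N, ∃ c : K, n = LinearMap.mulLeft F c := by
  by_cases hc : ∀ n ∈ N, ∃ c : K, n = LinearMap.mulLeft F c
  · exact Or.inr hc
  left
  have hsm : ∀ (n : N) (u : K), n • u = (n : Module.End F K) u := fun n u => rfl
  have hsimple : IsSimpleModule N K := by
    rw [isSimpleModule_iff_toSpanSingleton_surjective]
    refine ⟨inferInstance, fun x hx y => ⟨⟨_, hN (y * x⁻¹)⟩, ?_⟩⟩
    rw [LinearMap.toSpanSingleton_apply, hsm]
    simp [hx]
  have hmul : ∀ (c : Module.End N K) (u : K), c u = u * c 1 := by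
    intro c u
    have h1 := c.map_smul (⟨_, hN u⟩ : N) 1
    rw [hsm, hsm] at h1
    simpa using h1
  let A : Subalgebra F K :=
    { carrier := {d | ∀ n ∈ N, ∀ u, n (u * d) = n u * d}
      mul_mem' := fun {a b} ha hb n hn u => by rw [← mul_assoc, hb n hn, ha n hn, mul_assoc]
      add_mem' := fun {a b} ha hb n hn u => by rw [mul_add, map_add, ha n hn, hb n hn, mul_add]
      algebraMap_mem' := fun a n hn u => by
        rw [mul_comm, ← Algebra.smul_def, map_smul, Algebra.smul_def, mul_comm] }
  have hA : ∀ c : Module.End N K, c 1 ∈ A := by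
    intro c n hn u
    rw [← hmul, ← hmul]
    exact (c.map_smul (⟨n, hn⟩ : N) u).symm
  have hs := Subalgebra.isSimpleOrder_of_finrank_prime F K hp
  have hAb : A = ⊥ := by
    rcases hs.eq_bot_or_eq_top A with h | h
    · exact h
    · exfalso
      apply hc
      intro n hn
      refine ⟨n 1, ?_⟩
      ext u
      have : u ∈ A := by rw [h]; exact Algebra.mem_top
      have h1 := this n hn 1
      rw [one_mul] at h1
      rw [h1, LinearMap.mulLeft_apply]
  have hcs : ∀ c : Module.End N K, ∃ a : F, ∀ u, c u = a • u := by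
    intro c
    have h1 := hA c
    rw [hAb, Algebra.mem_bot] at h1
    obtain ⟨a, ha⟩ := h1
    refine ⟨a, fun u => ?_⟩
    rw [hmul, ← ha, Algebra.smul_def, mul_comm]
  intro n0
  let f : Module.End (Module.End N K) K :=
    { toFun := n0
      map_add' := n0.map_add
      map_smul' := by
        intro c m
        obtain ⟨a, ha⟩ := hcs c
        rw [RingHom.id_apply, Module.End.smul_def, Module.End.smul_def, ha, ha, map_smul] }
  classical
  obtain ⟨r, hr⟩ := jacobson_density (R := N) (M := K) f (Finset.univ.image (finBasis F K))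
  have h2 : n0 = (r : Module.End F K) := by
    apply (finBasis F K).ext
    intro i
    exact hr _ (Finset.mem_image_of_mem _ (Finset.mem_univ i))
  rw [h2]
  exact r.2

end dich

section UE

variable {F K V : Type*} [Field F] [Field K] [Algebra F K] [AddCommGroup V] [Module F V] [Module K V]
  [IsScalarTower F K V] {σ : F →+* F} {s : K →+* K}

/-- a skew-hermitian form over the extension field and its trace form -/
structure UE (κ : V →ₗ[K] V →ₛₗ[s] K) (l0 : K →ₗ[F] F) (h : V →ₗ[F] V →ₛₗ[σ] F) : Prop where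
  kS : IsSkew κ
  hS : IsSkew h
  l00 : l0 ≠ 0
  l0s : ∀ x, l0 (s x) = σ (l0 x)
  hh : ∀ x y, h x y = l0 (κ x y)
  sF : ∀ a : F, s (algebraMap F K a) = algebraMap F K (σ a)

variable {κ : V →ₗ[K] V →ₛₗ[s] K} {l0 : K →ₗ[F] F} {h : V →ₗ[F] V →ₛₗ[σ] F}

/-- the hermitian form on the field -/
def kf (σ : F →+* F) (s : K →+* K) (l0 : K →ₗ[F] F) (hs : ∀ a : F, s (algebraMap F K a) = algebraMap F K (σ a)) :
    K →ₗ[F] K →ₛₗ[σ] F :=
  LinearMap.mk₂'ₛₗ (RingHom.id F) σ (fun u u' => l0 (u * s u'))
    (fun a b c => by rw [add_mul, map_add])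
    (fun c a b => by rw [smul_mul_assoc, map_smul]; rfl)
    (fun a b c => by rw [map_add, mul_add, map_add])
    (fun c a b => by rw [Algebra.smul_def, map_mul s, hs, mul_left_comm, ← Algebra.smul_def, map_smul])

lemma kf_apply {hs : ∀ a : F, s (algebraMap F K a) = algebraMap F K (σ a)} (u u' : K) :
    kf σ s l0 hs u u' = l0 (u * s u') := rfl

lemma UE.ext0 (E : UE κ l0 h) {a : K} (ha : ∀ x : K, l0 (x * a) = 0) : a = 0 := by
  by_contra h0
  apply E.l00
  ext x
  have := ha (x * a⁻¹)
  rwa [inv_mul_cancel_right₀ h0] at this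

lemma UE.ext (E : UE κ l0 h) {a b : K} (ha : ∀ x : K, l0 (x * a) = l0 (x * b)) : a = b := by
  rw [← sub_eq_zero]
  apply E.ext0
  intro x
  rw [mul_sub, map_sub, ha, sub_self]

lemma UE.ext' (E : UE κ l0 h) {a b : K} (ha : ∀ x : K, l0 (a * s x) = l0 (b * s x)) : a = b := by
  apply E.ext
  intro x
  have := ha (s x)
  rwa [E.kS.inv, mul_comm, mul_comm b] at this

lemma UE.kN (E : UE κ l0 h) : Nd (kf σ s l0 E.sF) where
  inv := E.hS.inv
  nd := by
    intro v hv
    apply E.ext0
    intro x
    have := hv (s x)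
    rwa [kf_apply, E.kS.inv, mul_comm] at this

lemma UE.herm (E : UE κ l0 h) (x y : K) : kf σ s l0 E.sF y x = σ (kf σ s l0 E.sF x y) := by
  rw [kf_apply, kf_apply, ← E.l0s, map_mul s, E.kS.inv, mul_comm]

/-- sections of an F-form -/
def phi {ι : Type*} [Fintype ι] (F : Type*) [Field F] [Algebra F K] [Module F V] [IsScalarTower F K V] (e : ι → V) :
    (ι → F) →ₗ[F] V :=
  ∑ i, (LinearMap.proj i : (ι → F) →ₗ[F] F).smulRight (e i)

lemma phi_apply {ι : Type*} [Fintype ι] (e : ι → V) (w : ι → F) : phi (K := K) F e w = ∑ i, w i • e i := by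
  simp [phi]

/-- the tensor map -/
def tau {ι : Type*} [Fintype ι] (F : Type*) [Field F] [Algebra F K] [Module F V] [IsScalarTower F K V] (e : ι → V) :
    K →ₗ[F] (ι → F) →ₗ[F] V :=
  LinearMap.mk₂ F (fun u w => u • phi (K := K) F e w)
    (fun a b c => add_smul _ _ _)
    (fun c a b => smul_assoc _ _ _)
    (fun a b c => by rw [map_add, smul_add])
    (fun c a b => by rw [map_smul, smul_comm])

lemma tau_apply {ι : Type*} [Fintype ι] (e : ι → V) (u : K) (w : ι → F) :
    tau (K := K) F e u w = u • phi (K := K) F e w := rfl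

/-- the form on the F-form -/
theorem exists_model [FiniteDimensional F K] (E : UE κ l0 h) {ι : Type*} [Fintype ι] [DecidableEq ι] (e : Basis ι K V) (G : ι → ι → F)
    (hG : ∀ i j, κ (e i) (e j) = algebraMap F K (G i j)) : ∃ g : (ι → F) →ₗ[F] (ι → F) →ₛₗ[σ] F,
      (∀ w w', κ (phi (K := K) F e w) (phi (K := K) F e w') = algebraMap F K (g w w')) ∧ TS (kf σ s l0 E.sF) g h (tau (K := K) F e) := by
  obtain ⟨l1, hl1⟩ := LinearMap.exists_leftInverse_of_injective (Algebra.linearMap F K) (by
    rw [LinearMap.ker_eq_bot]; exact (algebraMap F K).injective)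
  have hl1' : ∀ a : F, l1 (algebraMap F K a) = a := fun a => LinearMap.congr_fun hl1 a
  let g : (ι → F) →ₗ[F] (ι → F) →ₛₗ[σ] F :=
    LinearMap.mk₂'ₛₗ (RingHom.id F) σ (fun w w' => ∑ i, ∑ j, w i * σ (w' j) * G i j)
      (fun a b c => by simp only [Pi.add_apply, add_mul, Finset.sum_add_distrib])
      (fun c a b => by simp only [Pi.smul_apply, smul_eq_mul, Finset.mul_sum, RingHom.id_apply, mul_assoc])
      (fun a b c => by simp only [Pi.add_apply, map_add, mul_add, add_mul, Finset.sum_add_distrib])
      (fun c a b => by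
        simp only [Pi.smul_apply, smul_eq_mul, Finset.mul_sum, map_mul]
        refine Finset.sum_congr rfl fun i _ => Finset.sum_congr rfl fun j _ => ?_
        ring)
  have hg : ∀ w w', κ (phi (K := K) F e w) (phi (K := K) F e w') = algebraMap F K (g w w') := by
    intro w w'
    change _ = algebraMap F K (∑ i, ∑ j, w i * σ (w' j) * G i j)
    rw [phi_apply, phi_apply, map_sum κ, LinearMap.sum_apply, map_sum (algebraMap F K)]
    refine Finset.sum_congr rfl fun i _ => ?_
    rw [map_sum (κ (w i • e i)), map_sum (algebraMap F K)]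
    refine Finset.sum_congr rfl fun j _ => ?_
    rw [← algebraMap_smul K (w i), ← algebraMap_smul K (w' j), LinearMap.map_smul κ, LinearMap.smul_apply, LinearMap.map_smulₛₗ, hG, E.sF,
      smul_eq_mul, smul_eq_mul, map_mul, map_mul]
    ring
  have hinj : Function.Injective (algebraMap F K) := (algebraMap F K).injective
  have hspan : ∀ S : Submodule F V, (∀ u w, tau (K := K) F e u w ∈ S) → S = ⊤ := by
    intro S hS
    rw [eq_top_iff]
    intro v _
    rw [← e.sum_repr v]
    refine S.sum_mem fun i _ => ?_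
    have := hS (e.repr v i) (Pi.single i 1)
    have h1 : phi (K := K) F e (Pi.single i 1) = e i := by
      rw [phi_apply, Finset.sum_eq_single i]
      · simp
      · intro j _ hj; simp [hj]
      · intro hi; exact absurd (Finset.mem_univ i) hi
    rwa [tau_apply, h1] at this
  have ht : ∀ u w u' w', h (tau (K := K) F e u w) (tau (K := K) F e u' w') = kf σ s l0 E.sF u u' * g w w' := by
    intro u w u' w'
    have h1 : κ (u • phi (K := K) F e w) (u' • phi (K := K) F e w') = g w w' • (u * s u') := by
      rw [κ.map_smul, LinearMap.smul_apply, LinearMap.map_smulₛₗ, hg, smul_eq_mul, smul_eq_mul, Algebra.smul_def (g w w')]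
      ring
    rw [tau_apply, tau_apply, E.hh, h1, kf_apply, map_smul, smul_eq_mul, mul_comm]
  refine ⟨g, hg, E.kN, E.herm, ⟨E.hS.inv, E.hS.ne, E.hS.norm, ?_, ?_⟩, E.hS, hspan, ht⟩
  · intro x y
    apply hinj
    rw [← hg, E.kS.skew, hg, E.sF, map_neg]
  · intro v hv
    have h1 : phi (K := K) F e v = 0 := by
      apply E.kS.nd
      intro z
      have h2 : κ (phi (K := K) F e v) = 0 := by
        apply e.ext
        intro i
        have h3 : phi (K := K) F e (Pi.single i 1) = e i := by
          rw [phi_apply, Finset.sum_eq_single i]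
          · simp
          · intro j _ hj; simp [hj]
          · intro hi; exact absurd (Finset.mem_univ i) hi
        rw [← h3, hg, hv, map_zero]; rfl
      rw [h2]; rfl
    rw [phi_apply] at h1
    funext i
    have h2 := Fintype.linearIndependent_iff.1 e.linearIndependent (fun i => algebraMap F K (v i)) (by
      simp only [algebraMap_smul]; exact h1) i
    exact hinj (by rw [h2, Pi.zero_apply, map_zero])

end UE

end H95.TE
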