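import Mathlib
import Cfsg.Agent.Lib.H95.TE2

set_option autoImplicit false
set_option linter.unusedSectionVars false
set_option linter.unusedVariables false
set_option linter.unusedSimpArgs false

/-!
Overgroups of the special unitary group over the extension field: the coefficient algebra.
-/

namespace H95.TE

open Module H95.UBasic H95.TVG H95.TV

variable {F K V : Type*} [Field F] [Field K] [Algebra F K] [AddCommGroup V] [Module F V] [Module K V]
  [IsScalarTower F K V] {σ : F →+* F} {s : K →+* K}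
variable {κ : V →ₗ[K] V →ₛₗ[s] K} {l0 : K →ₗ[F] F} {h : V →ₗ[F] V →ₛₗ[σ] F}

/-- overgroups of the special unitary group over the extension -/
structure XK (κ : V →ₗ[K] V →ₛₗ[s] K) (h : V →ₗ[F] V →ₛₗ[σ] F) (X : Subgroup (V ≃ₗ[F] V)) : Prop where
  le : X ≤ isom h
  su : ∀ b ∈ SU κ, b.restrictScalars F ∈ X

lemma lift_SU [FiniteDimensional K V] (E : UE κ l0 h) {ι : Type*} [Fintype ι] [DecidableEq ι] (e : Basis ι K V)
    {g : (ι → F) →ₗ[F] (ι → F) →ₛₗ[σ] F}
    (hg : ∀ w w', κ (phi (K := K) F e w) (phi (K := K) F e w') = algebraMap F K (g w w')) {b : (ι → F) ≃ₗ[F] (ι → F)}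
    (hb : b ∈ SU g) : ∃ c ∈ SU κ, ∀ w, c (phi (K := K) F e w) = phi (K := K) F e (b w) := by
  have hphi : ∀ i, phi (K := K) F e (Pi.single i 1) = e i := by
    intro i
    rw [phi_apply, Finset.sum_eq_single i]
    · simp
    · intro j _ hj; simp [hj]
    · intro hi; exact absurd (Finset.mem_univ i) hi
  obtain ⟨M, hM⟩ : ∃ M, M = LinearMap.toMatrix' b.toLinearMap := ⟨_, rfl⟩
  obtain ⟨C, hC⟩ : ∃ C : V →ₗ[K] V, C = Matrix.toLin e e (M.map (algebraMap F K)) := ⟨_, rfl⟩
  have hCe : ∀ j, C (e j) = phi (K := K) F e (b (Pi.single j 1)) := by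
    intro j
    rw [hC, Matrix.toLin_self, phi_apply]
    refine Finset.sum_congr rfl fun i _ => ?_
    rw [Matrix.map_apply, algebraMap_smul, hM, LinearMap.toMatrix'_apply]
    congr 2
  have hCphi : ∀ w, C (phi (K := K) F e w) = phi (K := K) F e (b w) := by
    intro w
    have h1 : (C.restrictScalars F) ∘ₗ phi (K := K) F e = phi (K := K) F e ∘ₗ b.toLinearMap := by
      apply (Pi.basisFun F ι).ext
      intro i
      rw [LinearMap.comp_apply, LinearMap.comp_apply, Pi.basisFun_apply, hphi, LinearMap.restrictScalars_apply, hCe]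
      rfl
    exact LinearMap.congr_fun h1 w
  have hiso : ∀ x y, κ (C x) (C y) = κ x y := by
    have h1 : (κ.comp C).compl₂ C = κ := by
      apply e.ext
      intro i
      apply e.ext
      intro j
      rw [LinearMap.compl₂_apply, LinearMap.comp_apply, hCe, hCe, hg, (SU_le _ hb : b ∈ isom g), ← hg, hphi, hphi]
    intro x y
    exact LinearMap.congr_fun (LinearMap.congr_fun h1 x) y
  have hinj : Function.Injective C := by
    rw [injective_iff_map_eq_zero]
    intro x hx
    apply E.kS.nd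
    intro w
    rw [← hiso, hx, map_zero, LinearMap.zero_apply]
  obtain ⟨c, hc⟩ : ∃ c : V ≃ₗ[K] V, c = LinearEquiv.ofInjectiveEndo C hinj := ⟨_, rfl⟩
  have hcC : ∀ v, c v = C v := fun v => by rw [hc]; rfl
  refine ⟨c, ?_, fun w => by rw [hcC, hCphi]⟩
  rw [mem_SU]
  refine ⟨fun x y => by rw [hcC, hcC, hiso], ?_⟩
  rw [← Units.val_inj, LinearEquiv.coe_det]
  have h2 : (c : V →ₗ[K] V) = C := LinearMap.ext hcC
  rw [h2, hC, LinearMap.det_toLin, ← RingHom.mapMatrix_apply, ← RingHom.map_det, hM, LinearMap.det_toMatrix']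
  have h3 := (mem_SU.1 hb).2
  rw [← Units.val_inj, LinearEquiv.coe_det] at h3
  rw [h3, Units.val_one, map_one, Units.val_one]

/-- the overgroup contains the special unitary group of the F-form -/
theorem XK.hx [FiniteDimensional K V] [FiniteDimensional F K] (E : UE κ l0 h) {X : Subgroup (V ≃ₗ[F] V)} (hX : XK κ h X)
    {ι : Type*} [Fintype ι] [DecidableEq ι]
    (e : Basis ι K V) {g : (ι → F) →ₗ[F] (ι → F) →ₛₗ[σ] F}
    (hg : ∀ w w', κ (phi (K := K) F e w) (phi (K := K) F e w') = algebraMap F K (g w w'))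
    (hT : TS (kf σ s l0 E.sF) g h (tau (K := K) F e)) : HX hT X where
  le := hX.le
  r₂ := by
    intro b hb
    obtain ⟨c, hc, hcb⟩ := lift_SU E e hg hb
    refine ⟨_, hX.su c hc, fun u w => ?_⟩
    rw [tau_apply, tau_apply, ← hcb]
    exact c.map_smul u _

end H95.TE
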