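import Mathlib
import Cfsg.Agent.Lib.H95.TE3

set_option autoImplicit false
set_option linter.unusedSectionVars false
set_option linter.unusedVariables false
set_option linter.unusedSimpArgs false

/-!
Overgroups of the special unitary group over the extension field: elements preserving a line.
-/

namespace H95.TE

open Module H95.UBasic H95.TVG H95.TV

variable {F K V : Type*} [Field F] [Field K] [Algebra F K] [AddCommGroup V] [Module F V] [Module K V]
  [IsScalarTower F K V] {σ : F →+* F} {s : K →+* K}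
variable {κ : V →ₗ[K] V →ₛₗ[s] K} {l0 : K →ₗ[F] F} {h : V →ₗ[F] V →ₛₗ[σ] F}
variable {ι : Type*} [Fintype ι] [DecidableEq ι]

/-- the model data -/
structure MD (E : UE κ l0 h) (e : Basis ι K V) (g : (ι → F) →ₗ[F] (ι → F) →ₛₗ[σ] F) (X : Subgroup (V ≃ₗ[F] V)) :
    Prop where
  hg : ∀ w w', κ (phi (K := K) F e w) (phi (K := K) F e w') = algebraMap F K (g w w')
  hT : TS (kf σ s l0 E.sF) g h (tau (K := K) F e)
  hX : XK κ h X
  hd : 4 ≤ finrank F (ι → F)

/-- the linear map of a vector -/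
def lin (F : Type*) [Field F] [Algebra F K] [Module F V] [IsScalarTower F K V] (v : V) : K →ₗ[F] V :=
  (LinearMap.toSpanSingleton K V v).restrictScalars F

lemma lin_apply (v : V) (u : K) : lin (K := K) F v u = u • v := rfl

variable [FiniteDimensional F K] [FiniteDimensional K V]
variable {E : UE κ l0 h} {e : Basis ι K V} {g : (ι → F) →ₗ[F] (ι → F) →ₛₗ[σ] F} {X : Subgroup (V ≃ₗ[F] V)}

lemma MD.hHX (D : MD E e g X) : HX D.hT X := D.hX.hx E e D.hg D.hT

lemma MD.kap_eq (D : MD E e g X) (f : ι → F) (v : V) : kap D.hT f v = κ v (phi (K := K) F e f) := by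
  apply E.ext'
  intro x
  have h1 : kf σ s l0 E.sF (kap D.hT f v) x = h v (tau (K := K) F e x f) := kap_spec _ _ _ _
  rw [kf_apply] at h1
  rw [h1, tau_apply, E.hh, LinearMap.map_smulₛₗ, smul_eq_mul, mul_comm]

lemma MD.A_lin (D : MD E e g X) (v0 v : V) : A D.hT (lin (K := K) F v0) v = κ v v0 := by
  apply E.ext'
  intro x
  have h1 : kf σ s l0 E.sF (A D.hT (lin (K := K) F v0) v) x = h v (lin (K := K) F v0 x) := A_spec _ _ _ _
  rw [kf_apply] at h1
  rw [h1, lin_apply, E.hh, LinearMap.map_smulₛₗ, smul_eq_mul, mul_comm]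

lemma MD.J_mulLeft (D : MD E e g X) (c : K) : J D.hT (LinearMap.mulLeft F c) = LinearMap.mulLeft F (s c) := by
  ext u
  apply E.ext'
  intro x
  have h1 : kf σ s l0 E.sF (J D.hT (LinearMap.mulLeft F c) u) x = kf σ s l0 E.sF u (LinearMap.mulLeft F c x) :=
    J_spec _ _ _ _
  rw [kf_apply, kf_apply] at h1
  rw [h1, LinearMap.mulLeft_apply, LinearMap.mulLeft_apply, map_mul s]
  congr 1
  ring

lemma MD.P_lin (D : MD E e g X) {w : ι → F} (hw : g w w = 0) {v0 : V} (hv : κ v0 (phi (K := K) F e w) = 0) :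
    P D.hT X w (lin (K := K) F v0) := by
  obtain ⟨c, hc⟩ := exists_sub_conj E.kS (E.kS.self v0)
  have hw' : κ (phi (K := K) F e w) (phi (K := K) F e w) = 0 := by rw [D.hg, hw, map_zero]
  refine ⟨LinearMap.mulLeft F c, _, D.hX.su _ (Eg_mem E.kS (phi (K := K) F e w) v0 c), fun v => ?_⟩
  rw [GP_apply, D.A_lin, D.kap_eq, lin_apply, tau_apply, tau_apply, LinearMap.mulLeft_apply]
  have h1 := Eg_apply E.kS hw' (E.kS.symm_zero hv) hc v
  change Eg κ (phi (K := K) F e w) v0 c v = _
  rw [h1]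
  abel

lemma MD.mulLeft_mem (D : MD E e g X) (c : K) : LinearMap.mulLeft F c ∈ NN D.hT X := by
  intro w hw z hz
  have h1 := D.P_lin hw (v0 := c • phi (K := K) F e z) (by
    rw [κ.map_smul, LinearMap.smul_apply, D.hg, hz, map_zero, smul_zero])
  have h2 : lin (K := K) F (c • phi (K := K) F e z) = (tau (K := K) F e).flip z ∘ₗ LinearMap.mulLeft F c := by
    ext u
    rw [lin_apply, LinearMap.comp_apply, LinearMap.flip_apply, LinearMap.mulLeft_apply, tau_apply, smul_smul, mul_comm]
  rwa [h2] at h1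

/-- the dichotomy -/
theorem MD.dich (D : MD E e g X) (hp : (finrank F K).Prime) :
    (∀ v : V, h v v = 0 → ∀ c : F, σ c = c → rf h v c ∈ X) ∨
      ∀ n ∈ NN D.hT X, ∃ c : K, n = LinearMap.mulLeft F c := by
  rcases alg_dich hp (Nalg D.hHX D.hd) (fun c => D.mulLeft_mem c) with h1 | h1
  · left
    intro v hv c hc
    exact all_tr D.hHX D.hd (fun x y => h1 _) hv hc
  · right
    exact h1

/-- coefficient maps are linear modulo the line -/
theorem MD.claimA (D : MD E e g X) (hN : ∀ n ∈ NN D.hT X, ∃ c : K, n = LinearMap.mulLeft F c) {w : ι → F}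
    (hw : g w w = 0) (hw0 : w ≠ 0) {T : K →ₗ[F] V} (h1 : ∀ u, κ (T u) (phi (K := K) F e w) = 0) (h3 : P D.hT X w T) (u : K) :
    ∃ a : K, T u = u • T 1 + a • phi (K := K) F e w := by
  have h1' : ∀ u, kap D.hT w (T u) = 0 := fun u => by rw [D.kap_eq, h1]
  let S : Submodule F (ι → F) :=
    { carrier := {f | ∀ u, κ (T u) (phi (K := K) F e f) = u * κ (T 1) (phi (K := K) F e f)}
      add_mem' := by
        intro a b ha hb u
        rw [map_add, map_add, map_add, ha, hb, mul_add]
      zero_mem' := by intro u; rw [map_zero, map_zero, map_zero, mul_zero]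
      smul_mem' := by
        intro c a ha u
        rw [map_smul, ← algebraMap_smul K c, LinearMap.map_smulₛₗ, LinearMap.map_smulₛₗ, ha, smul_eq_mul, smul_eq_mul]
        ring }
  have hS : ∀ f, g f w = 0 → f ∈ S := by
    intro f hf
    refine span_iso_perp D.hT.gS D.hd hw hw0 S ?_ hf
    intro f hf hfw hfs u
    have h4 := P_contract D.hHX hw hf hfw h1' h3 (map_one σ)
    rw [one_smul] at h4
    obtain ⟨c, hc⟩ := hN _ (mem_NN D.hHX D.hd hw hw0 hf hfw hfs h4)
    have h5 : ∀ u, κ (T u) (phi (K := K) F e f) = c * u := by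
      intro u
      rw [← D.kap_eq]
      exact LinearMap.congr_fun hc u
    rw [h5, h5, mul_one, mul_comm]
  obtain ⟨f0, hf0, hf0w⟩ := exists_hyp D.hT.gS hw hw0
  have h6 := pure_of_kap D.hT hf0w (v := T u - u • T 1) (by
    intro f hf
    rw [D.kap_eq, map_sub, LinearMap.sub_apply, hS f hf u, κ.map_smul, LinearMap.smul_apply, smul_eq_mul, sub_self])
  refine ⟨-kap D.hT f0 (T u - u • T 1), ?_⟩
  rw [tau_apply] at h6
  rw [← h6]; abel

end H95.TE
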