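import Mathlib
import Cfsg.Agent.Lib.H95.TE4

set_option autoImplicit false
set_option linter.unusedSectionVars false
set_option linter.unusedVariables false
set_option linter.unusedSimpArgs false

/-!
Overgroups of the special unitary group over the extension field: elements preserving a line are semilinear
on its orthogonal.
-/

namespace H95.TE

open Module H95.UBasic H95.TVG H95.TV

variable {F K V : Type*} [Field F] [Field K] [Algebra F K] [AddCommGroup V] [Module F V] [Module K V]
  [IsScalarTower F K V] {σ : F →+* F} {s : K →+* K}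
variable {κ : V →ₗ[K] V →ₛₗ[s] K} {l0 : K →ₗ[F] F} {h : V →ₗ[F] V →ₛₗ[σ] F}
variable {ι : Type*} [Fintype ι] [DecidableEq ι]
variable [FiniteDimensional F K] [FiniteDimensional K V]
variable {E : UE κ l0 h} {e : Basis ι K V} {g : (ι → F) →ₗ[F] (ι → F) →ₛₗ[σ] F} {X : Subgroup (V ≃ₗ[F] V)}

lemma hsm (E : UE κ l0 h) (u : K) (x y : V) : h x (u • y) = l0 (κ x y * s u) := by
  rw [E.hh, LinearMap.map_smulₛₗ, smul_eq_mul, mul_comm]

/-- elements preserving a line -/
theorem MD.perp0 (D : MD E e g X) (hN : ∀ n ∈ NN D.hT X, ∃ c : K, n = LinearMap.mulLeft F c) (hdV : 4 ≤ finrank K V)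
    {x : V ≃ₗ[F] V} (hx : x ∈ X) {w : ι → F} (hw : g w w = 0) (hw0 : w ≠ 0) {α : K →ₗ[F] K}
    (hα : ∀ u, x (u • phi (K := K) F e w) = α u • phi (K := K) F e w) :
    ∃ θ : K →+* K, ∀ v, κ v (phi (K := K) F e w) = 0 → ∀ c : K, x (c • v) = θ c • x v := by
  have hxh : ∀ a b, h (x a) (x b) = h a b := D.hX.le hx
  obtain ⟨W0, hW0⟩ : ∃ W0, W0 = phi (K := K) F e w := ⟨_, rfl⟩
  rw [← hW0] at hα ⊢
  have hWW : κ W0 W0 = 0 := by rw [hW0, D.hg, hw, map_zero]
  have hWne : W0 ≠ 0 := by
    intro h0
    apply hw0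
    apply D.hT.gS.nd
    intro w'
    have := D.hg w w'
    rw [← hW0, h0, map_zero, LinearMap.zero_apply] at this
    exact (map_eq_zero_iff _ (algebraMap F K).injective).1 this.symm
  -- alpha is bijective
  have hai : Function.Injective α := by
    rw [injective_iff_map_eq_zero]
    intro u hu
    have h1 := hα u
    rw [hu, zero_smul, LinearEquiv.map_eq_zero_iff] at h1
    exact (smul_eq_zero.1 h1).resolve_right hWne
  have has : Function.Surjective α := LinearMap.injective_iff_surjective.1 hai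
  obtain ⟨β, hβ⟩ : ∃ β, β = J D.hT α := ⟨_, rfl⟩
  have hβs : ∀ u y, kf σ s l0 E.sF (β u) y = kf σ s l0 E.sF u (α y) := fun u y => by rw [hβ]; exact J_spec _ _ _ _
  have hβi : Function.Injective β := by
    rw [injective_iff_map_eq_zero]
    intro u hu
    apply D.hT.kN.nd
    intro y
    obtain ⟨y, rfl⟩ := has y
    rw [← hβs, hu, map_zero, LinearMap.zero_apply]
  have hβsu : Function.Surjective β := LinearMap.injective_iff_surjective.1 hβi
  have hβ1 : β 1 ≠ 0 := fun h0 => one_ne_zero (hβi (by rw [h0, map_zero]) : (1 : K) = 0)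
  -- orthogonality is preserved
  have hperp : ∀ v, κ v W0 = 0 → κ (x v) W0 = 0 := by
    intro v hv
    apply E.ext'
    intro y
    obtain ⟨y, rfl⟩ := has y
    rw [← hsm E, ← hα, hxh, hsm E, hv, zero_mul, zero_mul, map_zero]
  -- step 4
  have h4 : ∀ v0, κ v0 W0 = 0 → ∀ u, ∃ a : K, x (β u • v0) = u • x (β 1 • v0) + a • W0 := by
    intro v0 hv0 u
    obtain ⟨T, hTd⟩ : ∃ T, T = (x.toLinearMap ∘ₗ lin (K := K) F v0) ∘ₗ J D.hT α := ⟨_, rfl⟩
    have hTu : ∀ u, T u = x (β u • v0) := fun u => by rw [hTd, hβ]; rfl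
    have hxw' : x.toLinearMap ∘ₗ (tau (K := K) F e).flip w = (tau (K := K) F e).flip w ∘ₗ α := by
      ext u
      show x (u • phi (K := K) F e w) = α u • phi (K := K) F e w
      rw [← hW0, hα]
    have hPT : P D.hT X w T := by
      obtain ⟨m, hm⟩ := D.P_lin hw (by rw [← hW0]; exact hv0 : κ v0 (phi (K := K) F e w) = 0)
      refine ⟨α * m * J D.hT α, hm.conj hx fun v => ?_⟩
      have h1 : A D.hT T (x v) = J D.hT (J D.hT α) (A D.hT (lin (K := K) F v0) v) := by
        rw [hTd, A_comp_apply, A_iso D.hT (D.hX.le hx)]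
      have h2 : J D.hT α (kap D.hT w (x v)) = kap D.hT w v := by
        rw [← A_flip_comp, ← hxw', A_iso D.hT (D.hX.le hx)]
        rfl
      rw [GP_apply, GP_apply, h1, J_J, hTu, hβ, h2, map_add, map_add]
      rw [tau_apply, tau_apply, tau_apply, tau_apply, ← hW0, hα, hα, lin_apply]
      simp only [Module.End.mul_apply, h2]
    have h5 := D.claimA hN hw hw0 (T := T) (fun u => by
      rw [hTu, ← hW0]
      exact hperp _ (by rw [κ.map_smul, LinearMap.smul_apply, hv0, smul_zero])) hPT u
    rw [← hW0] at h5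
    rwa [hTu, hTu] at h5
  -- the multiplier
  choose θ0 hθ0 using fun c : K => hβsu (c * β 1)
  have h5 : ∀ c v, κ v W0 = 0 → ∃ a : K, x (c • v) = θ0 c • x v + a • W0 := by
    intro c v hv
    obtain ⟨a, ha⟩ := h4 ((β 1)⁻¹ • v) (by rw [κ.map_smul, LinearMap.smul_apply, hv, smul_zero]) (θ0 c)
    refine ⟨a, ?_⟩
    rw [hθ0, smul_smul, smul_smul, mul_assoc, mul_inv_cancel₀ hβ1, mul_one, one_smul] at ha
    exact ha
  have hind : ∀ v, v ∉ Submodule.span K {W0} → ∀ a b : K, a • x v + b • W0 = 0 → a = 0 := by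
    intro v hv a b hab
    by_contra ha
    apply hv
    obtain ⟨y, hy⟩ := has (-(a⁻¹ * b))
    have h1 : x v = x (y • W0) := by
      rw [hα, hy]
      have : x v = a⁻¹ • (a • x v) := by rw [smul_smul, inv_mul_cancel₀ ha, one_smul]
      rw [this, eq_neg_of_add_eq_zero_left hab, smul_neg, smul_smul, neg_smul]
    rw [x.injective h1]
    exact Submodule.smul_mem _ _ (Submodule.mem_span_singleton_self _)
  obtain ⟨v1, hv1, hv1w, hv1s⟩ := exists_iso_perp E.kS hdV hWW hWne
  have huniq : ∀ c a b : K, x (c • v1) = a • x v1 + b • W0 → θ0 c = a := by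
    intro c a b hc
    obtain ⟨a', ha'⟩ := h5 c v1 hv1w
    rw [hc] at ha'
    have := hind v1 hv1s (a - θ0 c) (b - a') (by
      rw [sub_smul, sub_smul]
      have : a • x v1 - θ0 c • x v1 + (b • W0 - a' • W0) = (a • x v1 + b • W0) - (θ0 c • x v1 + a' • W0) := by abel
      rw [this, ha', sub_self])
    exact (sub_eq_zero.1 this).symm
  let θ : K →+* K :=
    { toFun := θ0
      map_one' := huniq 1 1 0 (by rw [one_smul, one_smul, zero_smul, add_zero])
      map_mul' := by
        intro c c'
        obtain ⟨a, ha⟩ := h5 c' v1 hv1w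
        obtain ⟨b, hb⟩ := h5 c (c' • v1) (by rw [κ.map_smul, LinearMap.smul_apply, hv1w, smul_zero])
        apply huniq _ _ (θ0 c * a + b)
        rw [mul_smul, hb, ha, smul_add, smul_smul, smul_smul, add_smul]
        abel
      map_zero' := huniq 0 0 0 (by rw [zero_smul, zero_smul, zero_smul, add_zero, map_zero])
      map_add' := by
        intro c c'
        obtain ⟨a, ha⟩ := h5 c v1 hv1w
        obtain ⟨b, hb⟩ := h5 c' v1 hv1w
        apply huniq _ _ (a + b)
        rw [add_smul, map_add, ha, hb, add_smul, add_smul]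
        abel }
  have hθF : ∀ a : F, θ (algebraMap F K a) = algebraMap F K a := by
    intro a
    apply huniq _ _ 0
    rw [algebraMap_smul, map_smul, algebraMap_smul, zero_smul, add_zero]
  have h6 : ∀ c v, κ v W0 = 0 → ∃ a : K, x (c • v) = θ c • x v + a • W0 := h5
  refine ⟨θ, ?_⟩
  clear_value θ
  let θl : K →ₗ[F] K :=
    { toFun := θ
      map_add' := map_add θ
      map_smul' := fun a c => by rw [Algebra.smul_def, map_mul, hθF, RingHom.id_apply, ← Algebra.smul_def] }
  have hθl : ∀ c, θl c = θ c := fun c => rfl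
  have hθi : Function.Injective θl := θ.injective
  have hθs : Function.Surjective θl := LinearMap.injective_iff_surjective.1 hθi
  -- step 7
  have h7 : ∀ v, κ v v = 0 → κ v W0 = 0 → v ∉ Submodule.span K {W0} → ∀ c : K, x (c • v) = θ c • x v := by
    intro v hv hvw hvs
    obtain ⟨z, hz⟩ : ∃ z, z = x v := ⟨_, rfl⟩
    have hzw : κ z W0 = 0 := by rw [hz]; exact hperp v hvw
    have hwz : κ W0 z = 0 := E.kS.symm_zero hzw
    obtain ⟨f, hf⟩ : ∃ f, κ W0 f = 1 := by
      obtain ⟨f, -, hf⟩ := exists_hyp E.kS hWW hWne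
      refine ⟨-f, ?_⟩
      rw [map_neg, E.kS.skew f W0, hf, map_one, neg_neg]
    obtain ⟨m, hmd⟩ : ∃ m : K →ₗ[F] K, m = (κ.flip f).restrictScalars F ∘ₗ
      (x.toLinearMap ∘ₗ lin (K := K) F v - lin (K := K) F z ∘ₗ θl) := ⟨_, rfl⟩
    have hmc : ∀ c, m c = κ (x (c • v) - θ c • z) f := fun c => by rw [hmd]; rfl
    have hm : ∀ c, x (c • v) = θ c • z + m c • W0 := by
      intro c
      obtain ⟨a, ha⟩ := h6 c v hvw
      rw [hmc, ha, ← hz, add_sub_cancel_left, κ.map_smul, LinearMap.smul_apply, hf, smul_eq_mul, mul_one]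
    have hzs : z ∉ Submodule.span K {W0} := by
      intro hcon
      obtain ⟨c, hc⟩ := Submodule.mem_span_singleton.1 hcon
      exact one_ne_zero (hind v hvs 1 (-c) (by rw [← hz, one_smul, neg_smul, hc, add_neg_cancel]))
    have hindz : ∀ a b : K, a • z + b • W0 = 0 → a = 0 := fun a b hab => hind v hvs a b (by rw [← hz]; exact hab)
    have hzz : κ z z = 0 := by
      apply E.ext0
      intro y
      obtain ⟨y, rfl⟩ := hθs y
      have h1 := hxh (y • v) v
      rw [hm, ← hz, E.hh, E.hh] at h1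
      simp only [map_add, LinearMap.add_apply, κ.map_smul, LinearMap.smul_apply, smul_eq_mul, hwz, hv, mul_zero, add_zero,
        map_zero] at h1
      exact h1
    -- the conjugate of a root element
    obtain ⟨r, hr⟩ : ∃ r : V ≃ₗ[F] V, r = (rf κ v 1).restrictScalars F := ⟨_, rfl⟩
    have hrX : r ∈ X := by rw [hr]; exact D.hX.su _ (tr_mem_SU E.kS hv (map_one s))
    have hry : ∀ y, r y = y + κ y v • v := by
      intro y
      rw [hr]
      show rf κ v 1 y = _
      rw [rf_apply (tr_good hv (map_one s)), one_mul]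
    obtain ⟨R, hR⟩ : ∃ R, R = x * r * x⁻¹ := ⟨_, rfl⟩
    have hRX : R ∈ X := by rw [hR]; exact X.mul_mem (X.mul_mem hx hrX) (X.inv_mem hx)
    have hxx : ∀ y, x (x⁻¹ y) = y := fun y => x.apply_symm_apply y
    have ha : ∀ y, κ (x⁻¹ y) v = J D.hT θl (κ y z) + J D.hT m (κ y W0) := by
      intro y
      apply E.ext'
      intro u
      have h1 : kf σ s l0 E.sF (J D.hT θl (κ y z)) u = kf σ s l0 E.sF (κ y z) (θl u) := J_spec _ _ _ _
      have h2 : kf σ s l0 E.sF (J D.hT m (κ y W0)) u = kf σ s l0 E.sF (κ y W0) (m u) := J_spec _ _ _ _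
      rw [kf_apply, kf_apply] at h1 h2
      rw [add_mul, map_add, h1, h2, ← hsm E, ← hxh, hxx, hm, map_add, hsm E, hsm E]
      rfl
    have hRy : ∀ y, R y = y + (θ (J D.hT θl (κ y z) + J D.hT m (κ y W0)) • z + m (J D.hT θl (κ y z) + J D.hT m (κ y W0)) • W0) := by
      intro y
      rw [hR]
      show x (r (x⁻¹ y)) = _
      rw [hry, map_add, hxx, hm, ha]
    have hRz : ∀ c : K, R (c • z) = c • z := by
      intro c
      rw [hRy, κ.map_smul, LinearMap.smul_apply, LinearMap.smul_apply, hzz, hzw]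
      simp
    have hRW : ∀ c : K, R (c • W0) = c • W0 := by
      intro c
      rw [hRy, κ.map_smul, LinearMap.smul_apply, LinearMap.smul_apply, hwz, hWW]
      simp
    obtain ⟨d, hd⟩ : ∃ d, d = θ (J D.hT θl 1) := ⟨_, rfl⟩
    have hθθ : ∀ u, θ (J D.hT θl u) = u * d := by
      obtain ⟨v', -, hv'⟩ := exists_dual E.kS (top_nd E.kS) (x := ![W0, z]) (fun i => trivial) (pair_li hWne hzs) ![0, 1]
      have v0' : κ v' W0 = 0 := hv' 0
      have v1' : κ v' z = 1 := hv' 1
      have h8 := P_conj' D.hX.le hRX (w := w) (fun u => by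
        show R (u • phi (K := K) F e w) = u • phi (K := K) F e w
        rw [← hW0, hRW]) (D.P_lin hw (by rw [← hW0]; exact v0' : κ v' (phi (K := K) F e w) = 0))
      intro u
      obtain ⟨a, ha'⟩ := D.claimA hN hw hw0 (fun u => by
        show κ (R (u • v')) (phi (K := K) F e w) = 0
        rw [← hW0, hRy]
        simp only [map_add, LinearMap.add_apply, κ.map_smul, LinearMap.smul_apply, v0', hzw, hWW, smul_zero, add_zero]) h8 u
      have h9 : R (u • v') = u • R ((1 : K) • v') + a • phi (K := K) F e w := ha'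
      rw [one_smul, ← hW0, hRy, hRy v', κ.map_smul, LinearMap.smul_apply, LinearMap.smul_apply, v0', v1',
        smul_eq_mul, smul_eq_mul, mul_one, mul_zero, map_zero, add_zero, add_zero, ← hd] at h9
      have h10 := hindz (θ (J D.hT θl u) - u * d) (m (J D.hT θl u) - u * m (J D.hT θl 1) - a) (by
        rw [sub_smul, sub_smul, sub_smul, mul_smul, mul_smul]
        rw [smul_add, smul_add] at h9
        have h11 : θ (J D.hT θl u) • z + m (J D.hT θl u) • W0 = u • d • z + u • m (J D.hT θl 1) • W0 + a • W0 := by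
          have := h9
          rw [add_assoc, add_right_inj] at this
          rw [this]
        have h12 : θ (J D.hT θl u) • z - u • d • z + (m (J D.hT θl u) • W0 - u • m (J D.hT θl 1) • W0 - a • W0) =
          (θ (J D.hT θl u) • z + m (J D.hT θl u) • W0) - (u • d • z + u • m (J D.hT θl 1) • W0 + a • W0) := by abel
        rw [h12, h11, sub_self])
      exact sub_eq_zero.1 h10
    have hds : s d = d := by
      have h8 : θl * J D.hT θl = LinearMap.mulLeft F d := by
        ext u
        rw [Module.End.mul_apply, hθl, hθθ, LinearMap.mulLeft_apply, mul_comm]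
      have h9 : J D.hT (θl * J D.hT θl) = θl * J D.hT θl := by rw [J_mul, J_J]
      rw [h8, D.J_mulLeft] at h9
      have := LinearMap.congr_fun h9 1
      rwa [LinearMap.mulLeft_apply, LinearMap.mulLeft_apply, mul_one, mul_one] at this
    obtain ⟨r', hr'⟩ : ∃ r' : V ≃ₗ[F] V, r' = (rf κ z (-d)).restrictScalars F := ⟨_, rfl⟩
    have hds' : s (-d) = -d := by rw [map_neg, hds]
    have hr'X : r' ∈ X := by rw [hr']; exact D.hX.su _ (tr_mem_SU E.kS hzz hds')
    have hr'y : ∀ y, r' y = y + (-(κ y z * d)) • z := by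
      intro y
      rw [hr']
      show rf κ z (-d) y = _
      rw [rf_apply (tr_good hzz hds')]
      congr 2
      ring
    obtain ⟨T, hTd⟩ : ∃ T, T = lin (K := K) F z ∘ₗ (θl * J D.hT m) := ⟨_, rfl⟩
    have hTu : ∀ u, T u = θ (J D.hT m u) • z := fun u => by rw [hTd]; rfl
    have hPT : P D.hT X w T := by
      refine ⟨m * J D.hT m, R * r', X.mul_mem hRX hr'X, fun y => ?_⟩
      rw [GP_apply, hTu, D.kap_eq, tau_apply, tau_apply, ← hW0, hTd, A_comp_apply, D.A_lin, J_mul, J_J]
      show R (r' y) = _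
      rw [hr'y, map_add, hRz, hRy, map_add θ, hθθ, map_add m]
      simp only [Module.End.mul_apply]
      module
    have h8 : ∀ u, θ (J D.hT m u) = u * θ (J D.hT m 1) := by
      intro u
      obtain ⟨a, ha'⟩ := D.claimA hN hw hw0 (fun u => by
        rw [hTu, ← hW0, κ.map_smul, LinearMap.smul_apply, hzw, smul_zero]) hPT u
      rw [hTu, hTu, ← hW0] at ha'
      have h10 := hindz (θ (J D.hT m u) - u * θ (J D.hT m 1)) (-a) (by
        rw [sub_smul, ha', mul_smul, neg_smul]; abel)
      exact sub_eq_zero.1 h10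
    have hm1 : m 1 = 0 := by
      rw [hmc, one_smul, map_one θ, one_smul, ← hz, sub_self, map_zero, LinearMap.zero_apply]
    have hl : ∀ u, l0 (J D.hT m u) = 0 := by
      intro u
      have h1 : kf σ s l0 E.sF (J D.hT m u) 1 = kf σ s l0 E.sF u (m 1) := J_spec _ _ _ _
      rw [kf_apply, map_one s, mul_one, hm1, map_zero] at h1
      exact h1
    have hb : θ (J D.hT m 1) = 0 := by
      by_contra hb
      apply E.l00
      ext y
      have h1 := h8 (θ y * (θ (J D.hT m 1))⁻¹)
      rw [inv_mul_cancel_right₀ hb] at h1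
      have h2 := hl (θ y * (θ (J D.hT m 1))⁻¹)
      rw [θ.injective h1] at h2
      exact h2
    have hJm : J D.hT m = 0 := by
      ext u
      have h1 := h8 u
      rw [hb, mul_zero] at h1
      exact (map_eq_zero_iff θ θ.injective).1 h1
    have hm0 : m = 0 := by rw [← J_J D.hT m, hJm, J_zero]
    intro c
    rw [hm, hm0, LinearMap.zero_apply, zero_smul, add_zero, hz]
  let S : Submodule K V :=
    { carrier := {v | ∀ c : K, x (c • v) = θ c • x v}
      add_mem' := by
        intro a b ha hb c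
        rw [smul_add, map_add, map_add, ha, hb, smul_add]
      zero_mem' := by intro c; rw [smul_zero, map_zero, smul_zero]
      smul_mem' := by
        intro a v hv c
        rw [smul_smul, hv, hv, map_mul, mul_smul] }
  intro v hv
  exact span_iso_perp E.kS hdV hWW hWne S (fun f h1 h2 h3 => h7 f h1 h2 h3) hv

end H95.TE
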