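import Mathlib
import Cfsg.Agent.Lib.H95.TE5

set_option autoImplicit false
set_option linter.unusedSectionVars false
set_option linter.unusedVariables false
set_option linter.unusedSimpArgs false

/-!
Overgroups of the special unitary group over the extension field: elements mapping a line to a line are semilinear;
the conclusion in degree three and dimension four.
-/

namespace H95.TE

open Module H95.UBasic H95.TVG H95.TV

variable {F K V : Type*} [Field F] [Field K] [Algebra F K] [AddCommGroup V] [Module F V] [Module K V]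
  [IsScalarTower F K V] {σ : F →+* F} {s : K →+* K}
variable {κ : V →ₗ[K] V →ₛₗ[s] K} {l0 : K →ₗ[F] F} {h : V →ₗ[F] V →ₛₗ[σ] F}
variable {ι : Type*} [Fintype ι] [DecidableEq ι]
variable [FiniteDimensional F K] [FiniteDimensional K V]
variable {E : UE κ l0 h} {e : Basis ι K V} {g : (ι → F) →ₗ[F] (ι → F) →ₛₗ[σ] F} {X : Subgroup (V ≃ₗ[F] V)}

/-- semilinear elements -/
def Semi (K : Type*) {F V : Type*} [Field F] [Field K] [AddCommGroup V] [Module F V] [Module K V] (x : V ≃ₗ[F] V) : Prop :=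
  ∃ θ : K →+* K, ∀ (c : K) v, x (c • v) = θ c • x v

lemma Semi.of_inv [Finite K] {x : V ≃ₗ[F] V} (hx : Semi K x⁻¹) : Semi K x := by
  obtain ⟨θ, hθ⟩ := hx
  have hb : Function.Bijective θ := Finite.injective_iff_bijective.1 θ.injective
  refine ⟨(RingEquiv.ofBijective θ hb).symm, fun c v => ?_⟩
  obtain ⟨c, rfl⟩ := hb.2 c
  have h1 : (RingEquiv.ofBijective θ hb).symm (θ c) = c := (RingEquiv.ofBijective θ hb).symm_apply_apply c
  change x (θ c • v) = (RingEquiv.ofBijective θ hb).symm (θ c) • x v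
  rw [h1]
  have h2 := hθ c (x v)
  have h3 : x⁻¹ (x v) = v := x.symm_apply_apply v
  have h4 : x (x⁻¹ (c • x v)) = c • x v := x.apply_symm_apply _
  rw [h3] at h2
  rw [← h2, h4]

lemma MD.perp1 (D : MD E e g X) (hN : ∀ n ∈ NN D.hT X, ∃ c : K, n = LinearMap.mulLeft F c) (hdV : 4 ≤ finrank K V)
    {x : V ≃ₗ[F] V} (hx : x ∈ X) {a b : V} (ha : κ a a = 0) (ha0 : a ≠ 0) (hab : ∀ c : K, ∃ c' : K, x (c • a) = c' • b) :
    ∃ θ : K →+* K, ∀ v, κ v a = 0 → ∀ c : K, x (c • v) = θ c • x v := by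
  have hxh : ∀ a b, h (x a) (x b) = h a b := D.hX.le hx
  obtain ⟨w, hw0, hw, -, -⟩ := exists_perp_iso D.hT.gS D.hd (0 : ι → F) 0
  obtain ⟨W0, hW0⟩ : ∃ W0, W0 = phi (K := K) F e w := ⟨_, rfl⟩
  have hWW : κ W0 W0 = 0 := by rw [hW0, D.hg, hw, map_zero]
  have hWne : W0 ≠ 0 := by
    intro h0
    apply hw0
    apply D.hT.gS.nd
    intro w'
    have := D.hg w w'
    rw [← hW0, h0, map_zero, LinearMap.zero_apply] at this
    exact (map_eq_zero_iff _ (algebraMap F K).injective).1 this.symm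
  -- b is isotropic
  obtain ⟨c1, hc1⟩ := hab 1
  rw [one_smul] at hc1
  have hc10 : c1 ≠ 0 := by
    rintro rfl
    rw [zero_smul, LinearEquiv.map_eq_zero_iff] at hc1
    exact ha0 hc1
  have hb0 : b ≠ 0 := by
    rintro rfl
    rw [smul_zero, LinearEquiv.map_eq_zero_iff] at hc1
    exact ha0 hc1
  choose f hf using hab
  let fl : K →ₗ[F] K :=
    { toFun := f
      map_add' := fun c c' => by
        apply smul_left_injective K hb0
        show f (c + c') • b = (f c + f c') • b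
        rw [← hf, add_smul, map_add, hf, hf, add_smul]
      map_smul' := fun c c' => by
        apply smul_left_injective K hb0
        show f (c • c') • b = (c • f c') • b
        rw [← hf, smul_assoc, map_smul, hf, smul_assoc] }
  have hfl : ∀ c, fl c = f c := fun c => rfl
  have hfi : Function.Injective fl := by
    rw [injective_iff_map_eq_zero]
    intro c hc
    have h1 := hf c
    rw [← hfl, hc, zero_smul, LinearEquiv.map_eq_zero_iff] at h1
    exact (smul_eq_zero.1 h1).resolve_right ha0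
  have hfs : Function.Surjective fl := LinearMap.injective_iff_surjective.1 hfi
  have hbb : κ b b = 0 := by
    apply E.ext0
    intro y
    obtain ⟨y', hy'⟩ := hfs (y * (s c1)⁻¹)
    have hs1 : s c1 ≠ 0 := fun h0 => hc10 (E.kS.inj h0)
    have h1 := hxh (y' • a) a
    rw [hf, ← hfl, hy', hc1, E.hh, E.hh, κ.map_smul, κ.map_smul, LinearMap.smul_apply, LinearMap.smul_apply, ha, smul_zero,
      map_zero, LinearMap.map_smulₛₗ, smul_eq_mul, smul_eq_mul, ← mul_assoc, inv_mul_cancel_right₀ hs1] at h1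
    exact h1
  obtain ⟨A, hA, hAa⟩ := iso_trans E.kS hdV hWW hWne ha ha0
  obtain ⟨B, hB, hBb⟩ := iso_trans E.kS hdV hbb hb0 hWW hWne
  obtain ⟨A', hA'⟩ : ∃ A' : V ≃ₗ[F] V, A' = A.restrictScalars F := ⟨_, rfl⟩
  obtain ⟨B', hB'⟩ : ∃ B' : V ≃ₗ[F] V, B' = B.restrictScalars F := ⟨_, rfl⟩
  have hA'v : ∀ v, A' v = A v := fun v => by rw [hA']; rfl
  have hB'v : ∀ v, B' v = B v := fun v => by rw [hB']; rfl
  have hA'X : A' ∈ X := by rw [hA']; exact D.hX.su _ hA
  have hB'X : B' ∈ X := by rw [hB']; exact D.hX.su _ hB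
  obtain ⟨θ, hθ⟩ := D.perp0 hN hdV (X.mul_mem (X.mul_mem hB'X hx) hA'X) hw hw0 (α := fl) (by
    intro u
    show B' (x (A' (u • phi (K := K) F e w))) = _
    rw [← hW0, hA'v, A.map_smul, hAa, hf, hB'v, B.map_smul, hBb, hfl])
  refine ⟨θ, fun v hv c => ?_⟩
  obtain ⟨v', rfl⟩ := A.surjective v
  have h1 := hθ v' (by
    have h2 : κ (A v') (A W0) = κ v' W0 := (SU_le _ hA) _ _
    rw [← hW0, ← h2, hAa, hv]) c
  have h2 : B' (x (A' (c • v'))) = θ c • B' (x (A' v')) := h1
  rw [hA'v, hA'v, hB'v, hB'v, ← B.map_smul, A.map_smul] at h2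
  exact B.injective h2

/-- elements mapping an isotropic line to a line are semilinear -/
theorem MD.semi_of_line (D : MD E e g X) (hN : ∀ n ∈ NN D.hT X, ∃ c : K, n = LinearMap.mulLeft F c) (hdV : 4 ≤ finrank K V)
    {x : V ≃ₗ[F] V} (hx : x ∈ X) {a b : V} (ha : κ a a = 0) (ha0 : a ≠ 0) (hab : ∀ c : K, ∃ c' : K, x (c • a) = c' • b) :
    Semi K x := by
  obtain ⟨θ, hθ⟩ := D.perp1 hN hdV hx ha ha0 hab
  obtain ⟨f, hf, hfa, hfs⟩ := exists_iso_perp E.kS hdV ha ha0
  have hf0 : f ≠ 0 := by rintro rfl; exact hfs (Submodule.zero_mem _)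
  obtain ⟨θ', hθ'⟩ := D.perp1 hN hdV hx hf hf0 (b := x f) (fun c => ⟨θ c, hθ f hfa c⟩)
  have hxa : x a ≠ 0 := fun h0 => ha0 ((LinearEquiv.map_eq_zero_iff x).1 h0)
  have hθθ : θ' = θ := by
    ext c
    apply smul_left_injective K hxa
    show θ' c • x a = θ c • x a
    rw [← hθ a ha, ← hθ' a (E.kS.symm_zero hfa)]
  rw [hθθ] at hθ'
  obtain ⟨r, -, hr⟩ := exists_dual E.kS (top_nd E.kS) (x := ![a, f]) (fun i => trivial) (pair_li ha0 hfs) ![1, 0]
  have hr0 : κ r a = 1 := hr 0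
  have hr1 : κ r f = 0 := hr 1
  refine ⟨θ, fun c v => ?_⟩
  have h1 : κ (v - κ v a • r) a = 0 := by
    rw [map_sub, LinearMap.sub_apply, κ.map_smul, LinearMap.smul_apply, hr0, smul_eq_mul, mul_one, sub_self]
  have h2 := hθ _ h1 c
  have h3 := hθ' (κ v a • r) (by rw [κ.map_smul, LinearMap.smul_apply, hr1, smul_zero]) c
  have h4 : v = (v - κ v a • r) + κ v a • r := by abel
  rw [h4, smul_add, map_add, h2, h3, map_add, smul_add]

/-- the image of a line under a non-semilinear element is orthogonal to no isotropic line -/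
theorem MD.no_line [Finite K] (D : MD E e g X) (hN : ∀ n ∈ NN D.hT X, ∃ c : K, n = LinearMap.mulLeft F c)
    (hdV : 4 ≤ finrank K V) {x : V ≃ₗ[F] V} (hx : x ∈ X) (hns : ¬ Semi K x) {a b : V} (ha : κ a a = 0) (ha0 : a ≠ 0)
    (hb : κ b b = 0) (hb0 : b ≠ 0) (hab : ∀ c c' : K, h (x (c • a)) (c' • b) = 0) : False := by
  have hxh : ∀ a b, h (x a) (x b) = h a b := D.hX.le hx
  have hxx : ∀ y, x (x⁻¹ y) = y := fun y => x.apply_symm_apply y
  have hxx' : ∀ y, x⁻¹ (x y) = y := fun y => x.symm_apply_apply y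
  obtain ⟨r, hr⟩ : ∃ r : V ≃ₗ[F] V, r = (rf κ a 1).restrictScalars F := ⟨_, rfl⟩
  have hrX : r ∈ X := by rw [hr]; exact D.hX.su _ (tr_mem_SU E.kS ha (map_one s))
  have hry : ∀ y, r y = y + κ y a • a := by
    intro y
    rw [hr]
    show rf κ a 1 y = _
    rw [rf_apply (tr_good ha (map_one s)), one_mul]
  obtain ⟨R, hR⟩ : ∃ R, R = x * r * x⁻¹ := ⟨_, rfl⟩
  have hRX : R ∈ X := by rw [hR]; exact X.mul_mem (X.mul_mem hx hrX) (X.inv_mem hx)
  have hRy : ∀ y, R y = y + x (κ (x⁻¹ y) a • a) := by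
    intro y
    rw [hR]
    show x (r (x⁻¹ y)) = _
    rw [hry, map_add, hxx]
  have hfix : ∀ c : K, R (c • b) = c • b := by
    intro c
    have h1 : κ (x⁻¹ (c • b)) a = 0 := by
      apply E.ext'
      intro y
      rw [← hsm E, ← hxh, hxx, zero_mul, map_zero]
      exact E.hS.symm_zero (hab y c)
    rw [hRy, h1, zero_smul, map_zero, add_zero]
  obtain ⟨θ, hθ⟩ := D.semi_of_line hN hdV hRX hb hb0 (b := b) (fun c => ⟨c, hfix c⟩)
  have hθ1 : ∀ c, θ c = c := by
    intro c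
    apply smul_left_injective K hb0
    have h1 := hθ c b
    have h2 := hfix 1
    rw [one_smul] at h2
    rw [hfix, h2] at h1
    exact h1.symm
  obtain ⟨v0, hv0⟩ := dual1 E.kS ha0
  have hline : ∀ c : K, ∃ c' : K, x⁻¹ (c • x a) = c' • a := by
    intro c
    refine ⟨κ (x⁻¹ (c • x v0)) a, ?_⟩
    apply x.injective
    rw [hxx]
    have h1 := hθ c (x v0)
    rw [hθ1, hRy, hRy (x v0), hxx', hv0, one_smul, smul_add, add_right_inj] at h1
    exact h1.symm
  have hxa : κ (x a) (x a) = 0 := by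
    apply E.ext0
    intro y
    obtain ⟨c', hc'⟩ := hline y
    have h1 : h (y • x a) (x a) = 0 := by
      rw [← hxx (y • x a), hxh, hc', E.hh, κ.map_smul, LinearMap.smul_apply, ha, smul_zero, map_zero]
    rwa [E.hh, κ.map_smul, LinearMap.smul_apply, smul_eq_mul] at h1
  exact hns (Semi.of_inv (D.semi_of_line hN hdV (X.inv_mem hx) hxa (fun h0 => ha0 ((LinearEquiv.map_eq_zero_iff x).1 h0))
    (b := a) hline))

/-- all elements are semilinear -/
theorem MD.all_semi [Finite K] (D : MD E e g X) (hN : ∀ n ∈ NN D.hT X, ∃ c : K, n = LinearMap.mulLeft F c)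
    (hdV : 4 ≤ finrank K V) (h3 : finrank F K = 3) {x : V ≃ₗ[F] V} (hx : x ∈ X) : Semi K x := by
  by_contra hns
  have hxh : ∀ a b, h (x a) (x b) = h a b := D.hX.le hx
  have hxx : ∀ y, x (x⁻¹ y) = y := fun y => x.apply_symm_apply y
  obtain ⟨w0, hw0, hww, -, -⟩ := exists_perp_iso E.kS hdV (0 : V) 0
  let bK : Basis (Fin 3) F K := finBasisOfFinrankEq F K h3
  obtain ⟨v, hv0, hvv, hv1, hv2⟩ := exists_perp_iso E.kS hdV (x (bK 0 • w0)) (x (bK 1 • w0))
  obtain ⟨a3, ha3⟩ : ∃ a3, a3 = x (bK 2 • w0) := ⟨_, rfl⟩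
  have hzero : ∀ y, h y (x (bK 0 • w0)) = 0 → h y (x (bK 1 • w0)) = 0 → h y a3 = 0 →
      ∀ c : K, h y (x (c • w0)) = 0 := by
    intro y h0 h1 h2 c
    have hxs : ∀ (p : F) (k : K), h y (x ((p • k) • w0)) = σ p * h y (x (k • w0)) := by
      intro p k
      rw [smul_assoc p k w0, x.map_smul p, (h y).map_smulₛₗ, smul_eq_mul]
    rw [← bK.sum_repr c, Fin.sum_univ_three, add_smul, add_smul, map_add, map_add, map_add, map_add, hxs, hxs, hxs, h0, h1,
      ← ha3, h2]
    simp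
  have hz0 : ∀ c : K, h (c • v) (x (bK 0 • w0)) = 0 := fun c => by
    rw [E.hh, κ.map_smul, LinearMap.smul_apply, hv1, smul_zero, map_zero]
  have hz1 : ∀ c : K, h (c • v) (x (bK 1 • w0)) = 0 := fun c => by
    rw [E.hh, κ.map_smul, LinearMap.smul_apply, hv2, smul_zero, map_zero]
  obtain ⟨μ, hμ⟩ : ∃ μ : K, h (μ • v) a3 ≠ 0 := by
    by_contra hcon
    push Not at hcon
    refine D.no_line hN hdV hx hns hww hw0 hvv hv0 fun c c' => E.hS.symm_zero ?_
    exact hzero _ (hz0 _) (hz1 _) (hcon _) c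
  obtain ⟨b, hb⟩ : ∃ b, b = κ (x⁻¹ (μ • v)) w0 := ⟨_, rfl⟩
  have hb0 : b ≠ 0 := by
    intro h0
    apply hμ
    rw [ha3, ← hxx (μ • v), hxh, hsm E, ← hb, h0, zero_mul, map_zero]
  -- the parameter
  obtain ⟨c, hc, hc0, hcl⟩ : ∃ c : K, s c = c ∧ c ≠ 0 ∧ l0 (c * (b * s b)) = 0 := by
    have hNs : s (b * s b) = b * s b := by rw [map_mul, E.kS.inv, mul_comm]
    obtain ⟨x0, hx0, hx00⟩ : ∃ x0 : K, l0 (x0 * (b * s b)) = 0 ∧ x0 ≠ 0 := by
      have h4 := LinearMap.finrank_range_add_finrank_ker (l0 ∘ₗ LinearMap.mulRight F (b * s b))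
      have h5 : finrank F (LinearMap.range (l0 ∘ₗ LinearMap.mulRight F (b * s b))) ≤ 1 := by
        refine (Submodule.finrank_le _).trans ?_
        rw [finrank_self]
      have h6 : LinearMap.ker (l0 ∘ₗ LinearMap.mulRight F (b * s b)) ≠ ⊥ := by
        intro h0
        rw [h0, finrank_bot, h3] at h4
        omega
      obtain ⟨k, hk, hk0⟩ := (Submodule.ne_bot_iff _).1 h6
      exact ⟨k, hk, hk0⟩
    have hcl : ∀ y : K, l0 (y * (b * s b)) = 0 → l0 (s y * (b * s b)) = 0 := by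
      intro y hy
      have : s y * (b * s b) = s (y * (b * s b)) := by rw [map_mul s y, hNs]
      rw [this, E.l0s, hy, map_zero]
    by_cases h0 : x0 + s x0 = 0
    · obtain ⟨a, ha⟩ := E.hS.ne
      refine ⟨a • x0 + s (a • x0), ?_, ?_, ?_⟩
      · rw [map_add, E.kS.inv, add_comm]
      · rw [Algebra.smul_def, map_mul, E.sF, eq_neg_of_add_eq_zero_right h0]
        have h7 : algebraMap F K a * x0 + algebraMap F K (σ a) * -x0 = algebraMap F K (a - σ a) * x0 := by
          rw [map_sub]; ring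
        rw [h7]
        refine mul_ne_zero ?_ hx00
        intro h8
        have := (map_eq_zero_iff _ (algebraMap F K).injective).1 h8
        exact ha (sub_eq_zero.1 this).symm
      · have h7 : l0 (a • x0 * (b * s b)) = 0 := by rw [smul_mul_assoc, map_smul, hx0, smul_zero]
        rw [add_mul, map_add, h7, hcl _ h7, add_zero]
    · refine ⟨x0 + s x0, ?_, h0, ?_⟩
      · rw [map_add, E.kS.inv, add_comm]
      · rw [add_mul, map_add, hx0, hcl _ hx0, add_zero]
  -- the element t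
  obtain ⟨r, hr⟩ : ∃ r : V ≃ₗ[F] V, r = (rf κ w0 c).restrictScalars F := ⟨_, rfl⟩
  have hrX : r ∈ X := by rw [hr]; exact D.hX.su _ (tr_mem_SU E.kS hww hc)
  have hry : ∀ y, r y = y + (c * κ y w0) • w0 := by
    intro y
    rw [hr]
    show rf κ w0 c y = _
    rw [rf_apply (tr_good hww hc)]
  obtain ⟨t, ht⟩ : ∃ t, t = x * r * x⁻¹ := ⟨_, rfl⟩
  have htX : t ∈ X := by rw [ht]; exact X.mul_mem (X.mul_mem hx hrX) (X.inv_mem hx)
  have hth : ∀ a b, h (t a) (t b) = h a b := D.hX.le htX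
  have hty : ∀ y, t y = y + x ((c * κ (x⁻¹ y) w0) • w0) := by
    intro y
    rw [ht]
    show x (r (x⁻¹ y)) = _
    rw [hry, map_add, hxx]
  obtain ⟨d, hd⟩ : ∃ d, d = x ((c * b) • w0) := ⟨_, rfl⟩
  have hd0 : d ≠ 0 := by
    intro h0
    rw [hd, LinearEquiv.map_eq_zero_iff] at h0
    rcases smul_eq_zero.1 h0 with h1 | h1
    · exact mul_ne_zero hc0 hb0 h1
    · exact hw0 h1
  have htμ : t (μ • v) = μ • v + d := by rw [hty, ← hb, hd]
  have hfix : ∀ y : K, h (y • v) a3 = 0 → t (y • v) = y • v := by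
    intro y hy
    have h1 : κ (x⁻¹ (y • v)) w0 = 0 := by
      apply E.ext'
      intro z
      rw [← hsm E, ← hxh, hxx, zero_mul, map_zero]
      exact hzero _ (hz0 _) (hz1 _) hy z
    rw [hty, h1, mul_zero, zero_smul, map_zero, add_zero]
  have hvv' : ∀ y z : K, h (y • v) (z • v) = 0 := by
    intro y z
    rw [hsm E, κ.map_smul, LinearMap.smul_apply, hvv, smul_zero, zero_mul, map_zero]
  have hdec : ∀ y : K, ∃ p : F, ∃ y' : K, h (y' • v) a3 = 0 ∧ y = y' + p • μ := by
    intro y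
    refine ⟨h (y • v) a3 * (h (μ • v) a3)⁻¹, y - (h (y • v) a3 * (h (μ • v) a3)⁻¹) • μ, ?_, by abel⟩
    rw [sub_smul, map_sub, LinearMap.sub_apply, smul_assoc _ μ v, h.map_smul, LinearMap.smul_apply, smul_eq_mul,
      inv_mul_cancel_right₀ hμ, sub_self]
  have hd1 : ∀ y : K, h (y • v) a3 = 0 → h d (y • v) = 0 := by
    intro y hy
    have h1 := hth (μ • v) (y • v)
    rw [hfix y hy, htμ, map_add, LinearMap.add_apply, hvv', zero_add] at h1
    exact h1
  have hd2 : h d (μ • v) = 0 := by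
    apply E.hS.symm_zero
    rw [hd, ← hxx (μ • v), hxh, hsm E, ← hb, map_mul s, hc]
    rw [← hcl]
    congr 1
    ring
  have key : ∀ y z : K, h (t (y • v)) (z • v) = 0 := by
    intro y z
    obtain ⟨p, y', hy', e1⟩ := hdec y
    obtain ⟨p', z', hz', e2⟩ := hdec z
    have h1 : t (y • v) = y • v + p • d := by
      rw [e1, add_smul, smul_assoc p μ v, map_add, t.map_smul p, hfix y' hy', htμ, smul_add]
      abel
    have h2 : h d (z • v) = 0 := by
      rw [e2, add_smul, smul_assoc p' μ v, map_add, (h d).map_smulₛₗ, hd1 z' hz', hd2, smul_zero, add_zero]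
    rw [h1, map_add, LinearMap.add_apply, h.map_smul, LinearMap.smul_apply, hvv', h2, smul_zero, add_zero]
  by_cases hst : Semi K t
  · obtain ⟨θ, hθ⟩ := hst
    obtain ⟨fn, hfn⟩ : ∃ fn : K →ₗ[F] F, fn = h.flip a3 ∘ₗ lin (K := K) F v := ⟨_, rfl⟩
    have hfny : ∀ y, y ∈ LinearMap.ker fn → h (y • v) a3 = 0 := fun y hy => by
      rw [LinearMap.mem_ker, hfn] at hy; exact hy
    have h4 := LinearMap.finrank_range_add_finrank_ker fn
    have h5 : finrank F (LinearMap.range fn) ≤ 1 := by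
      refine (Submodule.finrank_le _).trans ?_
      rw [finrank_self]
    obtain ⟨l1, hl1, hl10⟩ := exists_indep (U := LinearMap.ker fn) (by omega) (0 : K)
    have hl1ne : l1 ≠ 0 := by
      intro h0
      exact hl10 0 (by rw [h0, smul_zero])
    obtain ⟨l2, hl2, hl21⟩ := exists_indep (U := LinearMap.ker fn) (by omega) l1
    obtain ⟨v', hv'⟩ : ∃ v', v' = l1 • v := ⟨_, rfl⟩
    have hv'0 : v' ≠ 0 := by rw [hv']; exact smul_ne_zero hl1ne hv0
    have htv' : t v' = v' := by rw [hv']; exact hfix l1 (hfny l1 hl1)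
    have hθc : ∀ c : K, t (c • v') = θ c • v' := fun c => by rw [hθ, htv']
    let A : Subalgebra F K :=
      { carrier := {c | θ c = c}
        mul_mem' := fun {a b} ha hb => by
          change θ (a * b) = a * b
          rw [map_mul, ha, hb]
        add_mem' := fun {a b} ha hb => by
          change θ (a + b) = a + b
          rw [map_add, ha, hb]
        algebraMap_mem' := fun a => by
          apply smul_left_injective K hv'0
          change θ (algebraMap F K a) • v' = algebraMap F K a • v'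
          rw [← hθc, algebraMap_smul, t.map_smul a, htv'] }
    have hs := Subalgebra.isSimpleOrder_of_finrank_prime F K (by rw [h3]; norm_num)
    have hρ : l2 * l1⁻¹ ∈ A := by
      apply smul_left_injective K hv'0
      change θ (l2 * l1⁻¹) • v' = (l2 * l1⁻¹) • v'
      rw [← hθc, hv', smul_smul, inv_mul_cancel_right₀ hl1ne, hfix l2 (hfny l2 hl2)]
    rcases hs.eq_bot_or_eq_top A with hA | hA
    · rw [hA, Algebra.mem_bot] at hρ
      obtain ⟨a, ha⟩ := hρ
      apply hl21 a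
      rw [Algebra.smul_def, ha, inv_mul_cancel_right₀ hl1ne]
    · have h6 : μ * l1⁻¹ ∈ A := by rw [hA]; exact Algebra.mem_top
      have h7 : θ (μ * l1⁻¹) = μ * l1⁻¹ := h6
      have h8 := hθc (μ * l1⁻¹)
      rw [h7, hv', smul_smul, inv_mul_cancel_right₀ hl1ne, htμ] at h8
      exact hd0 (add_eq_left.1 h8)
  · exact D.no_line hN hdV htX hst hvv hv0 hvv hv0 key

end H95.TE
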