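import Mathlib
import Cfsg.Agent.Lib.H95.TE6

set_option autoImplicit false
set_option linter.unusedSectionVars false
set_option linter.unusedVariables false
set_option linter.unusedSimpArgs false

/-!
Overgroups of the special unitary group over the extension field of degree three in dimension four.
-/

namespace H95.TE

open Module H95.UBasic H95.TVG H95.TV

variable {F K V : Type*} [Field F] [Field K] [Algebra F K] [AddCommGroup V] [Module F V] [Module K V]
  [IsScalarTower F K V] {σ : F →+* F} {s : K →+* K}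
variable {κ : V →ₗ[K] V →ₛₗ[s] K} {l0 : K →ₗ[F] F} {h : V →ₗ[F] V →ₛₗ[σ] F}
variable [FiniteDimensional F K] [FiniteDimensional K V]

/-- a hyperbolic basis -/
theorem exists_hyp_basis (H : IsSkew κ) (hd : finrank K V = 4) : ∃ e : Basis (Fin 4) K V, ∃ G : Fin 4 → Fin 4 → F,
    ∀ i j, κ (e i) (e j) = algebraMap F K (G i j) := by
  obtain ⟨w, hw0, hw, -, -⟩ := exists_perp_iso H (by omega) (0 : V) 0
  obtain ⟨f, hf, hfw⟩ := exists_hyp H hw hw0
  obtain ⟨e, he0, he, hew, hef⟩ := exists_perp_iso H (by omega) w f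
  have hwf : κ w f = -1 := by rw [H.skew f w, hfw, map_one]
  have hwe : κ w e = 0 := H.symm_zero hew
  have hfe : κ f e = 0 := H.symm_zero hef
  have hli3 : LinearIndependent K ![w, f, e] := by
    rw [Fintype.linearIndependent_iff]
    intro c hc
    rw [Fin.sum_univ_three] at hc
    simp only [Matrix.cons_val_zero, Matrix.cons_val_one, Matrix.cons_val] at hc
    have h1 := congrArg (fun z => κ z w) hc
    have h2 := congrArg (fun z => κ z f) hc
    simp only [map_add, κ.map_smul, LinearMap.add_apply, LinearMap.smul_apply, hw, hfw, hew, hwf, hf, hef, smul_eq_mul,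
      map_zero, LinearMap.zero_apply, mul_zero, mul_one, zero_add, add_zero, mul_neg, neg_eq_zero] at h1 h2
    rw [h1, h2, zero_smul, zero_smul, zero_add, zero_add] at hc
    intro i
    fin_cases i
    · exact h2
    · exact h1
    · exact (smul_eq_zero.1 hc).resolve_right he0
  obtain ⟨u, -, hu⟩ := exists_dual H (top_nd H) (x := ![w, f, e]) (fun i => trivial) hli3 ![0, 0, 1]
  have u0 : κ u w = 0 := hu 0
  have u1 : κ u f = 0 := hu 1
  have u2 : κ u e = 1 := hu 2
  obtain ⟨b, hb⟩ := iso_fix H he (by rw [u2]; exact one_ne_zero : κ u e ≠ 0)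
  obtain ⟨p, hp⟩ : ∃ p, p = u + b • e := ⟨_, rfl⟩
  rw [← hp] at hb
  have p0 : κ p w = 0 := by rw [hp, map_add, LinearMap.add_apply, κ.map_smul, LinearMap.smul_apply, u0, hew, smul_zero, add_zero]
  have p1 : κ p f = 0 := by rw [hp, map_add, LinearMap.add_apply, κ.map_smul, LinearMap.smul_apply, u1, hef, smul_zero, add_zero]
  have p2 : κ p e = 1 := by rw [hp, map_add, LinearMap.add_apply, κ.map_smul, LinearMap.smul_apply, u2, he, smul_zero, add_zero]
  have q0 : κ w p = 0 := H.symm_zero p0
  have q1 : κ f p = 0 := H.symm_zero p1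
  have q2 : κ e p = -1 := by rw [H.skew p e, p2, map_one]
  have hli : LinearIndependent K ![w, f, e, p] := by
    rw [Fintype.linearIndependent_iff]
    intro c hc
    rw [Fin.sum_univ_four] at hc
    simp only [Matrix.cons_val_zero, Matrix.cons_val_one, Matrix.cons_val] at hc
    have h1 := congrArg (fun z => κ z w) hc
    have h2 := congrArg (fun z => κ z f) hc
    have h3 := congrArg (fun z => κ z e) hc
    have h4 := congrArg (fun z => κ z p) hc
    simp only [map_add, κ.map_smul, LinearMap.add_apply, LinearMap.smul_apply, hw, hfw, hew, hwf, hf, hef, smul_eq_mul,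
      hwe, hfe, he, p0, p1, p2, q0, q1, q2, hb,
      map_zero, LinearMap.zero_apply, mul_zero, mul_one, zero_add, add_zero, mul_neg, neg_eq_zero] at h1 h2 h3 h4
    intro i
    fin_cases i
    · exact h2
    · exact h1
    · exact h4
    · exact h3
  let B := basisOfLinearIndependentOfCardEqFinrank hli (by rw [Fintype.card_fin, hd])
  have hB : ∀ i, B i = ![w, f, e, p] i := fun i => by
    rw [coe_basisOfLinearIndependentOfCardEqFinrank]
  refine ⟨B, ![![0, -1, 0, 0], ![1, 0, 0, 0], ![0, 0, 0, -1], ![0, 0, 1, 0]], fun i j => ?_⟩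
  rw [hB, hB]
  fin_cases i <;> fin_cases j <;> simp [hw, hfw, hew, hwf, hf, hef, hwe, hfe, he, p0, p1, p2, q0, q1, q2, hb]

/-- the dichotomy for overgroups -/
theorem ext3 [Finite K] (E : UE κ l0 h) (h3 : finrank F K = 3) (hd : finrank K V = 4) {X : Subgroup (V ≃ₗ[F] V)}
    (hX : XK κ h X) : (∀ v : V, h v v = 0 → ∀ c : F, σ c = c → rf h v c ∈ X) ∨ ∀ x ∈ X, Semi K x := by
  obtain ⟨e, G, hG⟩ := exists_hyp_basis (F := F) E.kS hd
  obtain ⟨g, hg, hT⟩ := exists_model E e G hG
  have D : MD E e g X := ⟨hg, hT, hX, by rw [finrank_fintype_fun_eq_card, Fintype.card_fin]⟩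
  rcases D.dich (by rw [h3]; norm_num) with h1 | hN
  · exact Or.inl h1
  · exact Or.inr fun x hx => D.all_semi hN (by omega) h3 hx

end H95.TE
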