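import Mathlib
import Cfsg.Agent.Lib.H95.TV6

set_option autoImplicit false
set_option linter.unusedSectionVars false
set_option linter.unusedVariables false
set_option linter.unusedSimpArgs false

/-!
Overgroups with scalar coefficients consist of pure tensors.
-/

namespace H95.TV

open Module H95.UBasic H95.TVG H96.StFus

variable {F U W V : Type*} [Field F] [AddCommGroup U] [Module F U] [AddCommGroup W] [Module F W] [AddCommGroup V]
  [Module F V] {σ : F →+* F}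
variable {k : U →ₗ[F] U →ₛₗ[σ] F} {g : W →ₗ[F] W →ₛₗ[σ] F} {h : V →ₗ[F] V →ₛₗ[σ] F} {τ : U →ₗ[F] W →ₗ[F] V}
variable [FiniteDimensional F U] [FiniteDimensional F W] {X : Subgroup (V ≃ₗ[F] V)} {hT : TS k g h τ}

/-- the operator `Z` -/
noncomputable def ZZ (hT : TS k g h τ) (β : U →ₗ[F] V) (e : W) : Module.End F U :=
  J hT (kap hT e ∘ₗ β) * (kap hT e ∘ₗ β)

/-- self-adjoint maps commuting with `Z` -/
def QQ (hT : TS k g h τ) (β : U →ₗ[F] V) (e : W) (n : Module.End F U) : Prop :=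
  J hT n = n ∧ n * ZZ hT β e = ZZ hT β e * n

lemma J_ZZ (hT : TS k g h τ) (β : U →ₗ[F] V) (e : W) : J hT (ZZ hT β e) = ZZ hT β e := by
  rw [ZZ, J_mul, J_J]

lemma QQ_add {β : U →ₗ[F] V} {e : W} {n m : Module.End F U} (hn : QQ hT β e n) (hm : QQ hT β e m) : QQ hT β e (n + m) :=
  ⟨by rw [J_add, hn.1, hm.1], by rw [add_mul, mul_add, hn.2, hm.2]⟩

lemma QQ_smul {β : U →ₗ[F] V} {e : W} {n : Module.End F U} (hn : QQ hT β e n) {c : F} (hc : σ c = c) : QQ hT β e (c • n) :=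
  ⟨by rw [J_smul, hn.1, hc], by rw [smul_mul_assoc, mul_smul_comm, hn.2]⟩

lemma QQ_Z {β : U →ₗ[F] V} {e : W} {n : Module.End F U} (hn : QQ hT β e n) : QQ hT β e (ZZ hT β e * n) :=
  ⟨by rw [J_mul, J_ZZ, hn.1, hn.2], by rw [mul_assoc, hn.2]⟩

lemma QQ_one {β : U →ₗ[F] V} {e : W} : QQ hT β e 1 := ⟨J_one hT, by rw [one_mul, mul_one]⟩

lemma QQ_zero {β : U →ₗ[F] V} {e : W} : QQ hT β e 0 := ⟨J_zero hT, by rw [zero_mul, mul_zero]⟩

/-- properties of the elements of the group generated by the two root elements -/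
def Pc (hT : TS k g h τ) (β : U →ₗ[F] V) (e : W) (c : V ≃ₗ[F] V) : Prop :=
  (∀ v, ∃ y z, c v = v + β y + τ z e) ∧
  (∀ v, A hT β v = 0 → kap hT e v = 0 → c v = v) ∧
  (∀ n m, QQ hT β e n → QQ hT β e m → ∃ n' m', QQ hT β e n' ∧ QQ hT β e m' ∧
    ∀ u, c (β (n u) + τ (kap hT e (β (m u))) e) = β (n' u) + τ (kap hT e (β (m' u))) e)

lemma Pc_one {β : U →ₗ[F] V} {e : W} : Pc hT β e 1 :=
  ⟨fun v => ⟨0, 0, by simp⟩, fun v _ _ => rfl, fun n m hn hm => ⟨n, m, hn, hm, fun u => rfl⟩⟩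

lemma Pc_mul {β : U →ₗ[F] V} {e : W} {c c' : V ≃ₗ[F] V} (hc : Pc hT β e c) (hc' : Pc hT β e c') : Pc hT β e (c * c') := by
  refine ⟨fun v => ?_, fun v h1 h2 => ?_, fun n m hn hm => ?_⟩
  · obtain ⟨y, z, h1⟩ := hc'.1 v
    obtain ⟨y', z', h2⟩ := hc.1 (c' v)
    refine ⟨y + y', z + z', ?_⟩
    rw [LinearEquiv.mul_apply, h2, h1, map_add, map_add, LinearMap.add_apply]
    abel
  · rw [LinearEquiv.mul_apply, hc'.2.1 v h1 h2, hc.2.1 v h1 h2]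
  · obtain ⟨n1, m1, h1, h2, h3⟩ := hc'.2.2 n m hn hm
    obtain ⟨n2, m2, h4, h5, h6⟩ := hc.2.2 n1 m1 h1 h2
    exact ⟨n2, m2, h4, h5, fun u => by rw [LinearEquiv.mul_apply, h3, h6]⟩

lemma Pc_t {β : U →ₗ[F] V} {e : W} (he : g e e = 0) {ε : F} (hε : σ ε = ε) {r : V ≃ₗ[F] V}
    (hr : ∀ v, r v = v + ε • τ (kap hT e v) e) : Pc hT β e r := by
  refine ⟨fun v => ⟨0, ε • kap hT e v, ?_⟩, fun v h1 h2 => ?_, fun n m hn hm => ?_⟩
  · rw [hr, map_zero, add_zero, map_smul, LinearMap.smul_apply]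
  · rw [hr, h2, map_zero, LinearMap.zero_apply, smul_zero, add_zero]
  · refine ⟨n, m + ε • n, hn, QQ_add hm (QQ_smul hn hε), fun u => ?_⟩
    rw [hr, map_add (kap hT e), kap_pure, he, zero_smul, add_zero, LinearMap.add_apply, map_add β, map_add (kap hT e), map_add τ,
      LinearMap.add_apply, LinearMap.smul_apply, map_smul β, map_smul (kap hT e), map_smul τ, LinearMap.smul_apply]
    abel

lemma A_tau (hT : TS k g h τ) (β : U →ₗ[F] V) (e : W) (z : U) : A hT β (τ z e) = - J hT (kap hT e ∘ₗ β) z := by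
  have h1 := LinearMap.congr_fun (J_md hT (τ.flip e) β) z
  rw [LinearMap.neg_apply] at h1
  exact (neg_eq_iff_eq_neg.2 h1).symm ▸ rfl

lemma Pc_s {β : U →ₗ[F] V} {e : W} (hβ : ∀ u, A hT β (β u) = 0) {ε : F} (hε : σ ε = ε) {r : V ≃ₗ[F] V}
    (hr : ∀ v, r v = v + ε • β (A hT β v)) : Pc hT β e r := by
  refine ⟨fun v => ⟨ε • A hT β v, 0, ?_⟩, fun v h1 h2 => ?_, fun n m hn hm => ?_⟩
  · rw [hr, map_zero, LinearMap.zero_apply, add_zero, map_smul]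
  · rw [hr, h1, map_zero, smul_zero, add_zero]
  · have h1 : σ (-ε) = -ε := by rw [map_neg, hε]
    refine ⟨n + (-ε) • (ZZ hT β e * m), m, QQ_add hn (QQ_smul (QQ_Z hm) h1), hm, fun u => ?_⟩
    rw [hr, map_add (A hT β), hβ, zero_add, A_tau, LinearMap.add_apply, LinearMap.smul_apply, map_add, map_smul, ZZ]
    simp only [Module.End.mul_apply, LinearMap.comp_apply, map_neg, smul_neg, neg_smul]
    abel

/-- the group -/
def CC (hT : TS k g h τ) (X : Subgroup (V ≃ₗ[F] V)) (β : U →ₗ[F] V) (e : W) : Subgroup X where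
  carrier := {c | Pc hT β e c ∧ Pc hT β e (c : V ≃ₗ[F] V)⁻¹}
  mul_mem' := by
    rintro a b ⟨ha, ha'⟩ ⟨hb, hb'⟩
    refine ⟨Pc_mul ha hb, ?_⟩
    have h1 : ((a * b : X) : V ≃ₗ[F] V)⁻¹ = (b : V ≃ₗ[F] V)⁻¹ * (a : V ≃ₗ[F] V)⁻¹ := by
      rw [Subgroup.coe_mul, mul_inv_rev]
    rw [h1]
    exact Pc_mul hb' ha'
  one_mem' := ⟨Pc_one, by rw [Subgroup.coe_one, inv_one]; exact Pc_one⟩
  inv_mem' := by
    rintro a ⟨ha, ha'⟩
    refine ⟨?_, ?_⟩
    · rw [Subgroup.coe_inv]; exact ha'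
    · rw [Subgroup.coe_inv, inv_inv]; exact ha

/-- hypotheses for the final argument -/
structure Hyp (hT : TS k g h τ) (X : Subgroup (V ≃ₗ[F] V)) (p : ℕ) : Prop where
  hX : HX hT X
  hd : 4 ≤ finrank F W
  hU : 1 ≤ finrank F U
  hdm : finrank F U < finrank F W
  h3 : finrank F U = 3
  h4 : finrank F W = 4
  hN : ∀ n ∈ NN hT X, ∃ c : F, n = c • (1 : Module.End F U)

variable {p : ℕ} [Fact p.Prime] [CharP F p] [Finite X]

lemma Hyp.nz (H : Hyp hT X p) : ∃ u : U, u ≠ 0 := by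
  obtain ⟨u, hu⟩ := (finrank_pos_iff_exists_ne_zero (R := F) (M := U)).mp (by have := H.hU; omega)
  exact ⟨u, hu⟩

lemma inv_eq_of {r r' : V ≃ₗ[F] V} (h1 : ∀ v, r (r' v) = v) : r⁻¹ = r' := by
  ext v
  apply r.injective
  rw [h1]
  exact r.apply_symm_apply v

/-- the conjugate of the root element -/
lemma Hyp.conj (H : Hyp hT X p) {x : V ≃ₗ[F] V} (hx : x ∈ X) {w : W} (hw : g w w = 0) {r0 : V ≃ₗ[F] V}
    (hr0 : ∀ v, r0 v = v + τ (kap hT w v) w) (v : V) : (x * r0 * x⁻¹) v =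
      v + (x.toLinearMap ∘ₗ τ.flip w) (A hT (x.toLinearMap ∘ₗ τ.flip w) v) := by
  have h1 : x (x⁻¹ v) = v := x.apply_symm_apply v
  have h2 : A hT (x.toLinearMap ∘ₗ τ.flip w) v = kap hT w (x⁻¹ v) := by
    conv_lhs => rw [← h1]
    rw [A_iso hT (H.hX.le hx)]
    rfl
  rw [LinearEquiv.mul_apply, LinearEquiv.mul_apply, hr0, map_add, h1, h2]
  rfl

lemma A_self_zero (hT : TS k g h τ) {x : V ≃ₗ[F] V} (hx : x ∈ isom h) {w : W} (hw : g w w = 0) (u : U) :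
    A hT (x.toLinearMap ∘ₗ τ.flip w) ((x.toLinearMap ∘ₗ τ.flip w) u) = 0 := by
  have h1 : (x.toLinearMap ∘ₗ τ.flip w) u = x (τ u w) := rfl
  rw [h1, A_iso hT hx, kap_def, kap_pure, hw, zero_smul]

/-- fusion -/
theorem Hyp.fus (H : Hyp hT X p) {x : V ≃ₗ[F] V} (hx : x ∈ X) {w : W} (hw : g w w = 0) (hw0 : w ≠ 0) {e : W}
    (he : g e e = 0) (he0 : e ≠ 0) : ∃ c ∈ X, Pc hT (x.toLinearMap ∘ₗ τ.flip w) e c ∧
      Pc hT (x.toLinearMap ∘ₗ τ.flip w) e c⁻¹ ∧ c * x ∈ KrG τ := by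
  obtain ⟨r, hr, e1, -⟩ := H.hX.root he (map_one σ)
  obtain ⟨r0, hr0, e2, -⟩ := H.hX.root hw (map_one σ)
  have e1' : ∀ v, r v = v + τ (kap hT e v) e := fun v => by rw [e1, one_smul]; rfl
  have e2' : ∀ v, r0 v = v + τ (kap hT w v) w := fun v => by rw [e2, one_smul]; rfl
  have g1 := good_root H.hX H.hd H.hU H.hdm H.hN (p := p) he he0 (r := ⟨r, hr⟩) e1'
  have g2 := good_root H.hX H.hd H.hU H.hdm H.hN (p := p) hw hw0 (r := ⟨r0, hr0⟩) e2'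
  have h1 : (⟨r, hr⟩ : X) ∈ CC hT X (x.toLinearMap ∘ₗ τ.flip w) e := by
    refine ⟨Pc_t he (map_one σ) (fun v => by rw [one_smul]; exact e1' v), ?_⟩
    refine Pc_t he (ε := -1) (by rw [map_neg, map_one]) (fun v => ?_)
    apply r.injective
    have h2 : r (r⁻¹ v) = v := r.apply_symm_apply v
    change r (r⁻¹ v) = _
    rw [h2, e1', neg_one_smul, map_add, map_neg, kap_pure, he, zero_smul, neg_zero, add_zero]
    abel
  have hA := A_self_zero hT (H.hX.le hx) hw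
  have h2 : (⟨x, hx⟩ * ⟨r0, hr0⟩ * (⟨x, hx⟩ : X)⁻¹ : X) ∈ CC hT X (x.toLinearMap ∘ₗ τ.flip w) e := by
    have h3 := H.conj hx hw e2'
    refine ⟨Pc_s hA (map_one σ) (fun v => by rw [one_smul]; exact h3 v), ?_⟩
    refine Pc_s hA (ε := -1) (by rw [map_neg, map_one]) (fun v => ?_)
    apply (x * r0 * x⁻¹).injective
    have h4 : (x * r0 * x⁻¹) ((x * r0 * x⁻¹)⁻¹ v) = v := (x * r0 * x⁻¹).apply_symm_apply v
    change (x * r0 * x⁻¹) ((x * r0 * x⁻¹)⁻¹ v) = _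
    rw [h4, h3, neg_one_smul, map_add (A hT _), map_neg (A hT _), hA, neg_zero, add_zero]
    abel
  obtain ⟨c, ⟨hc1, hc2⟩, hc3⟩ := fusion g1 g2 h1 h2
  exact ⟨c, c.2, hc1, hc2, hc3⟩

end H95.TV
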