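import Mathlib
import Cfsg.Agent.Lib.H95.TV7

set_option autoImplicit false
set_option linter.unusedSectionVars false
set_option linter.unusedVariables false
set_option linter.unusedSimpArgs false

/-!
Overgroups with scalar coefficients consist of pure tensors: the contradiction.
-/

namespace H95.TV

open Module H95.UBasic H95.TVG H96.StFus

variable {F U W V : Type*} [Field F] [AddCommGroup U] [Module F U] [AddCommGroup W] [Module F W] [AddCommGroup V]
  [Module F V] {σ : F →+* F}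
variable {k : U →ₗ[F] U →ₛₗ[σ] F} {g : W →ₗ[F] W →ₛₗ[σ] F} {h : V →ₗ[F] V →ₛₗ[σ] F} {τ : U →ₗ[F] W →ₗ[F] V}
variable [FiniteDimensional F U] [FiniteDimensional F W] {X : Subgroup (V ≃ₗ[F] V)} {hT : TS k g h τ}
variable {p : ℕ} [Fact p.Prime] [CharP F p] [Finite X]

/-- a quadratic operator on a three-dimensional space has an eigenvector -/
lemma quad_eig {F U : Type*} [Field F] [AddCommGroup U] [Module F U] [FiniteDimensional F U] (h3 : finrank F U = 3)
    (S : U →ₗ[F] U) (δ t : F) (hq : ∀ u, δ • S (S u) + t • S u = u) {u0 : U}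
    (hu0 : S u0 ∉ Submodule.span F {u0}) : ∃ v, v ≠ 0 ∧ ∃ l : F, S v = l • v := by
  have hu00 : u0 ≠ 0 := by
    rintro rfl
    rw [map_zero] at hu0
    exact hu0 (Submodule.zero_mem _)
  have hli : LinearIndependent F ![u0, S u0] := pair_li hu00 hu0
  have hδ : δ ≠ 0 := by
    rintro rfl
    have h1 := hq u0
    rw [zero_smul, zero_add] at h1
    have ht : t ≠ 0 := by
      rintro rfl
      rw [zero_smul] at h1
      exact hu00 h1.symm
    apply hu0
    rw [Submodule.mem_span_singleton]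
    exact ⟨t⁻¹, by conv_lhs => rw [← h1]
                   rw [smul_smul, inv_mul_cancel₀ ht, one_smul]⟩
  set P := Submodule.span F (Set.range ![u0, S u0]) with hP
  have hPr : finrank F P = 2 := by rw [hP, finrank_span_eq_card hli, Fintype.card_fin]
  have m0 : u0 ∈ P := Submodule.subset_span ⟨0, rfl⟩
  have m1 : S u0 ∈ P := Submodule.subset_span ⟨1, rfl⟩
  have m2 : S (S u0) ∈ P := by
    have h1 := hq u0
    have h2 : S (S u0) = δ⁻¹ • (u0 - t • S u0) := by
      have h3 : δ • S (S u0) = u0 - t • S u0 := eq_sub_of_add_eq h1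
      rw [← h3, smul_smul, inv_mul_cancel₀ hδ, one_smul]
    rw [h2]
    exact P.smul_mem _ (P.sub_mem m0 (P.smul_mem _ m1))
  have hPS : ∀ x ∈ P, S x ∈ P := by
    intro x hx
    have : P ≤ P.comap S := by
      rw [hP, Submodule.span_le]
      rintro _ ⟨i, rfl⟩
      fin_cases i
      · exact m1
      · exact m2
    exact this hx
  obtain ⟨v, hv⟩ : ∃ v, v ∉ P := by
    by_contra hcon
    push Not at hcon
    have h1 : P = ⊤ := eq_top_iff.2 fun x _ => hcon x
    rw [h1, finrank_top] at hPr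
    omega
  have hlt : P < P ⊔ Submodule.span F {v} := by
    refine lt_of_le_of_ne le_sup_left fun h => hv ?_
    rw [h]
    exact Submodule.mem_sup_right (Submodule.mem_span_singleton_self _)
  have htop : P ⊔ Submodule.span F {v} = ⊤ := by
    apply Submodule.eq_top_of_finrank_eq
    have h1 := Submodule.finrank_lt_finrank_of_lt hlt
    have h2 := Submodule.finrank_le (P ⊔ Submodule.span F {v})
    omega
  have hdec : ∀ x : U, ∃ y ∈ P, ∃ c : F, x = y + c • v := by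
    intro x
    have hx : x ∈ P ⊔ Submodule.span F {v} := by rw [htop]; trivial
    obtain ⟨y, hy, z, hz, rfl⟩ := Submodule.mem_sup.1 hx
    obtain ⟨c, rfl⟩ := Submodule.mem_span_singleton.1 hz
    exact ⟨y, hy, c, rfl⟩
  obtain ⟨y, hy, l, hl⟩ := hdec (S v)
  let T : U →ₗ[F] U := S - l • LinearMap.id
  have hT : LinearMap.range T ≤ P := by
    rintro _ ⟨x, rfl⟩
    obtain ⟨z, hz, c, rfl⟩ := hdec x
    have h1 : T (z + c • v) = S z - l • z + c • y := by
      show S (z + c • v) - l • (z + c • v) = _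
      rw [map_add, map_smul, hl]
      module
    rw [h1]
    exact P.add_mem (P.sub_mem (hPS z hz) (P.smul_mem _ hz)) (P.smul_mem _ hy)
  have hr := Submodule.finrank_mono hT
  have hk := T.finrank_range_add_finrank_ker
  have hker : LinearMap.ker T ≠ ⊥ := by
    intro h
    rw [h, finrank_bot] at hk
    omega
  obtain ⟨x, hx, hx0⟩ := Submodule.exists_mem_ne_zero_of_ne_bot hker
  refine ⟨x, hx0, l, ?_⟩
  have : S x - l • x = 0 := hx
  exact sub_eq_zero.1 this

/-- Step A -/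
theorem Hyp.stepA (H : Hyp hT X p) {x : V ≃ₗ[F] V} (hx : x ∈ X) (hxk : x ∉ KrG τ) {w : W} (hw : g w w = 0) (hw0 : w ≠ 0)
    {e : W} (he : g e e = 0) (he0 : e ≠ 0) {c : V ≃ₗ[F] V} (hc : Pc hT (x.toLinearMap ∘ₗ τ.flip w) e c)
    {a : U ≃ₗ[F] U} {b : W ≃ₗ[F] W} (hab : ∀ u w, (c * x) (τ u w) = τ (a u) (b w)) :
    b w ∈ Submodule.span F {e} := by
  by_contra hns
  obtain ⟨β, hβ⟩ : ∃ β, β = x.toLinearMap ∘ₗ τ.flip w := ⟨_, rfl⟩
  rw [← hβ] at hc
  have hβu : ∀ u, β u = x (τ u w) := fun u => by rw [hβ]; rfl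
  obtain ⟨n, m, -, -, h1⟩ := hc.2.2 1 0 QQ_one QQ_zero
  have h2 : ∀ u, τ (a u) (b w) = β (n u) + τ (kap hT e (β (m u))) e := by
    intro u
    have h3 := h1 u
    rw [Module.End.one_apply, LinearMap.zero_apply, map_zero, map_zero, map_zero, LinearMap.zero_apply, add_zero, hβu] at h3
    have h4 := hab u w
    rw [LinearEquiv.mul_apply] at h4
    rw [← h4, h3]
  have hni : Function.Injective n := by
    rw [injective_iff_map_eq_zero]
    intro u hu
    by_contra hu0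
    have h3 := h2 u
    rw [hu, map_zero, zero_add] at h3
    have hau : a u ≠ 0 := fun h => hu0 (a.injective (by rw [h, map_zero]))
    exact hns (tau_eq2 hT h3 hau)
  have hns' : Function.Surjective n := LinearMap.injective_iff_surjective.1 hni
  obtain ⟨f, hf0, hf, hf1, hf2⟩ := exists_perp_iso hT.gS H.hd (b w) e
  have hkβ : ∀ y, kap hT f (β y) = 0 := by
    intro y
    obtain ⟨u, rfl⟩ := hns' y
    have h3 : β (n u) = τ (a u) (b w) - τ (kap hT e (β (m u))) e := by rw [h2, add_sub_cancel_right]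
    rw [h3, map_sub, kap_pure, kap_pure, hT.gS.symm_zero hf1, hT.gS.symm_zero hf2, zero_smul, zero_smul, sub_zero]
  obtain ⟨r, hr, e1, -⟩ := H.hX.root hf (map_one σ)
  obtain ⟨r0, hr0, e2, -⟩ := H.hX.root hw (map_one σ)
  have e1' : ∀ v, r v = v + τ (kap hT f v) f := fun v => by rw [e1, one_smul]; rfl
  have e2' : ∀ v, r0 v = v + τ (kap hT w v) w := fun v => by rw [e2, one_smul]; rfl
  have g1 := good_root H.hX H.hd H.hU H.hdm H.hN (p := p) hf hf0 (r := ⟨r, hr⟩) e1'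
  have g2 := good_root H.hX H.hd H.hU H.hdm H.hN (p := p) hw hw0 (r := ⟨r0, hr0⟩) e2'
  have hA : ∀ u, A hT β (β u) = 0 := by
    intro u
    rw [hβ]
    exact A_self_zero hT (H.hX.le hx) hw u
  have h3 := H.conj hx hw e2'
  rw [← hβ] at h3
  obtain ⟨M, hM⟩ : ∃ M : Submodule F V, M = LinearMap.range β ⊔ LinearMap.range (τ.flip f) := ⟨_, rfl⟩
  have hMe : ∀ m ∈ M, ∃ y z, m = β y + τ z f := by
    intro m hm
    rw [hM] at hm
    obtain ⟨_, ⟨y, rfl⟩, _, ⟨z, rfl⟩, rfl⟩ := Submodule.mem_sup.1 hm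
    exact ⟨y, z, rfl⟩
  have m1 : (⟨r, hr⟩ : X) ∈ UM X M := by
    rw [mem_UM]
    refine ⟨fun v => ?_, fun m hm => ?_⟩
    · change r v - v ∈ M
      rw [e1', add_sub_cancel_left, hM]
      exact Submodule.mem_sup_right ⟨_, rfl⟩
    · obtain ⟨y, z, rfl⟩ := hMe m hm
      change r _ = _
      rw [e1', map_add (kap hT f), hkβ, kap_pure, hf, zero_smul, add_zero, map_zero, LinearMap.zero_apply, add_zero]
  have m2 : (⟨x, hx⟩ * ⟨r0, hr0⟩ * (⟨x, hx⟩ : X)⁻¹ : X) ∈ UM X M := by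
    rw [mem_UM]
    refine ⟨fun v => ?_, fun m hm => ?_⟩
    · change (x * r0 * x⁻¹) v - v ∈ M
      rw [h3, add_sub_cancel_left, hM]
      exact Submodule.mem_sup_left ⟨_, rfl⟩
    · obtain ⟨y, z, rfl⟩ := hMe m hm
      change (x * r0 * x⁻¹) _ = _
      have h4 : J hT (kap hT f ∘ₗ β) z = 0 := by
        have h5 : kap hT f ∘ₗ β = 0 := by
          ext u
          exact hkβ u
        rw [h5, J_zero, LinearMap.zero_apply]
      rw [h3, map_add (A hT β), hA, A_tau, h4, neg_zero, add_zero, map_zero, add_zero]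
  have h4 := pg_le g1.1 g1.2.1 g1.2.2 (UM_isP (X := X) (p := p) M) m1 m2
  have h5 : ((⟨x, hx⟩ : X)⁻¹)⁻¹ * ⟨r0, hr0⟩ * (⟨x, hx⟩ : X)⁻¹ ∈ (KrG τ).subgroupOf X := by
    rw [inv_inv]
    exact h4
  have h6 := g2.2.2 _ h5
  have h7 := ((KrG τ).subgroupOf X).inv_mem h6
  rw [inv_inv, Subgroup.mem_subgroupOf] at h7
  exact hxk h7

/-- Step B -/
theorem Hyp.stepB (H : Hyp hT X p) {x : V ≃ₗ[F] V} (hx : x ∈ X) (hxk : x ∉ KrG τ) {w : W} (hw : g w w = 0) (hw0 : w ≠ 0)
    {e : W} (he : g e e = 0) (he0 : e ≠ 0) {u : U} (hu : kap hT e (x (τ u w)) = 0) : u = 0 := by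
  have key : ∀ e, g e e = 0 → e ≠ 0 → kap hT e (x (τ u w)) = 0 → ∃ y, x (τ u w) = τ y e := by
    intro e he he0 hu
    obtain ⟨c, hcX, hc1, hc2, a, b, hab⟩ := H.fus hx hw hw0 he he0
    obtain ⟨l, hl⟩ := Submodule.mem_span_singleton.1 (H.stepA hx hxk hw hw0 he he0 hc1 hab)
    have h1 := hab u w
    have h2 : c (x (τ u w)) = x (τ u w) := hc1.2.1 _ (A_self_zero hT (H.hX.le hx) hw u) hu
    rw [LinearEquiv.mul_apply, h2, ← hl] at h1
    refine ⟨l • a u, ?_⟩
    rw [h1]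
    simp
  obtain ⟨y, hy⟩ := key e he he0 hu
  obtain ⟨f, hf, hfe, hfs⟩ := exists_iso_perp hT.gS H.hd he he0
  have hf0 : f ≠ 0 := by rintro rfl; exact hfs (Submodule.zero_mem _)
  obtain ⟨y', hy'⟩ := key f hf hf0 (by rw [hy, kap_pure, hT.gS.symm_zero hfe, zero_smul])
  by_cases hy0 : y' = 0
  · rw [hy0, map_zero, LinearMap.zero_apply, LinearEquiv.map_eq_zero_iff] at hy'
    exact tau_ne hT hy' hw0
  · exact absurd (tau_eq2 hT (hy'.symm.trans hy) hy0) hfs

/-- Step C -/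
theorem Hyp.stepC (H : Hyp hT X p) {x : V ≃ₗ[F] V} (hx : x ∈ X) (hxk : x ∉ KrG τ) {w : W} (hw : g w w = 0) (hw0 : w ≠ 0)
    {e : W} (he : g e e = 0) (he0 : e ≠ 0) : ∃ (c : V ≃ₗ[F] V) (a : U ≃ₗ[F] U) (b : W ≃ₗ[F] W) (m : Module.End F U) (l : F),
      Pc hT (x.toLinearMap ∘ₗ τ.flip w) e c ∧ Pc hT (x.toLinearMap ∘ₗ τ.flip w) e c⁻¹ ∧
      (∀ u w, (c * x) (τ u w) = τ (a u) (b w)) ∧ l ≠ 0 ∧ J hT m = m ∧
      ∀ u, kap hT e (x (τ (m u) w)) = l • a u := by
  obtain ⟨c, hcX, hc1, hc2, a, b, hab⟩ := H.fus hx hw hw0 he he0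
  obtain ⟨l, hl⟩ := Submodule.mem_span_singleton.1 (H.stepA hx hxk hw hw0 he he0 hc1 hab)
  obtain ⟨n, m, -, hm, h1⟩ := hc1.2.2 1 0 QQ_one QQ_zero
  refine ⟨c, a, b, m, l, hc1, hc2, hab, ?_, hm.1, fun u => ?_⟩
  · rintro rfl
    rw [zero_smul] at hl
    exact hw0 (b.injective (by rw [← hl, map_zero]))
  · have h3 := h1 u
    rw [Module.End.one_apply, LinearMap.zero_apply, map_zero, map_zero, map_zero, LinearMap.zero_apply, add_zero] at h3
    have h4 := hab u w
    rw [LinearEquiv.mul_apply, ← hl] at h4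
    have h5 : c (x (τ u w)) = x (τ (n u) w) + τ (kap hT e (x (τ (m u) w))) e := h3
    rw [h4] at h5
    have h6 := congrArg (kap hT e) h5
    rw [map_add, kap_pure, kap_pure, map_smul, LinearMap.smul_apply, he, smul_zero, zero_smul, zero_smul, add_zero] at h6
    have h7 := H.stepB hx hxk hw hw0 he he0 h6.symm
    rw [h7, map_zero, LinearMap.zero_apply, map_zero, zero_add] at h5
    have h8 : τ (l • a u - kap hT e (x (τ (m u) w))) e = 0 := by
      rw [map_sub, LinearMap.sub_apply, ← h5]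
      simp
    exact (sub_eq_zero.1 (tau_ne hT h8 he0)).symm

/-- Step D -/
theorem Hyp.stepD (H : Hyp hT X p) {x : V ≃ₗ[F] V} (hx : x ∈ X) (hxk : x ∉ KrG τ) {w : W} (hw : g w w = 0) (hw0 : w ≠ 0)
    {e e' : W} (he : g e e = 0) (he0 : e ≠ 0) (he' : g e' e' = 0) (he0' : e' ≠ 0) (hee : g e' e = 0)
    {c c' : V ≃ₗ[F] V} {a a' : U ≃ₗ[F] U} {b b' : W ≃ₗ[F] W}
    (hc : Pc hT (x.toLinearMap ∘ₗ τ.flip w) e c⁻¹) (hc' : Pc hT (x.toLinearMap ∘ₗ τ.flip w) e' c')
    (hab : ∀ u w, (c * x) (τ u w) = τ (a u) (b w)) (hab' : ∀ u w, (c' * x) (τ u w) = τ (a' u) (b' w)) :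
    ∃ s : F, s ≠ 0 ∧ ∀ u, a' u = s • a u := by
  -- the relation
  have hrel : ∀ u y, ∃ Y z z', τ (a' u) (b' y) = τ (a u) (b y) + x (τ Y w) + τ z e + τ z' e' := by
    intro u y
    obtain ⟨Y, z, h1⟩ := hc.1 (τ (a u) (b y))
    have h2 : c⁻¹ (τ (a u) (b y)) = x (τ u y) := by
      apply c.injective
      have h3 : c (c⁻¹ (τ (a u) (b y))) = τ (a u) (b y) := c.apply_symm_apply _
      rw [h3, ← hab]
      rfl
    obtain ⟨Y', z', h3⟩ := hc'.1 (x (τ u y))
    have h4 : c' (x (τ u y)) = τ (a' u) (b' y) := hab' u y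
    have h5 : ∀ Y, (x.toLinearMap ∘ₗ τ.flip w) Y = x (τ Y w) := fun _ => rfl
    rw [h2, h5] at h1
    rw [h4, h5, h1] at h3
    refine ⟨Y + Y', z, z', ?_⟩
    rw [h3, map_add τ, LinearMap.add_apply, map_add x]
    abel
  by_contra hcon
  -- a' is not a multiple of a
  obtain ⟨u, hu⟩ : ∃ u, a' u ∉ Submodule.span F {a u} := by
    by_contra hcon2
    push Not at hcon2
    obtain ⟨s, hs⟩ := scalar_span (n := a'.toLinearMap ∘ₗ (a⁻¹).toLinearMap) (fun u => by
      have h1 := hcon2 (a⁻¹ u)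
      have h2 : a (a⁻¹ u) = u := a.apply_symm_apply u
      rw [h2] at h1
      exact h1)
    apply hcon
    refine ⟨s, ?_, fun u => ?_⟩
    · rintro rfl
      obtain ⟨u, hu⟩ := H.nz
      have h1 := LinearMap.congr_fun hs (a u)
      rw [zero_smul, LinearMap.zero_apply] at h1
      have h2 : a⁻¹ (a u) = u := a.symm_apply_apply u
      have h3 : a' (a⁻¹ (a u)) = 0 := h1
      rw [h2, LinearEquiv.map_eq_zero_iff] at h3
      exact hu h3
    · have h1 := LinearMap.congr_fun hs (a u)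
      have h2 : a⁻¹ (a u) = u := a.symm_apply_apply u
      have h3 : a' (a⁻¹ (a u)) = s • a u := h1
      rw [h2] at h3
      exact h3
  have hau : a u ≠ 0 := by
    intro h0
    have hu0 : u = 0 := a.injective (by rw [h0, map_zero])
    have h9 : a' u = 0 := by rw [hu0]; exact map_zero a'
    apply hu
    rw [h9]
    exact (Submodule.span F {a u}).zero_mem
  have hee' : g e e' = 0 := hT.gS.symm_zero hee
  by_cases hes : e' ∈ Submodule.span F {e}
  · -- dependent case: dimension count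
    obtain ⟨y, hy1, hy2⟩ : ∃ y, k (a u) y = 0 ∧ k (a' u) y ≠ 0 := by
      by_contra hcon2
      push Not at hcon2
      obtain ⟨t, ht⟩ := exists_k hT hau
      apply hu
      rw [Submodule.mem_span_singleton]
      refine ⟨k (a' u) t, ?_⟩
      rw [eq_comm, ← sub_eq_zero]
      apply hT.kN.nd
      intro z
      have h1 := hcon2 (z - σ (k (a u) z) • t) (by
        rw [map_sub, map_smulₛₗ, hT.gS.inv, ht, smul_eq_mul, mul_one, sub_self])
      rw [map_sub, map_smulₛₗ, hT.gS.inv, smul_eq_mul, sub_eq_zero] at h1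
      rw [map_sub, LinearMap.sub_apply, map_smul, LinearMap.smul_apply, smul_eq_mul, h1]
      ring
    let φ : W →ₗ[F] (F × F) := ((g.flip e).comp b'.toLinearMap).prod ((g.flip e).comp b.toLinearMap)
    have hφ : ∀ z ∈ LinearMap.ker φ, g (b' z) e = 0 ∧ g (b z) e = 0 := by
      intro z hz
      rw [LinearMap.mem_ker] at hz
      exact ⟨congrArg Prod.fst hz, congrArg Prod.snd hz⟩
    have hmap : (LinearMap.ker φ).map b'.toLinearMap ≤ Submodule.span F {e} := by
      rintro _ ⟨z, hz, rfl⟩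
      obtain ⟨h1, h2⟩ := hφ z hz
      obtain ⟨Y, z1, z2, h3⟩ := hrel u z
      have h4 := congrArg (kap hT e) h3
      rw [map_add, map_add, map_add, kap_pure, kap_pure, kap_pure, kap_pure, h1, h2, he, hee, zero_smul, zero_smul, zero_smul,
        zero_smul, add_zero, add_zero, zero_add] at h4
      have h5 := H.stepB hx hxk hw hw0 he he0 h4.symm
      rw [h5, map_zero, LinearMap.zero_apply, map_zero, add_zero] at h3
      have h6 := congrArg (con hT y) h3
      rw [map_add, map_add, con_pure, con_pure, con_pure, con_pure, hy1, zero_smul, zero_add] at h6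
      have h7 : b' z = (k (a' u) y)⁻¹ • (k z1 y • e + k z2 y • e') := by
        rw [← h6, smul_smul, inv_mul_cancel₀ hy2, one_smul]
      change b' z ∈ _
      rw [h7]
      exact Submodule.smul_mem _ _ (Submodule.add_mem _ (Submodule.smul_mem _ _ (Submodule.mem_span_singleton_self _))
        (Submodule.smul_mem _ _ hes))
    have h1 := Submodule.finrank_mono hmap
    have h2 : finrank F ((LinearMap.ker φ).map b'.toLinearMap) = finrank F (LinearMap.ker φ) :=
      LinearEquiv.finrank_map_eq b' _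
    have h3 := φ.finrank_range_add_finrank_ker
    have h4 : finrank F (LinearMap.range φ) ≤ finrank F (F × F) := Submodule.finrank_le (LinearMap.range φ)
    have h5 : finrank F (F × F) = 2 := by rw [finrank_prod, finrank_self]
    have h6 : finrank F (Submodule.span F ({e} : Set W)) ≤ 1 := by
      classical
      have h7 := finrank_span_finset_le_card (R := F) ({e} : Finset W)
      rw [Finset.coe_singleton, Finset.card_singleton] at h7
      exact h7
    have h7 := H.hd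
    omega
  -- independent case
  -- the relation seen from the plane
  have hrel2 : ∀ u y, ∃ Y, ∀ r s : F, g (b' y) (r • e + s • e') • a' u =
      g (b y) (r • e + s • e') • a u + kap hT (r • e + s • e') (x (τ Y w)) := by
    intro u y
    obtain ⟨Y, z, z', h1⟩ := hrel u y
    refine ⟨Y, fun r s => ?_⟩
    have h2 := congrArg (kap hT (r • e + s • e')) h1
    rw [map_add, map_add, map_add, kap_pure, kap_pure, kap_pure, kap_pure] at h2
    have h3 : g e (r • e + s • e') = 0 := by rw [map_add, map_smulₛₗ, map_smulₛₗ, he, hee']; simp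
    have h4 : g e' (r • e + s • e') = 0 := by rw [map_add, map_smulₛₗ, map_smulₛₗ, he', hee]; simp
    rw [h3, h4, zero_smul, zero_smul, add_zero, add_zero] at h2
    exact h2
  have hiso : ∀ r s : F, g (r • e + s • e') (r • e + s • e') = 0 := by
    intro r s
    simp [map_add, map_smulₛₗ, he, he', hee, hee']
  have hne : ∀ r s : F, (r ≠ 0 ∨ s ≠ 0) → r • e + s • e' ≠ 0 := by
    intro r s hrs h0
    have hli := pair_li he0 hes
    rw [LinearIndependent.pair_iff] at hli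
    obtain ⟨h1, h2⟩ := hli r s h0
    rcases hrs with h | h
    · exact h h1
    · exact h h2
  -- the key step: a common zero gives a relation
  have hzero : ∀ (Y : U) (r s : F), (r ≠ 0 ∨ s ≠ 0) → kap hT (r • e + s • e') (x (τ Y w)) = 0 → Y = 0 := by
    intro Y r s hrs h0
    exact H.stepB hx hxk hw hw0 (hiso r s) (hne r s hrs) h0
  have hE1 : ∀ z : W, g z ((1 : F) • e + (0 : F) • e') = g z e := fun z => by rw [one_smul, zero_smul, add_zero]
  have hE2 : ∀ z : W, g z ((0 : F) • e + (1 : F) • e') = g z e' := fun z => by rw [one_smul, zero_smul, zero_add]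
  -- values
  obtain ⟨v1, -, hv1⟩ := exists_dual hT.gS (top_nd hT.gS) (x := ![e, e']) (fun i => trivial) (pair_li he0 hes) ![1, 0]
  have hv1a : g v1 e = 1 := hv1 0
  obtain ⟨y1, hy1⟩ : ∃ y1, b y1 = v1 := ⟨b⁻¹ v1, b.apply_symm_apply v1⟩
  obtain ⟨p1, hp1⟩ : ∃ p1, p1 = g (b y1) e := ⟨_, rfl⟩
  obtain ⟨q1, hq1⟩ : ∃ q1, q1 = g (b y1) e' := ⟨_, rfl⟩
  obtain ⟨p2, hp2⟩ : ∃ p2, p2 = g (b' y1) e := ⟨_, rfl⟩
  obtain ⟨q2, hq2⟩ : ∃ q2, q2 = g (b' y1) e' := ⟨_, rfl⟩
  have hp11 : p1 ≠ 0 := by rw [hp1, hy1, hv1a]; exact one_ne_zero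
  -- independence of the values
  have hval : ∀ (z : W) (r s : F), g z (r • e + s • e') = σ r * g z e + σ s * g z e' := by
    intro z r s
    rw [map_add, map_smulₛₗ, map_smulₛₗ, smul_eq_mul, smul_eq_mul]
  have hD : p1 * q2 - q1 * p2 ≠ 0 := by
    intro hD
    obtain ⟨Y, hY⟩ := hrel2 u y1
    have h1 := hY (σ q1) (- σ p1)
    rw [hval, hval, map_neg, hT.gS.inv, hT.gS.inv, ← hp1, ← hq1, ← hp2, ← hq2] at h1
    have e1 : q1 * p2 + -p1 * q2 = 0 := by linear_combination -hD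
    have e2 : q1 * p1 + -p1 * q1 = 0 := by ring
    rw [e1, e2, zero_smul, zero_smul, zero_add] at h1
    have hY0 := hzero Y _ _ (Or.inr (neg_ne_zero.2 fun h => hp11 (hT.gS.inj h))) h1.symm
    have h2 := hY 1 0
    rw [hE1, hE1, hY0, map_zero, LinearMap.zero_apply, map_zero, map_zero, add_zero, ← hp1, ← hp2] at h2
    -- p2 • a' u = p1 • a u
    by_cases hp2' : p2 = 0
    · rw [hp2', zero_smul, eq_comm, smul_eq_zero] at h2
      rcases h2 with h3 | h3
      · exact hp11 h3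
      · exact hau h3
    · apply hu
      rw [Submodule.mem_span_singleton]
      exact ⟨p2⁻¹ * p1, by rw [mul_smul, ← h2, smul_smul, inv_mul_cancel₀ hp2', one_smul]⟩
  obtain ⟨v2, -, hv2⟩ := exists_dual hT.gS (top_nd hT.gS) (x := ![e, e']) (fun i => trivial) (pair_li he0 hes) ![p2, q2]
  have hv2a : g v2 e = p2 := hv2 0
  have hv2b : g v2 e' = q2 := hv2 1
  obtain ⟨y2, hy2⟩ : ∃ y2, b y2 = v2 := ⟨b⁻¹ v2, b.apply_symm_apply v2⟩
  obtain ⟨p3, hp3⟩ : ∃ p3, p3 = g (b' y2) e := ⟨_, rfl⟩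
  obtain ⟨q3, hq3⟩ : ∃ q3, q3 = g (b' y2) e' := ⟨_, rfl⟩
  obtain ⟨δ, t, hδp, hδq⟩ : ∃ δ t : F, p3 = δ * p1 + t * p2 ∧ q3 = δ * q1 + t * q2 := by
    have hDD : (p1 * q2 - q1 * p2) * (p1 * q2 - q1 * p2)⁻¹ = 1 := mul_inv_cancel₀ hD
    refine ⟨(p3 * q2 - q3 * p2) * (p1 * q2 - q1 * p2)⁻¹, (p1 * q3 - q1 * p3) * (p1 * q2 - q1 * p2)⁻¹, ?_, ?_⟩
    · linear_combination (-p3) * hDD
    · linear_combination (-q3) * hDD
  -- the linear maps
  let L : (U × U) →ₗ[F] (U × U) :=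
    ((p2 • a'.toLinearMap - p1 • a.toLinearMap) ∘ₗ LinearMap.fst F U U +
      (p3 • a'.toLinearMap - p2 • a.toLinearMap) ∘ₗ LinearMap.snd F U U).prod
    ((q2 • a'.toLinearMap - q1 • a.toLinearMap) ∘ₗ LinearMap.fst F U U +
      (q3 • a'.toLinearMap - q2 • a.toLinearMap) ∘ₗ LinearMap.snd F U U)
  let G : U →ₗ[F] (U × U) := (kap hT e ∘ₗ x.toLinearMap ∘ₗ τ.flip w).prod (kap hT e' ∘ₗ x.toLinearMap ∘ₗ τ.flip w)
  have hLG : LinearMap.range L ≤ LinearMap.range G := by
    rintro _ ⟨⟨u1, u2⟩, rfl⟩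
    obtain ⟨Y1, h1⟩ := hrel2 u1 y1
    obtain ⟨Y2, h2⟩ := hrel2 u2 y2
    refine ⟨Y1 + Y2, ?_⟩
    have k1 := h1 1 0
    have k2 := h1 0 1
    have k3 := h2 1 0
    have k4 := h2 0 1
    rw [hE1, hE1, one_smul, zero_smul, add_zero, ← hp1, ← hp2] at k1
    rw [hE2, hE2, one_smul, zero_smul, zero_add, ← hq1, ← hq2] at k2
    rw [hE1, hE1, one_smul, zero_smul, add_zero, hy2, hv2a, ← hp3] at k3
    rw [hE2, hE2, one_smul, zero_smul, zero_add, hy2, hv2b, ← hq3] at k4
    apply Prod.ext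
    · show kap hT e (x (τ (Y1 + Y2) w)) = p2 • a' u1 - p1 • a u1 + (p3 • a' u2 - p2 • a u2)
      rw [map_add τ, LinearMap.add_apply, map_add x, map_add, k1, k3]
      abel
    · show kap hT e' (x (τ (Y1 + Y2) w)) = q2 • a' u1 - q1 • a u1 + (q3 • a' u2 - q2 • a u2)
      rw [map_add τ, LinearMap.add_apply, map_add x, map_add, k2, k4]
      abel
  have hr1 := Submodule.finrank_mono hLG
  have hr2 := L.finrank_range_add_finrank_ker
  have hr3 := LinearMap.finrank_range_le G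
  have hr4 : finrank F (U × U) = 6 := by rw [finrank_prod, H.h3]
  -- the kernel
  have hker : ∀ u1 u2 : U, (u1, u2) ∈ LinearMap.ker L → a u1 = δ • a' u2 ∧ a u2 = a' u1 + t • a' u2 := by
    intro u1 u2 h0
    rw [LinearMap.mem_ker] at h0
    have k1 : p2 • a' u1 - p1 • a u1 + (p3 • a' u2 - p2 • a u2) = 0 := congrArg Prod.fst h0
    have k2 : q2 • a' u1 - q1 • a u1 + (q3 • a' u2 - q2 • a u2) = 0 := congrArg Prod.snd h0
    rw [hδp] at k1
    rw [hδq] at k2
    have e1 : (p1 * q2 - q1 * p2) • (δ • a' u2 - a u1) = 0 := by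
      have h3 := congrArg (fun v => q2 • v) k1
      have h4 := congrArg (fun v => p2 • v) k2
      simp only [smul_zero] at h3 h4
      have h5 : (p1 * q2 - q1 * p2) • (δ • a' u2 - a u1) =
          q2 • (p2 • a' u1 - p1 • a u1 + ((δ * p1 + t * p2) • a' u2 - p2 • a u2)) -
          p2 • (q2 • a' u1 - q1 • a u1 + ((δ * q1 + t * q2) • a' u2 - q2 • a u2)) := by module
      rw [h5, h3, h4, sub_zero]
    have e2 : (p1 * q2 - q1 * p2) • (a' u1 + t • a' u2 - a u2) = 0 := by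
      have h3 := congrArg (fun v => q1 • v) k1
      have h4 := congrArg (fun v => p1 • v) k2
      simp only [smul_zero] at h3 h4
      have h5 : (p1 * q2 - q1 * p2) • (a' u1 + t • a' u2 - a u2) =
          p1 • (q2 • a' u1 - q1 • a u1 + ((δ * q1 + t * q2) • a' u2 - q2 • a u2)) -
          q1 • (p2 • a' u1 - p1 • a u1 + ((δ * p1 + t * p2) • a' u2 - p2 • a u2)) := by module
      rw [h5, h3, h4, sub_zero]
    exact ⟨(sub_eq_zero.1 ((smul_eq_zero.1 e1).resolve_left hD)).symm,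
      (sub_eq_zero.1 ((smul_eq_zero.1 e2).resolve_left hD)).symm⟩
  have hsurj : ∀ u2 : U, ∃ u1, (u1, u2) ∈ LinearMap.ker L := by
    let π : LinearMap.ker L →ₗ[F] U := LinearMap.snd F U U ∘ₗ (LinearMap.ker L).subtype
    have hinj : Function.Injective π := by
      rw [injective_iff_map_eq_zero]
      rintro ⟨⟨u1, u2⟩, h0⟩ h1
      have h2 : u2 = 0 := h1
      obtain ⟨h3, -⟩ := hker u1 u2 h0
      rw [h2] at h3
      have h4 : a u1 = 0 := by rw [h3, map_zero, smul_zero]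
      have h5 : u1 = 0 := a.injective (by rw [h4, map_zero])
      exact Subtype.ext (Prod.ext h5 h2)
    have h1 := LinearMap.finrank_le_finrank_of_injective hinj
    have h2 : finrank F (LinearMap.ker L) = finrank F U := by
      have := H.h3
      omega
    have h3 := (LinearMap.injective_iff_surjective_of_finrank_eq_finrank (f := π) h2).1 hinj
    intro u2
    obtain ⟨⟨⟨u1, u2'⟩, h4⟩, h5⟩ := h3 u2
    have h6 : u2' = u2 := h5
    exact ⟨u1, by rw [← h6]; exact h4⟩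
  -- the quadratic relation
  have haa : ∀ z, a⁻¹ (a z) = z := fun z => a.symm_apply_apply z
  obtain ⟨v, hv0, l, hl⟩ := quad_eig H.h3 ((a⁻¹).toLinearMap ∘ₗ a'.toLinearMap) δ t (u0 := u) (by
    intro u2
    obtain ⟨u1, h1⟩ := hsurj u2
    obtain ⟨h2, h3⟩ := hker u1 u2 h1
    have h4 : a⁻¹ (a' u1) + t • a⁻¹ (a' u2) = u2 := by
      rw [← map_smul, ← map_add, ← h3, haa]
    have h5 : u1 = δ • a⁻¹ (a' u2) := by rw [← map_smul, ← h2, haa]
    rw [h5, map_smul, map_smul] at h4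
    exact h4) (by
    intro h1
    apply hu
    obtain ⟨c, hc⟩ := Submodule.mem_span_singleton.1 h1
    rw [Submodule.mem_span_singleton]
    refine ⟨c, ?_⟩
    have h2 : c • u = a⁻¹ (a' u) := hc
    rw [← map_smul, h2]
    exact a.apply_symm_apply _)
  have hav : a' v = l • a v := by
    have h2 : a⁻¹ (a' v) = l • v := hl
    have h3 : a (a⁻¹ (a' v)) = a' v := a.apply_symm_apply _
    rw [← h3, h2, map_smul]
  have hav0 : a v ≠ 0 := fun h => hv0 (a.injective (by rw [h, map_zero]))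
  obtain ⟨Y, hY⟩ := hrel2 v y1
  obtain ⟨r, hr⟩ : ∃ r, r = σ (l * q2 - q1) := ⟨_, rfl⟩
  obtain ⟨s, hs⟩ : ∃ s, s = - σ (l * p2 - p1) := ⟨_, rfl⟩
  have hrs : r ≠ 0 ∨ s ≠ 0 := by
    by_contra hcon2
    push Not at hcon2
    obtain ⟨h1, h2⟩ := hcon2
    rw [hr] at h1
    rw [hs, neg_eq_zero] at h2
    have h3 := hT.gS.inj h1
    have h4 := hT.gS.inj h2
    apply hD
    linear_combination p1 * 0 + (- q2) * h4 + p2 * h3
  have h1 := hY r s
  rw [hval, hval, ← hp1, ← hq1, ← hp2, ← hq2, hav, hr, hs, map_neg, hT.gS.inv, hT.gS.inv, smul_smul] at h1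
  have h2 : kap hT (σ (l * q2 - q1) • e + (-σ (l * p2 - p1)) • e') (x (τ Y w)) = 0 := by
    have h3 := sub_eq_of_eq_add' h1
    rw [← h3, ← sub_smul]
    have e1 : ((l * q2 - q1) * p2 + -(l * p2 - p1) * q2) * l - ((l * q2 - q1) * p1 + -(l * p2 - p1) * q1) = 0 := by
      ring
    rw [e1, zero_smul]
  rw [← hr, ← hs] at h2
  have hY0 := hzero Y r s hrs h2
  have k1 := hY 1 0
  have k2 := hY 0 1
  rw [hE1, hE1, hY0, map_zero, LinearMap.zero_apply, map_zero, map_zero, add_zero, ← hp1, ← hp2, hav, smul_smul] at k1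
  rw [hE2, hE2, hY0, map_zero, LinearMap.zero_apply, map_zero, map_zero, add_zero, ← hq1, ← hq2, hav, smul_smul] at k2
  have k3 : p2 * l = p1 := smul_left_injective F hav0 k1
  have k4 : q2 * l = q1 := smul_left_injective F hav0 k2
  apply hD
  rw [← k3, ← k4]; ring

lemma J_inv {n m : Module.End F U} (hm : J hT m = m) (h1 : n * m = 1) : J hT n = n := by
  have h2 : m * n = 1 := mul_eq_one_comm.1 h1
  have h3 : J hT (n * m) = 1 := by rw [h1, J_one]
  rw [J_mul, hm] at h3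
  calc J hT n = (n * m) * J hT n := by rw [h1, one_mul]
    _ = n := by rw [mul_assoc, h3, mul_one]

/-- the final contradiction -/
theorem Hyp.le_kr (H : Hyp hT X p) : X ≤ KrG τ := by
  intro x hx
  by_contra hxk
  obtain ⟨w, hw0, hw, -, -⟩ := exists_perp_iso hT.gS H.hd (0 : W) 0
  obtain ⟨e2, he2, he21, hes⟩ := exists_iso_perp hT.gS H.hd hw hw0
  obtain ⟨e1, rfl⟩ : ∃ e1, e1 = w := ⟨_, rfl⟩
  have he20 : e2 ≠ 0 := by rintro rfl; exact hes (Submodule.zero_mem _)
  have he12 : g e1 e2 = 0 := hT.gS.symm_zero he21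
  obtain ⟨u0, hu0⟩ := H.nz
  -- all isotropic vectors of the plane
  have hiso : ∀ c : F, g (e1 + c • e2) (e1 + c • e2) = 0 := by
    intro c
    simp [hw, he2, he12, he21]
  have hne : ∀ c : F, e1 + c • e2 ≠ 0 := by
    intro c h0
    have h1 : c • e2 = - e1 := eq_neg_of_add_eq_zero_right h0
    by_cases hc : c = 0
    · rw [hc, zero_smul, eq_comm, neg_eq_zero] at h1
      exact hw0 h1
    · apply hes
      rw [Submodule.mem_span_singleton]
      refine ⟨-c⁻¹, ?_⟩
      rw [neg_smul, ← smul_neg, ← h1, smul_smul, inv_mul_cancel₀ hc, one_smul]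
  -- the inverse of the first coefficient
  obtain ⟨c1, a1, b1, m1, l1, p1, p1', q1, hl1, j1, r1⟩ := H.stepC hx hxk hw hw0 hw hw0
  let B : W → Module.End F U := fun e => (a1⁻¹).toLinearMap ∘ₗ kap hT e ∘ₗ x.toLinearMap ∘ₗ τ.flip e1
  have hB : ∀ e u, B e u = a1⁻¹ (kap hT e (x (τ u e1))) := fun _ _ => rfl
  have ha1 : ∀ u, a1⁻¹ (a1 u) = u := fun u => a1.symm_apply_apply u
  -- scalar multiples of self-adjoint maps
  have hh : ∀ e, g e e = 0 → e ≠ 0 → g e e1 = 0 → ∃ (n : Module.End F U) (l : F), l ≠ 0 ∧ J hT n = n ∧ B e = l • n := by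
    intro e he he0 hee
    obtain ⟨c', a', b', m, l, p', -, q', hl, j', r'⟩ := H.stepC hx hxk hw hw0 he he0
    obtain ⟨s, hs0, hs⟩ := H.stepD hx hxk hw hw0 hw hw0 he he0 hee p1' p' q1 q'
    have h1 : ((l * s)⁻¹ • B e) * m = 1 := by
      ext u
      rw [Module.End.mul_apply, LinearMap.smul_apply, hB, r', hs, map_smul, map_smul, ha1, smul_smul l s, smul_smul,
        Module.End.one_apply, inv_mul_cancel₀ (mul_ne_zero hl hs0), one_smul]
    refine ⟨(l * s)⁻¹ • B e, l * s, mul_ne_zero hl hs0, J_inv j' h1, ?_⟩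
    rw [smul_smul, mul_inv_cancel₀ (mul_ne_zero hl hs0), one_smul]
  have hBi : ∀ e, g e e = 0 → e ≠ 0 → ∀ u, B e u = 0 → u = 0 := by
    intro e he he0 u hu
    rw [hB] at hu
    have h1 : kap hT e (x (τ u e1)) = 0 := (map_eq_zero_iff a1⁻¹ a1⁻¹.injective).mp hu
    exact H.stepB hx hxk hw hw0 he he0 h1
  obtain ⟨n1, l1', hl1', jn1, hn1⟩ := hh e1 hw hw0 hw
  obtain ⟨n2, l2, hl2, jn2, hn2⟩ := hh e2 he2 he20 he21
  -- the third vector
  obtain ⟨s, hs⟩ := hT.gS.ne
  obtain ⟨n3, l3, hl3, jn3, hn3⟩ := hh (e1 + σ (l1' * l2⁻¹ * s) • e2) (hiso _) (hne _) (by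
    rw [map_add, LinearMap.add_apply, map_smul, LinearMap.smul_apply, hw, he21, smul_zero, add_zero])
  have hadd : ∀ c : F, B (e1 + σ c • e2) = B e1 + c • B e2 := by
    intro c
    ext u
    rw [hB, LinearMap.add_apply, LinearMap.smul_apply, hB, hB, kap_add, kap_smul, hT.gS.inv, LinearMap.add_apply,
      LinearMap.smul_apply, map_add, map_smul]
  rw [hadd, hn1, hn2, smul_smul] at hn3
  have h1 : n1 + s • n2 = (l1'⁻¹ * l3) • n3 := by
    have h2 := congrArg (fun z => l1'⁻¹ • z) hn3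
    simp only [smul_add, smul_smul] at h2
    rw [inv_mul_cancel₀ hl1', one_smul] at h2
    rw [← h2]
    congr 2
    field_simp
  have h2 := congrArg (J hT) h1
  rw [J_add, J_smul, J_smul, jn1, jn2, jn3] at h2
  obtain ⟨μ, hμ⟩ : ∃ μ, μ = l1'⁻¹ * l3 := ⟨_, rfl⟩
  have hμ0 : μ ≠ 0 := by rw [hμ]; exact mul_ne_zero (inv_ne_zero hl1') hl3
  rw [← hμ] at h1 h2
  -- relation between n1 and n2
  have h3 : (μ - σ μ) • n1 = (σ μ * s - μ * σ s) • n2 := by
    have h4 : μ • (n1 + σ s • n2) = σ μ • (n1 + s • n2) := by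
      rw [h1, h2, smul_smul, smul_smul, mul_comm]
    have h5 : (μ - σ μ) • n1 - (σ μ * s - μ * σ s) • n2 = μ • (n1 + σ s • n2) - σ μ • (n1 + s • n2) := by
      module
    rw [h4, sub_self] at h5
    exact sub_eq_zero.1 h5
  have hn2i : ∀ u, n2 u = 0 → u = 0 := by
    intro u hu
    apply hBi e2 he2 he20
    rw [hn2, LinearMap.smul_apply, hu, smul_zero]
  by_cases hμs : μ - σ μ = 0
  · rw [hμs, zero_smul] at h3
    have h4 : σ μ = μ := (sub_eq_zero.1 hμs).symm
    have h5 := LinearMap.congr_fun h3 u0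
    rw [LinearMap.zero_apply, LinearMap.smul_apply, h4, ← mul_sub, eq_comm, smul_eq_zero] at h5
    rcases h5 with h5 | h5
    · rcases mul_eq_zero.1 h5 with h6 | h6
      · exact hμ0 h6
      · exact hs (sub_eq_zero.1 h6).symm
    · exact hu0 (hn2i _ h5)
  · obtain ⟨ρ, hρ⟩ : ∃ ρ, ρ = (μ - σ μ)⁻¹ * (σ μ * s - μ * σ s) := ⟨_, rfl⟩
    have h4 : n1 = ρ • n2 := by
      rw [hρ, ← smul_smul, ← h3, smul_smul, inv_mul_cancel₀ hμs, one_smul]
    have h5 : B (e1 + σ (-(l1' * ρ * l2⁻¹)) • e2) = 0 := by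
      rw [hadd, hn1, hn2, h4, smul_smul, smul_smul, ← add_smul]
      have : l1' * ρ + -(l1' * ρ * l2⁻¹) * l2 = 0 := by field_simp; ring
      rw [this, zero_smul]
    exact hu0 (hBi _ (hiso _) (hne _) u0 (by rw [h5, LinearMap.zero_apply]))

end H95.TV
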