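import Mathlib
import Cfsg.Agent.Lib.H95.TV8

set_option autoImplicit false
set_option linter.unusedSectionVars false
set_option linter.unusedVariables false
set_option linter.unusedSimpArgs false

/-!
Overgroups of tensor products of unitary groups.
-/

namespace H95.TV

open Module H95.UBasic H95.TVG H96.StFus

variable {F U W V : Type*} [Field F] [AddCommGroup U] [Module F U] [AddCommGroup W] [Module F W] [AddCommGroup V]
  [Module F V] {σ : F →+* F}
variable {k : U →ₗ[F] U →ₛₗ[σ] F} {g : W →ₗ[F] W →ₛₗ[σ] F} {h : V →ₗ[F] V →ₛₗ[σ] F} {τ : U →ₗ[F] W →ₗ[F] V}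
variable [FiniteDimensional F U] [FiniteDimensional F W] {X : Subgroup (V ≃ₗ[F] V)} {hT : TS k g h τ}

/-- the dichotomy -/
theorem dichotomy [Finite F] [FiniteDimensional F V] (hX : HX hT X) (hU : 2 ≤ finrank F U) (hd : 4 ≤ finrank F W)
    (hdm : finrank F U < finrank F W) (hV : 7 ≤ finrank F V)
    (h3 : finrank F U = 3) (h4 : finrank F W = 4)
    (hex : (∃ c : F, σ c = c ∧ c ≠ 0 ∧ c ≠ 1) ∨ 3 ≤ finrank F U) : SU h ≤ X ∨ X ≤ KrG τ := by
  classical
  by_cases hN : ∀ n ∈ NN hT X, ∃ c : F, n = c • (1 : Module.End F U)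
  · right
    have hfin : Finite (V ≃ₗ[F] V) := by
      have : Finite V := Module.finite_of_finite F
      exact Finite.of_injective (fun e : V ≃ₗ[F] V => (e : V → V)) DFunLike.coe_injective
    obtain ⟨p, hp⟩ := CharP.exists F
    have hpp : Fact p.Prime := ⟨(CharP.char_is_prime_or_zero F p).resolve_right (by
      intro h0
      subst h0
      have := CharP.charP_to_charZero F
      exact not_finite F)⟩
    have H : Hyp hT X p := ⟨hX, hd, by omega, hdm, h3, h4, hN⟩
    exact H.le_kr
  · left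
    push Not at hN
    obtain ⟨n, hn, hns⟩ := hN
    obtain ⟨ζ, H⟩ := hT.HD
    have hall : ∀ x y, rho k x y ∈ NN hT X := by
      intro x y
      exact rho_mem_of_nonscalar (N := Nalg hX hd) H hU hex (fun n hn => J_mem_NN hX hd hn)
        (fun a ha n hn => conj_mem_NN hX ha hn) hn hns x y
    exact SU_le_of_tr hT.hS hV X (fun v hv c hc => all_tr hX hd hall hv hc)

/-- isometries -/
lemma pure_isom (hT : TS k g h τ) {x : V ≃ₗ[F] V} {a : U ≃ₗ[F] U} {b : W ≃ₗ[F] W} (ha : a ∈ isom k) (hb : b ∈ isom g)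
    (hab : ∀ u w, x (τ u w) = τ (a u) (b w)) : x ∈ isom h := by
  rw [mem_isom] at ha hb ⊢
  have h1 : ∀ u w v, h (x (τ u w)) (x v) = h (τ u w) v := by
    intro u w v
    have h2 : (h.flip (x v)) (x (τ u w)) = (h.flip v) (τ u w) := by
      let S : Submodule F V :=
        { carrier := {v | h (x (τ u w)) (x v) = h (τ u w) v}
          add_mem' := by
            intro a b ha hb
            change h (x (τ u w)) (x (a + b)) = h (τ u w) (a + b)
            rw [map_add, map_add, map_add, ha, hb]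
          zero_mem' := by
            change h (x (τ u w)) (x 0) = h (τ u w) 0
            rw [map_zero, map_zero, map_zero]
          smul_mem' := by
            intro c a ha
            change h (x (τ u w)) (x (c • a)) = h (τ u w) (c • a)
            rw [map_smul, map_smulₛₗ, map_smulₛₗ, ha] }
      have h3 : S = ⊤ := hT.span S (fun u' w' => by
        change h (x (τ u w)) (x (τ u' w')) = h (τ u w) (τ u' w')
        rw [hab, hab, hT.ht, hT.ht, ha, hb])
      have h4 : v ∈ S := by rw [h3]; trivial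
      exact h4
    exact h2
  intro v v'
  have h5 : (h.flip (x v')) ∘ₗ x.toLinearMap = h.flip v' := hT.ext (fun u w => h1 u w v')
  exact LinearMap.congr_fun h5 v

/-- a transvection which is not a pure tensor -/
theorem exists_not_kr [FiniteDimensional F V] (hT : TS k g h τ) (hU : 2 ≤ finrank F U) (hd : 4 ≤ finrank F W) :
    ∃ x ∈ SU h, x ∉ KrG τ := by
  obtain ⟨ζ, H⟩ := hT.HD
  -- isotropic vectors
  obtain ⟨u, hu, hu0⟩ : ∃ u, k u u = 0 ∧ u ≠ 0 := by
    have : Nontrivial U := Module.nontrivial_of_finrank_pos (R := F) (by omega)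
    obtain ⟨y, hy⟩ := exists_ne (0 : U)
    obtain ⟨z, -, hz⟩ := exists_indep (F := F) (U := (⊤ : Submodule F U)) (by rw [finrank_top]; exact hU) y
    have hli := pair_indep hy hz
    obtain ⟨a, b, hab, hne⟩ := exists_iso_pair H.sk y z
    refine ⟨a • y + b • z, H.iso_iff.1 hab, ?_⟩
    intro h0
    rw [LinearIndependent.pair_iff] at hli
    obtain ⟨h1, h2⟩ := hli a b h0
    rcases hne with h3 | h3
    · exact h3 h1
    · exact h3 h2
  obtain ⟨w, hw0, hw, -, -⟩ := exists_perp_iso hT.gS hd (0 : W) 0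
  have hiso : h (τ u w) (τ u w) = 0 := by rw [hT.ht, hw, mul_zero]
  refine ⟨rf h (τ u w) 1, tr_mem_SU hT.hS hiso (map_one σ), ?_⟩
  rintro ⟨a, b, hab⟩
  have e : ∀ v, rf h (τ u w) 1 v = v + h v (τ u w) • τ u w := by
    intro v
    rw [rf_apply (tr_good hiso (map_one σ)), one_mul]
  have hbw : b w ≠ 0 := fun h => hw0 (b.injective (by rw [h, map_zero]))
  obtain ⟨c, hc⟩ := scalar_span (n := a.toLinearMap) (fun y => by
    have h1 := hab y w
    rw [e, hT.ht, hw, mul_zero, zero_smul, add_zero] at h1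
    exact tau_eq hT h1.symm hbw)
  obtain ⟨z, hz⟩ := dual1 hT.gS hw0
  obtain ⟨y0, hy0⟩ := exists_k hT hu0
  have hy : k y0 u = 1 := by rw [hT.herm, hy0, map_one]
  have hcy : a y0 = c • y0 := LinearMap.congr_fun hc y0
  have h1 := hab y0 z
  rw [e, hT.ht, hz, hy, mul_one, one_smul, hcy] at h1
  have h2 : τ u w = τ y0 (c • b z - z) := by
    rw [map_sub, map_smul, ← LinearMap.smul_apply, ← map_smul, ← h1, add_sub_cancel_left]
  obtain ⟨d, hd⟩ := Submodule.mem_span_singleton.1 (tau_eq hT h2 hw0)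
  have hu' : k (d • y0) u = 0 := by rw [hd]; exact hu
  rw [map_smul, LinearMap.smul_apply, hy, smul_eq_mul, mul_one] at hu'
  rw [hu', zero_smul] at hd
  exact hu0 hd.symm

end H95.TV
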