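import Mathlib
import Cfsg.Agent.Lib.H95.TE7
import Cfsg.Agent.Lib.H95.TV9
import Cfsg.Agent.Lib.H95.UBridge
import Cfsg.Agent.Lib.H16.Forms
import Cfsg.Agent.Lib.H7.ExtBr

set_option autoImplicit false
set_option linter.unusedSectionVars false
set_option linter.unusedVariables false
set_option linter.unusedSimpArgs false

/-!
Normalisers of cubic extension fields in the special unitary group of dimension twelve.
-/

namespace H95.TEB

open Module Cfsg Cfsg.Geo H95.Bridge H95.UBridge H95.UBasic H95.TE H7.ExtF H7.ExtBr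
open scoped Matrix MatrixGroups

section model

variable {F K V : Type*} [Field F] [Field K] [Algebra F K] [AddCommGroup V] [Module F V] [Module K V]
  [IsScalarTower F K V] {σ : F →+* F}

/-- representation of functionals -/
lemma rep_fun [FiniteDimensional F K] {l0 : K →ₗ[F] F} (h0 : l0 ≠ 0) (f : K →ₗ[F] F) : ∃ c : K, ∀ x, f x = l0 (x * c) := by
  let L : K →ₗ[F] (K →ₗ[F] F) :=
    { toFun := fun c => l0 ∘ₗ LinearMap.mulRight F c
      map_add' := fun a b => by
        ext x
        show l0 (x * (a + b)) = l0 (x * a) + l0 (x * b)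
        rw [mul_add, map_add]
      map_smul' := fun a b => by
        ext x
        show l0 (x * (a • b)) = a • l0 (x * b)
        rw [mul_smul_comm, map_smul] }
  have hinj : Function.Injective L := by
    rw [injective_iff_map_eq_zero]
    intro c hc
    by_contra hc0
    apply h0
    ext x
    have : L c (x * c⁻¹) = 0 := by rw [hc]; rfl
    change l0 (x * c⁻¹ * c) = 0 at this
    rwa [inv_mul_cancel_right₀ hc0] at this
  obtain ⟨c, hc⟩ := (LinearMap.injective_iff_surjective_of_finrank_eq_finrank (f := L) (by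
    rw [Subspace.dual_finrank_eq])).1 hinj f
  exact ⟨c, fun x => (LinearMap.congr_fun hc x).symm⟩

/-- the form over the extension -/
theorem exists_UE [FiniteDimensional F K] [Finite K] {h : V →ₗ[F] V →ₛₗ[σ] F} (H : IsSkew h) {s : K →+* K}
    (hs : ∀ (c : K) u v, h (c • u) v = h u (s c • v)) (hV : ∃ v : V, v ≠ 0) :
    ∃ (κ : V →ₗ[K] V →ₛₗ[s] K) (l0 : K →ₗ[F] F), UE κ l0 h := by
  obtain ⟨v0, hv0⟩ := hV
  have huniq : ∀ a b : K, (∀ u v, h (a • u) v = h (b • u) v) → a = b := by
    intro a b hab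
    by_contra hne
    have h1 : (a - b) • v0 = 0 := by
      apply H.nd
      intro w
      rw [sub_smul, map_sub, LinearMap.sub_apply, hab, sub_self]
    rcases smul_eq_zero.1 h1 with h2 | h2
    · exact hne (sub_eq_zero.1 h2)
    · exact hv0 h2
  have hss : ∀ c, s (s c) = c := by
    intro c
    apply huniq
    intro u v
    rw [H.skew v (s (s c) • u), ← hs, ← H.skew (s c • v) u, ← hs]
  have hsF : ∀ a : F, s (algebraMap F K a) = algebraMap F K (σ a) := by
    intro a
    apply huniq
    intro u v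
    rw [hs, hss, algebraMap_smul, algebraMap_smul, (h u).map_smulₛₗ, h.map_smul, LinearMap.smul_apply]
  -- the functional
  obtain ⟨l, hl⟩ : ∃ l : K →ₗ[F] F, l ≠ 0 := by
    obtain ⟨l1, hl1⟩ := LinearMap.exists_leftInverse_of_injective (Algebra.linearMap F K) (by
      rw [LinearMap.ker_eq_bot]; exact (algebraMap F K).injective)
    refine ⟨l1, ?_⟩
    rintro rfl
    have := LinearMap.congr_fun hl1 1
    simp at this
  have hssm : ∀ (a : F) (x : K), s (a • x) = σ a • s x := fun a x => by
    rw [Algebra.smul_def, map_mul, hsF, ← Algebra.smul_def]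
  let L1 : (K →ₗ[F] F) → (K →ₗ[F] F) := fun l =>
    { toFun := fun x => l x + σ (l (s x))
      map_add' := fun a b => by rw [map_add l, map_add s, map_add l, map_add σ]; ring
      map_smul' := fun a b => by
        rw [map_smul l, hssm, map_smul l, smul_eq_mul, smul_eq_mul, map_mul, H.inv, RingHom.id_apply, smul_eq_mul]; ring }
  have hL1 : ∀ l x, L1 l x = l x + σ (l (s x)) := fun l x => rfl
  obtain ⟨l0, hl00, hl0s⟩ : ∃ l0 : K →ₗ[F] F, l0 ≠ 0 ∧ ∀ x, l0 (s x) = σ (l0 x) := by
    have hcs : ∀ l x, L1 l (s x) = σ (L1 l x) := by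
      intro l x
      rw [hL1, hL1, hss, map_add, H.inv, add_comm]
    by_cases h0 : L1 l = 0
    · obtain ⟨a, ha⟩ := H.ne
      refine ⟨L1 (a • l), ?_, hcs _⟩
      intro h1
      apply hl
      ext x
      have e1 : L1 l x = 0 := by rw [h0]; rfl
      have e2 : L1 (a • l) x = 0 := by rw [h1]; rfl
      rw [hL1] at e1 e2
      rw [LinearMap.smul_apply, LinearMap.smul_apply, smul_eq_mul, smul_eq_mul, map_mul] at e2
      have e3 : (a - σ a) * l x = 0 := by linear_combination e2 - σ a * e1
      exact (mul_eq_zero.1 e3).resolve_left (fun h2 => ha (sub_eq_zero.1 h2).symm)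
    · exact ⟨L1 l, h0, hcs l⟩
  have hext : ∀ a b : K, (∀ x, l0 (x * a) = l0 (x * b)) → a = b := by
    intro a b hab
    by_contra hne
    have hne' : a - b ≠ 0 := sub_ne_zero.2 hne
    apply hl00
    ext x
    have h1 := hab (x * (a - b)⁻¹)
    have h2 : l0 (x * (a - b)⁻¹ * (a - b)) = 0 := by rw [mul_sub, map_sub, h1, sub_self]
    rwa [inv_mul_cancel_right₀ hne'] at h2
  have hex : ∀ u v, ∃ c : K, ∀ x : K, h (x • u) v = l0 (x * c) := by
    intro u v
    exact rep_fun hl00 (h.flip v ∘ₗ lin (K := K) F u)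
  choose κ0 hκ0 using hex
  let κ : V →ₗ[K] V →ₛₗ[s] K :=
    LinearMap.mk₂'ₛₗ (RingHom.id K) s κ0
      (fun a b c => hext _ _ fun x => by
        rw [← hκ0, smul_add, map_add, LinearMap.add_apply, mul_add, map_add, ← hκ0, ← hκ0])
      (fun c a b => hext _ _ fun x => by
        rw [← hκ0, smul_smul, hκ0, RingHom.id_apply, smul_eq_mul, mul_assoc])
      (fun a b c => hext _ _ fun x => by
        rw [← hκ0, map_add, mul_add, map_add, ← hκ0, ← hκ0])
      (fun c a b => hext _ _ fun x => by
        have h1 := hs (s c) (x • a) b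
        rw [hss] at h1
        rw [← hκ0, ← h1, smul_smul, hκ0, smul_eq_mul]
        congr 1
        ring)
  have hκ : ∀ u v, κ u v = κ0 u v := fun u v => rfl
  refine ⟨κ, l0, ⟨hss, ?_, ?_, ?_, ?_⟩, H, hl00, hl0s, ?_, hsF⟩
  · obtain ⟨a, ha⟩ := H.ne
    refine ⟨algebraMap F K a, fun h1 => ha ?_⟩
    rw [hsF] at h1
    exact (algebraMap F K).injective h1
  · intro b hb
    have hne : s ≠ RingHom.id K := by
      intro h1
      obtain ⟨a, ha⟩ := H.ne
      apply ha
      apply (algebraMap F K).injective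
      rw [← hsF, h1, RingHom.id_apply]
    obtain ⟨c, hc⟩ := H16.Forms.norm_surj s hne hss b hb
    exact ⟨c, by rw [mul_comm]; exact hc⟩
  · intro x y
    apply hext
    intro c
    have h1 := hs (s c) x y
    rw [hss] at h1
    rw [hκ, hκ, ← hκ0, H.skew x (c • y), ← h1, hκ0, mul_neg, map_neg, ← hl0s, map_mul s, hss]
  · intro v hv
    apply H.nd
    intro w
    have h1 := hκ0 v w 1
    rw [one_smul, one_mul, ← hκ, hv, map_zero] at h1
    exact h1
  · intro x y
    have h1 := hκ0 x y 1
    rw [one_smul, one_mul] at h1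
    exact h1

end model

section main

universe u

variable {F : Type u} [Field F]

/-- the restriction of scalars of a special unitary map is special unitary -/
lemma restrict_SU {F K V : Type*} [Field F] [Field K] [Algebra F K] [AddCommGroup V] [Module F V] [Module K V]
    [IsScalarTower F K V] {σ : F →+* F} {s : K →+* K} {κ : V →ₗ[K] V →ₛₗ[s] K} {l0 : K →ₗ[F] F}
    {h : V →ₗ[F] V →ₛₗ[σ] F} (E : UE κ l0 h) {b : V ≃ₗ[K] V} (hb : b ∈ H95.UBasic.SU κ) :
    b.restrictScalars F ∈ H95.UBasic.SU h := by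
  rw [mem_SU]
  refine ⟨fun x y => ?_, ?_⟩
  · show h (b x) (b y) = h x y
    rw [E.hh, E.hh, (SU_le _ hb : b ∈ isom κ)]
  · have h3 := (mem_SU.1 hb).2
    rw [← Units.val_inj, LinearEquiv.coe_det] at h3 ⊢
    have h4 : ((b.restrictScalars F : V ≃ₗ[F] V) : V →ₗ[F] V) = (b : V →ₗ[K] V).restrictScalars F := rfl
    rw [h4, LinearMap.det_restrictScalars, h3, Units.val_one, map_one, Units.val_one]

theorem ext_max3 [Fintype F] (q : ℕ) (hF : Fintype.card F = q ^ 2) (K : Subalgebra F (Matrix (Fin 12) (Fin 12) F))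
    (hK : Cfsg.Geo.IsFieldSubalgebra 3 K) (hac : Cfsg.Geo.IsAdjointClosedFor (Cfsg.hermForm 12 F q) K) :
    Cfsg.Geo.IsMaximalIn (Cfsg.GU 12 F q ⊓ Cfsg.Geo.specialLinear (Fin 12) F)
      (Cfsg.Geo.subalgebraNormalizer K ⊓ (Cfsg.GU 12 F q ⊓ Cfsg.Geo.specialLinear (Fin 12) F)) := by
  obtain ⟨σ, h, ζ, H, hζ, hσ, hζσ, hh⟩ := exists_form 12 hF
  have hmem := mem_SUn hζ hh
  obtain ⟨L, i1, i2, i3, i4, φ, h1, h2, h3, hLr⟩ := H7.ExtBr.exists_model hK (by norm_num)
  have : FiniteDimensional F L := Module.finite_of_finrank_pos (by rw [hLr]; norm_num)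
  have : FiniteDimensional L (Fin 12 → F) := FiniteDimensional.right F L _
  have hfin : Finite L := Module.finite_of_finite F
  have hV : finrank F (Fin 12 → F) = 12 := by rw [finrank_fintype_fun_eq_card, Fintype.card_fin]
  have hfr := Module.finrank_mul_finrank F L (Fin 12 → F)
  rw [hLr, hV] at hfr
  have hfL : finrank L (Fin 12 → F) = 4 := by omega
  have hne : ∃ v : Fin 12 → F, v ≠ 0 := ⟨fun _ => 1, fun h0 => one_ne_zero (congrFun h0 0)⟩
  -- the involution
  have hadj : ∀ c : L, ∃ c' : L, ∀ u v, h (c • u) v = h u (c' • v) := by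
    intro c
    obtain ⟨k', hk', e⟩ := hac _ (h2 c)
    obtain ⟨c', rfl⟩ := h3 k' hk'
    refine ⟨c', fun u v => ?_⟩
    rw [hh, hh, h1, h1, e]
  choose s0 hs0 using hadj
  have huniq : ∀ a b : L, (∀ u v, h u (a • v) = h u (b • v)) → a = b := by
    intro a b hab
    obtain ⟨v0, hv0⟩ := hne
    by_contra hne
    have h1 : (a - b) • v0 = 0 := by
      apply H.nd
      intro w
      apply H.symm_zero
      rw [sub_smul, map_sub, hab, sub_self]
    rcases smul_eq_zero.1 h1 with h2 | h2
    · exact hne (sub_eq_zero.1 h2)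
    · exact hv0 h2
  let s : L →+* L :=
    { toFun := s0
      map_one' := huniq _ _ fun u v => by rw [← hs0, one_smul, one_smul]
      map_mul' := fun a b => huniq _ _ fun u v => by rw [← hs0, mul_comm a b, mul_smul, hs0, hs0, smul_smul]
      map_zero' := huniq _ _ fun u v => by rw [← hs0, zero_smul, zero_smul, map_zero, map_zero, LinearMap.zero_apply]
      map_add' := fun a b => huniq _ _ fun u v => by
        rw [← hs0, add_smul, map_add, LinearMap.add_apply, hs0, hs0, add_smul, map_add] }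
  obtain ⟨κ, l0, E⟩ := exists_UE H (s := s) hs0 hne
  apply isMaximalIn_of
  · obtain ⟨w, hw0, hw, -, -⟩ := H95.TVG.exists_perp_iso H (by omega) (0 : Fin 12 → F) 0
    refine ⟨(toEq _ F).symm (rf h w 1), ?_, ?_⟩
    · rw [hmem, MulEquiv.apply_symm_apply]; exact tr_mem_SU H hw (map_one σ)
    · apply tr_not_mem (F := F) h1 h2 h3 (by rw [hLr]; norm_num) (by simp) hw0 (f := h.flip w)
      · intro h0
        apply hw0
        apply H.nd
        intro v
        apply H.symm_zero
        exact LinearMap.congr_fun h0 v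
      · intro v
        rw [MulEquiv.apply_symm_apply, rf_apply (tr_good hw (map_one σ)), one_mul]
        rfl
  · rintro M hM1 hM2 ⟨g, hg, hg'⟩
    have hMle : M.map (toEq (Fin 12) F).toMonoidHom ≤ H95.UBasic.SU h := by
      rintro _ ⟨x, hx, rfl⟩
      exact (hmem x).1 (hM2 hx)
    have hX : XK κ h (M.map (toEq (Fin 12) F).toMonoidHom) := by
      refine ⟨hMle.trans (SU_le h), fun b hb => ?_⟩
      refine ⟨(toEq _ F).symm (b.restrictScalars F), hM1 ⟨?_, ?_⟩, MulEquiv.apply_symm_apply _ _⟩
      · apply comm_mem_normalizer h1 h2 h3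
        intro v e
        rw [MulEquiv.apply_symm_apply]
        exact b.map_smul e v
      · show (toEq _ F).symm (b.restrictScalars F) ∈ GU 12 F q ⊓ specialLinear (Fin 12) F
        rw [hmem, MulEquiv.apply_symm_apply]
        exact restrict_SU E hb
    rcases ext3 E hLr hfL hX with h4 | h4
    · exact le_of_map hmem (SU_le_of_tr H (by omega) _ h4)
    · exfalso
      apply hg'
      apply H7.ExtBr.mem_normalizer h1 h2 h3 (by omega)
      intro v e
      obtain ⟨θ, hθ⟩ := h4 _ ⟨g, hg, rfl⟩
      exact mem_ln.2 ⟨θ e, (hθ e v).symm⟩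

end main

end H95.TEB
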