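import Mathlib
import Cfsg.Agent.Lib.H95.TU1

set_option autoImplicit false
set_option linter.unusedSectionVars false
set_option linter.unusedVariables false
set_option linter.unusedSimpArgs false

/-!
Adjoint-closed algebras of endomorphisms of a hermitian space normalised by the special unitary group.
-/

namespace H95.TU

open Module H95.UBasic H95.TUG

variable {F U : Type*} [Field F] [AddCommGroup U] [Module F U] {σ : F →+* F} {k : U →ₗ[F] U →ₛₗ[σ] F}

/-- data for a hermitian form -/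
structure HD (k : U →ₗ[F] U →ₛₗ[σ] F) (ζ : F) : Prop where
  kN : Nd k
  herm : ∀ x y, k y x = σ (k x y)
  z0 : ζ ≠ 0
  sk : IsSkew (ζ • k)
  zs : σ ζ = - ζ

variable {ζ : F}

lemma HD.app (H : HD k ζ) (x y : U) : (ζ • k) x y = ζ * k x y := rfl

lemma HD.iso_iff (H : HD k ζ) {x y : U} : (ζ • k) x y = 0 ↔ k x y = 0 := by
  rw [H.app, mul_eq_zero, or_iff_right H.z0]

lemma HD.mem_SU (H : HD k ζ) {a : U ≃ₗ[F] U} : a ∈ SU k ↔ a ∈ SU (ζ • k) := by
  have : a ∈ isom k ↔ a ∈ isom (ζ • k) := by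
    rw [mem_isom, mem_isom]
    constructor
    · intro h x y
      rw [H.app, H.app, h]
    · intro h x y
      exact mul_left_cancel₀ H.z0 (h x y)
  rw [UBasic.mem_SU, UBasic.mem_SU, this]

lemma HD.symm_zero (H : HD k ζ) {x y : U} (h : k x y = 0) : k y x = 0 := by rw [H.herm, h, map_zero]

lemma HD.self (H : HD k ζ) (x : U) : σ (k x x) = k x x := (H.herm x x).symm

/-- rank one maps -/
def rho (k : U →ₗ[F] U →ₛₗ[σ] F) (a b : U) : Module.End F U := (k.flip b).smulRight a

lemma rho_apply (a b x : U) : rho k a b x = k x b • a := rfl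

lemma rho_mul (a b c e : U) : rho k a b * rho k c e = k c b • rho k a e := by
  ext x
  simp only [Module.End.mul_apply, rho_apply, LinearMap.smul_apply, map_smul, smul_smul, smul_eq_mul]
  rw [mul_comm]

lemma rho_add_left (a a' b : U) : rho k (a + a') b = rho k a b + rho k a' b := by
  ext x; simp only [rho_apply, LinearMap.add_apply, smul_add]

lemma rho_smul_left (a b : U) (c : F) : rho k (c • a) b = c • rho k a b := by
  ext x; simp only [rho_apply, LinearMap.smul_apply]; rw [smul_comm]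

/-- transvections -/
lemma HD.transv [FiniteDimensional F U] (H : HD k ζ) {v : U} (hv : k v v = 0) {s : F} (hs : σ s = -s) :
    ∃ a ∈ SU k, (∀ x, a x = x + (s * k x v) • v) ∧ ∀ x, a⁻¹ x = x - (s * k x v) • v := by
  have hv' : (ζ • k) v v = 0 := H.iso_iff.2 hv
  have hc : σ (s * ζ⁻¹) = s * ζ⁻¹ := by
    rw [map_mul, map_inv₀, hs, H.zs, inv_neg, neg_mul_neg]
  have e : ∀ x, rf (ζ • k) v (s * ζ⁻¹) x = x + (s * k x v) • v := by
    intro x
    rw [rf_apply (tr_good hv' hc), H.app]
    congr 2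
    have := H.z0
    field_simp
  refine ⟨rf (ζ • k) v (s * ζ⁻¹), H.mem_SU.2 (tr_mem_SU H.sk hv' hc), e, fun x => ?_⟩
  have h2 : (rf (ζ • k) v (s * ζ⁻¹)) (x - (s * k x v) • v) = x := by
    rw [e, map_sub, LinearMap.sub_apply, map_smul, LinearMap.smul_apply, hv, smul_zero, sub_zero]
    abel
  have h3 : (rf (ζ • k) v (s * ζ⁻¹))⁻¹ ((rf (ζ • k) v (s * ζ⁻¹)) (x - (s * k x v) • v)) = x - (s * k x v) • v :=
    LinearEquiv.symm_apply_apply _ _
  rw [h2] at h3
  exact h3

lemma exists_trace (H : HD k ζ) : ∃ t : F, t + σ t ≠ 0 := by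
  by_contra hcon
  push Not at hcon
  obtain ⟨l, hl⟩ := H.sk.ne
  have h1 := hcon 1
  rw [map_one] at h1
  have h2 := hcon l
  apply hl
  have h3 : (1 + 1) * l = 0 := by rw [h1, zero_mul]
  linear_combination h2 - h3

variable [FiniteDimensional F U] {N : Subalgebra F (Module.End F U)}

lemma scalar_of (H : HD k ζ) (hd : 2 ≤ finrank F U) (hJ : ∀ n ∈ N, ad H.kN k n ∈ N)
    (hz : ∀ n ∈ N, ∀ u, k u u = 0 → k (n u) u = 0) {n : Module.End F U} (hn : n ∈ N) :
    ∃ c : F, n = c • (1 : Module.End F U) := by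
  have h1 : ∀ u, k u u = 0 → n u ∈ Submodule.span F {u} := by
    intro u hu
    by_contra hcon
    by_cases hu0 : u = 0
    · subst hu0
      rw [map_zero] at hcon
      exact hcon (Submodule.zero_mem _)
    have hzz : k (n u) (n u) = 0 := by
      have h2 := hz (ad H.kN k n * n) (N.mul_mem (hJ n hn) hn) u hu
      rw [Module.End.mul_apply, ad_spec] at h2
      exact h2
    have hzu := hz n hn u hu
    obtain ⟨p, p1, p2, p3⟩ := exists_hyp2 H.sk hu0 (H.iso_iff.2 hzz) (H.iso_iff.2 hzu) hcon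
    rw [H.iso_iff] at p1 p2
    have hup : k u p = 0 := H.symm_zero p2
    have key : ∀ l : F, σ l * k (n u) p + l * k (n p) u = 0 := by
      intro l
      have h3 := hz n hn (u + l • p) (by
        simp [hu, p1, p2, hup])
      simp only [map_add, map_smul, LinearMap.add_apply, LinearMap.smul_apply, map_smulₛₗ, smul_eq_mul, hzu,
        hz n hn p p1] at h3
      linear_combination h3
    obtain ⟨l, hl⟩ := H.sk.ne
    have k1 := key 1
    rw [map_one, one_mul, one_mul] at k1
    have k2 := key l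
    have h4 : (σ l - l) * k (n u) p = 0 := by linear_combination k2 - l * k1
    have h5 := (mul_eq_zero.1 h4).resolve_left (sub_ne_zero.2 hl)
    rw [H.app, H.symm_zero h5, mul_zero] at p3
    exact zero_ne_one p3
  obtain ⟨x, y, hx0, hxy⟩ : ∃ x y : U, x ≠ 0 ∧ ∀ a : F, y ≠ a • x := by
    have : (⊤ : Submodule F U) ≠ ⊥ := by
      intro h
      have h2 := finrank_top (R := F) (M := U)
      rw [h, finrank_bot] at h2
      omega
    obtain ⟨x, -, hx⟩ := Submodule.exists_mem_ne_zero_of_ne_bot this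
    obtain ⟨y, -, hy⟩ := exists_indep (F := F) (U := (⊤ : Submodule F U)) (by rw [finrank_top]; exact hd) x
    exact ⟨x, y, hx, hy⟩
  obtain ⟨a, b, hab, hne⟩ := exists_iso_pair H.sk x y
  obtain ⟨e, he⟩ : ∃ e, e = a • x + b • y := ⟨_, rfl⟩
  rw [← he] at hab
  have he0 : e ≠ 0 := by
    intro h0
    have hli := pair_indep hx0 hxy
    rw [LinearIndependent.pair_iff] at hli
    obtain ⟨h3, h4⟩ := hli a b (he ▸ h0)
    rcases hne with h | h
    · exact h h3
    · exact h h4
  have hek : k e e = 0 := H.iso_iff.1 hab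
  obtain ⟨μ, hμ⟩ := Submodule.mem_span_singleton.1 (h1 e hek)
  have hiso : ∀ v, k v v = 0 → n v = μ • v := by
    intro v hv
    by_cases hv0 : v ∈ Submodule.span F {e}
    · obtain ⟨c, rfl⟩ := Submodule.mem_span_singleton.1 hv0
      rw [map_smul, ← hμ, smul_comm]
    obtain ⟨c, hc⟩ := Submodule.mem_span_singleton.1 (h1 v hv)
    obtain ⟨l, hl0, hl⟩ : ∃ l : F, l ≠ 0 ∧ k (e + l • v) (e + l • v) = 0 := by
      by_cases hA : k e v = 0
      · refine ⟨1, one_ne_zero, ?_⟩
        simp [hek, hv, hA, H.symm_zero hA]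
      · refine ⟨ζ * k e v, mul_ne_zero H.z0 hA, ?_⟩
        have h2 := H.herm e v
        simp only [map_add, map_smul, LinearMap.add_apply, LinearMap.smul_apply, map_smulₛₗ, smul_eq_mul, hek, hv, h2,
          map_mul, H.zs]
        ring
    obtain ⟨c', hc'⟩ := Submodule.mem_span_singleton.1 (h1 _ hl)
    rw [map_add, map_smul, ← hμ, ← hc] at hc'
    have h3 : (c' - μ) • e + (l * (c' - c)) • v = 0 := by
      have h4 : c' • (e + l • v) - (μ • e + l • c • v) = 0 := sub_eq_zero.2 hc'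
      rw [← h4]; module
    have hli := pair_li he0 hv0
    rw [LinearIndependent.pair_iff] at hli
    obtain ⟨h5, h6⟩ := hli _ _ h3
    have h7 : c' = c := sub_eq_zero.1 ((mul_eq_zero.1 h6).resolve_left hl0)
    rw [← hc, ← h7, sub_eq_zero.1 h5]
  refine ⟨μ, ?_⟩
  ext x
  rw [LinearMap.smul_apply, Module.End.one_apply]
  have key : ∀ x, k x e ≠ 0 → n x = μ • x := by
    intro x hx
    obtain ⟨b, hb⟩ := iso_fix H.sk (H.iso_iff.2 hek) (fun h => hx (H.iso_iff.1 h) : (ζ • k) x e ≠ 0)
    have h2 := hiso _ (H.iso_iff.1 hb)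
    rw [map_add, map_smul, hiso e hek] at h2
    have h3 : n x = μ • (x + b • e) - b • μ • e := by rw [← h2]; abel
    rw [h3]; module
  by_cases hx : k x e = 0
  · obtain ⟨f, hf, hfe⟩ := exists_hyp H.sk hab he0
    have hfe' : k f e ≠ 0 := by
      intro h
      rw [H.app, h, mul_zero] at hfe
      exact zero_ne_one hfe
    have h2 := key (x + f) (by rw [map_add, LinearMap.add_apply, hx, zero_add]; exact hfe')
    rw [map_add, key f hfe'] at h2
    have h3 : n x = μ • (x + f) - μ • f := by rw [← h2]; abel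
    rw [h3]; module
  · exact key x hx

/-- a self-adjoint element -/
lemma exists_self (H : HD k ζ) (hd : 2 ≤ finrank F U) (hJ : ∀ n ∈ N, ad H.kN k n ∈ N) {n : Module.End F U} (hn : n ∈ N)
    (hns : ∀ c : F, n ≠ c • (1 : Module.End F U)) : ∃ n ∈ N, ad H.kN k n = n ∧ ∃ u, k u u = 0 ∧ k (n u) u ≠ 0 := by
  obtain ⟨n, hn, u, hu, hnu⟩ : ∃ n ∈ N, ∃ u, k u u = 0 ∧ k (n u) u ≠ 0 := by
    by_contra hcon
    push Not at hcon
    obtain ⟨c, hc⟩ := scalar_of H hd hJ hcon hn
    exact hns c hc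
  obtain ⟨t, ht⟩ := exists_trace H
  obtain ⟨η, hη⟩ : ∃ η, η = t * (k (n u) u)⁻¹ := ⟨_, rfl⟩
  refine ⟨η • n + ad H.kN k (η • n), N.add_mem (N.smul_mem hn _) (hJ _ (N.smul_mem hn _)), ?_, u, hu, ?_⟩
  · rw [ad_add, adj_adj _ H.herm, add_comm]
  · have h1 : k ((η • n + ad H.kN k (η • n)) u) u = t + σ t := by
      rw [LinearMap.add_apply, map_add, LinearMap.add_apply, ad_spec, H.herm ((η • n) u) u, LinearMap.smul_apply, map_smul,
        LinearMap.smul_apply, smul_eq_mul, hη, mul_assoc, inv_mul_cancel₀ hnu, mul_one]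
    rw [h1]
    exact ht

/-- difference with a conjugate -/
lemma diff_mem (H : HD k ζ) (hC : ∀ a ∈ SU k, ∀ n ∈ N, a.toLinearMap ∘ₗ n ∘ₗ (a⁻¹).toLinearMap ∈ N)
    {n : Module.End F U} (hn : n ∈ N) {u : U} (hu : k u u = 0) {s : F} (hs : σ s = -s) :
    s • (rho k u u * n - n * rho k u u) - (s * s * k (n u) u) • rho k u u ∈ N := by
  obtain ⟨a, ha, e1, e2⟩ := H.transv hu hs
  have h1 := N.sub_mem (hC a ha n hn) hn
  convert h1 using 1
  ext x
  simp only [LinearMap.sub_apply, LinearMap.smul_apply, Module.End.mul_apply, rho_apply, LinearMap.comp_apply,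
    LinearEquiv.coe_coe, e1, e2, map_sub, map_smul, LinearMap.sub_apply, smul_sub, smul_smul, smul_eq_mul]
  module

lemma rho_of_large (H : HD k ζ) (hC : ∀ a ∈ SU k, ∀ n ∈ N, a.toLinearMap ∘ₗ n ∘ₗ (a⁻¹).toLinearMap ∈ N)
    {n : Module.End F U} (hn : n ∈ N) {u : U} (hu : k u u = 0) (hnu : k (n u) u ≠ 0)
    {c : F} (hc0 : c ≠ 0) (hc1 : c ≠ 1) (hc : σ c = c) : rho k u u ∈ N := by
  have h1 := diff_mem H hC hn hu H.zs
  have h2 := diff_mem H hC hn hu (s := c * ζ) (by rw [map_mul, hc, H.zs, mul_neg])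
  have h3 := N.sub_mem (N.smul_mem h1 c) h2
  have h4 : c • (ζ • (rho k u u * n - n * rho k u u) - (ζ * ζ * k (n u) u) • rho k u u) -
      ((c * ζ) • (rho k u u * n - n * rho k u u) - (c * ζ * (c * ζ) * k (n u) u) • rho k u u) =
      (c * (c - 1) * (ζ * ζ) * k (n u) u) • rho k u u := by
    module
  rw [h4] at h3
  have h5 : c * (c - 1) * (ζ * ζ) * k (n u) u ≠ 0 :=
    mul_ne_zero (mul_ne_zero (mul_ne_zero hc0 (sub_ne_zero.2 hc1)) (mul_ne_zero H.z0 H.z0)) hnu
  have h6 := N.smul_mem h3 (c * (c - 1) * (ζ * ζ) * k (n u) u)⁻¹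
  rwa [smul_smul, inv_mul_cancel₀ h5, one_smul] at h6

lemma rho_conj_mem (H : HD k ζ) (hC : ∀ a ∈ SU k, ∀ n ∈ N, a.toLinearMap ∘ₗ n ∘ₗ (a⁻¹).toLinearMap ∈ N)
    {x y : U} (hn : rho k x y ∈ N) {a : U ≃ₗ[F] U} (ha : a ∈ SU k) : rho k (a x) (a y) ∈ N := by
  have h1 := hC a ha _ hn
  convert h1 using 1
  ext z
  have h2 : ∀ x y, k (a x) (a y) = k x y := SU_le _ ha
  have h3 : a (a⁻¹ z) = z := a.apply_symm_apply z
  simp only [rho_apply, LinearMap.comp_apply, LinearEquiv.coe_coe, map_smul]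
  have h4 := h2 (a⁻¹ z) y
  rw [h3] at h4
  rw [h4]

lemma ad_rho (H : HD k ζ) (a b : U) : ad H.kN k (rho k a b) = rho k b a := by
  ext x
  apply H.kN.ext
  intro y
  rw [ad_spec, rho_apply, rho_apply, map_smulₛₗ, map_smul, LinearMap.smul_apply, ← H.herm, smul_eq_mul, smul_eq_mul,
    mul_comm]

/-- all rank one elements, isotropic case -/
theorem all_rho (H : HD k ζ) (hJ : ∀ n ∈ N, ad H.kN k n ∈ N)
    (hC : ∀ a ∈ SU k, ∀ n ∈ N, a.toLinearMap ∘ₗ n ∘ₗ (a⁻¹).toLinearMap ∈ N)
    {u : U} (hu : k u u = 0) (hu0 : u ≠ 0) (hn : rho k u u ∈ N) (x y : U) : rho k x y ∈ N := by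
  have step : ∀ v, k v v = 0 → k v u ≠ 0 → ∃ u', rho k u' u' ∈ N ∧ rho k u' u ∈ N ∧ k u' u ≠ 0 ∧ rho k v u ∈ N := by
    intro v hv hvu
    obtain ⟨a, ha, e1, e2⟩ := H.transv hv H.zs
    have h1 := rho_conj_mem H hC hn ha
    have h2 : k (a u) u = ζ * k u v * k v u := by
      rw [e1, map_add, LinearMap.add_apply, hu, zero_add, map_smul, LinearMap.smul_apply, smul_eq_mul]
    have huv : k u v ≠ 0 := fun h => hvu (H.symm_zero h)
    have h3 : k (a u) u ≠ 0 := by
      rw [h2]; exact mul_ne_zero (mul_ne_zero H.z0 huv) hvu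
    have h3' : k u (a u) ≠ 0 := fun h => h3 (H.symm_zero h)
    have h4 := N.smul_mem (N.mul_mem h1 hn) (k u (a u))⁻¹
    rw [rho_mul, smul_smul, inv_mul_cancel₀ h3', one_smul] at h4
    refine ⟨a u, h1, h4, h3, ?_⟩
    have h5 := N.smul_mem (N.sub_mem h4 hn) (ζ * k u v)⁻¹
    have h6 : rho k (a u) u - rho k u u = (ζ * k u v) • rho k v u := by
      rw [e1, rho_add_left, rho_smul_left, add_sub_cancel_left]
    rwa [h6, smul_smul, inv_mul_cancel₀ (mul_ne_zero H.z0 huv), one_smul] at h5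
  obtain ⟨f, hf, hfu⟩ := exists_hyp H.sk (H.iso_iff.2 hu) hu0
  rw [H.iso_iff] at hf
  have hfu' : k f u ≠ 0 := by
    intro h
    rw [H.app, h, mul_zero] at hfu
    exact zero_ne_one hfu
  obtain ⟨u', s1, s2, s3, s4⟩ := step f hf hfu'
  have key : ∀ x, k x u ≠ 0 → rho k x u ∈ N := by
    intro x hx
    obtain ⟨b, hb⟩ := iso_fix H.sk (H.iso_iff.2 hu) (fun h => hx (H.iso_iff.1 h) : (ζ • k) x u ≠ 0)
    obtain ⟨-, -, -, -, h1⟩ := step (x + b • u) (H.iso_iff.1 hb) (by
      rw [map_add, LinearMap.add_apply, map_smul, LinearMap.smul_apply, hu, smul_zero, add_zero]; exact hx)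
    rw [rho_add_left, rho_smul_left] at h1
    have := N.sub_mem h1 (N.smul_mem hn b)
    rwa [add_sub_cancel_right] at this
  have all : ∀ x, rho k x u ∈ N := by
    intro x
    by_cases hx : k x u = 0
    · have h1 := key (x + f) (by rw [map_add, LinearMap.add_apply, hx, zero_add]; exact hfu')
      rw [rho_add_left] at h1
      have := N.sub_mem h1 s4
      rwa [add_sub_cancel_right] at this
    · exact key x hx
  have h1 := hJ _ (all y)
  rw [ad_rho H] at h1
  have h2 := N.mul_mem (N.mul_mem (all x) s1) h1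
  rw [rho_mul, smul_mul_assoc, rho_mul, smul_smul] at h2
  have s3' : k u u' ≠ 0 := fun h => s3 (H.symm_zero h)
  have h3 := N.smul_mem h2 (k u' u * k u u')⁻¹
  rwa [smul_smul, inv_mul_cancel₀ (mul_ne_zero s3 s3'), one_smul] at h3

/-- quasi-reflections -/
lemma HD.qr (H : HD k ζ) {x : U} (hx : k x x = 1) {l : F} (hl : l * σ l = 1) :
    ∃ r ∈ isom (ζ • k), ((LinearEquiv.det r : Fˣ) : F) = l ∧ ∀ w, r w = w + ((l - 1) * k w x) • x := by
  have hz := H.z0
  have hxx : (ζ • k) x x = ζ := by rw [H.app, hx, mul_one]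
  have hg : σ ((l - 1) * ζ⁻¹) + (l - 1) * ζ⁻¹ * σ ((l - 1) * ζ⁻¹) * (ζ • k) x x = (l - 1) * ζ⁻¹ := by
    rw [hxx, map_mul, map_inv₀, H.zs, map_sub, map_one, inv_neg]
    field_simp
    linear_combination -hl
  refine ⟨rf (ζ • k) x ((l - 1) * ζ⁻¹), rf_mem H.sk _ _, ?_, fun w => ?_⟩
  · rw [rf_det hg, hxx]
    field_simp
    ring
  · rw [rf_apply hg, H.app]
    congr 2
    field_simp

/-- a hyperbolic pair orthogonal to a non-isotropic vector -/
lemma exists_hyp_perp (H : HD k ζ) (hd : 3 ≤ finrank F U) {a : U} (ha : k a a = 1) :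
    ∃ e f, k e e = 0 ∧ k f f = 0 ∧ k e a = 0 ∧ k f a = 0 ∧ k f e ≠ 0 := by
  have h1 := finrank_perpF_ge (ζ • k) (⊤ : Submodule F U) ![a]
  rw [finrank_top, Fintype.card_fin] at h1
  have h2 : 2 ≤ finrank F (perpF (ζ • k) ⊤ ![a]) := by omega
  obtain ⟨x, hx, hx0⟩ := Submodule.exists_mem_ne_zero_of_ne_bot (p := perpF (ζ • k) ⊤ ![a]) (by
    intro h
    rw [h, finrank_bot] at h2
    omega)
  obtain ⟨y, hy, hy0⟩ := exists_indep h2 x
  obtain ⟨c, d, hcd, hne⟩ := exists_iso_pair H.sk x y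
  have hmem : c • x + d • y ∈ perpF (ζ • k) ⊤ ![a] :=
    Submodule.add_mem _ (Submodule.smul_mem _ _ hx) (Submodule.smul_mem _ _ hy)
  obtain ⟨e, he⟩ : ∃ e, e = c • x + d • y := ⟨_, rfl⟩
  rw [← he] at hcd hmem
  have he0 : e ≠ 0 := by
    intro h0
    have hli := pair_indep hx0 hy0
    rw [LinearIndependent.pair_iff] at hli
    obtain ⟨h3, h4⟩ := hli c d (he ▸ h0)
    rcases hne with h | h
    · exact h h3
    · exact h h4
  have hea : k e a = 0 := H.iso_iff.1 ((mem_perpF.1 hmem).2 0)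
  have hae : k a e = 0 := H.symm_zero hea
  obtain ⟨f0, hf0⟩ := dual1 H.sk he0
  have h3 : (ζ • k) (f0 - k f0 a • a) e = 1 := by
    rw [map_sub, LinearMap.sub_apply, hf0, map_smul, LinearMap.smul_apply, H.app a e, hae, mul_zero, smul_zero, sub_zero]
  obtain ⟨b, hb⟩ := iso_fix H.sk hcd (by rw [h3]; exact one_ne_zero : (ζ • k) (f0 - k f0 a • a) e ≠ 0)
  refine ⟨e, f0 - k f0 a • a + b • e, H.iso_iff.1 hcd, H.iso_iff.1 hb, hea, ?_, ?_⟩
  · rw [map_add, LinearMap.add_apply, map_sub, LinearMap.sub_apply, map_smul, map_smul, LinearMap.smul_apply,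
      LinearMap.smul_apply, ha, hea, smul_zero, smul_eq_mul, mul_one, sub_self, add_zero]
  · intro h
    have h4 : (ζ • k) (f0 - k f0 a • a + b • e) e = 1 := by
      rw [map_add, LinearMap.add_apply, h3, map_smul, LinearMap.smul_apply, hcd, smul_zero, add_zero]
    rw [H.app, h, mul_zero] at h4
    exact zero_ne_one h4

/-- all rank one elements, non-isotropic case -/
theorem all_rho' (H : HD k ζ) (hd : 3 ≤ finrank F U) (h2 : ∀ c : F, σ c = c → c = 0 ∨ c = 1)
    (hJ : ∀ n ∈ N, ad H.kN k n ∈ N) (hC : ∀ a ∈ SU k, ∀ n ∈ N, a.toLinearMap ∘ₗ n ∘ₗ (a⁻¹).toLinearMap ∈ N)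
    {a : U} (ha : k a a = 1) (hn : rho k a a ∈ N) (x y : U) : rho k x y ∈ N := by
  obtain ⟨l, hl⟩ := H.sk.ne
  have hl0 : l ≠ 0 := by rintro rfl; exact hl (map_zero σ)
  have hl1 : l ≠ 1 := by rintro rfl; exact hl (map_one σ)
  have hnl : l * σ l = 1 := by
    rcases h2 (l * σ l) (by rw [map_mul, H.kN.inv, mul_comm]) with h | h
    · exfalso
      rcases mul_eq_zero.1 h with h | h
      · exact hl0 h
      · exact hl0 (H.sk.inj h)
    · exact h
  obtain ⟨e, f, he, hf, hea, hfa, hfe⟩ := exists_hyp_perp H hd ha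
  -- a non-isotropic vector orthogonal to a
  obtain ⟨t, ht⟩ := exists_trace H
  obtain ⟨b, hb⟩ : ∃ b : F, b = t * (k f e)⁻¹ := ⟨_, rfl⟩
  obtain ⟨y0, hy0, hy0a⟩ : ∃ y0, k y0 y0 = 1 ∧ k y0 a = 0 := by
    refine ⟨e + b • f, ?_, by rw [map_add, LinearMap.add_apply, map_smul, LinearMap.smul_apply, hea, hfa, smul_zero, add_zero]⟩
    have h3 : k (e + b • f) (e + b • f) = t + σ t := by
      simp only [map_add, map_smul, LinearMap.add_apply, LinearMap.smul_apply, map_smulₛₗ, smul_eq_mul, he, hf, hb,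
        H.herm f e, map_mul, map_inv₀]
      have h4 : σ (k f e) ≠ 0 := fun h => hfe (H.sk.inj h)
      field_simp
      ring
    rcases h2 _ (H.self (e + b • f)) with h | h
    · rw [h3] at h; exact absurd h ht
    · exact h
  have step : ∀ z, k z z = 0 → k z a = 0 → rho k z a ∈ N := by
    intro z hz hza
    have haz : k a z = 0 := H.symm_zero hza
    have hay : k a y0 = 0 := H.symm_zero hy0a
    obtain ⟨r1, m1, d1, e1⟩ := H.qr (x := a + z) (by simp [ha, hz, hza, haz]) hnl
    obtain ⟨r2, m2, d2, e2⟩ := H.qr hy0 (l := σ l) (by rw [H.kN.inv, mul_comm]; exact hnl)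
    have hm : r1 * r2 ∈ SU k := by
      rw [H.mem_SU, UBasic.mem_SU]
      refine ⟨Subgroup.mul_mem _ m1 m2, ?_⟩
      rw [map_mul, ← Units.val_inj, Units.val_mul, d1, d2, hnl, Units.val_one]
    have h3 : (r1 * r2) a = l • a + (l - 1) • z := by
      rw [LinearEquiv.mul_apply, e2, hay, mul_zero, zero_smul, add_zero, e1, map_add, ha, haz, add_zero, mul_one]
      module
    have h4 := N.mul_mem (rho_conj_mem H hC hn hm) hn
    have h5 : k a ((r1 * r2) a) = σ l := by
      rw [h3, map_add, map_smulₛₗ, map_smulₛₗ, ha, haz, smul_zero, add_zero, smul_eq_mul, mul_one]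
    have h6 : σ l ≠ 0 := fun h => hl0 (H.sk.inj h)
    rw [rho_mul, h5] at h4
    have h7 := N.smul_mem h4 (σ l)⁻¹
    rw [smul_smul, inv_mul_cancel₀ h6, one_smul, h3, rho_add_left, rho_smul_left, rho_smul_left] at h7
    have h8 := N.sub_mem h7 (N.smul_mem hn l)
    rw [add_sub_cancel_left] at h8
    have h9 := N.smul_mem h8 (l - 1)⁻¹
    rwa [smul_smul, inv_mul_cancel₀ (sub_ne_zero.2 hl1), one_smul] at h9
  have perp : ∀ z, k z a = 0 → rho k z a ∈ N := by
    have key : ∀ z, k z a = 0 → k z e ≠ 0 → rho k z a ∈ N := by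
      intro z hz hze
      obtain ⟨b, hb⟩ := iso_fix H.sk (H.iso_iff.2 he) (fun h => hze (H.iso_iff.1 h) : (ζ • k) z e ≠ 0)
      have h1 := step (z + b • e) (H.iso_iff.1 hb) (by
        rw [map_add, LinearMap.add_apply, map_smul, LinearMap.smul_apply, hz, hea, smul_zero, add_zero])
      rw [rho_add_left, rho_smul_left] at h1
      have := N.sub_mem h1 (N.smul_mem (step e he hea) b)
      rwa [add_sub_cancel_right] at this
    intro z hz
    by_cases hze : k z e = 0
    · have h1 := key (z + f) (by rw [map_add, LinearMap.add_apply, hz, hfa, add_zero])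
        (by rw [map_add, LinearMap.add_apply, hze, zero_add]; exact hfe)
      rw [rho_add_left] at h1
      have := N.sub_mem h1 (step f hf hfa)
      rwa [add_sub_cancel_right] at this
    · exact key z hz hze
  have all : ∀ x, rho k x a ∈ N := by
    intro x
    have h1 := perp (x - k x a • a) (by
      rw [map_sub, LinearMap.sub_apply, map_smul, LinearMap.smul_apply, ha, smul_eq_mul, mul_one, sub_self])
    have h3 := N.add_mem h1 (N.smul_mem hn (k x a))
    rw [← rho_smul_left, ← rho_add_left, sub_add_cancel] at h3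
    exact h3
  have h1 := hJ _ (all y)
  rw [ad_rho H] at h1
  have h3 := N.mul_mem (all x) h1
  rwa [rho_mul, ha, one_smul] at h3

/-- a non-scalar element gives all rank one elements -/
theorem rho_mem_of_nonscalar (H : HD k ζ) (hd : 2 ≤ finrank F U)
    (hex : (∃ c : F, σ c = c ∧ c ≠ 0 ∧ c ≠ 1) ∨ 3 ≤ finrank F U)
    (hJ : ∀ n ∈ N, ad H.kN k n ∈ N) (hC : ∀ a ∈ SU k, ∀ n ∈ N, a.toLinearMap ∘ₗ n ∘ₗ (a⁻¹).toLinearMap ∈ N)
    {n : Module.End F U} (hn : n ∈ N) (hns : ∀ c : F, n ≠ c • (1 : Module.End F U)) (x y : U) : rho k x y ∈ N := by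
  obtain ⟨n, hn, hself, u, hu, hnu⟩ := exists_self H hd hJ hn hns
  have hu0 : u ≠ 0 := by
    rintro rfl
    simp at hnu
  by_cases hc : ∃ c : F, σ c = c ∧ c ≠ 0 ∧ c ≠ 1
  · obtain ⟨c, hc, hc0, hc1⟩ := hc
    exact all_rho H hJ hC hu hu0 (rho_of_large H hC hn hu hnu hc0 hc1 hc) x y
  have h3 : 3 ≤ finrank F U := hex.resolve_left hc
  push Not at hc
  have h2 : ∀ c : F, σ c = c → c = 0 ∨ c = 1 := by
    intro c h
    by_cases h0 : c = 0
    · exact Or.inl h0
    · exact Or.inr (hc c h h0)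
  have h11 : (1 : F) + 1 = 0 := by
    rcases h2 (1 + 1) (by rw [map_add, map_one]) with h | h
    · exact h
    · exfalso
      have : (1 : F) = 0 := by linear_combination h
      exact one_ne_zero this
  have hdbl : ∀ v : U, v + v = 0 := by
    intro v
    have : v + v = ((1 : F) + 1) • v := by module
    rw [this, h11, zero_smul]
  have hnadj : ∀ x y, k (n x) y = k x (n y) := by
    intro x y
    have := ad_spec H.kN k n x y
    rwa [hself] at this
  have hκ : k (n u) u = 1 := by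
    refine (h2 _ ?_).resolve_left hnu
    rw [← H.herm, ← hnadj]
  have hκ' : k u (n u) = 1 := by rw [← hnadj, hκ]
  have hD := diff_mem H hC hn hu (s := 1) (by rw [map_one]; linear_combination h11)
  obtain ⟨p, hp⟩ : ∃ p, p = (1 : F) • (rho k u u * n - n * rho k u u) - (1 * 1 * k (n u) u) • rho k u u := ⟨_, rfl⟩
  rw [← hp] at hD
  have hneg : ∀ v : U, -v = v := fun v => neg_eq_of_add_eq_zero_left (hdbl v)
  have hpx : ∀ x, p x = k x (n u) • u + k x u • n u + k x u • u := by
    intro x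
    rw [hp]
    simp only [one_smul, one_mul, hκ, LinearMap.sub_apply, Module.End.mul_apply, rho_apply, map_smul, hnadj x u]
    simp only [sub_eq_add_neg, hneg]
  have hpu : p u = u := by rw [hpx, hκ', hu]; simp
  have hδ := H.self (n u)
  rcases h2 _ hδ with h0 | h1
  · -- δ = 0
    have hpz : p (n u) = n u + u := by rw [hpx, h0, hκ]; simp
    have h4 : rho k u u ∈ N := by
      have h5 := N.add_mem hD (N.mul_mem hD hD)
      convert h5 using 1
      ext x
      rw [LinearMap.add_apply, Module.End.mul_apply]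
      conv_rhs => rw [hpx x]
      simp only [map_add, map_smul, hpu, hpz, rho_apply]
      have e1 := hdbl (k x (n u) • u)
      have e2 := hdbl (k x u • n u)
      have e3 := hdbl (k x u • u)
      have e4 : k x (n u) • u + k x u • n u + k x u • u + (k x (n u) • u + k x u • (n u + u) + k x u • u) =
        (k x (n u) • u + k x (n u) • u) + (k x u • n u + k x u • n u) + (k x u • u + k x u • u) + k x u • u := by module
      rw [e4, e1, e2, e3]; simp
    exact all_rho H hJ hC hu hu0 h4 x y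
  · -- δ = 1: projection
    have hpz : p (n u) = n u := by
      rw [hpx, h1, hκ]
      have := hdbl u
      have e4 : (1 : F) • u + (1 : F) • n u + (1 : F) • u = (u + u) + n u := by module
      rw [e4, this, zero_add]
    have hpadj : ∀ x y, k (p x) y = k x (p y) := by
      intro x y
      rw [hpx, hpx]
      simp only [map_add, map_smul, LinearMap.add_apply, LinearMap.smul_apply, map_smulₛₗ, smul_eq_mul, ← H.herm]
      ring
    have hpp : ∀ x, p (p x) = p x := by
      intro x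
      conv_lhs => rw [hpx x]
      rw [map_add, map_add, map_smul, map_smul, map_smul, hpu, hpz, ← hpx]
    -- a vector killed by p
    obtain ⟨x0, hx0⟩ : ∃ x0, p x0 ≠ x0 := by
      by_contra hcon
      push Not at hcon
      have h5 : (⊤ : Submodule F U) ≤ Submodule.span F ({u, n u} : Set U) := by
        intro x _
        rw [← hcon x, hpx x]
        have hu' : u ∈ Submodule.span F ({u, n u} : Set U) := Submodule.subset_span (by simp)
        have hnu' : n u ∈ Submodule.span F ({u, n u} : Set U) := Submodule.subset_span (by simp)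
        exact Submodule.add_mem _ (Submodule.add_mem _ (Submodule.smul_mem _ _ hu') (Submodule.smul_mem _ _ hnu'))
          (Submodule.smul_mem _ _ hu')
      have h6 := Submodule.finrank_mono h5
      rw [finrank_top] at h6
      have h7 : finrank F (Submodule.span F ({u, n u} : Set U)) ≤ 2 := by
        classical
        have h8 := finrank_span_finset_le_card (R := F) ({u, n u} : Finset U)
        rw [Finset.coe_pair] at h8
        exact h8.trans Finset.card_le_two
      omega
    obtain ⟨b0, hb0⟩ : ∃ b0, b0 = x0 - p x0 := ⟨_, rfl⟩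
    have hb00 : b0 ≠ 0 := by
      rw [hb0, sub_ne_zero]; exact fun h => hx0 h.symm
    have hpb0 : p b0 = 0 := by rw [hb0, map_sub, hpp, sub_self]
    obtain ⟨b, hb, hpb⟩ : ∃ b, k b b = 1 ∧ p b = 0 := by
      have fin : ∀ b, k b b ≠ 0 → k b b = 1 := fun b hb => (h2 _ (H.self b)).resolve_left hb
      by_cases hbb : k b0 b0 = 0
      · obtain ⟨l0, hl0⟩ := dual1 H.sk hb00
        have hl0' : k l0 b0 ≠ 0 := by
          intro h
          rw [H.app, h, mul_zero] at hl0
          exact zero_ne_one hl0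
        obtain ⟨l1, hl1⟩ : ∃ l1, l1 = l0 - p l0 := ⟨_, rfl⟩
        have hl1b : k l1 b0 = k l0 b0 := by
          rw [hl1, map_sub, LinearMap.sub_apply, hpadj, hpb0, map_zero, sub_zero]
        have hpl1 : p l1 = 0 := by rw [hl1, map_sub, hpp, sub_self]
        by_cases hll : k l1 l1 = 0
        · obtain ⟨t, ht⟩ := exists_trace H
          refine ⟨b0 + (t * (k l0 b0)⁻¹) • l1, fin _ ?_, by rw [map_add, map_smul, hpb0, hpl1, smul_zero, add_zero]⟩
          have h5 : k (b0 + (t * (k l0 b0)⁻¹) • l1) (b0 + (t * (k l0 b0)⁻¹) • l1) = t + σ t := by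
            simp only [map_add, map_smul, LinearMap.add_apply, LinearMap.smul_apply, map_smulₛₗ, smul_eq_mul, hbb, hll,
              H.herm l1 b0, hl1b, map_mul, map_inv₀]
            have h4 : σ (k l0 b0) ≠ 0 := fun h => hl0' (H.sk.inj h)
            field_simp
            ring
          rw [h5]; exact ht
        · exact ⟨l1, fin _ hll, hpl1⟩
      · exact ⟨b0, fin _ hbb, hpb0⟩
    -- the transvection
    obtain ⟨z, hz⟩ : ∃ z, z = n u := ⟨_, rfl⟩
    rw [← hz] at h1 hpz
    have hzb : k z b = 0 := by rw [← hpz, hpadj, hpb, map_zero]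
    have hbz : k b z = 0 := H.symm_zero hzb
    have hv : k (z + b) (z + b) = 0 := by
      simp only [map_add, LinearMap.add_apply, h1, hb, hzb, hbz]
      linear_combination h11
    have hD2 := diff_mem H hC hD hv (s := 1) (by rw [map_one]; linear_combination h11)
    have h5 := N.mul_mem hD hD2
    have h6 : rho k z z ∈ N := by
      convert h5 using 1
      ext x
      have hpv : p (z + b) = z := by rw [map_add, hpz, hpb, add_zero]
      have hpvv : k (p (z + b)) (z + b) = 1 := by rw [hpv, map_add, h1, hzb, add_zero]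
      have e1 : k (p x) (z + b) = k x z := by rw [hpadj, hpv]
      rw [Module.End.mul_apply, hpvv]
      simp only [one_smul, one_mul, LinearMap.sub_apply, Module.End.mul_apply, rho_apply, map_smul, e1, map_sub, hpv, hpz]
      simp only [sub_eq_add_neg, hneg, map_add, add_smul]
      have e2 := hdbl (k x z • z)
      have e3 := hdbl (k x b • z)
      have e4 : k x z • z + (k x z • z + k x b • z) + (k x z • z + k x b • z) =
        (k x z • z + k x z • z) + (k x b • z + k x b • z) + k x z • z := by module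
      rw [e4, e2, e3]; simp
    exact all_rho' H h3 h2 hJ hC h1 h6 x y

end H95.TU
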