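import Mathlib
import Cfsg.Agent.Lib.H95.TU2
import Cfsg.Agent.Lib.H95.TU3

set_option autoImplicit false
set_option linter.unusedSectionVars false
set_option linter.unusedVariables false
set_option linter.unusedSimpArgs false

/-!
If all rank one elements occur as coefficients, the group contains `SU`.
-/

namespace H95.TU

open Module H95.UBasic H95.TUG

variable {F U W V : Type*} [Field F] [AddCommGroup U] [Module F U] [AddCommGroup W] [Module F W] [AddCommGroup V]
  [Module F V] {σ : F →+* F}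
variable {k : U →ₗ[F] U →ₛₗ[σ] F} {g : W →ₗ[F] W →ₛₗ[σ] F} {h : V →ₗ[F] V →ₛₗ[σ] F} {τ : U →ₗ[F] W →ₗ[F] V}
variable [FiniteDimensional F U] [FiniteDimensional F W] {X : Subgroup (V ≃ₗ[F] V)} {hT : TS k g h τ}

/-- isotropic vectors span -/
lemma iso_span_top (H : IsSkew g) (hd : 5 ≤ finrank F W) (S : Submodule F W) (hS : ∀ f, g f f = 0 → f ∈ S) (z : W) :
    z ∈ S := by
  obtain ⟨w, hw0, hw, -, -⟩ := exists_perp_iso H hd (0 : W) 0
  obtain ⟨f, hf, hfw⟩ := exists_hyp H hw hw0
  have h1 := span_iso_perp H hd hw hw0 S (fun f h _ _ => hS f h) (z := z - g z w • f) (by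
    rw [map_sub, LinearMap.sub_apply, map_smul, LinearMap.smul_apply, hfw, smul_eq_mul, mul_one, sub_self])
  have h2 := S.add_mem h1 (S.smul_mem (g z w) (hS f hf))
  rwa [sub_add_cancel] at h2

/-- the form `ζ k` -/
lemma TS.HD (hT : TS k g h τ) : ∃ ζ : F, H95.TU.HD k ζ := by
  obtain ⟨s, hs, hs0⟩ := exists_skew_ne hT.gS
  refine ⟨s, hT.kN, hT.herm, hs0, ⟨hT.gS.inv, hT.gS.ne, hT.gS.norm, ?_, ?_⟩, hs⟩
  · intro x y
    change s * k y x = - σ (s * k x y)
    rw [map_mul, hs, hT.herm x y]; ring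
  · intro v hv
    apply hT.kN.nd
    intro w
    have := hv w
    change s * k v w = 0 at this
    exact (mul_eq_zero.1 this).resolve_left hs0

lemma exists_half (hT : TS k g h τ) : ∃ η : F, η + σ η = 1 := by
  obtain ⟨ζ, H⟩ := hT.HD
  obtain ⟨t, ht⟩ := exists_trace H
  refine ⟨t * (t + σ t)⁻¹, ?_⟩
  rw [map_mul, map_inv₀, map_add, hT.gS.inv, add_comm (σ t) t]
  field_simp

lemma central' (hX : HX hT X) (hd : 5 ≤ finrank F W) {n : Module.End F U} (hn : n ∈ NN hT X) {w : W} (hw : g w w = 0)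
    (hw0 : w ≠ 0) : In X (E hT (τ.flip w ∘ₗ (n + J hT n)) (τ.flip w)) := by
  obtain ⟨f, hf, hfw, hfs⟩ := exists_iso_perp hT.gS hd hw hw0
  obtain ⟨p, p1, p2, p3⟩ := exists_hyp2 hT.gS hw0 hf hfw hfs
  exact central hX hn hw hfw p2 p3

lemma J_rho (hT : TS k g h τ) (a b : U) : J hT (rho k a b) = rho k b a := by
  obtain ⟨ζ, H⟩ := hT.HD
  exact ad_rho H a b

lemma rho_neg_left (a b : U) : rho k (-a) b = - rho k a b := by
  ext x; simp only [rho_apply, LinearMap.neg_apply, smul_neg]

/-- pure transvections -/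
lemma pure_mem (hX : HX hT X) (hd : 5 ≤ finrank F W) (hall : ∀ x y, rho k x y ∈ NN hT X) {x : U} {w : W} (hw : g w w = 0)
    {c : F} (hc : σ c = c) : rf h (τ x w) c ∈ X := by
  by_cases hw0 : w = 0
  · subst hw0
    have : rf h (τ x 0) c = 1 := by
      ext v
      rw [map_zero, rf_apply (by simp [hc])]
      simp
    rw [this]; exact X.one_mem
  obtain ⟨η, hη⟩ := exists_half hT
  obtain ⟨y, hy, e⟩ := central' hX hd (smul_mem_NN (hall x x) (η * c)) hw hw0
  have hiso : h (τ x w) (τ x w) = 0 := by rw [hT.ht, hw, mul_zero]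
  have : rf h (τ x w) c = y := by
    ext v
    rw [rf_apply (tr_good hiso hc), e, E_flip, LinearMap.add_apply, J_smul, J_rho, LinearMap.smul_apply,
      LinearMap.smul_apply, rho_apply, ← add_smul, smul_smul, map_smul, LinearMap.smul_apply, kap_spec, map_mul, hc]
    congr 2
    linear_combination -(c * h v (τ x w)) * hη
  rw [this]; exact hy

/-- all transvections -/
theorem all_tr (hX : HX hT X) (hd : 5 ≤ finrank F W) (hall : ∀ x y, rho k x y ∈ NN hT X) {v : V} (hv : h v v = 0)
    {c : F} (hc : σ c = c) : rf h v c ∈ X := by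
  by_cases hv0 : v = 0
  · subst hv0
    have : rf h (0 : V) c = 1 := by
      ext v
      rw [rf_apply (by simp [hc])]
      simp
    rw [this]; exact X.one_mem
  obtain ⟨η, hη⟩ := exists_half hT
  -- an isotropic w with non-zero contraction
  obtain ⟨w, hw, hx0⟩ : ∃ w, g w w = 0 ∧ kap hT w v ≠ 0 := by
    by_contra hcon
    push Not at hcon
    apply hv0
    let S : Submodule F W :=
      { carrier := {w | kap hT w v = 0}
        add_mem' := by
          intro a b ha hb
          change kap hT (a + b) v = 0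
          rw [kap_add, LinearMap.add_apply, ha, hb, add_zero]
        zero_mem' := by
          change kap hT 0 v = 0
          have := kap_smul hT 0 (0 : W)
          rw [zero_smul, map_zero, zero_smul] at this
          rw [this]; rfl
        smul_mem' := by
          intro c a ha
          change kap hT (c • a) v = 0
          rw [kap_smul, LinearMap.smul_apply, ha, smul_zero] }
    have h1 : ∀ w, kap hT w v = 0 := fun w => iso_span_top hT.gS hd S hcon w
    apply hT.hS.nd
    have h2 : ∀ y, h y v = 0 := by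
      have h3 := hT.span (LinearMap.ker (h.flip v)) (fun u w => by
        rw [LinearMap.mem_ker, LinearMap.flip_apply]
        apply hT.hS.symm_zero
        rw [← kap_spec hT, h1, map_zero, LinearMap.zero_apply])
      intro y
      have : y ∈ LinearMap.ker (h.flip v) := by rw [h3]; trivial
      exact this
    exact fun y => hT.hS.symm_zero (h2 y)
  have hw0 : w ≠ 0 := by
    rintro rfl
    have := kap_smul hT 0 (0 : W)
    rw [zero_smul, map_zero, zero_smul] at this
    rw [this] at hx0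
    exact hx0 rfl
  obtain ⟨f, hf, hfw⟩ := exists_hyp hT.gS hw hw0
  obtain ⟨x, hx⟩ : ∃ x, x = kap hT w v := ⟨_, rfl⟩
  rw [← hx] at hx0
  obtain ⟨x', hx'⟩ : ∃ x', k x x' = 1 := by
    obtain ⟨ζ, H⟩ := hT.HD
    obtain ⟨u, hu⟩ := dual1 H.sk hx0
    rw [H.app] at hu
    have h1 : k x u ≠ 0 := by
      intro h
      rw [H.symm_zero h, mul_zero] at hu
      exact zero_ne_one hu
    refine ⟨(σ (k x u))⁻¹ • u, ?_⟩
    rw [map_smulₛₗ, map_inv₀, hT.gS.inv, smul_eq_mul, inv_mul_cancel₀ h1]
  -- the movable differences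
  let Q : V → Prop := fun Y => ∃ φ ∈ X, (∀ Y', kap hT w Y' = 0 → ∃ y, φ Y' = Y' + τ y w) ∧
    ∃ y, φ (τ x f) = τ x f + Y + τ y w
  let S : Submodule F V :=
    { carrier := {Y | kap hT w Y = 0 ∧ ∀ c : F, Q (c • Y)}
      add_mem' := by
        rintro a b ⟨ha, ha'⟩ ⟨hb, hb'⟩
        refine ⟨by rw [map_add, ha, hb, add_zero], fun c => ?_⟩
        obtain ⟨φ, hφ, h1, y1, h2⟩ := ha' c
        obtain ⟨ψ, hψ, h3, y2, h4⟩ := hb' c
        refine ⟨φ * ψ, X.mul_mem hφ hψ, ?_, ?_⟩
        · intro Y hY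
          obtain ⟨y, hy⟩ := h3 Y hY
          obtain ⟨y', hy'⟩ := h1 (Y + τ y w) (by rw [map_add, hY, kap_pure, hw, zero_smul, add_zero])
          refine ⟨y + y', ?_⟩
          rw [LinearEquiv.mul_apply, hy, hy', map_add, LinearMap.add_apply]
          abel
        · obtain ⟨y', hy'⟩ := h1 (c • b + τ y2 w) (by rw [map_add, map_smul, hb, kap_pure, hw, zero_smul, smul_zero, add_zero])
          refine ⟨y1 + y2 + y', ?_⟩
          rw [LinearEquiv.mul_apply, h4, add_assoc, map_add, h2, hy', map_add, map_add, LinearMap.add_apply,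
            LinearMap.add_apply, smul_add]
          abel
      zero_mem' := by
        refine ⟨map_zero _, fun c => ⟨1, X.one_mem, fun Y _ => ⟨0, by simp⟩, 0, by simp⟩⟩
      smul_mem' := by
        rintro a b ⟨hb, hb'⟩
        refine ⟨by rw [map_smul, hb, smul_zero], fun c => ?_⟩
        rw [smul_smul]
        exact hb' _ }
  have hgen : ∀ (y : U) (z : W), g z w = 0 → τ y z ∈ S := by
    intro y z hz
    refine ⟨by rw [kap_pure, hz, zero_smul], fun c => ?_⟩
    obtain ⟨m, φ, hφ, e⟩ := hall (c • y) x' w hw z hz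
    refine ⟨φ, hφ, ?_, ?_⟩
    · intro Y hY
      refine ⟨J hT (rho k (c • y) x') (kap hT z Y), ?_⟩
      rw [e, GP_flip_apply, hY]
      simp
    · refine ⟨J hT (rho k (c • y) x') (kap hT z (τ x f)) + m x, ?_⟩
      rw [e, GP_flip_apply, kap_pure hT w, hfw, one_smul, rho_apply, hx', one_smul, map_add, LinearMap.add_apply, map_smul,
        LinearMap.smul_apply]
      abel
  have hdec : ∀ v', v' - τ (kap hT w v') f ∈ S := by
    intro v'
    have h1 := hT.span (S.comap (LinearMap.id - (τ.flip f ∘ₗ kap hT w) : V →ₗ[F] V)) (by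
      intro u y
      rw [Submodule.mem_comap]
      have : (LinearMap.id - (τ.flip f ∘ₗ kap hT w) : V →ₗ[F] V) (τ u y) = τ u (y - g y w • f) := by
        rw [LinearMap.sub_apply, LinearMap.comp_apply, LinearMap.flip_apply, kap_pure]
        simp
      rw [this]
      apply hgen
      rw [map_sub, LinearMap.sub_apply, map_smul, LinearMap.smul_apply, hfw, smul_eq_mul, mul_one, sub_self])
    have h2 : v' ∈ S.comap (LinearMap.id - (τ.flip f ∘ₗ kap hT w) : V →ₗ[F] V) := by rw [h1]; trivial
    exact h2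
  obtain ⟨φ, hφ, -, y, h1⟩ := (hdec v).2 1
  rw [one_smul, ← hx, add_sub_cancel] at h1
  -- correction
  have hiso : h (v + τ y w) (v + τ y w) = 0 := by
    rw [← h1]
    have : h (φ (τ x f)) (φ (τ x f)) = h (τ x f) (τ x f) := hX.le hφ _ _
    rw [this, hT.ht, hf, mul_zero]
  have hε : σ (k x y) = k x y := by
    have h2 : h v (τ y w) = k x y := by rw [← kap_spec hT, hx]
    have h3 : h (τ y w) v = - σ (k x y) := by rw [hT.hS.skew v, h2]
    have h4 : h (τ y w) (τ y w) = 0 := by rw [hT.ht, hw, mul_zero]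
    rw [map_add, map_add, LinearMap.add_apply, LinearMap.add_apply, hv, h2, h3, h4] at hiso
    linear_combination -hiso
  obtain ⟨m, hm⟩ : ∃ m, m = rho k (-y) x' - (η * k x (-y)) • rho k x' x' := ⟨_, rfl⟩
  have hmN : m ∈ NN hT X := by
    rw [hm, sub_eq_add_neg, ← neg_smul]
    exact add_mem_NN (hall _ _) (smul_mem_NN (hall _ _) _)
  obtain ⟨ψ, hψ, e⟩ := central' hX hd hmN hw hw0
  have hmx : (m + J hT m) x = -y := by
    rw [hm, J_sub, J_smul, J_rho, J_rho]
    simp only [LinearMap.add_apply, LinearMap.sub_apply, LinearMap.smul_apply, rho_apply, hx', one_smul, map_neg, map_mul, hε,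
      smul_neg, neg_smul]
    have h2 : (η * k x y) • x' + (σ η * k x y) • x' = k x y • x' := by
      rw [← add_smul, ← add_mul, hη, one_mul]
    have h3 : -y - (-((η * k x y) • x')) + (-(k x y • x') - (-((σ η * k x y) • x'))) =
      -y + ((η * k x y) • x' + (σ η * k x y) • x') - k x y • x' := by abel
    simp only [mul_neg, neg_smul]
    rw [h3, h2]
    abel
  have h2 : (ψ * φ) (τ x f) = v := by
    rw [LinearEquiv.mul_apply, h1, e, E_flip, map_add, kap_pure, hw, zero_smul, add_zero, ← hx, hmx, map_neg,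
      LinearMap.neg_apply]
    abel
  have h3 := X.mul_mem (X.mul_mem (X.mul_mem hψ hφ) (pure_mem hX hd hall (x := x) hf hc)) (X.inv_mem (X.mul_mem hψ hφ))
  rwa [rf_conj _ _ _ (hX.le (X.mul_mem hψ hφ)), h2] at h3

end H95.TU
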