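import Mathlib
import Cfsg.Agent.Lib.H95.TU5
import Cfsg.Agent.Lib.H96.StFus

set_option autoImplicit false
set_option linter.unusedSectionVars false
set_option linter.unusedVariables false
set_option linter.unusedSimpArgs false

/-!
The group of pure tensors, good elements, fusion.
-/

namespace H95.TU

open Module H95.UBasic H95.TUG H96.StFus

variable {F U W V : Type*} [Field F] [AddCommGroup U] [Module F U] [AddCommGroup W] [Module F W] [AddCommGroup V]
  [Module F V] {σ : F →+* F}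
variable {k : U →ₗ[F] U →ₛₗ[σ] F} {g : W →ₗ[F] W →ₛₗ[σ] F} {h : V →ₗ[F] V →ₛₗ[σ] F} {τ : U →ₗ[F] W →ₗ[F] V}
variable [FiniteDimensional F U] [FiniteDimensional F W] {X : Subgroup (V ≃ₗ[F] V)} {hT : TS k g h τ}

lemma scalar_span {n : Module.End F U} (hn : ∀ u, n u ∈ Submodule.span F {u}) : ∃ c : F, n = c • (1 : Module.End F U) := by
  obtain ⟨a, ha⟩ := LinearMap.exists_eq_smul_id_of_forall_notLinearIndependent (f := n) (fun v hv => by
    obtain ⟨c, hc⟩ := Submodule.mem_span_singleton.mp (hn v)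
    rw [LinearIndependent.pair_iff] at hv
    have := hv c (-1) (by rw [hc]; simp)
    exact one_ne_zero (neg_eq_zero.mp this.2))
  exact ⟨a, ha⟩

lemma tau_ne' (hT : TS k g h τ) {u : U} {w : W} (h0 : τ u w = 0) (hu : u ≠ 0) : w = 0 := by
  by_contra hw
  exact hu (tau_ne hT h0 hw)

lemma tau_eq (hT : TS k g h τ) {u u' : U} {w w' : W} (h0 : τ u w = τ u' w') (hw : w ≠ 0) : u ∈ Submodule.span F {u'} := by
  obtain ⟨z, hz⟩ := dual1 hT.gS hw
  have h1 := congrArg (kap hT z) h0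
  rw [kap_pure, kap_pure, hT.gS.skew z w, hz, map_one] at h1
  rw [Submodule.mem_span_singleton]
  refine ⟨-(g w' z), ?_⟩
  rw [neg_smul, ← h1, neg_one_smul, neg_neg]

/-- contraction in the first variable -/
noncomputable def con (hT : TS k g h τ) (y : U) : V →ₗ[F] W := ad hT.gN h (τ y)

lemma con_pure (hT : TS k g h τ) (y u : U) (w : W) : con hT y (τ u w) = k u y • w := by
  apply hT.gN.ext
  intro z
  rw [con, ad_spec, hT.ht, map_smul, LinearMap.smul_apply, smul_eq_mul]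

lemma exists_k (hT : TS k g h τ) {u : U} (hu : u ≠ 0) : ∃ y, k u y = 1 := by
  by_contra hcon
  push Not at hcon
  apply hu
  apply hT.kN.nd
  intro y
  by_contra hy
  apply hcon ((σ (k u y))⁻¹ • y)
  rw [map_smulₛₗ, map_inv₀, hT.gS.inv, smul_eq_mul, inv_mul_cancel₀ hy]

lemma tau_eq2 (hT : TS k g h τ) {u u' : U} {w w' : W} (h0 : τ u w = τ u' w') (hu : u ≠ 0) :
    w ∈ Submodule.span F {w'} := by
  obtain ⟨y, hy⟩ := exists_k hT hu
  have h1 := congrArg (con hT y) h0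
  rw [con_pure, con_pure, hy, one_smul] at h1
  rw [h1]
  exact Submodule.smul_mem _ _ (Submodule.mem_span_singleton_self _)

/-- the group of pure tensors -/
def KrG (τ : U →ₗ[F] W →ₗ[F] V) : Subgroup (V ≃ₗ[F] V) where
  carrier := {x | ∃ (a : U ≃ₗ[F] U) (b : W ≃ₗ[F] W), ∀ u w, x (τ u w) = τ (a u) (b w)}
  mul_mem' := by
    rintro x y ⟨a, b, hab⟩ ⟨a', b', hab'⟩
    exact ⟨a * a', b * b', fun u w => by rw [LinearEquiv.mul_apply, hab', hab]; rfl⟩
  one_mem' := ⟨1, 1, fun u w => rfl⟩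
  inv_mem' := by
    rintro x ⟨a, b, hab⟩
    refine ⟨a⁻¹, b⁻¹, fun u w => ?_⟩
    have h1 : a (a⁻¹ u) = u := a.apply_symm_apply u
    have h2 : b (b⁻¹ w) = w := b.apply_symm_apply w
    apply x.injective
    have h3 : x (x⁻¹ (τ u w)) = τ u w := x.apply_symm_apply _
    rw [h3, hab, h1, h2]

lemma mem_KrG {x : V ≃ₗ[F] V} :
    x ∈ KrG τ ↔ ∃ (a : U ≃ₗ[F] U) (b : W ≃ₗ[F] W), ∀ u w, x (τ u w) = τ (a u) (b w) := Iff.rfl

lemma kr_mem (hT : TS k g h τ) (hU : ∃ u : U, u ≠ 0) (hW : ∃ w : W, w ≠ 0) {x : V ≃ₗ[F] V} (hx : Kr τ x) : x ∈ KrG τ := by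
  obtain ⟨α, hα⟩ := hx
  choose b hb using hα
  obtain ⟨u0, hu0⟩ := hU
  obtain ⟨w0, hw0⟩ := hW
  have hai : Function.Injective α := by
    rw [injective_iff_map_eq_zero]
    intro u hu
    have h1 := hb w0 u
    rw [hu, map_zero, LinearMap.zero_apply, LinearEquiv.map_eq_zero_iff] at h1
    exact tau_ne hT h1 hw0
  have hau : α u0 ≠ 0 := fun h => hu0 (hai (by rw [h, map_zero]))
  have huniq : ∀ y y', τ (α u0) y = τ (α u0) y' → y = y' := by
    intro y y' h1
    rw [← sub_eq_zero]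
    exact tau_ne' hT (by rw [map_sub, h1, sub_self]) hau
  let bl : W →ₗ[F] W :=
    { toFun := b
      map_add' := fun w w' => huniq _ _ (by rw [map_add, ← hb, ← hb, ← hb, map_add, map_add])
      map_smul' := fun c w => huniq _ _ (by rw [RingHom.id_apply, map_smul, ← hb, ← hb, map_smul, map_smul]) }
  have hbi : Function.Injective bl := by
    rw [injective_iff_map_eq_zero]
    intro w hw
    have h1 := hb w u0
    have h2 : b w = 0 := hw
    rw [h2, map_zero, LinearEquiv.map_eq_zero_iff] at h1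
    exact tau_ne' hT h1 hu0
  exact ⟨LinearEquiv.ofInjectiveEndo α hai, LinearEquiv.ofInjectiveEndo bl hbi, fun u w => hb w u⟩

/-- elementary abelian unipotent groups -/
def UM (X : Subgroup (V ≃ₗ[F] V)) (M : Submodule F V) : Subgroup X where
  carrier := {c | (∀ v, (c : V ≃ₗ[F] V) v - v ∈ M) ∧ ∀ m ∈ M, (c : V ≃ₗ[F] V) m = m}
  mul_mem' := by
    rintro a b ⟨ha, ha'⟩ ⟨hb, hb'⟩
    refine ⟨fun v => ?_, fun m hm => ?_⟩
    · have h1 := M.add_mem (ha ((b : V ≃ₗ[F] V) v)) (hb v)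
      rwa [sub_add_sub_cancel] at h1
    · change (a : V ≃ₗ[F] V) ((b : V ≃ₗ[F] V) m) = m
      rw [hb' m hm, ha' m hm]
  one_mem' := ⟨fun v => by simp, fun m hm => rfl⟩
  inv_mem' := by
    rintro a ⟨ha, ha'⟩
    have h1 : ∀ v, (a : V ≃ₗ[F] V) ((a : V ≃ₗ[F] V)⁻¹ v) = v := fun v => (a : V ≃ₗ[F] V).apply_symm_apply v
    have h2 : ∀ v, (a : V ≃ₗ[F] V)⁻¹ ((a : V ≃ₗ[F] V) v) = v := fun v => (a : V ≃ₗ[F] V).symm_apply_apply v
    refine ⟨fun v => ?_, fun m hm => ?_⟩
    · change (a : V ≃ₗ[F] V)⁻¹ v - v ∈ M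
      have h3 := ha ((a : V ≃ₗ[F] V)⁻¹ v)
      rw [h1] at h3
      rw [← neg_sub]
      exact M.neg_mem h3
    · change (a : V ≃ₗ[F] V)⁻¹ m = m
      conv_lhs => rw [← ha' m hm]
      rw [h2]

lemma mem_UM {M : Submodule F V} {c : X} :
    c ∈ UM X M ↔ (∀ v, (c : V ≃ₗ[F] V) v - v ∈ M) ∧ ∀ m ∈ M, (c : V ≃ₗ[F] V) m = m := Iff.rfl

lemma UM_isP {p : ℕ} [Fact p.Prime] [CharP F p] (M : Submodule F V) : IsPGroup p (UM X M) := by
  have hpow : ∀ c ∈ UM X M, c ^ p = 1 := by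
    intro c hc
    have h1 : ∀ n : ℕ, ∀ v, ((c : V ≃ₗ[F] V) ^ n) v = v + (n : F) • ((c : V ≃ₗ[F] V) v - v) := by
      intro n
      induction n with
      | zero => intro v; simp
      | succ n ih =>
        intro v
        rw [pow_succ', LinearEquiv.mul_apply, ih, map_add, map_smul, hc.2 _ (hc.1 v)]
        push_cast
        module
    apply Subtype.ext
    rw [SubmonoidClass.coe_pow]
    ext v
    rw [h1, CharP.cast_eq_zero, zero_smul, add_zero]
    rfl
  rintro ⟨c, hc⟩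
  exact ⟨1, Subtype.ext (by rw [pow_one]; exact hpow c hc)⟩

/-- conjugates of root elements in the group of pure tensors -/
theorem conj_root (hT : TS k g h τ) (hdm : finrank F U < finrank F W) (hU : ∃ u : U, u ≠ 0) {x r : V ≃ₗ[F] V} {e : W}
    (he0 : e ≠ 0) (hr : ∀ v, r v = v + τ (kap hT e v) e) (hkr : x⁻¹ * r * x ∈ KrG τ) :
    ∃ (w' : W) (α : Module.End F U), w' ≠ 0 ∧ ∀ u, x (τ u w') = τ (α u) e := by
  obtain ⟨a, b, hab⟩ := hkr
  have hgg : ∀ v, x (x⁻¹ v) = v := fun v => x.apply_symm_apply v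
  have hgg' : ∀ v, x⁻¹ (x v) = v := fun v => x.symm_apply_apply v
  have hs : ∀ v, (x⁻¹ * r * x) v = v + x⁻¹ (τ (kap hT e (x v)) e) := by
    intro v
    rw [LinearEquiv.mul_apply, LinearEquiv.mul_apply, hr, map_add, hgg']
  by_cases ha : ∀ u, a u ∈ Submodule.span F {u}
  · obtain ⟨c, hc⟩ := scalar_span (n := a.toLinearMap) ha
    have hcu : ∀ u, a u = c • u := fun u => LinearMap.congr_fun hc u
    obtain ⟨f, hf⟩ : ∃ f, c • b f ≠ f := by
      by_contra hcon
      push Not at hcon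
      obtain ⟨z, hz⟩ := dual1 hT.gS he0
      obtain ⟨u, hu⟩ := hU
      have h1 : (LinearMap.id : V →ₗ[F] V) = (x⁻¹ * r * x : V ≃ₗ[F] V).toLinearMap := by
        apply hT.ext
        intro u f
        rw [LinearMap.id_apply, LinearEquiv.coe_coe, hab, hcu, map_smul, LinearMap.smul_apply, ← map_smul, hcon]
      have h2 := LinearMap.congr_fun h1 (x⁻¹ (τ u z))
      rw [LinearMap.id_apply, LinearEquiv.coe_coe, hs, hgg, kap_pure] at h2
      have h3 : x⁻¹ (τ (g z e • u) e) = 0 := by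
        have := congrArg (fun v => v - x⁻¹ (τ u z)) h2
        simp only [sub_self, add_sub_cancel_left] at this
        exact this.symm
      have h4 := (map_eq_zero_iff x⁻¹ x⁻¹.injective).mp h3
      have h5 := tau_ne hT h4 he0
      rw [hz, one_smul] at h5
      exact hu h5
    refine ⟨c • b f - f, kap hT e ∘ₗ x.toLinearMap ∘ₗ τ.flip f, sub_ne_zero.mpr hf, fun u => ?_⟩
    have h1 := hab u f
    rw [hs, hcu] at h1
    have h2 : τ u (c • b f - f) = x⁻¹ (τ (kap hT e (x (τ u f))) e) := by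
      rw [map_sub, map_smul, ← LinearMap.smul_apply, ← map_smul, ← h1, add_sub_cancel_left]
    rw [h2, hgg]
    rfl
  · exfalso
    push Not at ha
    obtain ⟨u, hu⟩ := ha
    let L : W →ₗ[F] U := kap hT e ∘ₗ x.toLinearMap ∘ₗ τ u
    have hker : LinearMap.ker L ≠ ⊥ := by
      intro h0
      have h3 := L.finrank_range_add_finrank_ker
      rw [h0, finrank_bot, add_zero] at h3
      have h4 := Submodule.finrank_le (LinearMap.range L)
      omega
    obtain ⟨f, hf, hf0⟩ := Submodule.exists_mem_ne_zero_of_ne_bot hker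
    have hf' : kap hT e (x (τ u f)) = 0 := hf
    have h1 := hab u f
    rw [hs, hf', map_zero, LinearMap.zero_apply, map_zero, add_zero] at h1
    have hbf : b f ≠ 0 := fun h => hf0 (b.injective (by rw [h, map_zero]))
    exact hu (tau_eq hT h1.symm hbf)

/-- root elements are good -/
theorem good_root (hX : HX hT X) (hd : 5 ≤ finrank F W) (hU : 1 ≤ finrank F U) (hdm : finrank F U < finrank F W)
    (hN : ∀ n ∈ NN hT X, ∃ c : F, n = c • (1 : Module.End F U)) {p : ℕ} [Fact p.Prime] [CharP F p] {e : W}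
    (he : g e e = 0) (he0 : e ≠ 0) {r : X} (hr : ∀ v, (r : V ≃ₗ[F] V) v = v + τ (kap hT e v) e) :
    Good ((KrG τ).subgroupOf X) p r := by
  have hU' : ∃ u : U, u ≠ 0 := by
    obtain ⟨u, hu⟩ := (finrank_pos_iff_exists_ne_zero (R := F) (M := U)).mp (by omega)
    exact ⟨u, hu⟩
  have hW' : ∃ w : W, w ≠ 0 := ⟨e, he0⟩
  refine ⟨?_, ?_, ?_⟩
  · rw [Subgroup.mem_subgroupOf]
    apply kr_mem hT hU' hW'
    refine ⟨1, fun w => ⟨w + g w e • e, fun u => ?_⟩⟩
    rw [hr, kap_pure]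
    simp only [Module.End.one_apply, map_smul, LinearMap.smul_apply, map_add]
  · refine (UM_isP (X := X) (p := p) (LinearMap.range (τ.flip e))).to_le ?_
    rw [Subgroup.zpowers_le, mem_UM]
    refine ⟨fun v => ?_, ?_⟩
    · rw [hr, add_sub_cancel_left]
      exact ⟨_, rfl⟩
    · rintro _ ⟨u, rfl⟩
      rw [LinearMap.flip_apply, hr, kap_pure, he, zero_smul, map_zero, LinearMap.zero_apply, add_zero]
  · intro x hx
    rw [Subgroup.mem_subgroupOf] at hx ⊢
    obtain ⟨w', α, hw', hα⟩ := conj_root hT hdm hU' (x := (x : V ≃ₗ[F] V)) he0 hr hx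
    apply kr_mem hT hU' hW'
    refine norm_thm hX hd hU hN x.2 ?_ hw' hα
    obtain ⟨y, y', hyy⟩ := exists_pair hT hU
    have h1 := hX.le x.2 (τ y' w') (τ y w')
    rw [hα, hα, hT.ht, hT.ht, he, mul_zero, hyy, one_mul] at h1
    exact h1.symm

end H95.TU
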