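import Mathlib
import Cfsg.Agent.Lib.H95.TU7

set_option autoImplicit false
set_option linter.unusedSectionVars false
set_option linter.unusedVariables false
set_option linter.unusedSimpArgs false

/-!
Overgroups with scalar coefficients consist of pure tensors: the contradiction.
-/

namespace H95.TU

open Module H95.UBasic H95.TUG H96.StFus

variable {F U W V : Type*} [Field F] [AddCommGroup U] [Module F U] [AddCommGroup W] [Module F W] [AddCommGroup V]
  [Module F V] {σ : F →+* F}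
variable {k : U →ₗ[F] U →ₛₗ[σ] F} {g : W →ₗ[F] W →ₛₗ[σ] F} {h : V →ₗ[F] V →ₛₗ[σ] F} {τ : U →ₗ[F] W →ₗ[F] V}
variable [FiniteDimensional F U] [FiniteDimensional F W] {X : Subgroup (V ≃ₗ[F] V)} {hT : TS k g h τ}
variable {p : ℕ} [Fact p.Prime] [CharP F p] [Finite X]

/-- Step A -/
theorem Hyp.stepA (H : Hyp hT X p) {x : V ≃ₗ[F] V} (hx : x ∈ X) (hxk : x ∉ KrG τ) {w : W} (hw : g w w = 0) (hw0 : w ≠ 0)
    {e : W} (he : g e e = 0) (he0 : e ≠ 0) {c : V ≃ₗ[F] V} (hc : Pc hT (x.toLinearMap ∘ₗ τ.flip w) e c)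
    {a : U ≃ₗ[F] U} {b : W ≃ₗ[F] W} (hab : ∀ u w, (c * x) (τ u w) = τ (a u) (b w)) :
    b w ∈ Submodule.span F {e} := by
  by_contra hns
  obtain ⟨β, hβ⟩ : ∃ β, β = x.toLinearMap ∘ₗ τ.flip w := ⟨_, rfl⟩
  rw [← hβ] at hc
  have hβu : ∀ u, β u = x (τ u w) := fun u => by rw [hβ]; rfl
  obtain ⟨n, m, -, -, h1⟩ := hc.2.2 1 0 QQ_one QQ_zero
  have h2 : ∀ u, τ (a u) (b w) = β (n u) + τ (kap hT e (β (m u))) e := by
    intro u
    have h3 := h1 u
    rw [Module.End.one_apply, LinearMap.zero_apply, map_zero, map_zero, map_zero, LinearMap.zero_apply, add_zero, hβu] at h3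
    have h4 := hab u w
    rw [LinearEquiv.mul_apply] at h4
    rw [← h4, h3]
  have hni : Function.Injective n := by
    rw [injective_iff_map_eq_zero]
    intro u hu
    by_contra hu0
    have h3 := h2 u
    rw [hu, map_zero, zero_add] at h3
    have hau : a u ≠ 0 := fun h => hu0 (a.injective (by rw [h, map_zero]))
    exact hns (tau_eq2 hT h3 hau)
  have hns' : Function.Surjective n := LinearMap.injective_iff_surjective.1 hni
  obtain ⟨f, hf0, hf, hf1, hf2⟩ := exists_perp_iso hT.gS H.hd (b w) e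
  have hkβ : ∀ y, kap hT f (β y) = 0 := by
    intro y
    obtain ⟨u, rfl⟩ := hns' y
    have h3 : β (n u) = τ (a u) (b w) - τ (kap hT e (β (m u))) e := by rw [h2, add_sub_cancel_right]
    rw [h3, map_sub, kap_pure, kap_pure, hT.gS.symm_zero hf1, hT.gS.symm_zero hf2, zero_smul, zero_smul, sub_zero]
  obtain ⟨r, hr, e1, -⟩ := H.hX.root hf (map_one σ)
  obtain ⟨r0, hr0, e2, -⟩ := H.hX.root hw (map_one σ)
  have e1' : ∀ v, r v = v + τ (kap hT f v) f := fun v => by rw [e1, one_smul]; rfl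
  have e2' : ∀ v, r0 v = v + τ (kap hT w v) w := fun v => by rw [e2, one_smul]; rfl
  have g1 := good_root H.hX H.hd H.hU H.hdm H.hN (p := p) hf hf0 (r := ⟨r, hr⟩) e1'
  have g2 := good_root H.hX H.hd H.hU H.hdm H.hN (p := p) hw hw0 (r := ⟨r0, hr0⟩) e2'
  have hA : ∀ u, A hT β (β u) = 0 := by
    intro u
    rw [hβ]
    exact A_self_zero hT (H.hX.le hx) hw u
  have h3 := H.conj hx hw e2'
  rw [← hβ] at h3
  obtain ⟨M, hM⟩ : ∃ M : Submodule F V, M = LinearMap.range β ⊔ LinearMap.range (τ.flip f) := ⟨_, rfl⟩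
  have hMe : ∀ m ∈ M, ∃ y z, m = β y + τ z f := by
    intro m hm
    rw [hM] at hm
    obtain ⟨_, ⟨y, rfl⟩, _, ⟨z, rfl⟩, rfl⟩ := Submodule.mem_sup.1 hm
    exact ⟨y, z, rfl⟩
  have m1 : (⟨r, hr⟩ : X) ∈ UM X M := by
    rw [mem_UM]
    refine ⟨fun v => ?_, fun m hm => ?_⟩
    · change r v - v ∈ M
      rw [e1', add_sub_cancel_left, hM]
      exact Submodule.mem_sup_right ⟨_, rfl⟩
    · obtain ⟨y, z, rfl⟩ := hMe m hm
      change r _ = _
      rw [e1', map_add (kap hT f), hkβ, kap_pure, hf, zero_smul, add_zero, map_zero, LinearMap.zero_apply, add_zero]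
  have m2 : (⟨x, hx⟩ * ⟨r0, hr0⟩ * (⟨x, hx⟩ : X)⁻¹ : X) ∈ UM X M := by
    rw [mem_UM]
    refine ⟨fun v => ?_, fun m hm => ?_⟩
    · change (x * r0 * x⁻¹) v - v ∈ M
      rw [h3, add_sub_cancel_left, hM]
      exact Submodule.mem_sup_left ⟨_, rfl⟩
    · obtain ⟨y, z, rfl⟩ := hMe m hm
      change (x * r0 * x⁻¹) _ = _
      have h4 : J hT (kap hT f ∘ₗ β) z = 0 := by
        have h5 : kap hT f ∘ₗ β = 0 := by
          ext u
          exact hkβ u
        rw [h5, J_zero, LinearMap.zero_apply]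
      rw [h3, map_add (A hT β), hA, A_tau, h4, neg_zero, add_zero, map_zero, add_zero]
  have h4 := pg_le g1.1 g1.2.1 g1.2.2 (UM_isP (X := X) (p := p) M) m1 m2
  have h5 : ((⟨x, hx⟩ : X)⁻¹)⁻¹ * ⟨r0, hr0⟩ * (⟨x, hx⟩ : X)⁻¹ ∈ (KrG τ).subgroupOf X := by
    rw [inv_inv]
    exact h4
  have h6 := g2.2.2 _ h5
  have h7 := ((KrG τ).subgroupOf X).inv_mem h6
  rw [inv_inv, Subgroup.mem_subgroupOf] at h7
  exact hxk h7

/-- Step B -/
theorem Hyp.stepB (H : Hyp hT X p) {x : V ≃ₗ[F] V} (hx : x ∈ X) (hxk : x ∉ KrG τ) {w : W} (hw : g w w = 0) (hw0 : w ≠ 0)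
    {e : W} (he : g e e = 0) (he0 : e ≠ 0) {u : U} (hu : kap hT e (x (τ u w)) = 0) : u = 0 := by
  have key : ∀ e, g e e = 0 → e ≠ 0 → kap hT e (x (τ u w)) = 0 → ∃ y, x (τ u w) = τ y e := by
    intro e he he0 hu
    obtain ⟨c, hcX, hc1, hc2, a, b, hab⟩ := H.fus hx hw hw0 he he0
    obtain ⟨l, hl⟩ := Submodule.mem_span_singleton.1 (H.stepA hx hxk hw hw0 he he0 hc1 hab)
    have h1 := hab u w
    have h2 : c (x (τ u w)) = x (τ u w) := hc1.2.1 _ (A_self_zero hT (H.hX.le hx) hw u) hu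
    rw [LinearEquiv.mul_apply, h2, ← hl] at h1
    refine ⟨l • a u, ?_⟩
    rw [h1]
    simp
  obtain ⟨y, hy⟩ := key e he he0 hu
  obtain ⟨f, hf, hfe, hfs⟩ := exists_iso_perp hT.gS H.hd he he0
  have hf0 : f ≠ 0 := by rintro rfl; exact hfs (Submodule.zero_mem _)
  obtain ⟨y', hy'⟩ := key f hf hf0 (by rw [hy, kap_pure, hT.gS.symm_zero hfe, zero_smul])
  by_cases hy0 : y' = 0
  · rw [hy0, map_zero, LinearMap.zero_apply, LinearEquiv.map_eq_zero_iff] at hy'
    exact tau_ne hT hy' hw0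
  · exact absurd (tau_eq2 hT (hy'.symm.trans hy) hy0) hfs

/-- Step C -/
theorem Hyp.stepC (H : Hyp hT X p) {x : V ≃ₗ[F] V} (hx : x ∈ X) (hxk : x ∉ KrG τ) {w : W} (hw : g w w = 0) (hw0 : w ≠ 0)
    {e : W} (he : g e e = 0) (he0 : e ≠ 0) : ∃ (c : V ≃ₗ[F] V) (a : U ≃ₗ[F] U) (b : W ≃ₗ[F] W) (m : Module.End F U) (l : F),
      Pc hT (x.toLinearMap ∘ₗ τ.flip w) e c ∧ Pc hT (x.toLinearMap ∘ₗ τ.flip w) e c⁻¹ ∧
      (∀ u w, (c * x) (τ u w) = τ (a u) (b w)) ∧ l ≠ 0 ∧ J hT m = m ∧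
      ∀ u, kap hT e (x (τ (m u) w)) = l • a u := by
  obtain ⟨c, hcX, hc1, hc2, a, b, hab⟩ := H.fus hx hw hw0 he he0
  obtain ⟨l, hl⟩ := Submodule.mem_span_singleton.1 (H.stepA hx hxk hw hw0 he he0 hc1 hab)
  obtain ⟨n, m, -, hm, h1⟩ := hc1.2.2 1 0 QQ_one QQ_zero
  refine ⟨c, a, b, m, l, hc1, hc2, hab, ?_, hm.1, fun u => ?_⟩
  · rintro rfl
    rw [zero_smul] at hl
    exact hw0 (b.injective (by rw [← hl, map_zero]))
  · have h3 := h1 u
    rw [Module.End.one_apply, LinearMap.zero_apply, map_zero, map_zero, map_zero, LinearMap.zero_apply, add_zero] at h3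
    have h4 := hab u w
    rw [LinearEquiv.mul_apply, ← hl] at h4
    have h5 : c (x (τ u w)) = x (τ (n u) w) + τ (kap hT e (x (τ (m u) w))) e := h3
    rw [h4] at h5
    have h6 := congrArg (kap hT e) h5
    rw [map_add, kap_pure, kap_pure, map_smul, LinearMap.smul_apply, he, smul_zero, zero_smul, zero_smul, add_zero] at h6
    have h7 := H.stepB hx hxk hw hw0 he he0 h6.symm
    rw [h7, map_zero, LinearMap.zero_apply, map_zero, zero_add] at h5
    have h8 : τ (l • a u - kap hT e (x (τ (m u) w))) e = 0 := by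
      rw [map_sub, LinearMap.sub_apply, ← h5]
      simp
    exact (sub_eq_zero.1 (tau_ne hT h8 he0)).symm

/-- Step D -/
theorem Hyp.stepD (H : Hyp hT X p) {x : V ≃ₗ[F] V} (hx : x ∈ X) (hxk : x ∉ KrG τ) {w : W} (hw : g w w = 0) (hw0 : w ≠ 0)
    {e e' : W} (he : g e e = 0) (he0 : e ≠ 0) (hee : g e' e = 0)
    {c c' : V ≃ₗ[F] V} {a a' : U ≃ₗ[F] U} {b b' : W ≃ₗ[F] W}
    (hc : Pc hT (x.toLinearMap ∘ₗ τ.flip w) e c⁻¹) (hc' : Pc hT (x.toLinearMap ∘ₗ τ.flip w) e' c')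
    (hab : ∀ u w, (c * x) (τ u w) = τ (a u) (b w)) (hab' : ∀ u w, (c' * x) (τ u w) = τ (a' u) (b' w)) :
    ∃ s : F, s ≠ 0 ∧ ∀ u, a' u = s • a u := by
  -- the relation
  have hrel : ∀ u y, ∃ Y z z', τ (a' u) (b' y) = τ (a u) (b y) + x (τ Y w) + τ z e + τ z' e' := by
    intro u y
    obtain ⟨Y, z, h1⟩ := hc.1 (τ (a u) (b y))
    have h2 : c⁻¹ (τ (a u) (b y)) = x (τ u y) := by
      apply c.injective
      have h3 : c (c⁻¹ (τ (a u) (b y))) = τ (a u) (b y) := c.apply_symm_apply _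
      rw [h3, ← hab]
      rfl
    obtain ⟨Y', z', h3⟩ := hc'.1 (x (τ u y))
    have h4 : c' (x (τ u y)) = τ (a' u) (b' y) := hab' u y
    have h5 : ∀ Y, (x.toLinearMap ∘ₗ τ.flip w) Y = x (τ Y w) := fun _ => rfl
    rw [h2, h5] at h1
    rw [h4, h5, h1] at h3
    refine ⟨Y + Y', z, z', ?_⟩
    rw [h3, map_add τ, LinearMap.add_apply, map_add x]
    abel
  by_contra hcon
  -- a' is not a multiple of a
  obtain ⟨u, hu⟩ : ∃ u, a' u ∉ Submodule.span F {a u} := by
    by_contra hcon2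
    push Not at hcon2
    obtain ⟨s, hs⟩ := scalar_span (n := a'.toLinearMap ∘ₗ (a⁻¹).toLinearMap) (fun u => by
      have h1 := hcon2 (a⁻¹ u)
      have h2 : a (a⁻¹ u) = u := a.apply_symm_apply u
      rw [h2] at h1
      exact h1)
    apply hcon
    refine ⟨s, ?_, fun u => ?_⟩
    · rintro rfl
      obtain ⟨u, hu⟩ := H.nz
      have h1 := LinearMap.congr_fun hs (a u)
      rw [zero_smul, LinearMap.zero_apply] at h1
      have h2 : a⁻¹ (a u) = u := a.symm_apply_apply u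
      have h3 : a' (a⁻¹ (a u)) = 0 := h1
      rw [h2, LinearEquiv.map_eq_zero_iff] at h3
      exact hu h3
    · have h1 := LinearMap.congr_fun hs (a u)
      have h2 : a⁻¹ (a u) = u := a.symm_apply_apply u
      have h3 : a' (a⁻¹ (a u)) = s • a u := h1
      rw [h2] at h3
      exact h3
  -- a separating contraction
  obtain ⟨y, hy1, hy2⟩ : ∃ y, k (a u) y = 0 ∧ k (a' u) y ≠ 0 := by
    by_contra hcon2
    push Not at hcon2
    have hau : a u ≠ 0 := by
      intro h0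
      have hu0 : u = 0 := a.injective (by rw [h0, map_zero])
      have h9 : a' u = 0 := by rw [hu0]; exact map_zero a'
      apply hu
      rw [h9]
      exact (Submodule.span F {a u}).zero_mem
    obtain ⟨t, ht⟩ := exists_k hT hau
    apply hu
    rw [Submodule.mem_span_singleton]
    refine ⟨k (a' u) t, ?_⟩
    rw [eq_comm, ← sub_eq_zero]
    apply hT.kN.nd
    intro z
    have h1 := hcon2 (z - σ (k (a u) z) • t) (by
      rw [map_sub, map_smulₛₗ, hT.gS.inv, ht, smul_eq_mul, mul_one, sub_self])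
    rw [map_sub, map_smulₛₗ, hT.gS.inv, smul_eq_mul, sub_eq_zero] at h1
    rw [map_sub, LinearMap.sub_apply, map_smul, LinearMap.smul_apply, smul_eq_mul, h1]
    ring
  -- the subspace
  let φ : W →ₗ[F] (F × F) := ((g.flip e).comp b'.toLinearMap).prod ((g.flip e).comp b.toLinearMap)
  have hφ : ∀ z ∈ LinearMap.ker φ, g (b' z) e = 0 ∧ g (b z) e = 0 := by
    intro z hz
    rw [LinearMap.mem_ker] at hz
    exact ⟨congrArg Prod.fst hz, congrArg Prod.snd hz⟩
  have hmap : (LinearMap.ker φ).map b'.toLinearMap ≤ Submodule.span F {e, e'} := by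
    rintro _ ⟨z, hz, rfl⟩
    obtain ⟨h1, h2⟩ := hφ z hz
    obtain ⟨Y, z1, z2, h3⟩ := hrel u z
    have h4 := congrArg (kap hT e) h3
    rw [map_add, map_add, map_add, kap_pure, kap_pure, kap_pure, kap_pure, h1, h2, he, hee, zero_smul, zero_smul, zero_smul,
      zero_smul, add_zero, add_zero, zero_add] at h4
    have h5 := H.stepB hx hxk hw hw0 he he0 h4.symm
    rw [h5, map_zero, LinearMap.zero_apply, map_zero, add_zero] at h3
    have h6 := congrArg (con hT y) h3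
    rw [map_add, map_add, con_pure, con_pure, con_pure, con_pure, hy1, zero_smul, zero_add] at h6
    have h7 : b' z = (k (a' u) y)⁻¹ • (k z1 y • e + k z2 y • e') := by
      rw [← h6, smul_smul, inv_mul_cancel₀ hy2, one_smul]
    change b' z ∈ _
    rw [h7]
    refine Submodule.smul_mem _ _ (Submodule.add_mem _ (Submodule.smul_mem _ _ (Submodule.subset_span (by simp)))
      (Submodule.smul_mem _ _ (Submodule.subset_span (by simp))))
  have h1 := Submodule.finrank_mono hmap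
  have h2 : finrank F ((LinearMap.ker φ).map b'.toLinearMap) = finrank F (LinearMap.ker φ) :=
    LinearEquiv.finrank_map_eq b' _
  have h3 := φ.finrank_range_add_finrank_ker
  have h4 : finrank F (LinearMap.range φ) ≤ finrank F (F × F) := Submodule.finrank_le (LinearMap.range φ)
  have h5 : finrank F (F × F) = 2 := by rw [finrank_prod, finrank_self]
  have h6 : finrank F (Submodule.span F ({e, e'} : Set W)) ≤ 2 := by
    classical
    have h7 := finrank_span_finset_le_card (R := F) ({e, e'} : Finset W)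
    have h8 : ({e, e'} : Finset W).card ≤ 2 := Finset.card_le_two
    rw [Finset.coe_insert, Finset.coe_singleton] at h7
    exact h7.trans h8
  have h7 := H.hd
  omega

lemma J_inv {n m : Module.End F U} (hm : J hT m = m) (h1 : n * m = 1) : J hT n = n := by
  have h2 : m * n = 1 := mul_eq_one_comm.1 h1
  have h3 : J hT (n * m) = 1 := by rw [h1, J_one]
  rw [J_mul, hm] at h3
  calc J hT n = (n * m) * J hT n := by rw [h1, one_mul]
    _ = n := by rw [mul_assoc, h3, mul_one]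

/-- the final contradiction -/
theorem Hyp.le_kr (H : Hyp hT X p) : X ≤ KrG τ := by
  intro x hx
  by_contra hxk
  obtain ⟨w, hw0, hw, -, -⟩ := exists_perp_iso hT.gS H.hd (0 : W) 0
  obtain ⟨e2, he2, he21, hes⟩ := exists_iso_perp hT.gS H.hd hw hw0
  obtain ⟨e1, rfl⟩ : ∃ e1, e1 = w := ⟨_, rfl⟩
  have he20 : e2 ≠ 0 := by rintro rfl; exact hes (Submodule.zero_mem _)
  have he12 : g e1 e2 = 0 := hT.gS.symm_zero he21
  obtain ⟨u0, hu0⟩ := H.nz
  -- all isotropic vectors of the plane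
  have hiso : ∀ c : F, g (e1 + c • e2) (e1 + c • e2) = 0 := by
    intro c
    simp [hw, he2, he12, he21]
  have hne : ∀ c : F, e1 + c • e2 ≠ 0 := by
    intro c h0
    have h1 : c • e2 = - e1 := eq_neg_of_add_eq_zero_right h0
    by_cases hc : c = 0
    · rw [hc, zero_smul, eq_comm, neg_eq_zero] at h1
      exact hw0 h1
    · apply hes
      rw [Submodule.mem_span_singleton]
      refine ⟨-c⁻¹, ?_⟩
      rw [neg_smul, ← smul_neg, ← h1, smul_smul, inv_mul_cancel₀ hc, one_smul]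
  -- the inverse of the first coefficient
  obtain ⟨c1, a1, b1, m1, l1, p1, p1', q1, hl1, j1, r1⟩ := H.stepC hx hxk hw hw0 hw hw0
  let B : W → Module.End F U := fun e => (a1⁻¹).toLinearMap ∘ₗ kap hT e ∘ₗ x.toLinearMap ∘ₗ τ.flip e1
  have hB : ∀ e u, B e u = a1⁻¹ (kap hT e (x (τ u e1))) := fun _ _ => rfl
  have ha1 : ∀ u, a1⁻¹ (a1 u) = u := fun u => a1.symm_apply_apply u
  -- scalar multiples of self-adjoint maps
  have hh : ∀ e, g e e = 0 → e ≠ 0 → g e e1 = 0 → ∃ (n : Module.End F U) (l : F), l ≠ 0 ∧ J hT n = n ∧ B e = l • n := by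
    intro e he he0 hee
    obtain ⟨c', a', b', m, l, p', -, q', hl, j', r'⟩ := H.stepC hx hxk hw hw0 he he0
    obtain ⟨s, hs0, hs⟩ := H.stepD hx hxk hw hw0 hw hw0 hee p1' p' q1 q'
    have h1 : ((l * s)⁻¹ • B e) * m = 1 := by
      ext u
      rw [Module.End.mul_apply, LinearMap.smul_apply, hB, r', hs, map_smul, map_smul, ha1, smul_smul l s, smul_smul,
        Module.End.one_apply, inv_mul_cancel₀ (mul_ne_zero hl hs0), one_smul]
    refine ⟨(l * s)⁻¹ • B e, l * s, mul_ne_zero hl hs0, J_inv j' h1, ?_⟩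
    rw [smul_smul, mul_inv_cancel₀ (mul_ne_zero hl hs0), one_smul]
  have hBi : ∀ e, g e e = 0 → e ≠ 0 → ∀ u, B e u = 0 → u = 0 := by
    intro e he he0 u hu
    rw [hB] at hu
    have h1 : kap hT e (x (τ u e1)) = 0 := (map_eq_zero_iff a1⁻¹ a1⁻¹.injective).mp hu
    exact H.stepB hx hxk hw hw0 he he0 h1
  obtain ⟨n1, l1', hl1', jn1, hn1⟩ := hh e1 hw hw0 hw
  obtain ⟨n2, l2, hl2, jn2, hn2⟩ := hh e2 he2 he20 he21
  -- the third vector
  obtain ⟨s, hs⟩ := hT.gS.ne
  obtain ⟨n3, l3, hl3, jn3, hn3⟩ := hh (e1 + σ (l1' * l2⁻¹ * s) • e2) (hiso _) (hne _) (by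
    rw [map_add, LinearMap.add_apply, map_smul, LinearMap.smul_apply, hw, he21, smul_zero, add_zero])
  have hadd : ∀ c : F, B (e1 + σ c • e2) = B e1 + c • B e2 := by
    intro c
    ext u
    rw [hB, LinearMap.add_apply, LinearMap.smul_apply, hB, hB, kap_add, kap_smul, hT.gS.inv, LinearMap.add_apply,
      LinearMap.smul_apply, map_add, map_smul]
  rw [hadd, hn1, hn2, smul_smul] at hn3
  have h1 : n1 + s • n2 = (l1'⁻¹ * l3) • n3 := by
    have h2 := congrArg (fun z => l1'⁻¹ • z) hn3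
    simp only [smul_add, smul_smul] at h2
    rw [inv_mul_cancel₀ hl1', one_smul] at h2
    rw [← h2]
    congr 2
    field_simp
  have h2 := congrArg (J hT) h1
  rw [J_add, J_smul, J_smul, jn1, jn2, jn3] at h2
  obtain ⟨μ, hμ⟩ : ∃ μ, μ = l1'⁻¹ * l3 := ⟨_, rfl⟩
  have hμ0 : μ ≠ 0 := by rw [hμ]; exact mul_ne_zero (inv_ne_zero hl1') hl3
  rw [← hμ] at h1 h2
  -- relation between n1 and n2
  have h3 : (μ - σ μ) • n1 = (σ μ * s - μ * σ s) • n2 := by
    have h4 : μ • (n1 + σ s • n2) = σ μ • (n1 + s • n2) := by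
      rw [h1, h2, smul_smul, smul_smul, mul_comm]
    have h5 : (μ - σ μ) • n1 - (σ μ * s - μ * σ s) • n2 = μ • (n1 + σ s • n2) - σ μ • (n1 + s • n2) := by
      module
    rw [h4, sub_self] at h5
    exact sub_eq_zero.1 h5
  have hn2i : ∀ u, n2 u = 0 → u = 0 := by
    intro u hu
    apply hBi e2 he2 he20
    rw [hn2, LinearMap.smul_apply, hu, smul_zero]
  by_cases hμs : μ - σ μ = 0
  · rw [hμs, zero_smul] at h3
    have h4 : σ μ = μ := (sub_eq_zero.1 hμs).symm
    have h5 := LinearMap.congr_fun h3 u0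
    rw [LinearMap.zero_apply, LinearMap.smul_apply, h4, ← mul_sub, eq_comm, smul_eq_zero] at h5
    rcases h5 with h5 | h5
    · rcases mul_eq_zero.1 h5 with h6 | h6
      · exact hμ0 h6
      · exact hs (sub_eq_zero.1 h6).symm
    · exact hu0 (hn2i _ h5)
  · obtain ⟨ρ, hρ⟩ : ∃ ρ, ρ = (μ - σ μ)⁻¹ * (σ μ * s - μ * σ s) := ⟨_, rfl⟩
    have h4 : n1 = ρ • n2 := by
      rw [hρ, ← smul_smul, ← h3, smul_smul, inv_mul_cancel₀ hμs, one_smul]
    have h5 : B (e1 + σ (-(l1' * ρ * l2⁻¹)) • e2) = 0 := by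
      rw [hadd, hn1, hn2, h4, smul_smul, smul_smul, ← add_smul]
      have : l1' * ρ + -(l1' * ρ * l2⁻¹) * l2 = 0 := by field_simp; ring
      rw [this, zero_smul]
    exact hu0 (hBi _ (hiso _) (hne _) u0 (by rw [h5, LinearMap.zero_apply]))

end H95.TU
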