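import Mathlib
import Cfsg.Agent.Lib.H95.TU9
import Cfsg.Agent.Lib.H95.UBridge
import Cfsg.Agent.Lib.H95.NmTensU
import Cfsg.Agent.Lib.H7.Tens

set_option autoImplicit false
set_option linter.unusedSectionVars false
set_option linter.unusedVariables false
set_option linter.unusedSimpArgs false

/-!
The stabiliser of a tensor decomposition in the special unitary group: translation.
-/

namespace H95.TUB

open Module Cfsg Cfsg.Geo H95.Bridge H95.UBridge H7.Tens H95.NmTensU H95.TU H95.UBasic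
open scoped Matrix MatrixGroups Kronecker

variable {ι : Type} [Fintype ι] [DecidableEq ι] {F : Type*} [Field F] {n₁ n₂ : ℕ}

/-- elements of the tensor product subgroup with their determinants -/
theorem exists_tps_det (e : ι ≃ Fin n₁ × Fin n₂) (P : GL ι F) (A : GL (Fin n₁) F) (B : GL (Fin n₂) F) :
    ∃ g ∈ tensorProductSubgroup n₁ n₂ e P, (∀ a b,
      toEq ι F g (tau e P a b) = tau e P (toEq (Fin n₁) F A a) (toEq (Fin n₂) F B b)) ∧
      (g : Matrix ι ι F).det = (A : Matrix (Fin n₁) (Fin n₁) F).det ^ n₂ * (B : Matrix (Fin n₂) (Fin n₂) F).det ^ n₁ := by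
  obtain ⟨k, hk⟩ : ∃ k : GL (Fin n₁ × Fin n₂) F, (k : Matrix (Fin n₁ × Fin n₂) (Fin n₁ × Fin n₂) F) =
      (A : Matrix (Fin n₁) (Fin n₁) F) ⊗ₖ (B : Matrix (Fin n₂) (Fin n₂) F) := by
    refine ⟨⟨(A : Matrix (Fin n₁) (Fin n₁) F) ⊗ₖ (B : Matrix (Fin n₂) (Fin n₂) F),
      ((A⁻¹ : GL (Fin n₁) F) : Matrix (Fin n₁) (Fin n₁) F) ⊗ₖ ((B⁻¹ : GL (Fin n₂) F) : Matrix (Fin n₂) (Fin n₂) F),
      ?_, ?_⟩, rfl⟩
    · rw [← Matrix.mul_kronecker_mul, ← Units.val_mul, ← Units.val_mul, mul_inv_cancel, mul_inv_cancel,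
        Units.val_one, Units.val_one, Matrix.one_kronecker_one]
    · rw [← Matrix.mul_kronecker_mul, ← Units.val_mul, ← Units.val_mul, inv_mul_cancel, inv_mul_cancel,
        Units.val_one, Units.val_one, Matrix.one_kronecker_one]
  refine ⟨MulAut.conj P (glReindex e.symm k), ⟨_, ⟨k, ⟨A, B, hk⟩, rfl⟩, rfl⟩, fun a b => ?_, ?_⟩
  · rw [toEq_apply, tau_apply, tau_apply]
    have h1 : (MulAut.conj P (glReindex e.symm k) : GL ι F) = P * (glReindex e.symm) k * P⁻¹ := rfl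
    rw [h1, Units.val_mul, Units.val_mul, ← Matrix.mulVec_mulVec, ← Matrix.mulVec_mulVec]
    have h2 : ((P⁻¹ : GL ι F) : Matrix ι ι F) *ᵥ ((P : Matrix ι ι F) *ᵥ ((fun p : Fin n₁ × Fin n₂ => a p.1 * b p.2) ∘ e)) =
        (fun p : Fin n₁ × Fin n₂ => a p.1 * b p.2) ∘ e := by
      rw [Matrix.mulVec_mulVec, ← Units.val_mul, inv_mul_cancel, Units.val_one, Matrix.one_mulVec]
    rw [h2]
    congr 1
    have h3 : ((glReindex e.symm k : GL ι F) : Matrix ι ι F) = Matrix.reindex e.symm e.symm (k : Matrix _ _ F) := rfl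
    rw [h3, hk]
    funext i
    have h4 : (Matrix.reindex e.symm e.symm ((A : Matrix (Fin n₁) (Fin n₁) F) ⊗ₖ (B : Matrix (Fin n₂) (Fin n₂) F)) *ᵥ
        ((fun p : Fin n₁ × Fin n₂ => a p.1 * b p.2) ∘ e)) i =
        (((A : Matrix (Fin n₁) (Fin n₁) F) ⊗ₖ (B : Matrix (Fin n₂) (Fin n₂) F)) *ᵥ
          (fun p : Fin n₁ × Fin n₂ => a p.1 * b p.2)) (e i) := by
      simp only [Matrix.mulVec, dotProduct, Matrix.reindex_apply, Matrix.submatrix_apply, Equiv.symm_symm,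
        Function.comp_apply]
      exact Equiv.sum_comp e (fun p => ((A : Matrix (Fin n₁) (Fin n₁) F) ⊗ₖ (B : Matrix (Fin n₂) (Fin n₂) F)) (e i) p *
        (a p.1 * b p.2))
    rw [h4, kron_mulVec]
    simp
  · have h1 : (MulAut.conj P (glReindex e.symm k) : GL ι F) = P * (glReindex e.symm) k * P⁻¹ := rfl
    have h3 : ((glReindex e.symm k : GL ι F) : Matrix ι ι F) = Matrix.reindex e.symm e.symm (k : Matrix _ _ F) := rfl
    have h5 : (P : Matrix ι ι F).det * ((P⁻¹ : GL ι F) : Matrix ι ι F).det = 1 := by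
      rw [← Matrix.det_mul, ← Units.val_mul, mul_inv_cancel, Units.val_one, Matrix.det_one]
    rw [h1, Units.val_mul, Units.val_mul, Matrix.det_mul, Matrix.det_mul, mul_right_comm, h5, one_mul, h3,
      Matrix.reindex_apply, Matrix.det_submatrix_equiv_self, hk, Matrix.det_kronecker, Fintype.card_fin, Fintype.card_fin]

/-- the tensor structure -/
theorem ts_of [Fintype F] {q n : ℕ} (hF : Fintype.card F = q ^ 2) {σ : F →+* F} (hσ : ∀ a, σ a = a ^ q)
    {h : (Fin n → F) →ₗ[F] (Fin n → F) →ₛₗ[σ] F} {ζ : F} (H : IsSkew h) (hζ : ζ ≠ 0) (hζσ : σ ζ = -ζ)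
    (hh : ∀ u v, h u v = ζ * hermForm n F q u v) (hn₁ : 1 ≤ n₁) (hn₂ : 1 ≤ n₂)
    {f₁ : (Fin n₁ → F) → (Fin n₁ → F) → F} {f₂ : (Fin n₂ → F) → (Fin n₂ → F) → F} (hf₁ : IsUnitaryFormPow q f₁)
    (hf₂ : IsUnitaryFormPow q f₂) {e : Fin n ≃ Fin n₁ × Fin n₂} {P : GL (Fin n) F}
    (hT : IsTensorFormStructure (fun x : F => x ^ q) (hermForm n F q) f₁ f₂ e P) :
    ∃ c : F, TS (sesq hσ f₁ hf₁) (c • sesq hσ f₂ hf₂) h (tau e P) := by
  obtain ⟨c, hc, hcf⟩ := form_tau_u hσ hf₁ hf₂ hT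
  have ne1 : ∀ {m : ℕ} {f : (Fin m → F) → (Fin m → F) → F} (hf : IsUnitaryFormPow q f), 1 ≤ m → ∃ x y, f x y ≠ 0 := by
    intro m f hf hm
    have : Nonempty (Fin m) := ⟨⟨0, hm⟩⟩
    obtain ⟨y, hy⟩ := (hf.nondegenerate (fun _ => 1) (fun h0 => one_ne_zero (congrFun h0 ⟨0, hm⟩))).2
    exact ⟨_, y, hy⟩
  have hcσ : σ c = c := by
    obtain ⟨x, y, hxy⟩ := ne1 hf₁ hn₁
    obtain ⟨z, w, hzw⟩ := ne1 hf₂ hn₂
    have h1 := hcf x z y w
    have h2 := hcf y w x z
    have h3 := H.skew (tau e P x z) (tau e P y w)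
    rw [hh, hh, map_mul, hζσ, h1, h2, map_mul, map_mul, hσ (f₁ x y), hσ (f₂ z w), ← hf₁.herm, ← hf₂.herm] at h3
    have h4 : f₁ y x ≠ 0 := by
      intro h0
      rw [hf₁.herm, h0, zero_pow (by have := one_lt_q hF; omega)] at hxy
      exact hxy rfl
    have h5 : f₂ w z ≠ 0 := by
      intro h0
      rw [hf₂.herm, h0, zero_pow (by have := one_lt_q hF; omega)] at hzw
      exact hzw rfl
    have h6 : (ζ * (f₁ y x * f₂ w z)) * (c - σ c) = 0 := by linear_combination h3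
    have h7 := (mul_eq_zero.1 h6).resolve_left (mul_ne_zero hζ (mul_ne_zero h4 h5))
    exact (sub_eq_zero.1 h7).symm
  refine ⟨ζ * c, ⟨⟨sigma_inv hF hσ, ?_⟩, ?_, ⟨sigma_inv hF hσ, sigma_ne hF hσ, sigma_norm hF hσ, ?_, ?_⟩, H, ?_, ?_⟩⟩
  · intro v hv
    by_contra hv0
    obtain ⟨x, hx⟩ := (hf₁.nondegenerate v hv0).2
    exact hx (hv x)
  · intro x y
    rw [sesq_apply, sesq_apply, hσ, ← hf₁.herm]
  · intro x y
    change ζ * c * f₂ y x = - σ (ζ * c * f₂ x y)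
    rw [map_mul, map_mul, hζσ, hcσ, hσ, ← hf₂.herm]
    ring
  · intro v hv
    by_contra hv0
    obtain ⟨x, hx⟩ := (hf₂.nondegenerate v hv0).2
    have h1 : ζ * c * f₂ v x = 0 := hv x
    exact hx ((mul_eq_zero.1 h1).resolve_left (mul_ne_zero hζ hc))
  · intro S hS
    rw [eq_top_iff, ← span_tau e P, Submodule.span_le]
    rintro _ ⟨a, b, rfl⟩
    exact hS a b
  · intro u w u' w'
    rw [hh, hcf]
    change _ = f₁ u u' * (ζ * c * f₂ w w')
    ring

lemma det_val {κ : Type} [Fintype κ] [DecidableEq κ] (x : (κ → F) ≃ₗ[F] (κ → F)) (hx : LinearEquiv.det x = 1) :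
    (((toEq κ F).symm x : GL κ F) : Matrix κ κ F).det = 1 := by
  have h1 := det_toEq ((toEq κ F).symm x)
  rw [MulEquiv.apply_symm_apply, hx] at h1
  have h2 := congrArg Units.val h1
  rw [Units.val_one] at h2
  exact h2.symm

lemma det_one {κ : Type} [Fintype κ] [DecidableEq κ] {x : GL κ F} (hx : (x : Matrix κ κ F).det = 1) :
    LinearEquiv.det (toEq κ F x) = 1 := by
  rw [det_toEq, ← Units.val_inj]
  exact hx

theorem tensor_max [Fintype F] (n q : ℕ) (hF : Fintype.card F = q ^ 2) (hn : 13 ≤ n) (n₁ n₂ : ℕ) (h1 : 2 ≤ n₁)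
    (h12 : n₁ < n₂) (hex : ¬ (n₁ = 2 ∧ q = 2)) (e : Fin n ≃ Fin n₁ × Fin n₂) (P : Matrix.GeneralLinearGroup (Fin n) F)
    (f₁ : (Fin n₁ → F) → (Fin n₁ → F) → F) (f₂ : (Fin n₂ → F) → (Fin n₂ → F) → F)
    (hf₁ : Cfsg.Geo.IsUnitaryFormPow q f₁) (hf₂ : Cfsg.Geo.IsUnitaryFormPow q f₂)
    (hT : Cfsg.Geo.IsTensorFormStructure (fun x : F => x ^ q) (Cfsg.hermForm n F q) f₁ f₂ e P) :
    Cfsg.Geo.IsMaximalIn (Cfsg.GU n F q ⊓ Cfsg.Geo.specialLinear (Fin n) F)
      (Cfsg.Geo.tensorProductSubgroup n₁ n₂ e P ⊓ (Cfsg.GU n F q ⊓ Cfsg.Geo.specialLinear (Fin n) F)) := by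
  obtain ⟨σ, h, ζ, H, hζ, hσ, hζσ, hh⟩ := exists_form n hF
  have hmem := mem_SUn hζ hh
  obtain ⟨c, hTS⟩ := ts_of hF hσ H hζ hζσ hh (by omega) (by omega) hf₁ hf₂ hT
  have hcard := Fintype.card_congr e
  rw [Fintype.card_prod, Fintype.card_fin, Fintype.card_fin, Fintype.card_fin] at hcard
  have hn₂ : 5 ≤ n₂ := by
    by_contra hlt
    have h1 : n₂ ≤ 4 := by omega
    have h2 : n₁ * n₂ ≤ 3 * 4 := Nat.mul_le_mul (by omega) h1
    omega
  have hfU : finrank F (Fin n₁ → F) = n₁ := by rw [finrank_fintype_fun_eq_card, Fintype.card_fin]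
  have hfW : finrank F (Fin n₂ → F) = n₂ := by rw [finrank_fintype_fun_eq_card, Fintype.card_fin]
  have hfV : finrank F (Fin n → F) = n := by rw [finrank_fintype_fun_eq_card, Fintype.card_fin]
  have hexx : (∃ c : F, σ c = c ∧ c ≠ 0 ∧ c ≠ 1) ∨ 3 ≤ finrank F (Fin n₁ → F) := by
    by_cases hq : q = 2
    · right
      rw [hfU]
      have : n₁ ≠ 2 := fun h => hex ⟨h, hq⟩
      omega
    · left
      -- an element of the fixed field
      have hq1 := one_lt_q hF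
      obtain ⟨g, hg⟩ := IsCyclic.exists_generator (α := Fˣ)
      have hord : orderOf g = q ^ 2 - 1 := by
        classical
        rw [orderOf_eq_card_of_forall_mem_zpowers hg, Nat.card_eq_fintype_card, Fintype.card_units, hF]
      refine ⟨((g ^ (q + 1) : Fˣ) : F), ?_, Units.ne_zero _, ?_⟩
      · rw [hσ, ← Units.val_pow_eq_pow_val, ← pow_mul]
        congr 1
        rw [pow_eq_pow_iff_modEq, hord]
        have h2 : (q + 1) * q = (q + 1) + (q ^ 2 - 1) := by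
          have : 1 ≤ q ^ 2 := Nat.one_le_pow _ _ (by omega)
          zify [this]
          ring
        rw [h2]
        exact Nat.add_modEq_right
      · intro h0
        have h2 : g ^ (q + 1) = 1 := Units.ext h0
        have h3 := orderOf_dvd_of_pow_eq_one h2
        rw [hord] at h3
        have h4 := Nat.le_of_dvd (by omega) h3
        have h5 : q ^ 2 - 1 = (q + 1) * (q - 1) := by
          have : 1 ≤ q ^ 2 := Nat.one_le_pow _ _ (by omega)
          zify [this, hq1.le]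
          ring
        rw [h5] at h4
        have h6 : 2 ≤ q - 1 := by omega
        nlinarith
  have hKr : ∀ g : GL (Fin n) F, g ∈ tensorProductSubgroup n₁ n₂ e P ↔ toEq _ F g ∈ KrG (tau e P) := by
    intro g
    constructor
    · intro hg
      exact mem_tps hg
    · rintro ⟨a, b, hab⟩
      obtain ⟨g', hg', e'⟩ := exists_tps e P ((toEq _ F).symm a) ((toEq _ F).symm b)
      simp only [MulEquiv.apply_symm_apply] at e'
      have h2 : (toEq _ F g).toLinearMap = (toEq _ F g').toLinearMap := hTS.ext (fun u w => by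
        rw [LinearEquiv.coe_coe, LinearEquiv.coe_coe, hab, e'])
      have h3 : toEq _ F g = toEq _ F g' := LinearEquiv.toLinearMap_injective h2
      rw [(toEq _ F).injective h3]
      exact hg'
  apply isMaximalIn_of
  · obtain ⟨x, hx, hxk⟩ := exists_not_kr hTS (by omega) (by omega)
    refine ⟨(toEq _ F).symm x, ?_, ?_⟩
    · rw [hmem, MulEquiv.apply_symm_apply]; exact hx
    · rw [hKr, MulEquiv.apply_symm_apply]; exact hxk
  · rintro M hM1 hM2 ⟨g, hg, hg'⟩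
    have hMle : M.map (toEq (Fin n) F).toMonoidHom ≤ SU h := by
      rintro _ ⟨x, hx, rfl⟩
      exact (hmem x).1 (hM2 hx)
    have hgen : ∀ (A : (Fin n₁ → F) ≃ₗ[F] (Fin n₁ → F)) (B : (Fin n₂ → F) ≃ₗ[F] (Fin n₂ → F)), A ∈ SU (sesq hσ f₁ hf₁) →
        B ∈ SU (c • sesq hσ f₂ hf₂) → ∃ x ∈ M.map (toEq (Fin n) F).toMonoidHom, ∀ u w, x (tau e P u w) = tau e P (A u) (B w) := by
      intro A B hA hB
      obtain ⟨g, hg, e1, e2⟩ := exists_tps_det e P ((toEq _ F).symm A) ((toEq _ F).symm B)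
      simp only [MulEquiv.apply_symm_apply] at e1
      rw [det_val A hA.2, det_val B hB.2, one_pow, one_pow, one_mul] at e2
      refine ⟨toEq _ F g, ⟨g, hM1 ⟨hg, ?_⟩, rfl⟩, e1⟩
      change g ∈ GU n F q ⊓ specialLinear (Fin n) F
      rw [hmem, mem_SU]
      exact ⟨pure_isom hTS (SU_le _ hA) (SU_le _ hB) e1, det_one e2⟩
    have hX : HX hTS (M.map (toEq (Fin n) F).toMonoidHom) := by
      refine ⟨hMle.trans (SU_le h), ?_, ?_⟩
      · intro b hb
        obtain ⟨x, hx, e⟩ := hgen 1 b (Subgroup.one_mem _) hb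
        exact ⟨x, hx, fun u w => e u w⟩
      · intro a ha
        obtain ⟨x, hx, e⟩ := hgen a 1 ha (Subgroup.one_mem _)
        exact ⟨x, hx, fun u w => e u w⟩
    rcases dichotomy hX (by omega) (by omega) (by omega) (by omega) hexx with h2 | h2
    · exact le_of_map hmem h2
    · exact absurd ((hKr g).2 (h2 ⟨g, hg, rfl⟩)) hg'

end H95.TUB
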