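import Mathlib
import Cfsg.Agent.Lib.H95.TUB

set_option autoImplicit false
set_option linter.unusedSectionVars false
set_option linter.unusedVariables false
set_option linter.unusedSimpArgs false

/-!
The stabiliser of a tensor decomposition in the special unitary group, with weaker hypotheses.
-/

namespace H95.TUB

open Module Cfsg Cfsg.Geo H95.Bridge H95.UBridge H7.Tens H95.NmTensU H95.TU H95.UBasic
open scoped Matrix MatrixGroups Kronecker

variable {ι : Type} [Fintype ι] [DecidableEq ι] {F : Type*} [Field F] {n₁ n₂ : ℕ}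

theorem tensor_max' [Fintype F] (n q : ℕ) (hF : Fintype.card F = q ^ 2) (n₁ n₂ : ℕ) (h1 : 2 ≤ n₁)
    (h12 : n₁ < n₂) (hn₂ : 5 ≤ n₂) (hex : ¬ (n₁ = 2 ∧ q = 2)) (e : Fin n ≃ Fin n₁ × Fin n₂) (P : Matrix.GeneralLinearGroup (Fin n) F)
    (f₁ : (Fin n₁ → F) → (Fin n₁ → F) → F) (f₂ : (Fin n₂ → F) → (Fin n₂ → F) → F)
    (hf₁ : Cfsg.Geo.IsUnitaryFormPow q f₁) (hf₂ : Cfsg.Geo.IsUnitaryFormPow q f₂)
    (hT : Cfsg.Geo.IsTensorFormStructure (fun x : F => x ^ q) (Cfsg.hermForm n F q) f₁ f₂ e P) :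
    Cfsg.Geo.IsMaximalIn (Cfsg.GU n F q ⊓ Cfsg.Geo.specialLinear (Fin n) F)
      (Cfsg.Geo.tensorProductSubgroup n₁ n₂ e P ⊓ (Cfsg.GU n F q ⊓ Cfsg.Geo.specialLinear (Fin n) F)) := by
  obtain ⟨σ, h, ζ, H, hζ, hσ, hζσ, hh⟩ := exists_form n hF
  have hmem := mem_SUn hζ hh
  obtain ⟨c, hTS⟩ := ts_of hF hσ H hζ hζσ hh (by omega) (by omega) hf₁ hf₂ hT
  have hcard := Fintype.card_congr e
  rw [Fintype.card_prod, Fintype.card_fin, Fintype.card_fin, Fintype.card_fin] at hcard
  have hn : 7 ≤ n := by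
    have h2 : 2 * 5 ≤ n₁ * n₂ := Nat.mul_le_mul h1 hn₂
    omega
  have hfU : finrank F (Fin n₁ → F) = n₁ := by rw [finrank_fintype_fun_eq_card, Fintype.card_fin]
  have hfW : finrank F (Fin n₂ → F) = n₂ := by rw [finrank_fintype_fun_eq_card, Fintype.card_fin]
  have hfV : finrank F (Fin n → F) = n := by rw [finrank_fintype_fun_eq_card, Fintype.card_fin]
  have hexx : (∃ c : F, σ c = c ∧ c ≠ 0 ∧ c ≠ 1) ∨ 3 ≤ finrank F (Fin n₁ → F) := by
    by_cases hq : q = 2
    · right
      rw [hfU]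
      have : n₁ ≠ 2 := fun h => hex ⟨h, hq⟩
      omega
    · left
      -- an element of the fixed field
      have hq1 := one_lt_q hF
      obtain ⟨g, hg⟩ := IsCyclic.exists_generator (α := Fˣ)
      have hord : orderOf g = q ^ 2 - 1 := by
        classical
        rw [orderOf_eq_card_of_forall_mem_zpowers hg, Nat.card_eq_fintype_card, Fintype.card_units, hF]
      refine ⟨((g ^ (q + 1) : Fˣ) : F), ?_, Units.ne_zero _, ?_⟩
      · rw [hσ, ← Units.val_pow_eq_pow_val, ← pow_mul]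
        congr 1
        rw [pow_eq_pow_iff_modEq, hord]
        have h2 : (q + 1) * q = (q + 1) + (q ^ 2 - 1) := by
          have : 1 ≤ q ^ 2 := Nat.one_le_pow _ _ (by omega)
          zify [this]
          ring
        rw [h2]
        exact Nat.add_modEq_right
      · intro h0
        have h2 : g ^ (q + 1) = 1 := Units.ext h0
        have h3 := orderOf_dvd_of_pow_eq_one h2
        rw [hord] at h3
        have h4 := Nat.le_of_dvd (by omega) h3
        have h5 : q ^ 2 - 1 = (q + 1) * (q - 1) := by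
          have : 1 ≤ q ^ 2 := Nat.one_le_pow _ _ (by omega)
          zify [this, hq1.le]
          ring
        rw [h5] at h4
        have h6 : 2 ≤ q - 1 := by omega
        nlinarith
  have hKr : ∀ g : GL (Fin n) F, g ∈ tensorProductSubgroup n₁ n₂ e P ↔ toEq _ F g ∈ KrG (tau e P) := by
    intro g
    constructor
    · intro hg
      exact mem_tps hg
    · rintro ⟨a, b, hab⟩
      obtain ⟨g', hg', e'⟩ := exists_tps e P ((toEq _ F).symm a) ((toEq _ F).symm b)
      simp only [MulEquiv.apply_symm_apply] at e'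
      have h2 : (toEq _ F g).toLinearMap = (toEq _ F g').toLinearMap := hTS.ext (fun u w => by
        rw [LinearEquiv.coe_coe, LinearEquiv.coe_coe, hab, e'])
      have h3 : toEq _ F g = toEq _ F g' := LinearEquiv.toLinearMap_injective h2
      rw [(toEq _ F).injective h3]
      exact hg'
  apply isMaximalIn_of
  · obtain ⟨x, hx, hxk⟩ := exists_not_kr hTS (by omega) (by omega)
    refine ⟨(toEq _ F).symm x, ?_, ?_⟩
    · rw [hmem, MulEquiv.apply_symm_apply]; exact hx
    · rw [hKr, MulEquiv.apply_symm_apply]; exact hxk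
  · rintro M hM1 hM2 ⟨g, hg, hg'⟩
    have hMle : M.map (toEq (Fin n) F).toMonoidHom ≤ SU h := by
      rintro _ ⟨x, hx, rfl⟩
      exact (hmem x).1 (hM2 hx)
    have hgen : ∀ (A : (Fin n₁ → F) ≃ₗ[F] (Fin n₁ → F)) (B : (Fin n₂ → F) ≃ₗ[F] (Fin n₂ → F)), A ∈ SU (sesq hσ f₁ hf₁) →
        B ∈ SU (c • sesq hσ f₂ hf₂) → ∃ x ∈ M.map (toEq (Fin n) F).toMonoidHom, ∀ u w, x (tau e P u w) = tau e P (A u) (B w) := by
      intro A B hA hB
      obtain ⟨g, hg, e1, e2⟩ := exists_tps_det e P ((toEq _ F).symm A) ((toEq _ F).symm B)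
      simp only [MulEquiv.apply_symm_apply] at e1
      rw [det_val A hA.2, det_val B hB.2, one_pow, one_pow, one_mul] at e2
      refine ⟨toEq _ F g, ⟨g, hM1 ⟨hg, ?_⟩, rfl⟩, e1⟩
      change g ∈ GU n F q ⊓ specialLinear (Fin n) F
      rw [hmem, mem_SU]
      exact ⟨pure_isom hTS (SU_le _ hA) (SU_le _ hB) e1, det_one e2⟩
    have hX : HX hTS (M.map (toEq (Fin n) F).toMonoidHom) := by
      refine ⟨hMle.trans (SU_le h), ?_, ?_⟩
      · intro b hb
        obtain ⟨x, hx, e⟩ := hgen 1 b (Subgroup.one_mem _) hb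
        exact ⟨x, hx, fun u w => e u w⟩
      · intro a ha
        obtain ⟨x, hx, e⟩ := hgen a 1 ha (Subgroup.one_mem _)
        exact ⟨x, hx, fun u w => e u w⟩
    rcases dichotomy hX (by omega) (by omega) (by omega) (by omega) hexx with h2 | h2
    · exact le_of_map hmem h2
    · exact absurd ((hKr g).2 (h2 ⟨g, hg, rfl⟩)) hg'

end H95.TUB
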