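import Mathlib
import Cfsg.Agent.Lib.H95.UBasic

set_option autoImplicit false
set_option linter.unusedSectionVars false
set_option linter.unusedVariables false

/-!
Geometry of isotropic vectors of skew-hermitian forms in dimension at least four.
-/

namespace H95.TVG

open Module H95.UBasic

variable {F W : Type*} [Field F] [AddCommGroup W] [Module F W] {σ : F →+* F}
variable {g : W →ₗ[F] W →ₛₗ[σ] F}

lemma top_nd (H : IsSkew g) : ∀ v ∈ (⊤ : Submodule F W), (∀ w ∈ (⊤ : Submodule F W), g v w = 0) → v = 0 :=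
  fun v _ h => H.nd v fun w => h w trivial

lemma dual1 (H : IsSkew g) {x : W} (hx : x ≠ 0) : ∃ u, g u x = 1 := by
  obtain ⟨u, hu⟩ : ∃ u, g u x ≠ 0 := by
    by_contra hcon
    push Not at hcon
    exact hx (H.nd x fun w => H.symm_zero (hcon w))
  exact ⟨(g u x)⁻¹ • u, by rw [map_smul, LinearMap.smul_apply, smul_eq_mul, inv_mul_cancel₀ hu]⟩

lemma iso_fix (H : IsSkew g) {u x : W} (hx : g x x = 0) (hu : g u x ≠ 0) : ∃ b : F, g (u + b • x) (u + b • x) = 0 := by
  obtain ⟨t, ht⟩ := exists_sub_conj H (H.self u)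
  have hc : σ (g u x) ≠ 0 := fun h => hu (H.inj h)
  refine ⟨t * (σ (g u x))⁻¹, ?_⟩
  have h1 : g x u = - σ (g u x) := H.skew u x
  simp only [map_add, LinearMap.add_apply, map_smul, LinearMap.smul_apply, map_smulₛₗ, smul_eq_mul, hx,
    mul_zero, add_zero, h1, map_mul, map_inv₀, H.inv]
  rw [← ht]
  field_simp
  ring

lemma exists_hyp (H : IsSkew g) {w : W} (hw : g w w = 0) (hw0 : w ≠ 0) : ∃ f, g f f = 0 ∧ g f w = 1 := by
  obtain ⟨u, hu⟩ := dual1 H hw0
  obtain ⟨b, hb⟩ := iso_fix H hw (by rw [hu]; exact one_ne_zero : g u w ≠ 0)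
  refine ⟨_, hb, ?_⟩
  rw [map_add, LinearMap.add_apply, hu, map_smul, LinearMap.smul_apply, hw, smul_zero, add_zero]

variable [FiniteDimensional F W]

lemma pair_li {w f : W} (hw0 : w ≠ 0) (hf : f ∉ Submodule.span F {w}) : LinearIndependent F ![w, f] := by
  apply pair_indep hw0
  intro a ha
  exact hf (ha ▸ Submodule.smul_mem _ _ (Submodule.mem_span_singleton_self _))

lemma exists_hyp2 (H : IsSkew g) {w f : W} (hw0 : w ≠ 0) (hf : g f f = 0) (hfw : g f w = 0)
    (hfs : f ∉ Submodule.span F {w}) : ∃ p, g p p = 0 ∧ g p w = 0 ∧ g p f = 1 := by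
  obtain ⟨u, -, hu⟩ := exists_dual H (top_nd H) (x := ![w, f]) (fun i => trivial) (pair_li hw0 hfs) ![0, 1]
  have h0 := hu 0
  have h1 := hu 1
  simp only [Matrix.cons_val_zero, Matrix.cons_val_one] at h0 h1
  obtain ⟨b, hb⟩ := iso_fix H hf (by rw [h1]; exact one_ne_zero : g u f ≠ 0)
  refine ⟨_, hb, ?_, ?_⟩
  · rw [map_add, LinearMap.add_apply, h0, map_smul, LinearMap.smul_apply, hfw, smul_zero, add_zero]
  · rw [map_add, LinearMap.add_apply, h1, map_smul, LinearMap.smul_apply, hf, smul_zero, add_zero]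

lemma exists_connect (H : IsSkew g) {w f f' : W} (hw0 : w ≠ 0) (hf : g f f = 0) (hfw : g f w = 0)
    (hfs : f ∉ Submodule.span F {w}) (hf' : g f' f' = 0) (hfw' : g f' w = 0) (hfs' : f' ∉ Submodule.span F {w}) :
    ∃ p, g p p = 0 ∧ g p w = 0 ∧ g p f ≠ 0 ∧ g p f' ≠ 0 := by
  obtain ⟨p, p1, p2, p3⟩ := exists_hyp2 H hw0 hf hfw hfs
  obtain ⟨r, r1, r2, r3⟩ := exists_hyp2 H hw0 hf' hfw' hfs'
  by_cases hp : g p f' = 0
  · by_cases hr : g r f = 0
    · have key : ∃ c : F, c ≠ 0 ∧ g (p + c • r) (p + c • r) = 0 := by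
        have h1 : g r p = - σ (g p r) := H.skew p r
        by_cases hA : g p r = 0
        · refine ⟨1, one_ne_zero, ?_⟩
          simp only [map_add, LinearMap.add_apply, one_smul, p1, r1, h1, hA, map_zero, neg_zero, add_zero]
        · refine ⟨g p r, hA, ?_⟩
          simp only [map_add, LinearMap.add_apply, map_smul, LinearMap.smul_apply, map_smulₛₗ, smul_eq_mul, p1, r1, h1]
          ring
      obtain ⟨c, hc, hiso⟩ := key
      refine ⟨p + c • r, hiso, ?_, ?_, ?_⟩
      · rw [map_add, LinearMap.add_apply, p2, map_smul, LinearMap.smul_apply, r2, smul_zero, add_zero]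
      · rw [map_add, LinearMap.add_apply, p3, map_smul, LinearMap.smul_apply, hr, smul_zero, add_zero]
        exact one_ne_zero
      · rw [map_add, LinearMap.add_apply, hp, map_smul, LinearMap.smul_apply, r3, smul_eq_mul, mul_one, zero_add]
        exact hc
    · exact ⟨r, r1, r2, hr, by rw [r3]; exact one_ne_zero⟩
  · exact ⟨p, p1, p2, by rw [p3]; exact one_ne_zero, hp⟩

lemma exists_perp_iso (H : IsSkew g) (hd : 4 ≤ finrank F W) (a b : W) :
    ∃ e, e ≠ 0 ∧ g e e = 0 ∧ g e a = 0 ∧ g e b = 0 := by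
  have h1 := finrank_perpF_ge g (⊤ : Submodule F W) ![a, b]
  rw [finrank_top, Fintype.card_fin] at h1
  have h2 : 2 ≤ finrank F (perpF g ⊤ ![a, b]) := by omega
  obtain ⟨x, hx, hx0⟩ := Submodule.exists_mem_ne_zero_of_ne_bot (p := perpF g ⊤ ![a, b]) (by
    intro h
    rw [h, finrank_bot] at h2
    omega)
  obtain ⟨y, hy, hy0⟩ := exists_indep h2 x
  obtain ⟨c, d, hcd, hne⟩ := exists_iso_pair H x y
  have hmem : c • x + d • y ∈ perpF g ⊤ ![a, b] :=
    Submodule.add_mem _ (Submodule.smul_mem _ _ hx) (Submodule.smul_mem _ _ hy)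
  refine ⟨c • x + d • y, ?_, hcd, ?_, ?_⟩
  · intro h0
    have hli := pair_indep hx0 hy0
    rw [LinearIndependent.pair_iff] at hli
    obtain ⟨h3, h4⟩ := hli c d h0
    rcases hne with h | h
    · exact h h3
    · exact h h4
  · exact (mem_perpF.1 hmem).2 0
  · exact (mem_perpF.1 hmem).2 1

lemma not_span_of {e e1 f : W} (he1 : e1 ≠ 0) (h1 : g e1 f = 0) (h2 : g e f ≠ 0) : e1 ∉ Submodule.span F {e} := by
  intro h
  obtain ⟨c, rfl⟩ := Submodule.mem_span_singleton.1 h
  rw [map_smul, LinearMap.smul_apply, smul_eq_mul, mul_eq_zero] at h1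
  rcases h1 with h1 | h1
  · rw [h1, zero_smul] at he1; exact he1 rfl
  · exact h2 h1

/-- an isotropic vector orthogonal to an isotropic vector, independent of it -/
lemma exists_iso_perp (H : IsSkew g) (hd : 4 ≤ finrank F W) {w : W} (hw : g w w = 0) (hw0 : w ≠ 0) :
    ∃ e, g e e = 0 ∧ g e w = 0 ∧ e ∉ Submodule.span F {w} := by
  obtain ⟨f, hf, hfw⟩ := exists_hyp H hw hw0
  obtain ⟨e, he0, he, h1, h2⟩ := exists_perp_iso H hd w f
  refine ⟨e, he, h1, not_span_of he0 h2 ?_⟩
  intro h
  have := H.symm_zero h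
  rw [hfw] at this
  exact one_ne_zero this

/-- isotropic vectors in `w^⊥` span it -/
lemma span_iso_perp (H : IsSkew g) (hd : 4 ≤ finrank F W) {w : W} (hw : g w w = 0) (hw0 : w ≠ 0) (S : Submodule F W)
    (hS : ∀ f, g f f = 0 → g f w = 0 → f ∉ Submodule.span F {w} → f ∈ S) {z : W} (hz : g z w = 0) : z ∈ S := by
  obtain ⟨e, he, hew, hes⟩ := exists_iso_perp H hd hw hw0
  have heS := hS e he hew hes
  -- w itself
  have hwS : w ∈ S := by
    have h1 : w + e ∈ S := by
      apply hS
      · have : g w e = 0 := H.symm_zero hew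
        simp [hw, he, hew, this]
      · simp [hw, hew]
      · intro h
        apply hes
        have := Submodule.sub_mem _ h (Submodule.mem_span_singleton_self w)
        rwa [add_sub_cancel_left] at this
    have := S.sub_mem h1 heS
    rwa [add_sub_cancel_right] at this
  have hspan : ∀ f, f ∈ Submodule.span F {w} → f ∈ S := by
    intro f hf
    obtain ⟨c, rfl⟩ := Submodule.mem_span_singleton.1 hf
    exact S.smul_mem _ hwS
  have hS' : ∀ f, g f f = 0 → g f w = 0 → f ∈ S := by
    intro f h1 h2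
    by_cases h3 : f ∈ Submodule.span F {w}
    · exact hspan f h3
    · exact hS f h1 h2 h3
  have key : ∀ z, g z w = 0 → g z e ≠ 0 → z ∈ S := by
    intro z hzw hze
    obtain ⟨b, hb⟩ := iso_fix H he hze
    have h1 : z + b • e ∈ S := hS' _ hb (by
      rw [map_add, LinearMap.add_apply, hzw, map_smul, LinearMap.smul_apply, hew, smul_zero, add_zero])
    have := S.sub_mem h1 (S.smul_mem b heS)
    rwa [add_sub_cancel_right] at this
  by_cases hze : g z e = 0
  · obtain ⟨p, p1, p2, p3⟩ := exists_hyp2 H hw0 he hew hes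
    have h1 := key (z + p) (by rw [map_add, LinearMap.add_apply, hz, p2, add_zero]) (by
      rw [map_add, LinearMap.add_apply, hze, p3, zero_add]; exact one_ne_zero)
    have := S.sub_mem h1 (hS' p p1 p2)
    rwa [add_sub_cancel_right] at this
  · exact key z hz hze

/-- transitivity on isotropic vectors -/
theorem iso_trans (H : IsSkew g) (hd : 4 ≤ finrank F W) {x y : W} (hx : g x x = 0) (hx0 : x ≠ 0) (hy : g y y = 0)
    (hy0 : y ≠ 0) : ∃ b ∈ SU g, b x = y := by
  have step : ∀ x y : W, g x x = 0 → g y y = 0 → g x y = 1 → ∃ b ∈ TU g (⊤ : Submodule F W), b x = y := by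
    intro x y hx hy hxy
    exact trans_step H trivial trivial (by rw [hx, hy]) (by rw [hx, hxy, sub_zero, map_one]) (by
      rw [hx, hxy, sub_zero]; exact one_ne_zero)
  have step2 : ∀ x y z : W, g x x = 0 → g y y = 0 → g z z = 0 → g x z = 1 → g z y = 1 →
      ∃ b ∈ TU g (⊤ : Submodule F W), b x = y := by
    intro x y z hx hy hz h1 h2
    obtain ⟨b, hb, e1⟩ := step x z hx hz h1
    obtain ⟨b', hb', e2⟩ := step z y hz hy h2
    exact ⟨b' * b, Subgroup.mul_mem _ hb' hb, by rw [LinearEquiv.mul_apply, e1, e2]⟩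
  have main : ∀ x y : W, g x x = 0 → x ≠ 0 → g y y = 0 → y ≠ 0 → y ∉ Submodule.span F {x} →
      ∃ b ∈ TU g (⊤ : Submodule F W), b x = y := by
    intro x y hx hx0 hy hy0 hs
    by_cases hxy : g x y = 0
    · -- totally isotropic pair
      obtain ⟨u, -, hu⟩ := exists_dual H (top_nd H) (x := ![x, y]) (fun i => trivial) (pair_li hx0 hs) ![-1, 1]
      have h0 := hu 0
      have h1 := hu 1
      simp only [Matrix.cons_val_zero, Matrix.cons_val_one] at h0 h1
      obtain ⟨b, hb⟩ := iso_fix H hx (by rw [h0]; exact neg_ne_zero.2 one_ne_zero : g u x ≠ 0)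
      refine step2 x y (u + b • x) hx hy hb ?_ ?_
      · rw [H.skew (u + b • x) x, map_add, LinearMap.add_apply, h0, map_smul, LinearMap.smul_apply, hx]
        simp
      · rw [map_add, LinearMap.add_apply, h1, map_smul, LinearMap.smul_apply, hxy, smul_zero, add_zero]
    · -- hyperbolic pair
      have hyx : g y x ≠ 0 := fun h => hxy (H.symm_zero h)
      set u := (g x y)⁻¹ • x - (g y x)⁻¹ • y with hu
      have hux : g u x = -1 := by
        rw [hu, map_sub, LinearMap.sub_apply, map_smul, map_smul, LinearMap.smul_apply, LinearMap.smul_apply, hx,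
          smul_zero, smul_eq_mul, inv_mul_cancel₀ hyx, zero_sub]
      have huy : g u y = 1 := by
        rw [hu, map_sub, LinearMap.sub_apply, map_smul, map_smul, LinearMap.smul_apply, LinearMap.smul_apply, hy,
          smul_zero, smul_eq_mul, inv_mul_cancel₀ hxy, sub_zero]
      have h1 := finrank_perpF_ge g (⊤ : Submodule F W) ![x, y]
      rw [finrank_top, Fintype.card_fin] at h1
      obtain ⟨k, hk, hkk⟩ : ∃ k ∈ perpF g ⊤ ![x, y], g k k = - g u u := by
        have hnd : ∃ k ∈ perpF g ⊤ ![x, y], g k k ≠ 0 := by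
          by_contra hcon
          push Not at hcon
          have hti := ti_of_iso H hcon
          obtain ⟨k, hk, hk0⟩ := Submodule.exists_mem_ne_zero_of_ne_bot (p := perpF g ⊤ ![x, y]) (by
            intro h
            rw [h, finrank_bot] at h1
            omega)
          apply hk0
          apply H.nd
          intro z
          have hkx : g k x = 0 := (mem_perpF.1 hk).2 0
          have hky : g k y = 0 := (mem_perpF.1 hk).2 1
          obtain ⟨z', hz'⟩ : ∃ z', z' = z - (g z y * (g x y)⁻¹) • x - (g z x * (g y x)⁻¹) • y := ⟨_, rfl⟩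
          have hz'm : z' ∈ perpF g ⊤ ![x, y] := by
            refine ⟨trivial, fun i => ?_⟩
            fin_cases i
            · show g z' x = 0
              rw [hz', map_sub, map_sub, LinearMap.sub_apply, LinearMap.sub_apply, map_smul, map_smul,
                LinearMap.smul_apply, LinearMap.smul_apply, hx, smul_eq_mul, smul_eq_mul, mul_zero, mul_assoc,
                inv_mul_cancel₀ hyx, mul_one, sub_zero, sub_self]
            · show g z' y = 0
              rw [hz', map_sub, map_sub, LinearMap.sub_apply, LinearMap.sub_apply, map_smul, map_smul,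
                LinearMap.smul_apply, LinearMap.smul_apply, hy, smul_eq_mul, smul_eq_mul, mul_zero, mul_assoc,
                inv_mul_cancel₀ hxy, mul_one, sub_zero, sub_self]
          have hzz : z = z' + (g z y * (g x y)⁻¹) • x + (g z x * (g y x)⁻¹) • y := by rw [hz']; abel
          rw [hzz, map_add, map_add, map_smulₛₗ, map_smulₛₗ, hkx, hky, hti k hk z' hz'm]
          simp
        obtain ⟨k, hk, hk0⟩ := hnd
        obtain ⟨μ, hμ⟩ := H.norm (- g u u * (g k k)⁻¹) (by
          rw [map_mul, map_inv₀, map_neg, H.self, H.self, inv_neg]; ring)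
        refine ⟨μ • k, Submodule.smul_mem _ _ hk, ?_⟩
        simp only [map_smul, LinearMap.smul_apply, smul_eq_mul, map_smulₛₗ]
        rw [← mul_assoc, mul_comm (σ μ) μ, hμ, mul_assoc, inv_mul_cancel₀ hk0, mul_one]
      have hkx : g k x = 0 := (mem_perpF.1 hk).2 0
      have hky : g k y = 0 := (mem_perpF.1 hk).2 1
      have hku : g k u = 0 := by
        rw [hu, map_sub, map_smulₛₗ, map_smulₛₗ, hkx, hky]; simp
      have huk : g u k = 0 := H.symm_zero hku
      refine step2 x y (u + k) hx hy ?_ ?_ ?_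
      · simp [hku, huk, hkk]
      · rw [H.skew (u + k) x, map_add, LinearMap.add_apply, hux, hkx]
        simp
      · rw [map_add, LinearMap.add_apply, huy, hky, add_zero]
  by_cases hs : y ∈ Submodule.span F {x}
  · obtain ⟨f, hf, hfx⟩ := exists_hyp H hx hx0
    have hf0 : f ≠ 0 := by rintro rfl; simp at hfx
    have hns : ∀ z : W, z ∈ Submodule.span F {x} → z ≠ 0 → f ∉ Submodule.span F {z} := by
      intro z hz hz0 h
      obtain ⟨c, rfl⟩ := Submodule.mem_span_singleton.1 hz
      obtain ⟨d, rfl⟩ := Submodule.mem_span_singleton.1 h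
      simp [hx] at hfx
    have hxs : x ∈ Submodule.span F {x} := Submodule.mem_span_singleton_self _
    have hns' : ∀ z : W, z ∈ Submodule.span F {x} → z ≠ 0 → z ∉ Submodule.span F {f} := by
      intro z hz hz0 h
      obtain ⟨d, rfl⟩ := Submodule.mem_span_singleton.1 h
      have hd0 : d ≠ 0 := by rintro rfl; simp at hz0
      apply hns x hxs hx0
      have := Submodule.smul_mem (Submodule.span F {x}) d⁻¹ hz
      rwa [smul_smul, inv_mul_cancel₀ hd0, one_smul] at this
    obtain ⟨b, hb, e1⟩ := main x f hx hx0 hf hf0 (hns x hxs hx0)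
    obtain ⟨b', hb', e2⟩ := main f y hf hf0 hy hy0 (hns' y hs hy0)
    exact ⟨b' * b, TU_le_SU H _ (Subgroup.mul_mem _ hb' hb), by rw [LinearEquiv.mul_apply, e1, e2]⟩
  · obtain ⟨b, hb, e1⟩ := main x y hx hx0 hy hy0 hs
    exact ⟨b, TU_le_SU H _ hb, e1⟩

/-- a torus element -/
theorem exists_torus (H : IsSkew g) {w f : W} (hw : g w w = 0) (hw0 : w ≠ 0) (hf : g f f = 0) (hfw : g f w = 0)
    (hfs : f ∉ Submodule.span F {w}) {a : F} (ha : a ≠ 0) : ∃ b ∈ SU g, b w = a • w ∧ b f = a⁻¹ • f := by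
  have hf0 : f ≠ 0 := by rintro rfl; exact hfs (Submodule.zero_mem _)
  have hws : w ∉ Submodule.span F {f} := by
    intro h
    obtain ⟨c, hc⟩ := Submodule.mem_span_singleton.1 h
    have hc0 : c ≠ 0 := by rintro rfl; rw [zero_smul] at hc; exact hw0 hc.symm
    apply hfs
    rw [Submodule.mem_span_singleton]
    exact ⟨c⁻¹, by rw [← hc, smul_smul, inv_mul_cancel₀ hc0, one_smul]⟩
  have hwf : g w f = 0 := H.symm_zero hfw
  obtain ⟨p, p1, p2, p3⟩ := exists_hyp2 H hw0 hf hfw hfs
  obtain ⟨r, r1, r2, r3⟩ := exists_hyp2 H hf0 hw hwf hws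
  have p3' : g f p = -1 := by rw [H.skew p f, p3, map_one]
  have r3' : g w r = -1 := by rw [H.skew r w, r3, map_one]
  have p2' : g w p = 0 := H.symm_zero p2
  have r2' : g f r = 0 := H.symm_zero r2
  have hE1 : ∀ s : F, Eg g w (-σ s • p) 0 w = w ∧ Eg g w (-σ s • p) 0 f = f + s • w := by
    intro s
    have e1 : g w (-σ s • p) = 0 := by rw [map_smulₛₗ, p2', smul_zero]
    have e2 : (0 : F) - σ 0 = g (-σ s • p) (-σ s • p) := by simp [p1]
    constructor
    · rw [Eg_apply H hw e1 e2, e1, hw]; simp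
    · rw [Eg_apply H hw e1 e2, hfw, map_smulₛₗ, p3', map_neg, H.inv]; simp
  have hE2 : ∀ s : F, Eg g f (-σ s • r) 0 f = f ∧ Eg g f (-σ s • r) 0 w = w + s • f := by
    intro s
    have e1 : g f (-σ s • r) = 0 := by rw [map_smulₛₗ, r2', smul_zero]
    have e2 : (0 : F) - σ 0 = g (-σ s • r) (-σ s • r) := by simp [r1]
    constructor
    · rw [Eg_apply H hf e1 e2, e1, hf]; simp
    · rw [Eg_apply H hf e1 e2, hwf, map_smulₛₗ, r3', map_neg, H.inv]; simp
  refine ⟨Eg g w (-σ (a - a * a) • p) 0 * Eg g f (-σ (-a⁻¹) • r) 0 * Eg g w (-σ (a - 1) • p) 0 *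
    Eg g f (-σ 1 • r) 0, ?_, ?_, ?_⟩
  · exact Subgroup.mul_mem _ (Subgroup.mul_mem _ (Subgroup.mul_mem _ (Eg_mem H _ _ _) (Eg_mem H _ _ _))
      (Eg_mem H _ _ _)) (Eg_mem H _ _ _)
  · simp only [LinearEquiv.mul_apply, (hE1 _).1, (hE1 _).2, (hE2 _).1, (hE2 _).2, map_add, map_smul]
    match_scalars <;> field_simp <;> ring
  · simp only [LinearEquiv.mul_apply, (hE1 _).1, (hE1 _).2, (hE2 _).1, (hE2 _).2, map_add, map_smul]
    match_scalars <;> field_simp <;> ring

/-- an element with non-real quotient of conjugates -/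
lemma exists_quot (H : IsSkew g) : ∃ a : F, a ≠ 0 ∧ σ (σ a * a⁻¹) ≠ σ a * a⁻¹ := by
  by_contra hcon
  push Not at hcon
  have key : ∀ a : F, a ≠ 0 → σ a = a ∨ σ a = -a := by
    intro a ha
    have h1 := hcon a ha
    have hσ : σ a ≠ 0 := fun h => ha (H.inj h)
    rw [map_mul, H.inv, map_inv₀] at h1
    have h2 : a * a = σ a * σ a := by
      field_simp at h1
      linear_combination h1
    have h3 : (σ a - a) * (σ a + a) = 0 := by linear_combination -h2
    rcases mul_eq_zero.1 h3 with h4 | h4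
    · exact Or.inl (sub_eq_zero.1 h4)
    · exact Or.inr (eq_neg_of_add_eq_zero_left h4)
  obtain ⟨l, hl⟩ := H.ne
  have hl0 : l ≠ 0 := by rintro rfl; exact hl (map_zero σ)
  have h1 := (key l hl0).resolve_left hl
  by_cases h2 : (1 : F) + l = 0
  · apply hl
    have : l = -1 := eq_neg_of_add_eq_zero_right h2
    rw [this, map_neg, map_one]
  rcases key _ h2 with h3 | h3
  · apply hl
    rw [map_add, map_one] at h3
    exact add_left_cancel h3
  · rw [map_add, map_one, h1] at h3
    have h4 : (2 : F) = 0 := by linear_combination h3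
    apply hl
    rw [h1]
    linear_combination -l * h4

end H95.TVG
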