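import Mathlib
import Cfsg.Agent.Lib.H95.TVG

set_option autoImplicit false
set_option linter.unusedSectionVars false
set_option linter.unusedVariables false

/-!
Tensor products of a hermitian and a skew-hermitian space: adjoints, unipotent elements.
-/

namespace H95.TV

open Module H95.UBasic H95.TVG

section adj

variable {F U M : Type*} [Field F] [AddCommGroup U] [Module F U] [AddCommGroup M] [Module F M] {σ : F →+* F}

/-- non-degenerate forms -/
structure Nd (k : U →ₗ[F] U →ₛₗ[σ] F) : Prop where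
  inv : ∀ a, σ (σ a) = a
  nd : ∀ v, (∀ w, k v w = 0) → v = 0

variable {k : U →ₗ[F] U →ₛₗ[σ] F}

lemma Nd.ext (hk : Nd k) {x y : U} (h : ∀ w, k x w = k y w) : x = y := by
  rw [← sub_eq_zero]
  apply hk.nd
  intro w
  rw [map_sub, LinearMap.sub_apply, h, sub_self]

lemma rep [FiniteDimensional F U] (hk : Nd k) (φ : U →ₛₗ[σ] F) : ∃ u0, ∀ u, k u0 u = φ u := by
  let b := finBasis F U
  let L : U →ₗ[F] (Fin (finrank F U) → F) := LinearMap.pi fun i => k.flip (b i)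
  have hL : ∀ u i, L u i = k u (b i) := fun u i => rfl
  have hinj : Function.Injective L := by
    rw [injective_iff_map_eq_zero]
    intro u hu
    apply hk.nd
    intro w
    rw [← b.sum_repr w, map_sum]
    refine Finset.sum_eq_zero fun i _ => ?_
    rw [map_smulₛₗ, ← hL, hu, Pi.zero_apply, smul_zero]
  have hsurj := (LinearMap.injective_iff_surjective_of_finrank_eq_finrank (f := L) (by
    rw [Module.finrank_fin_fun])).1 hinj
  obtain ⟨u0, hu0⟩ := hsurj fun i => φ (b i)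
  refine ⟨u0, fun u => ?_⟩
  rw [← b.sum_repr u, map_sum, map_sum]
  refine Finset.sum_congr rfl fun i _ => ?_
  rw [map_smulₛₗ, map_smulₛₗ, ← hL, hu0]

variable [FiniteDimensional F U]

/-- adjoint of a linear map `U → M`, as a function -/
noncomputable def adF (hk : Nd k) (b : M →ₗ[F] M →ₛₗ[σ] F) (T : U →ₗ[F] M) (m : M) : U :=
  (rep hk ((b m).comp T)).choose

lemma adF_spec (hk : Nd k) (b : M →ₗ[F] M →ₛₗ[σ] F) (T : U →ₗ[F] M) (m : M) (u : U) :
    k (adF hk b T m) u = b m (T u) :=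
  (rep hk ((b m).comp T)).choose_spec u

/-- adjoint of a linear map `U → M` -/
noncomputable def ad (hk : Nd k) (b : M →ₗ[F] M →ₛₗ[σ] F) (T : U →ₗ[F] M) : M →ₗ[F] U where
  toFun m := adF hk b T m
  map_add' m m' := hk.ext fun w => by
    simp only [map_add, LinearMap.add_apply, adF_spec]
  map_smul' c m := hk.ext fun w => by
    simp only [RingHom.id_apply, map_smul, LinearMap.smul_apply, adF_spec]

lemma ad_spec (hk : Nd k) (b : M →ₗ[F] M →ₛₗ[σ] F) (T : U →ₗ[F] M) (m : M) (u : U) : k (ad hk b T m) u = b m (T u) :=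
  adF_spec hk b T m u

lemma ad_add (hk : Nd k) (b : M →ₗ[F] M →ₛₗ[σ] F) (T T' : U →ₗ[F] M) : ad hk b (T + T') = ad hk b T + ad hk b T' := by
  ext m
  apply hk.ext
  intro w
  rw [ad_spec, LinearMap.add_apply, LinearMap.add_apply, map_add, map_add, LinearMap.add_apply, ad_spec, ad_spec]

lemma ad_smul (hk : Nd k) (b : M →ₗ[F] M →ₛₗ[σ] F) (c : F) (T : U →ₗ[F] M) : ad hk b (c • T) = σ c • ad hk b T := by
  ext m
  apply hk.ext
  intro w
  rw [ad_spec, LinearMap.smul_apply, LinearMap.smul_apply, map_smulₛₗ, map_smul, LinearMap.smul_apply, ad_spec]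

lemma ad_zero (hk : Nd k) (b : M →ₗ[F] M →ₛₗ[σ] F) : ad hk b 0 = 0 := by
  ext m
  apply hk.ext
  intro w
  rw [ad_spec, LinearMap.zero_apply, LinearMap.zero_apply, map_zero, map_zero, LinearMap.zero_apply]

lemma ad_neg (hk : Nd k) (b : M →ₗ[F] M →ₛₗ[σ] F) (T : U →ₗ[F] M) : ad hk b (-T) = - ad hk b T := by
  rw [eq_neg_iff_add_eq_zero, ← ad_add, neg_add_cancel, ad_zero]

lemma ad_sub (hk : Nd k) (b : M →ₗ[F] M →ₛₗ[σ] F) (T T' : U →ₗ[F] M) : ad hk b (T - T') = ad hk b T - ad hk b T' := by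
  rw [sub_eq_add_neg, ad_add, ad_neg, ← sub_eq_add_neg]

lemma ad_comp (hk : Nd k) (b : M →ₗ[F] M →ₛₗ[σ] F) (T : U →ₗ[F] M) (n : Module.End F U) :
    ad hk b (T ∘ₗ n) = ad hk k n ∘ₗ ad hk b T := by
  ext m
  apply hk.ext
  intro w
  rw [ad_spec, LinearMap.comp_apply, LinearMap.comp_apply, ad_spec, ad_spec]

lemma ad_id (hk : Nd k) : ad hk k (1 : Module.End F U) = 1 := by
  ext m
  apply hk.ext
  intro w
  rw [ad_spec]
  rfl

lemma ad_iso (hk : Nd k) (b : M →ₗ[F] M →ₛₗ[σ] F) {x : M ≃ₗ[F] M} (hx : x ∈ isom b) (T : U →ₗ[F] M) (m : M) :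
    ad hk b (x.toLinearMap ∘ₗ T) (x m) = ad hk b T m := by
  apply hk.ext
  intro w
  rw [ad_spec, ad_spec, LinearMap.comp_apply, LinearEquiv.coe_coe, hx]

lemma adj_adj (hk : Nd k) (herm : ∀ x y, k y x = σ (k x y)) (n : Module.End F U) : ad hk k (ad hk k n) = n := by
  ext m
  apply hk.ext
  intro w
  rw [ad_spec, herm, ad_spec, ← herm]

lemma adj_mul (hk : Nd k) (n n' : Module.End F U) : ad hk k (n * n') = ad hk k n' * ad hk k n := ad_comp hk k n n'

/-- skew target -/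
lemma adj_md (hk : Nd k) (herm : ∀ x y, k y x = σ (k x y)) {b : M →ₗ[F] M →ₛₗ[σ] F} (skew : ∀ x y, b y x = - σ (b x y))
    (T S : U →ₗ[F] M) : ad hk k (ad hk b T ∘ₗ S) = - (ad hk b S ∘ₗ T) := by
  ext m
  apply hk.ext
  intro w
  rw [ad_spec, LinearMap.comp_apply, herm, ad_spec, LinearMap.neg_apply, map_neg, LinearMap.neg_apply, LinearMap.comp_apply,
    ad_spec, skew (S w) (T m), neg_neg]

end adj

section inx

variable {F V : Type*} [Field F] [AddCommGroup V] [Module F V]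

/-- `1 + N` belongs to the group -/
def In (X : Subgroup (V ≃ₗ[F] V)) (N : Module.End F V) : Prop := ∃ g ∈ X, ∀ v, g v = v + N v

variable {X : Subgroup (V ≃ₗ[F] V)}

lemma In.mul' {N N' : Module.End F V} (h : In X N) (h' : In X N') : In X (N + N' + N * N') := by
  obtain ⟨g, hg, e⟩ := h
  obtain ⟨g', hg', e'⟩ := h'
  refine ⟨g * g', X.mul_mem hg hg', fun v => ?_⟩
  rw [LinearEquiv.mul_apply, e', e, map_add, LinearMap.add_apply, LinearMap.add_apply, Module.End.mul_apply]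
  abel

lemma In.mul {N N' : Module.End F V} (h : In X N) (h' : In X N') (hz : ∀ v, N (N' v) = 0) : In X (N + N') := by
  have h1 := h.mul' h'
  have h2 : N * N' = 0 := by ext v; exact hz v
  rwa [h2, add_zero] at h1

lemma In.zero : In X (0 : Module.End F V) := ⟨1, X.one_mem, fun v => by simp⟩

lemma In.neg' {N : Module.End F V} (h : In X N) (hz : ∀ v, N (N (N v)) = 0) : In X (-N + N * N) := by
  obtain ⟨g, hg, e⟩ := h
  refine ⟨g⁻¹, X.inv_mem hg, fun v => ?_⟩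
  apply g.injective
  have h1 : g (g⁻¹ v) = v := g.apply_symm_apply v
  rw [h1, e]
  simp only [LinearMap.add_apply, LinearMap.neg_apply, Module.End.mul_apply, map_add, map_neg, hz]
  abel

lemma In.neg {N : Module.End F V} (h : In X N) (hz : ∀ v, N (N v) = 0) : In X (-N) := by
  have h1 := h.neg' (fun v => by rw [hz])
  have h2 : N * N = 0 := by ext v; exact hz v
  rwa [h2, add_zero] at h1

lemma In.conj {N N' : Module.End F V} (h : In X N) {g : V ≃ₗ[F] V} (hg : g ∈ X)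
    (hN : ∀ v, g (N v) = N' (g v)) : In X N' := by
  obtain ⟨k, hk, e⟩ := h
  refine ⟨g * k * g⁻¹, X.mul_mem (X.mul_mem hg hk) (X.inv_mem hg), fun v => ?_⟩
  have h1 : g (g⁻¹ v) = v := g.apply_symm_apply v
  rw [LinearEquiv.mul_apply, LinearEquiv.mul_apply, e, map_add, hN, h1]

lemma In.comm {N N' : Module.End F V} (h : In X N) (h' : In X N') (h1 : ∀ v, N (N' (N v)) - N' (N (N v)) = 0)
    (h2 : ∀ v, N (N' (N' v)) - N' (N (N' v)) = 0) : In X (N * N' - N' * N) := by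
  obtain ⟨g, hg, e⟩ := h
  obtain ⟨g', hg', e'⟩ := h'
  refine ⟨g * g' * g⁻¹ * g'⁻¹, X.mul_mem (X.mul_mem (X.mul_mem hg hg') (X.inv_mem hg)) (X.inv_mem hg'), fun v => ?_⟩
  obtain ⟨w, rfl⟩ : ∃ w, v = g' (g w) := ⟨g⁻¹ (g'⁻¹ v), by
    have h3 : g (g⁻¹ (g'⁻¹ v)) = g'⁻¹ v := g.apply_symm_apply _
    have h4 : g' (g'⁻¹ v) = v := g'.apply_symm_apply _
    rw [h3, h4]⟩
  have h3 : (g * g' * g⁻¹ * g'⁻¹) (g' (g w)) = g (g' w) := by
    have h4 : g'⁻¹ (g' (g w)) = g w := g'.symm_apply_apply _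
    have h5 : g⁻¹ (g w) = w := g.symm_apply_apply _
    rw [LinearEquiv.mul_apply, LinearEquiv.mul_apply, LinearEquiv.mul_apply, h4, h5]
  rw [h3]
  have h1' : ∀ v, N (N' (N v)) = N' (N (N v)) := fun v => sub_eq_zero.1 (h1 v)
  have h2' : ∀ v, N (N' (N' v)) = N' (N (N' v)) := fun v => sub_eq_zero.1 (h2 v)
  simp only [e, e', map_add, LinearMap.sub_apply, Module.End.mul_apply, h1', h2']
  abel

end inx

variable {F U W V : Type*} [Field F] [AddCommGroup U] [Module F U] [AddCommGroup W] [Module F W] [AddCommGroup V]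
  [Module F V] {σ : F →+* F}

/-- tensor product of a hermitian and a skew-hermitian space -/
structure TS (k : U →ₗ[F] U →ₛₗ[σ] F) (g : W →ₗ[F] W →ₛₗ[σ] F) (h : V →ₗ[F] V →ₛₗ[σ] F) (τ : U →ₗ[F] W →ₗ[F] V) :
    Prop where
  kN : Nd k
  herm : ∀ x y, k y x = σ (k x y)
  gS : IsSkew g
  hS : IsSkew h
  span : ∀ S : Submodule F V, (∀ u w, τ u w ∈ S) → S = ⊤
  ht : ∀ u w u' w', h (τ u w) (τ u' w') = k u u' * g w w'

variable {k : U →ₗ[F] U →ₛₗ[σ] F} {g : W →ₗ[F] W →ₛₗ[σ] F} {h : V →ₗ[F] V →ₛₗ[σ] F} {τ : U →ₗ[F] W →ₗ[F] V}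

lemma TS.ext (hT : TS k g h τ) {M : Type*} [AddCommGroup M] [Module F M] {f f' : V →ₗ[F] M}
    (hf : ∀ u w, f (τ u w) = f' (τ u w)) : f = f' := by
  have h1 := hT.span (LinearMap.eqLocus f f') hf
  rwa [LinearMap.eqLocus_eq_top] at h1

lemma TS.hN (hT : TS k g h τ) : Nd h := ⟨hT.gS.inv, hT.hS.nd⟩

lemma TS.gN (hT : TS k g h τ) : Nd g := ⟨hT.gS.inv, hT.gS.nd⟩

variable [FiniteDimensional F U]

/-- adjoint of `T : U → V` -/
noncomputable def A (hT : TS k g h τ) (T : U →ₗ[F] V) : V →ₗ[F] U := ad hT.kN h T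

/-- adjoint on `End U` -/
noncomputable def J (hT : TS k g h τ) (n : Module.End F U) : Module.End F U := ad hT.kN k n

/-- contraction -/
noncomputable def kap (hT : TS k g h τ) (z : W) : V →ₗ[F] U := A hT (τ.flip z)

lemma A_spec (hT : TS k g h τ) (T : U →ₗ[F] V) (v : V) (u : U) : k (A hT T v) u = h v (T u) := ad_spec _ _ _ _ _

lemma J_spec (hT : TS k g h τ) (n : Module.End F U) (x y : U) : k (J hT n x) y = k x (n y) := ad_spec _ _ _ _ _

lemma J_spec' (hT : TS k g h τ) (n : Module.End F U) (x y : U) : k x (J hT n y) = k (n x) y := by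
  rw [hT.herm, J_spec, ← hT.herm]

@[simp] lemma A_add (hT : TS k g h τ) (T T' : U →ₗ[F] V) : A hT (T + T') = A hT T + A hT T' := ad_add _ _ _ _
@[simp] lemma A_neg (hT : TS k g h τ) (T : U →ₗ[F] V) : A hT (-T) = - A hT T := ad_neg _ _ _
@[simp] lemma A_sub (hT : TS k g h τ) (T T' : U →ₗ[F] V) : A hT (T - T') = A hT T - A hT T' := ad_sub _ _ _ _
@[simp] lemma A_smul (hT : TS k g h τ) (c : F) (T : U →ₗ[F] V) : A hT (c • T) = σ c • A hT T := ad_smul _ _ _ _
@[simp] lemma A_zero (hT : TS k g h τ) : A hT 0 = 0 := ad_zero _ _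
@[simp] lemma J_add (hT : TS k g h τ) (T T' : Module.End F U) : J hT (T + T') = J hT T + J hT T' := ad_add _ _ _ _
@[simp] lemma J_neg (hT : TS k g h τ) (T : Module.End F U) : J hT (-T) = - J hT T := ad_neg _ _ _
@[simp] lemma J_sub (hT : TS k g h τ) (T T' : Module.End F U) : J hT (T - T') = J hT T - J hT T' := ad_sub _ _ _ _
@[simp] lemma J_smul (hT : TS k g h τ) (c : F) (T : Module.End F U) : J hT (c • T) = σ c • J hT T := ad_smul _ _ _ _
@[simp] lemma J_zero (hT : TS k g h τ) : J hT 0 = 0 := ad_zero _ _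
@[simp] lemma J_one (hT : TS k g h τ) : J hT 1 = 1 := ad_id _
@[simp] lemma J_J (hT : TS k g h τ) (n : Module.End F U) : J hT (J hT n) = n := adj_adj _ hT.herm _
lemma J_mul (hT : TS k g h τ) (n n' : Module.End F U) : J hT (n * n') = J hT n' * J hT n := adj_mul _ _ _
lemma A_comp (hT : TS k g h τ) (T : U →ₗ[F] V) (n : Module.End F U) : A hT (T ∘ₗ n) = J hT n ∘ₗ A hT T := ad_comp _ _ _ _
lemma A_comp_apply (hT : TS k g h τ) (T : U →ₗ[F] V) (n : Module.End F U) (v : V) : A hT (T ∘ₗ n) v = J hT n (A hT T v) := by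
  rw [A_comp]; rfl

lemma J_md (hT : TS k g h τ) (T S : U →ₗ[F] V) : J hT (A hT T ∘ₗ S) = - (A hT S ∘ₗ T) :=
  adj_md _ hT.herm hT.hS.skew _ _

lemma A_iso (hT : TS k g h τ) {x : V ≃ₗ[F] V} (hx : x ∈ isom h) (T : U →ₗ[F] V) (v : V) :
    A hT (x.toLinearMap ∘ₗ T) (x v) = A hT T v := ad_iso _ _ hx _ _

@[simp] lemma kap_pure (hT : TS k g h τ) (z : W) (u : U) (y : W) : kap hT z (τ u y) = g y z • u :=
  hT.kN.ext fun u' => by
    rw [kap, A_spec, LinearMap.flip_apply, hT.ht, map_smul, LinearMap.smul_apply, smul_eq_mul, mul_comm]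

lemma kap_def (hT : TS k g h τ) (z : W) : A hT (τ.flip z) = kap hT z := rfl

lemma kap_add (hT : TS k g h τ) (z z' : W) : kap hT (z + z') = kap hT z + kap hT z' := by
  rw [kap, map_add, A_add]; rfl

lemma kap_smul (hT : TS k g h τ) (c : F) (z : W) : kap hT (c • z) = σ c • kap hT z := by
  rw [kap, map_smul, A_smul]; rfl

lemma kap_sub (hT : TS k g h τ) (z z' : W) : kap hT (z - z') = kap hT z - kap hT z' := by
  rw [kap, map_sub, A_sub]; rfl

lemma kap_spec (hT : TS k g h τ) (z : W) (v : V) (u : U) : k (kap hT z v) u = h v (τ u z) := A_spec _ _ _ _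

/-- `ad T ∘ ι_w = 0` when `κ_w T = 0` -/
lemma A_pure (hT : TS k g h τ) {T : U →ₗ[F] V} {w : W} (hTw : ∀ u, kap hT w (T u) = 0) (u : U) : A hT T (τ u w) = 0 := by
  have h1 := J_md hT (τ.flip w) T
  have h2 : A hT (τ.flip w) ∘ₗ T = 0 := by
    ext u
    exact hTw u
  rw [h2, J_zero] at h1
  have h3 := LinearMap.congr_fun h1 u
  rw [LinearMap.zero_apply, LinearMap.neg_apply, LinearMap.comp_apply, LinearMap.flip_apply] at h3
  exact neg_eq_zero.1 h3.symm

/-- the rank operators -/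
noncomputable def E (hT : TS k g h τ) (T S : U →ₗ[F] V) : Module.End F V := T ∘ₗ A hT S

lemma E_apply (hT : TS k g h τ) (T S : U →ₗ[F] V) (v : V) : E hT T S v = T (A hT S v) := rfl

lemma E_conj (hT : TS k g h τ) {x : V ≃ₗ[F] V} (hx : x ∈ isom h) (T S : U →ₗ[F] V) (v : V) :
    x (E hT T S v) = E hT (x.toLinearMap ∘ₗ T) (x.toLinearMap ∘ₗ S) (x v) := by
  rw [E_apply, E_apply, A_iso hT hx]
  rfl

/-- elements of the unipotent radical attached to `w` -/
noncomputable def GP (hT : TS k g h τ) (w : W) (T : U →ₗ[F] V) (m : Module.End F U) : Module.End F V :=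
  E hT (τ.flip w) T + E hT T (τ.flip w) + E hT (τ.flip w ∘ₗ m) (τ.flip w)

lemma GP_apply (hT : TS k g h τ) (w : W) (T : U →ₗ[F] V) (m : Module.End F U) (v : V) :
    GP hT w T m v = τ (A hT T v) w + T (kap hT w v) + τ (m (kap hT w v)) w := rfl

/-- `T` occurs for `w` -/
def P (hT : TS k g h τ) (X : Subgroup (V ≃ₗ[F] V)) (w : W) (T : U →ₗ[F] V) : Prop :=
  ∃ m : Module.End F U, In X (GP hT w T m)

variable {X : Subgroup (V ≃ₗ[F] V)} {hT : TS k g h τ}

lemma kap_GP (hT : TS k g h τ) {w : W} (hw : g w w = 0) {T : U →ₗ[F] V}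
    (h2 : ∀ u, kap hT w (T u) = 0) (m : Module.End F U) (v : V) : kap hT w (GP hT w T m v) = 0 := by
  rw [GP_apply, map_add, map_add, kap_pure, kap_pure, hw, h2, zero_smul, zero_smul, add_zero, add_zero]

lemma GP_mul (hT : TS k g h τ) {w : W} (hw : g w w = 0) {T T' : U →ₗ[F] V} (h1 : ∀ u, kap hT w (T u) = 0)
    (h2 : ∀ u, kap hT w (T' u) = 0) (m m' : Module.End F U) (v : V) :
    GP hT w T m (GP hT w T' m' v) = τ (A hT T (T' (kap hT w v))) w := by
  have h3 := kap_GP hT hw h2 m' v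
  have h4 : A hT T (GP hT w T' m' v) = A hT T (T' (kap hT w v)) := by
    rw [GP_apply, map_add, map_add, A_pure hT h1, A_pure hT h1, zero_add, add_zero]
  rw [GP_apply hT w T, h3, h4]
  simp

lemma P_add {w : W} (hw : g w w = 0) {T T' : U →ₗ[F] V} (h1 : ∀ u, kap hT w (T u) = 0)
    (h2 : ∀ u, kap hT w (T' u) = 0) (h3 : P hT X w T) (h4 : P hT X w T') : P hT X w (T + T') := by
  obtain ⟨m, hm⟩ := h3
  obtain ⟨m', hm'⟩ := h4
  refine ⟨m + m' + A hT T ∘ₗ T', ?_⟩
  have h5 := hm.mul' hm'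
  convert h5 using 1
  ext v
  rw [LinearMap.add_apply, LinearMap.add_apply, Module.End.mul_apply, GP_mul hT hw h1 h2, GP_apply, GP_apply, GP_apply]
  simp only [A_add, map_add, LinearMap.add_apply, LinearMap.comp_apply]
  abel

lemma P_neg {w : W} (hw : g w w = 0) {T : U →ₗ[F] V} (h1 : ∀ u, kap hT w (T u) = 0) (h3 : P hT X w T) :
    P hT X w (-T) := by
  obtain ⟨m, hm⟩ := h3
  refine ⟨-m + A hT T ∘ₗ T, ?_⟩
  have h5 := hm.neg' (fun v => by
    rw [GP_mul hT hw h1 h1, kap_GP hT hw h1]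
    simp)
  convert h5 using 1
  ext v
  rw [LinearMap.add_apply, Module.End.mul_apply, GP_mul hT hw h1 h1, LinearMap.neg_apply, GP_apply, GP_apply]
  simp only [A_neg, map_neg, map_add, LinearMap.neg_apply, LinearMap.add_apply, LinearMap.comp_apply]
  abel

lemma P_sub {w : W} (hw : g w w = 0) {T T' : U →ₗ[F] V} (h1 : ∀ u, kap hT w (T u) = 0)
    (h2 : ∀ u, kap hT w (T' u) = 0) (h3 : P hT X w T) (h4 : P hT X w T') : P hT X w (T - T') := by
  rw [sub_eq_add_neg]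
  exact P_add hw h1 (fun u => by rw [LinearMap.neg_apply, map_neg, h2, neg_zero]) h3 (P_neg hw h2 h4)

lemma P_zero {w : W} : P hT X w 0 := by
  refine ⟨0, ?_⟩
  have : GP hT w 0 0 = 0 := by
    ext v
    rw [GP_apply]
    simp
  rw [this]
  exact In.zero

/-- `x` acts as `1 ⊗ b` -/
def Act (τ : U →ₗ[F] W →ₗ[F] V) (x : V ≃ₗ[F] V) (b : W → W) : Prop := ∀ u w, x (τ u w) = τ u (b w)

lemma P_conj (hX : X ≤ isom h) {x : V ≃ₗ[F] V} (hx : x ∈ X) {b : W → W} (hb : Act τ x b) {w : W} {T : U →ₗ[F] V}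
    (h3 : P hT X w T) : P hT X (b w) (x.toLinearMap ∘ₗ T) := by
  obtain ⟨m, hm⟩ := h3
  refine ⟨m, hm.conj hx fun v => ?_⟩
  have h1 : x.toLinearMap ∘ₗ τ.flip w = τ.flip (b w) := by
    ext u
    exact hb u w
  rw [GP, GP, LinearMap.add_apply, LinearMap.add_apply, map_add, map_add, E_conj hT (hX hx), E_conj hT (hX hx),
    E_conj hT (hX hx), h1, ← LinearMap.comp_assoc, h1]
  rfl

lemma P_conj' (hX : X ≤ isom h) {x : V ≃ₗ[F] V} (hx : x ∈ X) {w : W} (hb : ∀ u, x (τ u w) = τ u w) {T : U →ₗ[F] V}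
    (h3 : P hT X w T) : P hT X w (x.toLinearMap ∘ₗ T) := by
  obtain ⟨m, hm⟩ := h3
  refine ⟨m, hm.conj hx fun v => ?_⟩
  have h1 : x.toLinearMap ∘ₗ τ.flip w = τ.flip w := by
    ext u
    exact hb u
  rw [GP, GP, LinearMap.add_apply, LinearMap.add_apply, map_add, map_add, E_conj hT (hX hx), E_conj hT (hX hx),
    E_conj hT (hX hx), h1, ← LinearMap.comp_assoc, h1]
  rfl

/-- overgroups of the tensor product group -/
structure HX (hT : TS k g h τ) (X : Subgroup (V ≃ₗ[F] V)) : Prop where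
  le : X ≤ isom h
  r₂ : ∀ b ∈ SU g, ∃ x ∈ X, Act τ x b
  r₁ : ∀ a ∈ SU k, ∃ x ∈ X, ∀ u w, x (τ u w) = τ (a u) w

variable [FiniteDimensional F W]

lemma act_eq (hT : TS k g h τ) {x : V ≃ₗ[F] V} {N : Module.End F V} (hx : ∀ u w, x (τ u w) = τ u w + N (τ u w)) (v : V) :
    x v = v + N v := by
  have h1 : x.toLinearMap = LinearMap.id + N := hT.ext hx
  exact LinearMap.congr_fun h1 v

/-- root elements -/
lemma HX.root (hX : HX hT X) {f : W} (hf : g f f = 0) {c : F} (hc : σ c = c) :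
    ∃ x ∈ X, (∀ v, x v = v + (c • E hT (τ.flip f) (τ.flip f)) v) ∧ Act τ x (fun w => w + (c * g w f) • f) := by
  obtain ⟨x, hx, e⟩ := hX.r₂ _ (tr_mem_SU hT.gS hf hc)
  have h1 : Act τ x (fun w => w + (c * g w f) • f) := by
    intro u w
    rw [e, rf_apply (tr_good hf hc)]
  refine ⟨x, hx, ?_, h1⟩
  apply act_eq hT
  intro u w
  rw [h1, LinearMap.smul_apply, E_apply, kap_def, kap_pure]
  simp only [map_add, map_smul, LinearMap.smul_apply, LinearMap.flip_apply, smul_smul]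

lemma HX.root_in (hX : HX hT X) {f : W} (hf : g f f = 0) {c : F} (hc : σ c = c) :
    In X (c • E hT (τ.flip f) (τ.flip f)) := by
  obtain ⟨x, hx, e, -⟩ := hX.root hf hc
  exact ⟨x, hx, e⟩

/-- Heisenberg elements -/
lemma HX.heis (hX : HX hT X) {w z : W} (hw : g w w = 0) (hwz : g z w = 0) : P hT X w (τ.flip z) := by
  obtain ⟨c, hc⟩ := exists_sub_conj hT.gS (hT.gS.self z)
  obtain ⟨x, hx, e⟩ := hX.r₂ _ (Eg_mem hT.gS w z c)
  refine ⟨c • 1, x, hx, ?_⟩
  apply act_eq hT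
  intro u y
  rw [e, Eg_apply hT.gS hw (hT.gS.symm_zero hwz) hc, GP_apply, kap_def, kap_pure, kap_pure]
  simp only [map_add, map_smul, LinearMap.smul_apply, LinearMap.flip_apply, Module.End.one_apply, smul_smul]
  rw [mul_comm (g y w) c]
  abel

lemma kap_flip (hT : TS k g h τ) {w z : W} (hz : g z w = 0) (n : Module.End F U) (u : U) :
    kap hT w ((τ.flip z ∘ₗ n) u) = 0 := by
  rw [LinearMap.comp_apply, LinearMap.flip_apply, kap_pure, hz, zero_smul]

/-- (i) -/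
lemma P_contract (hX : HX hT X) {w f : W} (hw : g w w = 0) (hf : g f f = 0) (hfw : g f w = 0) {T : U →ₗ[F] V}
    (h1 : ∀ u, kap hT w (T u) = 0) (h3 : P hT X w T) {c : F} (hc : σ c = c) :
    P hT X w (c • (τ.flip f ∘ₗ (kap hT f ∘ₗ T))) := by
  obtain ⟨x, hx, e, hb⟩ := hX.root hf hc
  have h4 := P_conj hX.le hx hb h3
  have h5 : w + (c * g w f) • f = w := by
    rw [hT.gS.symm_zero hfw, mul_zero, zero_smul, add_zero]
  rw [h5] at h4
  have h6 : x.toLinearMap ∘ₗ T = T + c • (τ.flip f ∘ₗ (kap hT f ∘ₗ T)) := by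
    ext u
    exact e (T u)
  have h7 : ∀ u, kap hT w ((c • (τ.flip f ∘ₗ (kap hT f ∘ₗ T))) u) = 0 := by
    intro u
    rw [LinearMap.smul_apply, map_smul, kap_flip hT hfw, smul_zero]
  rw [h6] at h4
  have h8 := P_sub hw (fun u => by rw [LinearMap.add_apply, map_add, h1, h7, add_zero]) h1 h4 h3
  rwa [add_sub_cancel_left] at h8

/-- (ii) -/
lemma P_move (hX : HX hT X) {w z f : W} (hw : g w w = 0) (hz : g z w = 0) (hf : g f f = 0) (hfw : g f w = 0)
    {n : Module.End F U} (h3 : P hT X w (τ.flip z ∘ₗ n)) : P hT X w (τ.flip (g z f • f) ∘ₗ n) := by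
  have h4 := P_contract hX hw hf hfw (kap_flip hT hz n) h3 (map_one σ)
  rw [one_smul] at h4
  have h5 : τ.flip f ∘ₗ (kap hT f ∘ₗ (τ.flip z ∘ₗ n)) = τ.flip (g z f • f) ∘ₗ n := by
    ext u
    simp only [LinearMap.comp_apply, LinearMap.flip_apply, kap_pure, map_smul, LinearMap.smul_apply]
  rwa [h5] at h4

lemma flip_smul_comp (c : F) (z : W) (n : Module.End F U) : τ.flip (c • z) ∘ₗ n = c • (τ.flip z ∘ₗ n) := by
  ext u
  simp

/-- scaling the first vector -/
lemma P_scale {w : W} {a : F} (ha : a ≠ 0) {T : U →ₗ[F] V} (h3 : P hT X (a • w) T) : P hT X w (σ a • T) := by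
  obtain ⟨m, hm⟩ := h3
  refine ⟨(a * σ a) • m, ?_⟩
  convert hm using 1
  ext v
  rw [GP_apply, GP_apply, kap_smul, A_smul, hT.gS.inv]
  simp only [map_smul, LinearMap.smul_apply, smul_smul]

/-- real multiples -/
lemma P_real (hX : HX hT X) {w f : W} (hw : g w w = 0) (hw0 : w ≠ 0) (hf : g f f = 0)
    (hfw : g f w = 0) (hfs : f ∉ Submodule.span F {w}) {n : Module.End F U} {l : F}
    (h3 : P hT X w (τ.flip (l • f) ∘ₗ n)) {c : F} (hc : σ c = c) : P hT X w (τ.flip ((c * l) • f) ∘ₗ n) := by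
  obtain ⟨p, p1, p2, p3⟩ := exists_hyp2 hT.gS hw0 hf hfw hfs
  have p4 : g f p = -1 := by rw [hT.gS.skew p f, p3, map_one]
  have h4 := P_contract hX hw p1 p2 (kap_flip hT (by rw [map_smul, LinearMap.smul_apply, hfw, smul_zero]) n) h3
    (map_one σ)
  rw [one_smul] at h4
  have h5 : τ.flip p ∘ₗ (kap hT p ∘ₗ (τ.flip (l • f) ∘ₗ n)) = τ.flip ((-l) • p) ∘ₗ n := by
    ext u
    simp only [LinearMap.comp_apply, LinearMap.flip_apply, kap_pure, map_smul, LinearMap.smul_apply, p4, smul_smul]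
    module
  rw [h5] at h4
  have h6 := P_contract hX hw hf hfw (kap_flip hT (by rw [map_smul, LinearMap.smul_apply, p2, smul_zero]) n) h4
    (c := -c) (by rw [map_neg, hc])
  convert h6 using 1
  ext u
  simp only [LinearMap.comp_apply, LinearMap.flip_apply, kap_pure, map_smul, LinearMap.smul_apply, p3, smul_smul]
  module

/-- (iii) all multiples -/
lemma P_all_mult (hX : HX hT X) (hd : 4 ≤ finrank F W) {w f : W} (hw : g w w = 0) (hw0 : w ≠ 0) (hf : g f f = 0)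
    (hfw : g f w = 0) (hfs : f ∉ Submodule.span F {w}) {n : Module.End F U} {l : F} (hl : l ≠ 0)
    (h3 : P hT X w (τ.flip (l • f) ∘ₗ n)) (μ : F) : P hT X w (τ.flip (μ • f) ∘ₗ n) := by
  obtain ⟨a, ha, hq⟩ := exists_quot hT.gS
  obtain ⟨b, hb, hbw, hbf⟩ := exists_torus hT.gS hw hw0 hf hfw hfs ha
  obtain ⟨x, hx, e⟩ := hX.r₂ b hb
  -- the twisted multiple
  have h4 : P hT X w (τ.flip ((σ a * a⁻¹ * l) • f) ∘ₗ n) := by
    have h5 := P_conj hX.le hx e h3
    rw [hbw] at h5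
    have h6 := P_scale ha h5
    convert h6 using 1
    ext u
    simp only [LinearMap.comp_apply, LinearMap.flip_apply, LinearMap.smul_apply, LinearEquiv.coe_coe]
    rw [e, map_smul b, hbf, map_smul, map_smul, map_smul, smul_smul, smul_smul]
    congr 1
    ring
  obtain ⟨lam, hlam⟩ : ∃ lam, lam = σ a * a⁻¹ := ⟨_, rfl⟩
  rw [← hlam] at hq h4
  obtain ⟨ν, hν⟩ : ∃ ν, ν = μ * l⁻¹ := ⟨_, rfl⟩
  have hne : lam - σ lam ≠ 0 := fun h => hq (sub_eq_zero.1 h).symm
  obtain ⟨r2, hr2⟩ : ∃ r2, r2 = (ν - σ ν) * (lam - σ lam)⁻¹ := ⟨_, rfl⟩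
  have hr2s : σ r2 = r2 := by
    rw [hr2, map_mul, map_inv₀, map_sub, map_sub, hT.gS.inv, hT.gS.inv]
    have : (σ lam - lam)⁻¹ = -(lam - σ lam)⁻¹ := by rw [← neg_sub, inv_neg]
    rw [this]; ring
  have hr1s : σ (ν - r2 * lam) = ν - r2 * lam := by
    rw [map_sub, map_mul, hr2s]
    have : r2 * (lam - σ lam) = ν - σ ν := by rw [hr2, mul_assoc, inv_mul_cancel₀ hne, mul_one]
    linear_combination this
  have h5 := P_real hX hw hw0 hf hfw hfs h3 hr1s
  have h6 := P_real hX hw hw0 hf hfw hfs h4 hr2s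
  have h7 := P_add hw (kap_flip hT (by rw [map_smul, LinearMap.smul_apply, hfw, smul_zero]) n)
    (kap_flip hT (by rw [map_smul, LinearMap.smul_apply, hfw, smul_zero]) n) h5 h6
  convert h7 using 1
  ext u
  simp only [LinearMap.comp_apply, LinearMap.flip_apply, LinearMap.add_apply, map_smul, LinearMap.smul_apply]
  rw [← add_smul]
  congr 1
  have : μ = ν * l := by rw [hν, mul_assoc, inv_mul_cancel₀ hl, mul_one]
  rw [this]; ring

/-- (iv), (v), (vi): all second vectors -/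
lemma P_all (hX : HX hT X) (hd : 4 ≤ finrank F W) {w f : W} (hw : g w w = 0) (hw0 : w ≠ 0) (hf : g f f = 0)
    (hfw : g f w = 0) (hfs : f ∉ Submodule.span F {w}) {n : Module.End F U}
    (h3 : P hT X w (τ.flip f ∘ₗ n)) {z : W} (hz : g z w = 0) : P hT X w (τ.flip z ∘ₗ n) := by
  have hf1 := P_all_mult hX hd hw hw0 hf hfw hfs one_ne_zero (by rwa [one_smul])
  -- all isotropic vectors
  have step : ∀ f' : W, g f' f' = 0 → g f' w = 0 → f' ∉ Submodule.span F {w} → ∀ μ : F, P hT X w (τ.flip (μ • f') ∘ₗ n) := by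
    have st : ∀ f f' : W, g f w = 0 → (∀ μ : F, P hT X w (τ.flip (μ • f) ∘ₗ n)) → g f' f' = 0 → g f' w = 0 →
        f' ∉ Submodule.span F {w} → g f f' ≠ 0 → ∀ μ : F, P hT X w (τ.flip (μ • f') ∘ₗ n) := by
      intro f f' hfw h4 hf' hfw' hfs' hff μ
      have h5 := P_move hX hw (by rw [map_smul, LinearMap.smul_apply, hfw, smul_zero]) hf' hfw' (h4 1)
      refine P_all_mult hX hd hw hw0 hf' hfw' hfs' (l := g ((1 : F) • f) f') ?_ h5 μ
      rwa [one_smul]
    intro f' hf' hfw' hfs'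
    obtain ⟨p, p1, p2, p3, p4⟩ := exists_connect hT.gS hw0 hf hfw hfs hf' hfw' hfs'
    have hps : p ∉ Submodule.span F {w} := by
      intro h
      obtain ⟨c, rfl⟩ := Submodule.mem_span_singleton.1 h
      rw [map_smul, LinearMap.smul_apply, hT.gS.symm_zero hfw, smul_zero] at p3
      exact p3 rfl
    have h5 := st f p hfw hf1 p1 p2 hps (fun h => p3 (hT.gS.symm_zero h))
    exact st p f' p2 h5 hf' hfw' hfs' p4
  let S : Submodule F W :=
    { carrier := {z | g z w = 0 ∧ ∀ μ : F, P hT X w (τ.flip (μ • z) ∘ₗ n)}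
      add_mem' := by
        rintro a b ⟨ha, ha'⟩ ⟨hb, hb'⟩
        refine ⟨by rw [map_add, LinearMap.add_apply, ha, hb, add_zero], fun μ => ?_⟩
        have h5 : τ.flip (μ • (a + b)) ∘ₗ n = τ.flip (μ • a) ∘ₗ n + τ.flip (μ • b) ∘ₗ n := by
          ext u
          simp
        rw [h5]
        exact P_add hw (kap_flip hT (by rw [map_smul, LinearMap.smul_apply, ha, smul_zero]) n)
          (kap_flip hT (by rw [map_smul, LinearMap.smul_apply, hb, smul_zero]) n) (ha' μ) (hb' μ)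
      zero_mem' := by
        refine ⟨by simp, fun μ => ?_⟩
        have h5 : τ.flip (μ • (0 : W)) ∘ₗ n = 0 := by
          ext u
          simp
        rw [h5]
        exact P_zero
      smul_mem' := by
        rintro c a ⟨ha, ha'⟩
        refine ⟨by rw [map_smul, LinearMap.smul_apply, ha, smul_zero], fun μ => ?_⟩
        rw [smul_smul]
        exact ha' _ }
  have h6 : z ∈ S := span_iso_perp hT.gS hd hw hw0 S (fun f' h1 h2 h3 => ⟨h2, step f' h1 h2 h3⟩) hz
  have h7 := h6.2 1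
  rwa [one_smul] at h7

/-- (vii) -/
lemma P_change (hX : HX hT X) (hd : 4 ≤ finrank F W) {w w' : W} (hw : g w w = 0) (hw0 : w ≠ 0) (hw' : g w' w' = 0)
    (hw0' : w' ≠ 0) {n : Module.End F U} (h3 : ∀ z, g z w = 0 → P hT X w (τ.flip z ∘ₗ n)) {z : W} (hz : g z w' = 0) :
    P hT X w' (τ.flip z ∘ₗ n) := by
  obtain ⟨b, hb, hbw⟩ := iso_trans hT.gS hd hw hw0 hw' hw0'
  obtain ⟨x, hx, e⟩ := hX.r₂ b hb
  have h4 := h3 (b⁻¹ z) (by
    have : g (b (b⁻¹ z)) (b w) = g (b⁻¹ z) w := (SU_le _ hb) _ _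
    rw [← this, hbw]
    have h5 : b (b⁻¹ z) = z := b.apply_symm_apply z
    rw [h5, hz])
  have h5 := P_conj hX.le hx e h4
  rw [hbw] at h5
  have h6 : x.toLinearMap ∘ₗ (τ.flip (b⁻¹ z) ∘ₗ n) = τ.flip z ∘ₗ n := by
    ext u
    have h5 : b (b⁻¹ z) = z := b.apply_symm_apply z
    simp only [LinearMap.comp_apply, LinearMap.flip_apply, LinearEquiv.coe_coe]
    rw [e, h5]
  rwa [h6] at h5

/-- the coefficient space -/
def NN (hT : TS k g h τ) (X : Subgroup (V ≃ₗ[F] V)) : Set (Module.End F U) :=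
  {n | ∀ w, g w w = 0 → ∀ z, g z w = 0 → P hT X w (τ.flip z ∘ₗ n)}

/-- criterion -/
theorem mem_NN (hX : HX hT X) (hd : 4 ≤ finrank F W) {w f : W} (hw : g w w = 0) (hw0 : w ≠ 0) (hf : g f f = 0)
    (hfw : g f w = 0) (hfs : f ∉ Submodule.span F {w}) {n : Module.End F U}
    (h3 : P hT X w (τ.flip f ∘ₗ n)) : n ∈ NN hT X := by
  intro w' hw' z hz
  by_cases hw0' : w' = 0
  · subst hw0'
    have h1 : ∀ w1, g w1 w1 = 0 → w1 ≠ 0 → ∀ z, g z w1 = 0 → P hT X w1 (τ.flip z ∘ₗ n) :=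
      fun w1 h1 h2 z hz => P_change hX hd hw hw0 h1 h2 (fun z hz => P_all hX hd hw hw0 hf hfw hfs h3 hz) hz
    refine ⟨0, ?_⟩
    have : GP hT (0 : W) (τ.flip z ∘ₗ n) 0 = 0 := by
      ext v
      rw [GP_apply]
      have h4 : kap hT (0 : W) v = 0 := by
        have := kap_smul hT 0 (0 : W)
        rw [zero_smul, map_zero, zero_smul] at this
        rw [this]; rfl
      rw [h4]
      simp
    rw [this]
    exact In.zero
  · exact P_change hX hd hw hw0 hw' hw0' (fun z hz => P_all hX hd hw hw0 hf hfw hfs h3 hz) hz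

end H95.TV
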