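import Mathlib
import Cfsg.Agent.Lib.H95.TV1

set_option autoImplicit false
set_option linter.unusedSectionVars false
set_option linter.unusedVariables false
set_option linter.unusedSimpArgs false

/-!
The coefficient algebra.
-/

namespace H95.TV

open Module H95.UBasic H95.TVG

variable {F U W V : Type*} [Field F] [AddCommGroup U] [Module F U] [AddCommGroup W] [Module F W] [AddCommGroup V]
  [Module F V] {σ : F →+* F}
variable {k : U →ₗ[F] U →ₛₗ[σ] F} {g : W →ₗ[F] W →ₛₗ[σ] F} {h : V →ₗ[F] V →ₛₗ[σ] F} {τ : U →ₗ[F] W →ₗ[F] V}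
variable [FiniteDimensional F U] [FiniteDimensional F W] {X : Subgroup (V ≃ₗ[F] V)} {hT : TS k g h τ}

lemma one_mem_NN (hX : HX hT X) : (1 : Module.End F U) ∈ NN hT X := by
  intro w hw z hz
  exact hX.heis hw hz

lemma smul_mem_NN {n : Module.End F U} (hn : n ∈ NN hT X) (c : F) : c • n ∈ NN hT X := by
  intro w hw z hz
  have h1 := hn w hw (c • z) (by rw [map_smul, LinearMap.smul_apply, hz, smul_zero])
  have h2 : τ.flip (c • z) ∘ₗ n = τ.flip z ∘ₗ (c • n) := by
    ext u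
    simp
  rwa [h2] at h1

lemma add_mem_NN {n n' : Module.End F U} (hn : n ∈ NN hT X) (hn' : n' ∈ NN hT X) : n + n' ∈ NN hT X := by
  intro w hw z hz
  have h1 := P_add hw (kap_flip hT hz n) (kap_flip hT hz n') (hn w hw z hz) (hn' w hw z hz)
  have h2 : τ.flip z ∘ₗ n + τ.flip z ∘ₗ n' = τ.flip z ∘ₗ (n + n') := by
    ext u
    simp
  rwa [h2] at h1

lemma A_flip_comp (hT : TS k g h τ) (z : W) (n : Module.End F U) (v : V) : A hT (τ.flip z ∘ₗ n) v = J hT n (kap hT z v) := by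
  rw [A_comp_apply]; rfl

lemma GP_flip_apply (hT : TS k g h τ) (w z : W) (n m : Module.End F U) (v : V) :
    GP hT w (τ.flip z ∘ₗ n) m v = τ (J hT n (kap hT z v)) w + τ (n (kap hT w v)) z + τ (m (kap hT w v)) w := by
  rw [GP_apply, A_flip_comp]; rfl

lemma kap_neg (hT : TS k g h τ) (z : W) : kap hT (-z) = -kap hT z := by
  rw [kap, map_neg, A_neg]; rfl

lemma E_flip (hT : TS k g h τ) (y z : W) (n : Module.End F U) (v : V) :
    E hT (τ.flip y ∘ₗ n) (τ.flip z) v = τ (n (kap hT z v)) y := rfl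

lemma kap_conj1 (hT : TS k g h τ) {x : V ≃ₗ[F] V} (hx : x ∈ isom h) {a : U ≃ₗ[F] U} (ha : ∀ u w, x (τ u w) = τ (a u) w)
    (z : W) (v : V) : kap hT z (x v) = a (kap hT z v) := by
  have h1 : kap hT z ∘ₗ x.toLinearMap = a.toLinearMap ∘ₗ kap hT z := by
    apply hT.ext
    intro u w
    rw [LinearMap.comp_apply, LinearMap.comp_apply, LinearEquiv.coe_coe, LinearEquiv.coe_coe, ha, kap_pure, kap_pure, map_smul]
  exact LinearMap.congr_fun h1 v

lemma conj_mem_NN (hX : HX hT X) {a : U ≃ₗ[F] U} (ha : a ∈ SU k) {n : Module.End F U} (hn : n ∈ NN hT X) :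
    a.toLinearMap ∘ₗ n ∘ₗ (a⁻¹).toLinearMap ∈ NN hT X := by
  intro w hw z hz
  obtain ⟨x, hx, e⟩ := hX.r₁ a ha
  obtain ⟨m, hm⟩ := hn w hw z hz
  refine ⟨a.toLinearMap ∘ₗ m ∘ₗ (a⁻¹).toLinearMap, hm.conj hx fun v => ?_⟩
  have h1 : ∀ u, a⁻¹ (a u) = u := fun u => a.symm_apply_apply u
  have h2 : ∀ u, a (a⁻¹ u) = u := fun u => a.apply_symm_apply u
  have h3 : ∀ u, J hT (a.toLinearMap ∘ₗ n ∘ₗ (a⁻¹).toLinearMap) (a u) = a (J hT n u) := by
    intro u
    apply hT.kN.ext
    intro y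
    rw [J_spec]
    simp only [LinearMap.comp_apply, LinearEquiv.coe_coe]
    have hak : ∀ x y, k (a x) (a y) = k x y := SU_le _ ha
    have h4 := hak u (n (a⁻¹ y))
    have h5 := hak (J hT n u) (a⁻¹ y)
    rw [h2] at h5
    rw [h4, h5, J_spec]
  rw [GP_flip_apply, GP_flip_apply, kap_conj1 hT (hX.le hx) e, kap_conj1 hT (hX.le hx) e, h3]
  simp only [map_add, e, LinearMap.comp_apply, LinearEquiv.coe_coe, h1]

/-- central elements -/
lemma central (hX : HX hT X) {n : Module.End F U} (hn : n ∈ NN hT X) {w z z' : W} (hw : g w w = 0)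
    (hz : g z w = 0) (hz' : g z' w = 0) (h1 : g z' z = 1) : In X (E hT (τ.flip w ∘ₗ (n + J hT n)) (τ.flip w)) := by
  have hwz : g w z = 0 := hT.gS.symm_zero hz
  have hwz' : g w z' = 0 := hT.gS.symm_zero hz'
  have hzz' : g z z' = -1 := by rw [hT.gS.skew z' z, h1, map_one]
  obtain ⟨m, hm⟩ := hn w hw z hz
  obtain ⟨m', hm'⟩ := one_mem_NN hX w hw z' hz'
  have h2 := hm.comm hm' (by
    intro v
    simp only [GP_flip_apply, map_add, kap_pure, hw, hwz, hwz', hz, hz', zero_smul, add_zero, zero_add,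
      map_zero, LinearMap.zero_apply, map_smul, LinearMap.smul_apply, smul_zero, sub_self]) (by
    intro v
    simp only [GP_flip_apply, map_add, kap_pure, hw, hwz, hwz', hz, hz', zero_smul, add_zero, zero_add,
      map_zero, LinearMap.zero_apply, map_smul, LinearMap.smul_apply, smul_zero, sub_self])
  convert h2 using 1
  ext v
  simp only [LinearMap.sub_apply, Module.End.mul_apply, GP_flip_apply, map_add, kap_pure, hw, hwz, hwz', hz, hz', h1, hzz',
    zero_smul, add_zero, zero_add, map_zero, LinearMap.zero_apply, map_smul, LinearMap.smul_apply, smul_zero, J_one,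
    Module.End.one_apply, one_smul, neg_smul, sub_neg_eq_add, E_flip, LinearMap.add_apply, map_neg, LinearMap.neg_apply]
  abel

/-- central elements come from the coefficient algebra -/
lemma mem_of_central (hX : HX hT X) (hd : 4 ≤ finrank F W) {n : Module.End F U} (hn : J hT n = n) {w : W} (hw : g w w = 0)
    (hw0 : w ≠ 0) (h1 : In X (E hT (τ.flip w ∘ₗ n) (τ.flip w))) : n ∈ NN hT X := by
  have key : ∀ f, g f f = 0 → f ≠ 0 → In X (E hT (τ.flip f ∘ₗ n) (τ.flip f)) := by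
    intro f hf hf0
    obtain ⟨b, hb, hbw⟩ := iso_trans hT.gS hd hw hw0 hf hf0
    obtain ⟨x, hx, e⟩ := hX.r₂ b hb
    refine h1.conj hx fun v => ?_
    rw [E_conj hT (hX.le hx)]
    have h2 : x.toLinearMap ∘ₗ τ.flip w = τ.flip f := by
      ext u
      rw [← hbw]
      exact e u w
    rw [← LinearMap.comp_assoc, h2]
  obtain ⟨f, hf, hfw, hfs⟩ := exists_iso_perp hT.gS hd hw hw0
  have hwf : g w f = 0 := hT.gS.symm_zero hfw
  have hf0 : f ≠ 0 := by rintro rfl; exact hfs (Submodule.zero_mem _)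
  have hwf0 : w + f ≠ 0 := by
    intro h
    apply hfs
    rw [eq_neg_of_add_eq_zero_right h]
    exact Submodule.neg_mem _ (Submodule.mem_span_singleton_self _)
  have h2 := key f hf hf0
  have h3 := key (w + f) (by simp [hw, hf, hwf, hfw]) hwf0
  have h4 := (h3.mul (h1.neg (by
    intro v
    simp only [E_flip]
    simp only [kap_pure, hw, zero_smul, map_zero, LinearMap.zero_apply])) (by
    intro v
    simp only [LinearMap.neg_apply, E_flip]
    simp only [map_neg, kap_pure, map_add,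
      hw, hwf, add_zero, zero_smul, map_zero, LinearMap.zero_apply, neg_zero])).mul (h2.neg (by
    intro v
    simp only [E_flip]
    simp only [kap_pure, hf, zero_smul, map_zero, LinearMap.zero_apply])) (by
    intro v
    simp only [LinearMap.neg_apply, LinearMap.add_apply, E_flip]
    simp only [
      map_neg, kap_pure, map_add, hf, hfw, hwf, add_zero, zero_smul, map_zero, LinearMap.zero_apply, neg_zero])
  apply mem_NN hX hd hw hw0 hf hfw hfs
  refine ⟨0, ?_⟩
  convert h4 using 1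
  ext v
  simp only [GP_flip_apply, E_flip, LinearMap.neg_apply, LinearMap.add_apply]
  simp only [kap_add, map_add, hn, LinearMap.zero_apply, LinearMap.add_apply, map_zero, add_zero]
  abel

/-- a totally isotropic pair and a partner -/
lemma exists_frame (H : IsSkew g) (hd : 4 ≤ finrank F W) : ∃ w f p : W, g w w = 0 ∧ w ≠ 0 ∧ g f f = 0 ∧ g f w = 0 ∧
    f ∉ Submodule.span F {w} ∧ g p p = 0 ∧ g p w = 0 ∧ g p f = 1 := by
  obtain ⟨w, hw0, hw, -, -⟩ := exists_perp_iso H hd (0 : W) 0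
  obtain ⟨f, hf, hfw, hfs⟩ := exists_iso_perp H hd hw hw0
  obtain ⟨p, p1, p2, p3⟩ := exists_hyp2 H hw0 hf hfw hfs
  exact ⟨w, f, p, hw, hw0, hf, hfw, hfs, p1, p2, p3⟩

lemma J_mem_NN (hX : HX hT X) (hd : 4 ≤ finrank F W) {n : Module.End F U} (hn : n ∈ NN hT X) : J hT n ∈ NN hT X := by
  obtain ⟨w, f, p, hw, hw0, hf, hfw, hfs, p1, p2, p3⟩ := exists_frame hT.gS hd
  have h1 := central hX hn hw hfw p2 p3
  have h2 : n + J hT n ∈ NN hT X := mem_of_central hX hd (by rw [J_add, J_J, add_comm]) hw hw0 h1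
  have h3 := add_mem_NN h2 (smul_mem_NN hn (-1))
  have h4 : n + J hT n + (-1 : F) • n = J hT n := by rw [neg_one_smul]; abel
  rwa [h4] at h3

lemma exists_tr (hT : TS k g h τ) : ∃ t : F, t + σ t = 1 := by
  obtain ⟨l, hl⟩ := hT.gS.ne
  have h1 : l - σ l ≠ 0 := fun h => hl (sub_eq_zero.1 h).symm
  refine ⟨l * (l - σ l)⁻¹, ?_⟩
  rw [map_mul, map_inv₀, map_sub, hT.gS.inv]
  have h2 : (σ l - l)⁻¹ = -(l - σ l)⁻¹ := by rw [← neg_sub, inv_neg]
  rw [h2]
  have h3 : (l - σ l) * (l - σ l)⁻¹ = 1 := mul_inv_cancel₀ h1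
  linear_combination h3

/-- central elements from symmetric coefficients -/
lemma sym_central (hX : HX hT X) {s : Module.End F U} (hs : s ∈ NN hT X) (hsj : J hT s = s) {w z z' : W}
    (hw : g w w = 0) (hz : g z w = 0) (hz' : g z' w = 0) (h1 : g z' z = 1) :
    In X (E hT (τ.flip w ∘ₗ s) (τ.flip w)) := by
  obtain ⟨t, ht⟩ := exists_tr hT
  have h2 := central hX (smul_mem_NN hs t) hw hz hz' h1
  have h3 : t • s + J hT (t • s) = s := by rw [J_smul, hsj, ← add_smul, ht, one_smul]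
  rwa [h3] at h2

/-- multiplication by symmetric elements -/
lemma sym_mul_mem (hX : HX hT X) (hd : 4 ≤ finrank F W) {s n : Module.End F U} (hs : s ∈ NN hT X)
    (hsj : J hT s = s) (hn : n ∈ NN hT X) : s * n ∈ NN hT X := by
  obtain ⟨w, f, p, hw, hw0, hf, hfw, hfs, p1, p2, p3⟩ := exists_frame hT.gS hd
  have hwf : g w f = 0 := hT.gS.symm_zero hfw
  have hwp : g w p = 0 := hT.gS.symm_zero p2
  have p4 : g f p = -1 := by rw [hT.gS.skew p f, p3, map_one]
  have hp0 : p ≠ 0 := by rintro rfl; simp at p3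
  -- a hyperbolic pair orthogonal to `p`
  have hps : w ∉ Submodule.span F {p} := by
    intro h
    obtain ⟨c, hc⟩ := Submodule.mem_span_singleton.1 h
    have h1 : g w f = c := by rw [← hc, map_smul, LinearMap.smul_apply, p3, smul_eq_mul, mul_one]
    rw [hwf] at h1
    rw [← h1, zero_smul] at hc
    exact hw0 hc.symm
  obtain ⟨r, r1, r2, r3⟩ := exists_hyp2 hT.gS hp0 hw hwp hps
  obtain ⟨x, hx, e⟩ := sym_central hX hs hsj p1 hwp r2 r3
  have e' : ∀ v, x v = v + τ (s (kap hT p v)) p := fun v => by rw [e]; rfl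
  have h1 : ∀ u, x (τ u w) = τ u w := by
    intro u
    rw [e', kap_pure, hwp, zero_smul, map_zero, map_zero, LinearMap.zero_apply, add_zero]
  have h2 := hn w hw f hfw
  have h3 := P_conj' hX.le hx h1 h2
  have h4 : x.toLinearMap ∘ₗ (τ.flip f ∘ₗ n) = τ.flip f ∘ₗ n - τ.flip p ∘ₗ (s * n) := by
    ext u
    simp only [LinearMap.comp_apply, LinearMap.flip_apply, LinearMap.sub_apply, LinearEquiv.coe_coe,
      Module.End.mul_apply]
    rw [e', kap_pure, p4, neg_smul, one_smul, map_neg, map_neg, LinearMap.neg_apply, sub_eq_add_neg]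
  rw [h4] at h3
  have h5 := P_sub hw (kap_flip hT hfw n) (fun u => by
    rw [LinearMap.sub_apply, map_sub, kap_flip hT hfw, kap_flip hT p2, sub_zero]) h2 h3
  rw [sub_sub_cancel] at h5
  have hpw : p ∉ Submodule.span F {w} := by
    intro h
    obtain ⟨c, hc⟩ := Submodule.mem_span_singleton.1 h
    rw [← hc, map_smul, LinearMap.smul_apply, hwf, smul_zero] at p3
    exact zero_ne_one p3
  exact mem_NN hX hd hw hw0 p1 p2 hpw h5

lemma mul_mem_NN (hX : HX hT X) (hd : 4 ≤ finrank F W) {n n' : Module.End F U} (hn : n ∈ NN hT X) (hn' : n' ∈ NN hT X) :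
    n * n' ∈ NN hT X := by
  obtain ⟨l, hl⟩ := hT.gS.ne
  have h1 : l - σ l ≠ 0 := fun h => hl (sub_eq_zero.1 h).symm
  have hJ := J_mem_NN hX hd hn
  obtain ⟨s2, hs2⟩ : ∃ s2, s2 = (l - σ l)⁻¹ • (n + (-1 : F) • J hT n) := ⟨_, rfl⟩
  obtain ⟨s1, hs1⟩ : ∃ s1, s1 = n + (-l) • s2 := ⟨_, rfl⟩
  have m2 : s2 ∈ NN hT X := by rw [hs2]; exact smul_mem_NN (add_mem_NN hn (smul_mem_NN hJ _)) _
  have m1 : s1 ∈ NN hT X := by rw [hs1]; exact add_mem_NN hn (smul_mem_NN m2 _)
  have e0 : (σ l - l)⁻¹ = -(l - σ l)⁻¹ := by rw [← neg_sub, inv_neg]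
  have j2 : J hT s2 = s2 := by
    rw [hs2, J_smul, J_add, J_smul, J_J, map_inv₀, map_sub, hT.gS.inv, e0, map_neg, map_one]
    module
  have j1 : J hT s1 = s1 := by
    rw [hs1, J_add, J_smul, j2, map_neg]
    have h2 : (l - σ l) • s2 = n + (-1 : F) • J hT n := by rw [hs2, smul_smul, mul_inv_cancel₀ h1, one_smul]
    have h3 : J hT n = n - (l - σ l) • s2 := by rw [h2]; module
    rw [h3]; module
  have h4 := add_mem_NN (sym_mul_mem hX hd m1 j1 hn') (smul_mem_NN (sym_mul_mem hX hd m2 j2 hn') l)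
  have h5 : s1 * n' + l • (s2 * n') = n * n' := by
    rw [hs1, add_mul, smul_mul_assoc]
    module
  rwa [h5] at h4

/-- the coefficient algebra -/
def Nalg (hX : HX hT X) (hd : 4 ≤ finrank F W) : Subalgebra F (Module.End F U) where
  carrier := NN hT X
  mul_mem' := mul_mem_NN hX hd
  add_mem' := add_mem_NN
  algebraMap_mem' c := by
    rw [Algebra.algebraMap_eq_smul_one]
    exact smul_mem_NN (one_mem_NN hX) c

lemma mem_Nalg (hX : HX hT X) (hd : 4 ≤ finrank F W) {n : Module.End F U} : n ∈ Nalg hX hd ↔ n ∈ NN hT X := Iff.rfl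

end H95.TV
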