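import Mathlib
import Cfsg.Agent.Lib.H95.TV4

set_option autoImplicit false
set_option linter.unusedSectionVars false
set_option linter.unusedVariables false
set_option linter.unusedSimpArgs false

/-!
Elements mapping one isotropic fibre to a fibre are pure tensors.
-/

namespace H95.TV

open Module H95.UBasic H95.TVG

variable {F U W V : Type*} [Field F] [AddCommGroup U] [Module F U] [AddCommGroup W] [Module F W] [AddCommGroup V]
  [Module F V] {σ : F →+* F}
variable {k : U →ₗ[F] U →ₛₗ[σ] F} {g : W →ₗ[F] W →ₛₗ[σ] F} {h : V →ₗ[F] V →ₛₗ[σ] F} {τ : U →ₗ[F] W →ₗ[F] V}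
variable [FiniteDimensional F U] [FiniteDimensional F W] {X : Subgroup (V ≃ₗ[F] V)} {hT : TS k g h τ}

lemma E_flip' (hT : TS k g h τ) (y : W) (v : V) : E hT (τ.flip y) (τ.flip y) v = τ (kap hT y v) y := rfl

lemma exists_pair (hT : TS k g h τ) (hU : 1 ≤ finrank F U) : ∃ y y' : U, k y' y = 1 := by
  obtain ⟨ζ, H⟩ := hT.HD
  have : Nontrivial U := Module.nontrivial_of_finrank_pos (R := F) (by omega)
  obtain ⟨x, hx⟩ := exists_ne (0 : U)
  obtain ⟨u, hu⟩ := dual1 H.sk hx
  rw [H.app] at hu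
  refine ⟨x, ζ • u, ?_⟩
  rw [map_smul, LinearMap.smul_apply, smul_eq_mul, hu]

lemma tau_ne (hT : TS k g h τ) {u : U} {w : W} (h0 : τ u w = 0) (hw : w ≠ 0) : u = 0 := by
  apply hT.kN.nd
  intro u'
  obtain ⟨f, hf⟩ := dual1 hT.gS hw
  have h1 : h (τ u w) (τ u' f) = 0 := by rw [h0, map_zero, LinearMap.zero_apply]
  rw [hT.ht, hT.gS.skew f w, hf, map_one, mul_neg, mul_one, neg_eq_zero] at h1
  exact h1

/-- vectors with no contraction outside `w` -/
lemma pure_of_kap (hT : TS k g h τ) {w f : W} (hfw : g f w = 1) {v : V}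
    (hv : ∀ f, g f w = 0 → kap hT f v = 0) : v = τ (-kap hT f v) w := by
  have hwf : g w f = -1 := by rw [hT.gS.skew f w, hfw, map_one]
  have h0 : (h.flip (v - τ (-kap hT f v) w)) = 0 := by
    apply hT.ext
    intro u y
    rw [LinearMap.flip_apply, LinearMap.zero_apply]
    apply hT.hS.symm_zero
    obtain ⟨y', hy'⟩ : ∃ y', y' = y - g y w • f := ⟨_, rfl⟩
    have h1 : g y' w = 0 := by
      rw [hy', map_sub, LinearMap.sub_apply, map_smul, LinearMap.smul_apply, hfw, smul_eq_mul, mul_one, sub_self]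
    have h2 : y = y' + g y w • f := by rw [hy', sub_add_cancel]
    have h3 : h v (τ u y') = 0 := by rw [← kap_spec hT, hv _ h1, map_zero, LinearMap.zero_apply]
    rw [h2, map_sub, LinearMap.sub_apply, map_add, map_add, map_smul, map_smulₛₗ, h3, ← kap_spec hT f v, map_add,
      map_smulₛₗ, hT.ht, hT.ht, hT.gS.symm_zero h1, hwf, map_neg, LinearMap.neg_apply]
    simp
  rw [← sub_eq_zero]
  apply hT.hS.nd
  intro z
  apply hT.hS.symm_zero
  exact LinearMap.congr_fun h0 z

/-- if all coefficients are scalar, fibres over `w^⊥` are mapped to fibres -/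
theorem norm_step0 (hX : HX hT X) (hd : 4 ≤ finrank F W) (hU : 1 ≤ finrank F U)
    (hN : ∀ n ∈ NN hT X, ∃ c : F, n = c • (1 : Module.End F U)) {x : V ≃ₗ[F] V} (hx : x ∈ X) {α : Module.End F U} {w : W}
    (hw : g w w = 0) (hw0 : w ≠ 0) (hxw : ∀ u, x (τ u w) = τ (α u) w) {e : W} (he : g e e = 0) (hew : g e w = 0)
    (hes : e ∉ Submodule.span F {w}) : ∃ e', ∀ u, x (τ u e) = τ (α u) e' := by
  have hxh : ∀ a b, h (x a) (x b) = h a b := hX.le hx
  have he0 : e ≠ 0 := by rintro rfl; exact hes (Submodule.zero_mem _)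
  -- alpha is bijective
  have hai : Function.Injective α := by
    rw [injective_iff_map_eq_zero]
    intro u hu
    have h1 := hxw u
    rw [hu, map_zero, LinearMap.zero_apply, LinearEquiv.map_eq_zero_iff] at h1
    exact tau_ne hT h1 hw0
  have has : Function.Surjective α := LinearMap.injective_iff_surjective.1 hai
  obtain ⟨f0, hf0, hf0w⟩ := exists_hyp hT.gS hw hw0
  have hwf0 : g w f0 = -1 := by rw [hT.gS.skew f0 w, hf0w, map_one]
  have hxw' : x.toLinearMap ∘ₗ τ.flip w = τ.flip w ∘ₗ α := by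
    ext u
    exact hxw u
  -- the norm of alpha
  obtain ⟨δ, hδ⟩ : ∃ δ : F, α * J hT α = δ • (1 : Module.End F U) := by
    apply hN
    refine mem_of_central hX hd (by rw [J_mul, J_J]) hw hw0 ?_
    have h1 := (hX.root_in hw (map_one σ)).conj (N' := E hT (τ.flip w ∘ₗ (α * J hT α)) (τ.flip w)) hx (fun v => by
      rw [one_smul, E_conj hT (hX.le hx), hxw', E_apply, A_flip_comp, E_apply]
      rfl)
    exact h1
  have hJi : ∀ u, J hT α u = 0 → u = 0 := by
    intro u hu
    apply hT.kN.nd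
    intro y
    obtain ⟨y, rfl⟩ := has y
    rw [← J_spec hT, hu, map_zero, LinearMap.zero_apply]
  have hδ0 : δ ≠ 0 := by
    rintro rfl
    have : Nontrivial U := Module.nontrivial_of_finrank_pos (R := F) (by omega)
    obtain ⟨y, hy⟩ := exists_ne (0 : U)
    have h1 := LinearMap.congr_fun hδ y
    rw [zero_smul, LinearMap.zero_apply, Module.End.mul_apply] at h1
    exact hy (hJi _ ((injective_iff_map_eq_zero α).1 hai _ h1))
  have hδs : σ δ = δ := by
    have : Nontrivial U := Module.nontrivial_of_finrank_pos (R := F) (by omega)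
    have h1 : J hT (α * J hT α) = α * J hT α := by rw [J_mul, J_J]
    rw [hδ, J_smul, J_one] at h1
    exact smul_left_injective F (one_ne_zero (α := Module.End F U)) h1
  have hδ' : ∀ u, α (J hT α u) = δ • u := fun u => LinearMap.congr_fun hδ u
  have hδ'' : ∀ u, J hT α (α u) = δ • u := by
    intro u
    apply hai
    rw [hδ', map_smul]
  -- the image of the second fibre
  obtain ⟨T, hTd⟩ : ∃ T, T = (x.toLinearMap ∘ₗ τ.flip e) ∘ₗ J hT α := ⟨_, rfl⟩
  have hTu : ∀ u, T u = x (τ (J hT α u) e) := fun u => by rw [hTd]; rfl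
  have hPT : P hT X w T := by
    obtain ⟨m, hm⟩ := hX.heis hw hew
    refine ⟨α * m * J hT α, hm.conj hx fun v => ?_⟩
    have h1 : A hT T (x v) = J hT (J hT α) (A hT (τ.flip e) v) := by
      rw [hTd, A_comp_apply, A_iso hT (hX.le hx)]
    have h2 : J hT α (kap hT w (x v)) = kap hT w v := by
      rw [← A_flip_comp, ← hxw', A_iso hT (hX.le hx)]
      rfl
    rw [GP_apply, GP_apply, h1, J_J, hTu, h2, map_add, map_add, hxw, hxw]
    simp only [Module.End.mul_apply, h2]
    rfl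
  have hkT : ∀ u, kap hT w (T u) = 0 := by
    intro u
    apply hT.kN.nd
    intro y
    obtain ⟨y, rfl⟩ := has y
    rw [kap_spec, ← hxw, hTu, hxh, hT.ht, hew, mul_zero]
  -- scalar contractions
  have hsc : ∀ f, g f w = 0 → ∃ c : F, ∀ u, kap hT f (T u) = c • u := by
    let S : Submodule F W :=
      { carrier := {f | ∃ c : F, ∀ u, kap hT f (T u) = c • u}
        add_mem' := by
          rintro a b ⟨c, hc⟩ ⟨c', hc'⟩
          refine ⟨c + c', fun u => ?_⟩
          rw [kap_add, LinearMap.add_apply, hc, hc', add_smul]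
        zero_mem' := by
          refine ⟨0, fun u => ?_⟩
          have := kap_smul hT 0 (0 : W)
          rw [zero_smul, map_zero, zero_smul] at this
          rw [this, zero_smul]; rfl
        smul_mem' := by
          rintro b a ⟨c, hc⟩
          refine ⟨σ b * c, fun u => ?_⟩
          rw [kap_smul, LinearMap.smul_apply, hc, smul_smul] }
    intro f hf
    refine span_iso_perp hT.gS hd hw hw0 S ?_ hf
    intro f hf hfw hfs
    have h1 := P_contract hX hw hf hfw hkT hPT (map_one σ)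
    rw [one_smul] at h1
    obtain ⟨c, hc⟩ := hN _ (mem_NN hX hd hw hw0 hf hfw hfs h1)
    exact ⟨c, fun u => LinearMap.congr_fun hc u⟩
  obtain ⟨y, y', hyy⟩ := exists_pair hT hU
  obtain ⟨z0, hz0⟩ : ∃ z0, ∀ f, g z0 f = h (T y') (τ y f) := ⟨ad hT.gN h (τ y) (T y'), fun f => ad_spec _ _ _ _ _⟩
  have hz0w : g z0 w = 0 := by rw [hz0, ← kap_spec hT, hkT, map_zero, LinearMap.zero_apply]
  have hsc' : ∀ f, g f w = 0 → ∀ u, kap hT f (T u) = g z0 f • u := by
    intro f hf u
    obtain ⟨c, hc⟩ := hsc f hf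
    rw [hc, hz0, ← kap_spec hT, hc, map_smul, LinearMap.smul_apply, hyy, smul_eq_mul, mul_one]
  obtain ⟨L, hL⟩ : ∃ L : Module.End F U, ∀ u, T u = τ u z0 + τ (L u) w := by
    refine ⟨-(kap hT f0 ∘ₗ (T - τ.flip z0)), fun u => ?_⟩
    have h1 := pure_of_kap hT hf0w (v := T u - τ u z0) (by
      intro f hf
      rw [map_sub, hsc' f hf, kap_pure, sub_self])
    rw [← sub_eq_iff_eq_add']
    exact h1
  have hTiso : ∀ u u', h (T u) (T u') = 0 := by
    intro u u'
    rw [hTu, hTu, hxh, hT.ht, he, mul_zero]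
  have hwz0 : g w z0 = 0 := hT.gS.symm_zero hz0w
  have hz0i : g z0 z0 = 0 := by
    have h1 := hTiso y' y
    rw [hL, hL] at h1
    simp only [map_add, LinearMap.add_apply, hT.ht, hw, hz0w, hwz0, mul_zero, add_zero, hyy, one_mul] at h1
    exact h1
  have hz0s : z0 ∉ Submodule.span F {w} := by
    intro hcon
    obtain ⟨c, rfl⟩ := Submodule.mem_span_singleton.1 hcon
    have h1 := hL y
    rw [hTu, map_smul, ← LinearMap.smul_apply, ← map_smul, ← LinearMap.add_apply, ← map_add] at h1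
    obtain ⟨a, ha⟩ := has (c • y + L y)
    rw [← ha, ← hxw] at h1
    have h2 := x.injective h1
    have h3 : h (τ (J hT α y) e) (τ y' f0) = h (τ a w) (τ y' f0) := by rw [h2]
    -- independent second vector
    obtain ⟨p, p1, p2, p3⟩ := exists_hyp2 hT.gS hw0 he hew hes
    have p4 : g e p = -1 := by rw [hT.gS.skew p e, p3, map_one]
    have hJy : J hT α y = 0 := by
      apply hT.kN.nd
      intro u'
      have h4 : h (τ (J hT α y) e) (τ u' p) = h (τ a w) (τ u' p) := by rw [h2]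
      rw [hT.ht, hT.ht, p4, hT.gS.symm_zero p2, mul_zero, mul_neg, mul_one, neg_eq_zero] at h4
      exact h4
    have hy0 := hJi y hJy
    rw [hy0, map_zero] at hyy
    exact zero_ne_one hyy
  -- the form of x on the second fibre
  obtain ⟨z1, hz1⟩ : ∃ z1, z1 = δ⁻¹ • z0 := ⟨_, rfl⟩
  obtain ⟨β, hβ⟩ : ∃ β : Module.End F U, ∀ u, x (τ u e) = τ (α u) z1 + τ (β u) w := by
    refine ⟨δ⁻¹ • (L * α), fun u => ?_⟩
    have h1 := hL (α u)
    rw [hTu, hδ''] at h1
    simp only [map_smul, LinearMap.smul_apply] at h1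
    have h2 : x (τ u e) = δ⁻¹ • (δ • x (τ u e)) := by rw [smul_smul, inv_mul_cancel₀ hδ0, one_smul]
    rw [h2, h1, hz1]
    simp
  have hz1i : g z1 z1 = 0 := by rw [hz1]; simp [hz0i]
  have hz1w : g z1 w = 0 := by rw [hz1]; simp [hz0w]
  have hwz1 : g w z1 = 0 := hT.gS.symm_zero hz1w
  have hz1s : z1 ∉ Submodule.span F {w} := by
    intro hcon
    apply hz0s
    have := Submodule.smul_mem _ δ hcon
    rwa [hz1, smul_smul, mul_inv_cancel₀ hδ0, one_smul] at this
  have hγ : x.toLinearMap ∘ₗ τ.flip e = τ.flip z1 ∘ₗ α + τ.flip w ∘ₗ β := by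
    ext u
    exact hβ u
  have hPn : P hT X w (τ.flip z1 ∘ₗ (α * J hT β)) := by
    refine ⟨β * J hT β, ?_⟩
    have h1 := (hX.root_in he (map_one σ)).conj (N' := E hT (τ.flip z1 ∘ₗ α + τ.flip w ∘ₗ β) (τ.flip z1 ∘ₗ α + τ.flip w ∘ₗ β))
      hx (fun v => by rw [one_smul, E_conj hT (hX.le hx), hγ])
    have h2 := hX.root_in hz1i (c := -δ) (by rw [map_neg, hδs])
    have hA : ∀ v, A hT (τ.flip z1 ∘ₗ α + τ.flip w ∘ₗ β) v = J hT α (kap hT z1 v) + J hT β (kap hT w v) := by
      intro v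
      rw [A_add, LinearMap.add_apply, A_flip_comp, A_flip_comp]
    have h3 := h1.mul h2 (fun v => by
      rw [LinearMap.smul_apply, E_apply hT (τ.flip z1), LinearMap.flip_apply, map_smul, E_apply, hA, kap_pure, kap_pure, hz1i,
        hz1w]
      simp)
    convert h3 using 1
    ext v
    rw [GP_flip_apply, LinearMap.add_apply, E_apply, hA, LinearMap.smul_apply, E_flip' hT]
    simp only [J_mul, J_J, LinearMap.add_apply, LinearMap.comp_apply, LinearMap.flip_apply, Module.End.mul_apply, map_add,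
      hδ', map_smul, LinearMap.smul_apply, neg_smul]
    abel
  obtain ⟨c, hc⟩ := hN _ (mem_NN hX hd hw hw0 hz1i hz1w hz1s hPn)
  have hc' : ∀ u, α (J hT β u) = c • u := fun u => LinearMap.congr_fun hc u
  have hJβ : J hT β = (δ⁻¹ * c) • J hT α := by
    ext u
    apply hai
    rw [hc', LinearMap.smul_apply, map_smul, hδ', smul_smul]
    congr 1
    field_simp
  have hβα : β = σ (δ⁻¹ * c) • α := by
    rw [← J_J hT β, hJβ, J_smul, J_J]
  refine ⟨z1 + σ (δ⁻¹ * c) • w, fun u => ?_⟩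
  rw [hβ, hβα]
  simp

/-- pure tensors -/
def Kr (τ : U →ₗ[F] W →ₗ[F] V) (x : V ≃ₗ[F] V) : Prop := ∃ α : Module.End F U, ∀ w, ∃ w', ∀ u, x (τ u w) = τ (α u) w'

theorem norm_step1 (hX : HX hT X) (hd : 4 ≤ finrank F W) (hU : 1 ≤ finrank F U)
    (hN : ∀ n ∈ NN hT X, ∃ c : F, n = c • (1 : Module.End F U)) {x : V ≃ₗ[F] V} (hx : x ∈ X) {α : Module.End F U} {w w' : W}
    (hw : g w w = 0) (hw0 : w ≠ 0) (hxw : ∀ u, x (τ u w) = τ (α u) w') {e : W} (hew : g e w = 0) :
    ∃ e', ∀ u, x (τ u e) = τ (α u) e' := by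
  have hxh : ∀ a b, h (x a) (x b) = h a b := hX.le hx
  obtain ⟨y0, y', hyy⟩ := exists_pair hT hU
  have hai : Function.Injective α := by
    rw [injective_iff_map_eq_zero]
    intro u hu
    have h1 := hxw u
    rw [hu, map_zero, LinearMap.zero_apply, LinearEquiv.map_eq_zero_iff] at h1
    exact tau_ne hT h1 hw0
  have has : Function.Surjective α := LinearMap.injective_iff_surjective.1 hai
  have hw' : g w' w' = 0 := by
    obtain ⟨a, ha⟩ := has y0
    obtain ⟨b, hb⟩ := has y'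
    have h1 := hxh (τ b w) (τ a w)
    rw [hxw, hxw, hT.ht, hT.ht, hw, mul_zero, ha, hb, hyy, one_mul] at h1
    exact h1
  have hw0' : w' ≠ 0 := by
    rintro rfl
    have h1 := hxw y0
    rw [map_zero, LinearEquiv.map_eq_zero_iff] at h1
    have h2 := tau_ne hT h1 hw0
    rw [h2, map_zero] at hyy
    exact zero_ne_one hyy
  obtain ⟨b, hb, hbw⟩ := iso_trans hT.gS hd hw' hw0' hw hw0
  obtain ⟨y, hy, ey⟩ := hX.r₂ b hb
  let S : Submodule F W :=
    { carrier := {e | ∃ e', ∀ u, (y * x) (τ u e) = τ (α u) e'}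
      add_mem' := by
        rintro a b ⟨c, hc⟩ ⟨c', hc'⟩
        refine ⟨c + c', fun u => ?_⟩
        rw [map_add, map_add, hc, hc', ← map_add]
      zero_mem' := ⟨0, fun u => by simp⟩
      smul_mem' := by
        rintro b a ⟨c, hc⟩
        refine ⟨b • c, fun u => ?_⟩
        rw [map_smul, map_smul, hc, ← map_smul] }
  obtain ⟨e', he'⟩ : e ∈ S := by
    refine span_iso_perp hT.gS hd hw hw0 S ?_ hew
    intro f hf hfw hfs
    refine norm_step0 hX hd hU hN (X.mul_mem hy hx) hw hw0 (fun u => ?_) hf hfw hfs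
    rw [LinearEquiv.mul_apply, hxw, ey, hbw]
  refine ⟨b⁻¹ e', fun u => ?_⟩
  have h1 : b (b⁻¹ e') = e' := b.apply_symm_apply e'
  apply y.injective
  rw [ey, h1]
  exact he' u

/-- the norm theorem -/
theorem norm_thm (hX : HX hT X) (hd : 4 ≤ finrank F W) (hU : 1 ≤ finrank F U)
    (hN : ∀ n ∈ NN hT X, ∃ c : F, n = c • (1 : Module.End F U)) {x : V ≃ₗ[F] V} (hx : x ∈ X) {α : Module.End F U} {w w' : W}
    (hw : g w w = 0) (hw0 : w ≠ 0) (hxw : ∀ u, x (τ u w) = τ (α u) w') : Kr τ x := by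
  refine ⟨α, ?_⟩
  let S : Submodule F W :=
    { carrier := {e | ∃ e', ∀ u, x (τ u e) = τ (α u) e'}
      add_mem' := by
        rintro a b ⟨c, hc⟩ ⟨c', hc'⟩
        refine ⟨c + c', fun u => ?_⟩
        rw [map_add, map_add, hc, hc', ← map_add]
      zero_mem' := ⟨0, fun u => by simp⟩
      smul_mem' := by
        rintro b a ⟨c, hc⟩
        refine ⟨b • c, fun u => ?_⟩
        rw [map_smul, map_smul, hc, ← map_smul] }
  have h1 : ∀ e, g e w = 0 → e ∈ S := fun e he => norm_step1 hX hd hU hN hx hw hw0 hxw he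
  obtain ⟨f, hf, hfw, hfs⟩ := exists_iso_perp hT.gS hd hw hw0
  have hf0 : f ≠ 0 := by rintro rfl; exact hfs (Submodule.zero_mem _)
  obtain ⟨p, p1, p2, p3⟩ := exists_hyp2 hT.gS hw0 hf hfw hfs
  have hpf : g p f = 1 := p3
  -- a vector orthogonal to f but not to w
  obtain ⟨r, hr1, hr2⟩ : ∃ r, g r f = 0 ∧ g r w = 1 := by
    obtain ⟨r, hr⟩ := dual1 hT.gS hw0
    refine ⟨r - g r f • p, ?_, ?_⟩
    · rw [map_sub, LinearMap.sub_apply, map_smul, LinearMap.smul_apply, hpf, smul_eq_mul, mul_one, sub_self]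
    · rw [map_sub, LinearMap.sub_apply, map_smul, LinearMap.smul_apply, p2, hr, smul_zero, sub_zero]
  have h2 : r ∈ S := by
    obtain ⟨f', hf'⟩ := h1 f hfw
    exact norm_step1 hX hd hU hN hx hf hf0 hf' hr1
  intro e
  have h3 : e - g e w • r ∈ S := h1 _ (by
    rw [map_sub, LinearMap.sub_apply, map_smul, LinearMap.smul_apply, hr2, smul_eq_mul, mul_one, sub_self])
  have h4 := S.add_mem h3 (S.smul_mem (g e w) h2)
  rw [sub_add_cancel] at h4
  exact h4

end H95.TV
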