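import Mathlib
import Cfsg.Agent.Lib.H95.UPair
import Cfsg.Agent.Lib.H95.TUG

set_option autoImplicit false
set_option linter.unusedSectionVars false
set_option linter.unusedVariables false

/-!
Transvection vectors of a group, orthogonal decompositions of skew-hermitian spaces, monomial
isometries.
-/

namespace H95.US

open Module H95.UBasic H95.UPair

variable {F V : Type*} [Field F] [AddCommGroup V] [Module F V] {σ : F →+* F}
variable {h : V →ₗ[F] V →ₛₗ[σ] F}

/-- isotropic vectors all of whose transvections lie in `X` -/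
def T (h : V →ₗ[F] V →ₛₗ[σ] F) (X : Subgroup (V ≃ₗ[F] V)) (v : V) : Prop :=
  h v v = 0 ∧ ∀ c, σ c = c → rf h v c ∈ X

variable {X : Subgroup (V ≃ₗ[F] V)}

lemma T_zero : T h X 0 := by
  refine ⟨by simp, fun c hc => ?_⟩
  have : rf h (0 : V) c = 1 := by
    ext x
    rw [rf_apply (tr_good (by simp) hc)]; simp
  rw [this]; exact X.one_mem

lemma T_smul (H : IsSkew h) {v : V} (hv : T h X v) (a : F) : T h X (a • v) := by
  refine ⟨by simp [hv.1], fun c hc => ?_⟩
  rw [rf_smul H]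
  apply hv.2
  rw [map_mul, map_mul, H.inv, hc]; ring

lemma T_smul' (H : IsSkew h) {v : V} {a : F} (ha : a ≠ 0) (hv : T h X (a • v)) : T h X v := by
  have := T_smul H hv a⁻¹
  rwa [smul_smul, inv_mul_cancel₀ ha, one_smul] at this

lemma T_conj (hX : X ≤ isom h) {v : V} (hv : T h X v) {g : V ≃ₗ[F] V} (hg : g ∈ X) : T h X (g v) := by
  refine ⟨by rw [hX hg]; exact hv.1, fun c hc => ?_⟩
  rw [← rf_conj v c g (hX hg)]
  exact X.mul_mem (X.mul_mem hg (hv.2 c hc)) (X.inv_mem hg)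

lemma T_conj' (hX : X ≤ isom h) {v : V} {g : V ≃ₗ[F] V} (hg : g ∈ X) (hv : T h X (g v)) : T h X v := by
  have := T_conj hX hv (X.inv_mem hg)
  have e : g⁻¹ (g v) = v := g.symm_apply_apply v
  rwa [e] at this

lemma T_line (H : IsSkew h) (hX : X ≤ isom h) {v w : V} (hv : T h X v) (hw : T h X w) (hvw : h v w ≠ 0)
    {a b : F} (hab : h (a • v + b • w) (a • v + b • w) = 0) : T h X (a • v + b • w) := by
  by_cases ha : a = 0
  · subst ha; rw [zero_smul, zero_add]; exact T_smul H hw b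
  by_cases hb : b = 0
  · subst hb; rw [zero_smul, add_zero]; exact T_smul H hv a
  have hσ : σ (h v w) ≠ 0 := fun h0 => hvw (H.inj h0)
  have hσb : σ b ≠ 0 := fun h0 => hb (H.inj h0)
  have e1 : h w v = - σ (h v w) := H.skew v w
  have e2 : a * σ b * h v w = b * σ a * σ (h v w) := by
    simp only [map_add, LinearMap.add_apply, map_smul, LinearMap.smul_apply, smul_eq_mul, map_smulₛₗ,
      hv.1, hw.1, e1] at hab
    linear_combination hab
  set c := -(a * b⁻¹ * (σ (h v w))⁻¹) with hc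
  have hcr : σ c = c := by
    rw [hc, map_neg, map_mul, map_mul, map_inv₀, map_inv₀, H.inv]
    field_simp
    linear_combination e2
  have h1 : rf h v c w = w + (a * b⁻¹) • v := by
    rw [rf_apply (tr_good hv.1 hcr), e1, hc]
    congr 2
    field_simp
  have h2 := T_smul H (T_conj hX hw (hv.2 c hcr)) b
  rw [h1, smul_add, smul_smul] at h2
  have e3 : b * (a * b⁻¹) = a := by field_simp
  rw [e3, add_comm] at h2
  exact h2

lemma T_sub (H : IsSkew h) (hX : X ≤ isom h) {v w : V} (hv : T h X v) (hw : T h X w) (hvw : h v w ≠ 0)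
    (hab : h (w - v) (w - v) = 0) : T h X (w - v) := by
  have e : w - v = (-1 : F) • v + (1 : F) • w := by rw [neg_smul, one_smul, one_smul]; abel
  rw [e] at hab ⊢
  exact T_line H hX hv hw hvw hab

lemma isom_inj {g : V ≃ₗ[F] V} {x y : V} (hg : g ∈ isom h) : h (g x) (g y) = h x y := hg x y

/-! ### Quasi-reflections -/

/-- quasi-reflection with determinant `l` -/
noncomputable def Rq (h : V →ₗ[F] V →ₛₗ[σ] F) (u : V) (l : F) : V ≃ₗ[F] V := rf h u ((l - 1) * (h u u)⁻¹)

lemma Rq_good (H : IsSkew h) {u : V} (hu : h u u ≠ 0) {l : F} (hl : l * σ l = 1) :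
    σ ((l - 1) * (h u u)⁻¹) + (l - 1) * (h u u)⁻¹ * σ ((l - 1) * (h u u)⁻¹) * h u u = (l - 1) * (h u u)⁻¹ := by
  rw [map_mul, map_inv₀, H.self, map_sub, map_one]
  rw [inv_neg]
  field_simp
  linear_combination -hl

lemma Rq_apply (H : IsSkew h) {u : V} (hu : h u u ≠ 0) {l : F} (hl : l * σ l = 1) (x : V) :
    Rq h u l x = x + ((l - 1) * (h u u)⁻¹ * h x u) • u := by
  rw [Rq, rf_apply (Rq_good H hu hl)]

lemma Rq_self (H : IsSkew h) {u : V} (hu : h u u ≠ 0) {l : F} (hl : l * σ l = 1) : Rq h u l u = l • u := by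
  rw [Rq_apply H hu hl, mul_assoc, inv_mul_cancel₀ hu, mul_one, sub_smul, one_smul]; abel

lemma Rq_orth (H : IsSkew h) {u : V} (hu : h u u ≠ 0) {l : F} (hl : l * σ l = 1) {x : V} (hx : h x u = 0) :
    Rq h u l x = x := by
  rw [Rq_apply H hu hl, hx, mul_zero, zero_smul, add_zero]

lemma Rq_mem (H : IsSkew h) (u : V) (l : F) : Rq h u l ∈ isom h := rf_mem H _ _

lemma Rq_det [FiniteDimensional F V] (H : IsSkew h) {u : V} (hu : h u u ≠ 0) {l : F} (hl : l * σ l = 1) :
    ((LinearEquiv.det (Rq h u l) : Fˣ) : F) = l := by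
  rw [Rq, rf_det (Rq_good H hu hl), mul_assoc, inv_mul_cancel₀ hu, mul_one]; ring

lemma Rq_conj (H : IsSkew h) (u : V) (l : F) {g : V ≃ₗ[F] V} (hg : g ∈ isom h) :
    g * Rq h u l * g⁻¹ = Rq h (g u) l := by
  rw [Rq, Rq, rf_conj _ _ _ hg, hg]

lemma norm_inv (H : IsSkew h) {l : F} (hl : l * σ l = 1) : l⁻¹ * σ l⁻¹ = 1 := by
  rw [map_inv₀, ← mul_inv, hl, inv_one]

lemma norm_mul {l m : F} (hl : l * σ l = 1) (hm : m * σ m = 1) : (l * m) * σ (l * m) = 1 := by
  rw [map_mul]; linear_combination (m * σ m) * hl + hm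

lemma norm_ne {l : F} (hl : l * σ l = 1) : l ≠ 0 := by
  rintro rfl; rw [zero_mul] at hl; exact zero_ne_one hl

lemma norm_sigma (H : IsSkew h) {l : F} (hl : l * σ l = 1) : σ l = l⁻¹ := by
  have := norm_ne hl
  field_simp
  linear_combination hl

lemma norm_div (H : IsSkew h) {l : F} (hl : l ≠ 0) : (l * (σ l)⁻¹) * σ (l * (σ l)⁻¹) = 1 := by
  have : σ l ≠ 0 := fun h0 => hl (H.inj h0)
  rw [map_mul, map_inv₀, H.inv]
  field_simp

/-- there is an element of norm one other than one -/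
lemma exists_norm_one (H : IsSkew h) : ∃ l : F, l * σ l = 1 ∧ l ≠ 1 := by
  obtain ⟨a, ha⟩ := H.ne
  have ha0 : a ≠ 0 := by rintro rfl; exact ha (map_zero σ)
  have : σ a ≠ 0 := fun h0 => ha0 (H.inj h0)
  refine ⟨a * (σ a)⁻¹, norm_div H ha0, fun h1 => ha ?_⟩
  field_simp at h1
  exact h1.symm

/-- the determinant of an isometry has norm one -/
lemma det_norm [FiniteDimensional F V] (H : IsSkew h) {g : V ≃ₗ[F] V} (hg : g ∈ isom h) :
    ((LinearEquiv.det g : Fˣ) : F) * σ ((LinearEquiv.det g : Fˣ) : F) = 1 := by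
  let M : Subgroup (V ≃ₗ[F] V) :=
    { carrier := {g | ((LinearEquiv.det g : Fˣ) : F) * σ ((LinearEquiv.det g : Fˣ) : F) = 1}
      mul_mem' := fun {a b} ha hb => by
        show ((LinearEquiv.det (a * b) : Fˣ) : F) * σ ((LinearEquiv.det (a * b) : Fˣ) : F) = 1
        rw [map_mul, Units.val_mul]
        exact norm_mul ha hb
      one_mem' := by
        show ((LinearEquiv.det (1 : V ≃ₗ[F] V) : Fˣ) : F) * σ ((LinearEquiv.det (1 : V ≃ₗ[F] V) : Fˣ) : F) = 1
        simp
      inv_mem' := fun {a} ha => by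
        show ((LinearEquiv.det a⁻¹ : Fˣ) : F) * σ ((LinearEquiv.det a⁻¹ : Fˣ) : F) = 1
        rw [map_inv, Units.val_inv_eq_inv_val]
        exact norm_inv H ha }
  have : isom h ≤ M := by
    apply isom_le_of_rf H
    intro v a
    by_cases hg : σ a + a * σ a * h v v = a
    · show ((LinearEquiv.det (rf h v a) : Fˣ) : F) * σ ((LinearEquiv.det (rf h v a) : Fˣ) : F) = 1
      rw [rf_det hg, map_add, map_one, map_mul, H.self]
      linear_combination (-(h v v)) * hg
    · rw [rf, dif_neg hg]; exact M.one_mem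
  exact this hg

lemma mem_SU_of_det [FiniteDimensional F V] {g : V ≃ₗ[F] V} (hg : g ∈ isom h)
    (hd : ((LinearEquiv.det g : Fˣ) : F) = 1) : g ∈ SU h := by
  rw [mem_SU]
  exact ⟨hg, by rw [← Units.val_inj, hd]; rfl⟩

lemma SU_det [FiniteDimensional F V] {g : V ≃ₗ[F] V} (hg : g ∈ SU h) : ((LinearEquiv.det g : Fˣ) : F) = 1 := by
  rw [(mem_SU.1 hg).2]; rfl

/-! ### Decompositions -/

/-- An orthogonal decomposition with its projections. -/
structure UD (h : V →ₗ[F] V →ₛₗ[σ] F) {ι : Type*} [Fintype ι] [DecidableEq ι]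
    (D : ι → Submodule F V) (p : ι → V →ₗ[F] V) : Prop where
  nd : ∀ i, ∀ v ∈ D i, (∀ w ∈ D i, h v w = 0) → v = 0
  mem : ∀ i x, p i x ∈ D i
  self : ∀ i, ∀ x ∈ D i, p i x = x
  other : ∀ i j, i ≠ j → ∀ x ∈ D j, p i x = 0
  orth : ∀ i j, i ≠ j → ∀ u ∈ D i, ∀ v ∈ D j, h u v = 0
  sum : ∀ x, ∑ i, p i x = x

lemma exists_proj [FiniteDimensional F V] (H : IsSkew h) {W : Submodule F V}
    (hW : ∀ v ∈ W, (∀ w ∈ W, h v w = 0) → v = 0) : ∃ p : V →ₗ[F] V, (∀ x, p x ∈ W) ∧
      (∀ x ∈ W, p x = x) ∧ ∀ x, (∀ w ∈ W, h x w = 0) → p x = 0 := by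
  obtain ⟨W', P⟩ := exists_OPair H hW
  have hc := P.isCompl H
  refine ⟨W.subtype ∘ₗ Submodule.linearProjOfIsCompl W W' hc, fun x => Subtype.coe_prop _, fun x hx => ?_, fun x hx => ?_⟩
  · have := Submodule.linearProjOfIsCompl_apply_left hc ⟨x, hx⟩
    show ((Submodule.linearProjOfIsCompl W W' hc x : W) : V) = x
    exact congrArg Subtype.val this
  · have hx' : x ∈ W' := (P.symm H).mem_of_orth H hx
    show ((Submodule.linearProjOfIsCompl W W' hc x : W) : V) = 0
    exact congrArg Subtype.val (Submodule.linearProjOfIsCompl_apply_right' hc hx')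

variable {ι : Type*} [Fintype ι] [DecidableEq ι] {D : ι → Submodule F V} {p : ι → V →ₗ[F] V}

lemma exists_UD [FiniteDimensional F V] (H : IsSkew h)
    (D : ι → Submodule F V) (hnd : ∀ i, ∀ v ∈ D i, (∀ w ∈ D i, h v w = 0) → v = 0)
    (horth : ∀ i j, i ≠ j → ∀ u ∈ D i, ∀ v ∈ D j, h u v = 0) (hsup : iSup D = ⊤) :
    ∃ p, UD h D p := by
  choose p hp1 hself hp3 using fun i => exists_proj H (hnd i)
  have hother : ∀ i j, i ≠ j → ∀ x ∈ D j, p i x = 0 := fun i j hij x hx =>
    hp3 i x (fun w hw => horth j i hij.symm x hx w hw)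
  refine ⟨p, hnd, hp1, hself, hother, horth, ?_⟩
  intro x
  have hx : x ∈ iSup D := by rw [hsup]; trivial
  induction hx using Submodule.iSup_induction' with
  | mem i x hx =>
    rw [Finset.sum_eq_single i, hself i x hx]
    · intro j _ hj
      exact hother j i hj x hx
    · intro h; exact absurd (Finset.mem_univ i) h
  | zero => simp
  | add x y _ _ hx hy => simp only [map_add, Finset.sum_add_distrib, hx, hy]

/-- permuting the members -/
def Pres (D : ι → Submodule F V) (g : V ≃ₗ[F] V) : Prop :=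
  ∃ π : Equiv.Perm ι, ∀ i, ∀ x ∈ D i, g x ∈ D (π i)

namespace UD

lemma ext (h' : UD h D p) {x y : V} (hxy : ∀ i, p i x = p i y) : x = y := by
  rw [← h'.sum x, ← h'.sum y]
  exact Finset.sum_congr rfl fun i _ => hxy i

lemma pp (h' : UD h D p) (i j : ι) (x : V) : p i (p j x) = if i = j then p j x else 0 := by
  split_ifs with hij
  · subst hij; exact h'.self _ _ (h'.mem _ _)
  · exact h'.other i j hij _ (h'.mem _ _)

lemma pl (h' : UD h D p) (x : V) {i : ι} {u : V} (hu : u ∈ D i) : h x u = h (p i x) u := by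
  conv_lhs => rw [← h'.sum x]
  rw [map_sum, LinearMap.sum_apply, Finset.sum_eq_single i]
  · intro j _ hj
    exact h'.orth j i hj _ (h'.mem _ _) _ hu
  · intro hi; exact absurd (Finset.mem_univ i) hi

lemma pr (h' : UD h D p) (x : V) {i : ι} {u : V} (hu : u ∈ D i) : h u x = h u (p i x) := by
  conv_lhs => rw [← h'.sum x]
  rw [map_sum, Finset.sum_eq_single i]
  · intro j _ hj
    exact h'.orth i j hj.symm _ hu _ (h'.mem _ _)
  · intro hi; exact absurd (Finset.mem_univ i) hi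

lemma psum (h' : UD h D p) (x y : V) : h x y = ∑ i, h (p i x) (p i y) := by
  conv_lhs => rw [← h'.sum y]
  rw [map_sum]
  exact Finset.sum_congr rfl fun i _ => h'.pl x (h'.mem i y)

lemma mem_iff (h' : UD h D p) {x : V} {i : ι} : x ∈ D i ↔ ∀ j, j ≠ i → p j x = 0 := by
  constructor
  · intro hx j hj
    exact h'.other j i hj x hx
  · intro h0
    have h1 := h'.sum x
    rw [Finset.sum_eq_single i (fun j _ hj => h0 j hj)
      (fun hi => absurd (Finset.mem_univ i) hi)] at h1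
    rw [← h1]; exact h'.mem i x

lemma disj (h' : UD h D p) {i j : ι} (hij : i ≠ j) {x : V} (h1 : x ∈ D i) (h2 : x ∈ D j) : x = 0 := by
  rw [← h'.self i x h1]; exact h'.other i j hij x h2

lemma pres_mul (_ : UD h D p) {a b : V ≃ₗ[F] V} (ha : Pres D a) (hb : Pres D b) :
    Pres D (a * b) := by
  obtain ⟨σ, hσ⟩ := ha
  obtain ⟨τ, hτ⟩ := hb
  exact ⟨τ.trans σ, fun i x hx => hσ _ _ (hτ _ _ hx)⟩

lemma pres_inv (h' : UD h D p) {a : V ≃ₗ[F] V} (ha : Pres D a) : Pres D a⁻¹ := by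
  obtain ⟨σ, hσ⟩ := ha
  refine ⟨σ.symm, fun i y hy => ?_⟩
  have ai : a (a⁻¹ y) = y := a.apply_symm_apply y
  rw [h'.mem_iff]
  intro j hj
  have h1 : a (p j (a⁻¹ y)) = 0 := by
    have h2 : p (σ j) (∑ l, a (p l (a⁻¹ y))) = a (p j (a⁻¹ y)) := by
      rw [map_sum, Finset.sum_eq_single j]
      · exact h'.self _ _ (hσ j _ (h'.mem _ _))
      · intro l _ hl
        exact h'.other _ _ (fun e => hl (σ.injective e).symm) _ (hσ l _ (h'.mem _ _))
      · intro hj; exact absurd (Finset.mem_univ j) hj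
    rw [← h2, ← map_sum, h'.sum, ai]
    apply h'.other (σ j) i _ y hy
    intro e
    apply hj
    rw [← e, Equiv.symm_apply_apply]
  exact (LinearEquiv.map_eq_zero_iff a).1 h1

lemma pres_rf (h' : UD h D p) {i : ι} {u : V} (hu : u ∈ D i) (a : F) : Pres D (rf h u a) := by
  refine ⟨1, fun j x hx => ?_⟩
  rw [Equiv.Perm.one_apply]
  by_cases hg : σ a + a * σ a * h u u = a
  · rw [rf_apply hg]
    by_cases hij : j = i
    · subst hij
      exact (D j).add_mem hx ((D j).smul_mem _ hu)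
    · rw [h'.orth j i hij x hx u hu, mul_zero, zero_smul, add_zero]
      exact hx
  · rw [rf, dif_neg hg]; exact hx

end UD

/-! ### Orthonormal families -/

lemma nd_perp (H : IsSkew h) {U : Submodule F V} (hU : ∀ v ∈ U, (∀ w ∈ U, h v w = 0) → v = 0) {x : V}
    (hx : x ∈ U) (hx0 : h x x ≠ 0) :
    ∀ v ∈ perpF h U ![x], (∀ w ∈ perpF h U ![x], h v w = 0) → v = 0 := by
  intro v hv h0
  have hvx : h v x = 0 := hv.2 0
  apply hU v hv.1
  intro w hw
  have h1 : w - (h w x * (h x x)⁻¹) • x ∈ perpF h U ![x] := by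
    refine ⟨U.sub_mem hw (U.smul_mem _ hx), fun i => ?_⟩
    fin_cases i
    show h (w - (h w x * (h x x)⁻¹) • x) x = 0
    rw [map_sub, LinearMap.sub_apply, map_smul, LinearMap.smul_apply, smul_eq_mul, mul_assoc,
      inv_mul_cancel₀ hx0, mul_one, sub_self]
  have h2 := h0 _ h1
  rw [map_sub, map_smulₛₗ, hvx, smul_zero, sub_zero] at h2
  exact h2

lemma finrank_perp1 [FiniteDimensional F V] (H : IsSkew h) {U : Submodule F V} (hU : ∀ v ∈ U, (∀ w ∈ U, h v w = 0) → v = 0)
    {x : V} (hx : x ∈ U) (hx0 : x ≠ 0) : finrank F U = finrank F (perpF h U ![x]) + 1 := by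
  have h1 := finrank_perpF_eq H hU (x := ![x]) (by intro i; fin_cases i; exact hx)
    (by rw [linearIndependent_unique_iff]; simpa using hx0)
  rw [Fintype.card_fin] at h1
  exact h1

lemma value_nd [FiniteDimensional F V] (H : IsSkew h) {U : Submodule F V}
    (hU : ∀ v ∈ U, (∀ w ∈ U, h v w = 0) → v = 0) (hd : 1 ≤ finrank F U) {s : F} (hs : σ s = -s) :
    ∃ k ∈ U, h k k = s := exists_value H hU le_rfl (by omega) hs

lemma exists_onb [FiniteDimensional F V] (H : IsSkew h) {ζ : F} (hζ : σ ζ = -ζ) (hζ0 : ζ ≠ 0) :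
    ∀ (k : ℕ) (U : Submodule F V), (∀ v ∈ U, (∀ w ∈ U, h v w = 0) → v = 0) → finrank F U = k →
      ∃ e : Fin k → V, (∀ s, e s ∈ U) ∧ (∀ s t, h (e s) (e t) = if s = t then ζ else 0) ∧
        ∀ x ∈ U, x = ∑ s, (ζ⁻¹ * h x (e s)) • e s := by
  intro k
  induction k with
  | zero =>
    intro U hU hk
    refine ⟨Fin.elim0, fun s => s.elim0, fun s => s.elim0, fun x hx => ?_⟩
    have : U = ⊥ := Submodule.finrank_eq_zero.1 hk
    rw [this, Submodule.mem_bot] at hx
    rw [hx]; simp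
  | succ k ih =>
    intro U hU hk
    obtain ⟨a, ha, haa⟩ := value_nd H hU (by omega) hζ
    have haa0 : h a a ≠ 0 := by rw [haa]; exact hζ0
    have ha0 : a ≠ 0 := by rintro rfl; rw [map_zero] at haa0; exact haa0 rfl
    have h1 := nd_perp H hU ha haa0
    have h2 := finrank_perp1 H hU ha ha0
    obtain ⟨e, he1, he2, he3⟩ := ih (perpF h U ![a]) h1 (by omega)
    have hea : ∀ s, h (e s) a = 0 := fun s => (he1 s).2 0
    refine ⟨Fin.cons a e, ?_, ?_, ?_⟩
    · intro s
      refine Fin.cases ?_ (fun s => ?_) s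
      · exact ha
      · exact (he1 s).1
    · intro s t
      refine Fin.cases ?_ (fun s => ?_) s
      · refine Fin.cases ?_ (fun t => ?_) t
        · simp only [Fin.cons_zero, if_true]; exact haa
        · rw [Fin.cons_zero, Fin.cons_succ, if_neg (Fin.succ_ne_zero t).symm]
          exact H.symm_zero (hea t)
      · refine Fin.cases ?_ (fun t => ?_) t
        · rw [Fin.cons_zero, Fin.cons_succ, if_neg (Fin.succ_ne_zero s)]
          exact hea s
        · rw [Fin.cons_succ, Fin.cons_succ, he2]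
          simp only [Fin.succ_inj]
    · intro x hx
      rw [Fin.sum_univ_succ]
      simp only [Fin.cons_zero, Fin.cons_succ]
      have h3 : x - (ζ⁻¹ * h x a) • a ∈ perpF h U ![a] := by
        refine ⟨U.sub_mem hx (U.smul_mem _ ha), fun i => ?_⟩
        fin_cases i
        show h (x - (ζ⁻¹ * h x a) • a) a = 0
        rw [map_sub, LinearMap.sub_apply, map_smul, LinearMap.smul_apply, smul_eq_mul, haa]
        field_simp
        ring
      have h4 := he3 _ h3
      have h5 : ∀ s, h (x - (ζ⁻¹ * h x a) • a) (e s) = h x (e s) := by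
        intro s
        rw [map_sub, LinearMap.sub_apply, map_smul, LinearMap.smul_apply, H.symm_zero (hea s), smul_zero, sub_zero]
      simp only [h5] at h4
      rw [← h4]; abel

/-- orthonormal bases -/
structure ON (h : V →ₗ[F] V →ₛₗ[σ] F) (ζ : F) {κ : Type*} [Fintype κ] [DecidableEq κ] (e : κ → V) : Prop where
  skew : σ ζ = -ζ
  ne : ζ ≠ 0
  val : ∀ a b, h (e a) (e b) = if a = b then ζ else 0
  sum : ∀ x, ∑ a, (ζ⁻¹ * h x (e a)) • e a = x

/-- coordinates -/
noncomputable def co (h : V →ₗ[F] V →ₛₗ[σ] F) (ζ : F) {κ : Type*} (e : κ → V) (a : κ) : V →ₗ[F] F where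
  toFun x := ζ⁻¹ * h x (e a)
  map_add' x y := by rw [map_add, LinearMap.add_apply, mul_add]
  map_smul' c x := by rw [map_smul, LinearMap.smul_apply, smul_eq_mul, RingHom.id_apply, smul_eq_mul]; ring

namespace ON

variable {ζ : F} {κ : Type*} [Fintype κ] [DecidableEq κ] {e : κ → V}

lemma he (E : ON h ζ e) (x : V) (a : κ) : h x (e a) = ζ * co h ζ e a x := by
  show h x (e a) = ζ * (ζ⁻¹ * h x (e a))
  rw [← mul_assoc, mul_inv_cancel₀ E.ne, one_mul]

lemma co_e (E : ON h ζ e) (a b : κ) : co h ζ e a (e b) = if a = b then 1 else 0 := by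
  show ζ⁻¹ * h (e b) (e a) = _
  rw [E.val]
  by_cases hab : b = a
  · rw [if_pos hab, if_pos hab.symm, inv_mul_cancel₀ E.ne]
  · rw [if_neg hab, if_neg (Ne.symm hab), mul_zero]

lemma co_self (E : ON h ζ e) (a : κ) : co h ζ e a (e a) = 1 := by rw [E.co_e, if_pos rfl]

lemma co_ne (E : ON h ζ e) {a b : κ} (hab : a ≠ b) : co h ζ e a (e b) = 0 := by rw [E.co_e, if_neg hab]

lemma self (E : ON h ζ e) (a : κ) : h (e a) (e a) = ζ := by rw [E.val, if_pos rfl]

lemma self_ne (E : ON h ζ e) (a : κ) : h (e a) (e a) ≠ 0 := by rw [E.self]; exact E.ne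

lemma orth (E : ON h ζ e) {a b : κ} (hab : a ≠ b) : h (e a) (e b) = 0 := by rw [E.val, if_neg hab]

lemma sum' (E : ON h ζ e) (x : V) : ∑ a, co h ζ e a x • e a = x := E.sum x

lemma ext (E : ON h ζ e) {x y : V} (hxy : ∀ a, co h ζ e a x = co h ζ e a y) : x = y := by
  rw [← E.sum' x, ← E.sum' y]
  exact Finset.sum_congr rfl fun a _ => by rw [hxy a]

lemma form (E : ON h ζ e) (H : IsSkew h) (x y : V) : h x y = ζ * ∑ a, co h ζ e a x * σ (co h ζ e a y) := by
  conv_lhs => rw [← E.sum' y]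
  rw [map_sum, Finset.mul_sum]
  refine Finset.sum_congr rfl fun a _ => ?_
  rw [map_smulₛₗ, E.he, smul_eq_mul]; ring

/-- monomial transformations -/
noncomputable def mono (E : ON h ζ e) (π : Equiv.Perm κ) (d : κ → F) (hd : ∀ a, d a ≠ 0) : V ≃ₗ[F] V where
  toFun x := ∑ a, (co h ζ e a x * d a) • e (π a)
  invFun x := ∑ a, (co h ζ e (π a) x * (d a)⁻¹) • e a
  map_add' x y := by
    rw [← Finset.sum_add_distrib]
    refine Finset.sum_congr rfl fun a _ => ?_
    rw [map_add, add_mul, add_smul]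
  map_smul' c x := by
    rw [Finset.smul_sum]
    refine Finset.sum_congr rfl fun a _ => ?_
    rw [map_smul, smul_eq_mul, RingHom.id_apply, smul_smul, mul_assoc]
  left_inv x := by
    show ∑ a, (co h ζ e (π a) (∑ b, (co h ζ e b x * d b) • e (π b)) * (d a)⁻¹) • e a = x
    conv_rhs => rw [← E.sum' x]
    refine Finset.sum_congr rfl fun a _ => ?_
    rw [map_sum, Finset.sum_eq_single a]
    · rw [map_smul, E.co_self, smul_eq_mul, mul_one, mul_assoc, mul_inv_cancel₀ (hd a), mul_one]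
    · intro b _ hb
      rw [map_smul, E.co_ne (fun h0 => hb (π.injective h0).symm), smul_zero]
    · intro ha; exact absurd (Finset.mem_univ a) ha
  right_inv x := by
    show ∑ a, (co h ζ e a (∑ b, (co h ζ e (π b) x * (d b)⁻¹) • e b) * d a) • e (π a) = x
    have : ∀ a, (co h ζ e a (∑ b, (co h ζ e (π b) x * (d b)⁻¹) • e b) * d a) • e (π a) = co h ζ e (π a) x • e (π a) := by
      intro a
      rw [map_sum, Finset.sum_eq_single a]
      · rw [map_smul, E.co_self, smul_eq_mul, mul_one, mul_assoc, inv_mul_cancel₀ (hd a), mul_one]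
      · intro b _ hb
        rw [map_smul, E.co_ne (Ne.symm hb), smul_zero]
      · intro ha; exact absurd (Finset.mem_univ a) ha
    rw [Finset.sum_congr rfl fun a _ => this a, Equiv.sum_comp π (fun a => co h ζ e a x • e a), E.sum']

lemma mono_e (E : ON h ζ e) (π : Equiv.Perm κ) (d : κ → F) (hd : ∀ a, d a ≠ 0) (a : κ) :
    E.mono π d hd (e a) = d a • e (π a) := by
  show ∑ b, (co h ζ e b (e a) * d b) • e (π b) = _
  rw [Finset.sum_eq_single a]
  · rw [E.co_self, one_mul]
  · intro b _ hb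
    rw [E.co_ne hb, zero_mul, zero_smul]
  · intro ha; exact absurd (Finset.mem_univ a) ha

lemma isom_of (E : ON h ζ e) (H : IsSkew h) {g : V ≃ₗ[F] V} (hg : ∀ a b, h (g (e a)) (g (e b)) = h (e a) (e b)) :
    g ∈ isom h := by
  intro x y
  have hx : g x = ∑ a, co h ζ e a x • g (e a) := by
    conv_lhs => rw [← E.sum' x]
    rw [map_sum]
    exact Finset.sum_congr rfl fun a _ => map_smul _ _ _
  have hy : g y = ∑ a, co h ζ e a y • g (e a) := by
    conv_lhs => rw [← E.sum' y]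
    rw [map_sum]
    exact Finset.sum_congr rfl fun a _ => map_smul _ _ _
  rw [hx, hy]
  conv_rhs => rw [← E.sum' x, ← E.sum' y]
  simp only [map_sum, LinearMap.sum_apply, map_smul, LinearMap.smul_apply, map_smulₛₗ, hg]

lemma mono_mem (E : ON h ζ e) (H : IsSkew h) (π : Equiv.Perm κ) (d : κ → F) (hd : ∀ a, d a ≠ 0)
    (hn : ∀ a, d a * σ (d a) = 1) : E.mono π d hd ∈ isom h := by
  apply E.isom_of H
  intro a b
  rw [E.mono_e, E.mono_e, LinearMap.map_smul, LinearMap.smul_apply, map_smulₛₗ, E.val, E.val]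
  by_cases hab : a = b
  · subst hab
    rw [if_pos rfl, if_pos rfl, smul_eq_mul, smul_eq_mul, ← mul_assoc, hn, one_mul]
  · rw [if_neg hab, if_neg (fun h0 => hab (π.injective h0)), smul_zero, smul_zero]

/-- monomial isometries of determinant one -/
lemma exists_mono [FiniteDimensional F V] (E : ON h ζ e) (H : IsSkew h) (a0 : κ) (π : Equiv.Perm κ) (d : κ → F)
    (hn : ∀ a, d a * σ (d a) = 1) : ∃ g ∈ SU h, ∃ l : F, l * σ l = 1 ∧ (∀ a, a ≠ a0 → g (e a) = d a • e (π a)) ∧
      g (e a0) = l • e (π a0) := by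
  set g0 := E.mono π d (fun a => norm_ne (hn a)) with hg0
  have hg0m : g0 ∈ isom h := E.mono_mem H π d _ hn
  have hdn := det_norm H hg0m
  set l := ((LinearEquiv.det g0 : Fˣ) : F) with hl
  have hln := norm_inv H hdn
  refine ⟨Rq h (e (π a0)) l⁻¹ * g0, ?_, l⁻¹ * d a0, norm_mul hln (hn a0), ?_, ?_⟩
  · apply mem_SU_of_det ((isom h).mul_mem (Rq_mem H _ _) hg0m)
    rw [map_mul, Units.val_mul, Rq_det H (E.self_ne _) hln, ← hl, inv_mul_cancel₀ (norm_ne hdn)]
  · intro a ha
    rw [LinearEquiv.mul_apply, hg0, E.mono_e, map_smul, Rq_orth H (E.self_ne _) hln]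
    exact E.orth (fun h0 => ha (π.injective h0))
  · rw [LinearEquiv.mul_apply, hg0, E.mono_e, map_smul, Rq_self H (E.self_ne _) hln, smul_smul, mul_comm]

end ON

end H95.US
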