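import Mathlib
import Cfsg.Agent.Lib.H95.US1

set_option autoImplicit false
set_option linter.unusedSectionVars false
set_option linter.unusedVariables false

/-!
Overgroups of stabilisers of orthogonal decompositions of unitary spaces into members of
dimension at least two.
-/

namespace H95.US

open Module H95.UBasic H95.UPair

variable {F V : Type*} [Field F] [AddCommGroup V] [Module F V] {σ : F →+* F}
variable {h : V →ₗ[F] V →ₛₗ[σ] F} [FiniteDimensional F V]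

lemma iso_dual (H : IsSkew h) {U : Submodule F V} (hU : ∀ v ∈ U, (∀ w ∈ U, h v w = 0) → v = 0)
    {x : V} (hx : x ∈ U) (hx0 : x ≠ 0) (hxx : h x x = 0) : ∃ f ∈ U, h f f = 0 ∧ h f x = 1 := by
  obtain ⟨u0, hu0, hu1⟩ := exists_dual H hU (x := ![x]) (by intro i; fin_cases i; exact hx)
    (by rw [linearIndependent_unique_iff]; simpa using hx0) ![1]
  have hu : h u0 x = 1 := hu1 0
  obtain ⟨b, hb⟩ := H95.TUG.iso_fix H hxx (by rw [hu]; exact one_ne_zero : h u0 x ≠ 0)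
  refine ⟨_, U.add_mem hu0 (U.smul_mem b hx), hb, ?_⟩
  rw [map_add, LinearMap.add_apply, hu, map_smul, LinearMap.smul_apply, hxx, smul_zero, add_zero]

/-- prescribed product and norm -/
lemma exists_y (H : IsSkew h) {U : Submodule F V} (hU : ∀ v ∈ U, (∀ w ∈ U, h v w = 0) → v = 0)
    (hd : 2 ≤ finrank F U) {x : V} (hx : x ∈ U) (hx0 : x ≠ 0) {g b : F} (hb : σ b = -b)
    (hc : g ≠ 0 ∨ h x x ≠ 0 ∨ 3 ≤ finrank F U) : ∃ y ∈ U, h y x = g ∧ h y y = b := by
  by_cases hxx : h x x = 0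
  · by_cases hg : g = 0
    · have h3 : 3 ≤ finrank F U := by
        rcases hc with h1 | h1 | h1
        · exact absurd hg h1
        · exact absurd hxx h1
        · exact h1
      have h4 := finrank_perp1 H hU hx hx0
      obtain ⟨y, hy, hyy⟩ := exists_value H hU (X := perpF h U ![x]) (fun u hu => hu.1) (by omega) hb
      exact ⟨y, hy.1, by rw [hg]; exact hy.2 0, hyy⟩
    · obtain ⟨f, hf, hff, hfx⟩ := iso_dual H hU hx hx0 hxx
      obtain ⟨β, hβ⟩ := exists_sub_conj H hb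
      have hxf : h x f = -1 := by rw [H.skew f x, hfx, map_one]
      have hσg : σ g ≠ 0 := fun h0 => hg (H.inj h0)
      refine ⟨g • f + (σ (β * g⁻¹)) • x, U.add_mem (U.smul_mem _ hf) (U.smul_mem _ hx), ?_, ?_⟩
      · simp [hfx, hxx]
      · simp only [map_add, LinearMap.add_apply, map_smul, LinearMap.smul_apply, smul_eq_mul, map_smulₛₗ,
          hff, hxx, hfx, hxf, H.inv, mul_zero, add_zero, zero_add, map_mul, map_inv₀]
        rw [← hβ]
        field_simp
        ring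
  · set a := g * (h x x)⁻¹ with ha
    have hax : a * h x x = g := by rw [ha, mul_assoc, inv_mul_cancel₀ hxx, mul_one]
    have h1 := nd_perp H hU hx hxx
    have h2 := finrank_perp1 H hU hx hx0
    obtain ⟨z, hz, hzz⟩ := value_nd H h1 (by omega) (s := b - a * σ a * h x x) (by
      rw [map_sub, map_mul, map_mul, H.inv, H.self, hb]; ring)
    have hzx : h z x = 0 := hz.2 0
    have hxz : h x z = 0 := H.symm_zero hzx
    refine ⟨a • x + z, U.add_mem (U.smul_mem _ hx) hz.1, ?_, ?_⟩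
    · rw [map_add, LinearMap.add_apply, map_smul, LinearMap.smul_apply, smul_eq_mul, hax, hzx, add_zero]
    · simp only [map_add, LinearMap.add_apply, map_smul, LinearMap.smul_apply, smul_eq_mul, map_smulₛₗ,
        hzx, hxz, hzz]
      ring

variable {ι : Type*} [Fintype ι] [DecidableEq ι] {D : ι → Submodule F V} {p : ι → V →ₗ[F] V}

/-- the setting -/
structure Hyp (h : V →ₗ[F] V →ₛₗ[σ] F) (D : ι → Submodule F V) (p : ι → V →ₗ[F] V)
    (X : Subgroup (V ≃ₗ[F] V)) : Prop where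
  H : IsSkew h
  U : UD h D p
  le : X ≤ SU h
  mem : ∀ g ∈ SU h, Pres D g → g ∈ X

variable {X : Subgroup (V ≃ₗ[F] V)}

namespace Hyp

lemma le' (Y : Hyp h D p X) : X ≤ isom h := Y.le.trans (SU_le h)

lemma T_self (Y : Hyp h D p X) {i : ι} {v : V} (hv : v ∈ D i) (hvv : h v v = 0) : T h X v :=
  ⟨hvv, fun c hc => Y.mem _ (tr_mem_SU Y.H hvv hc) (Y.U.pres_rf hv c)⟩

/-- transitivity inside a member, first case -/
lemma trans0 (Y : Hyp h D p X) {i : ι} (hd : 2 ≤ finrank F (D i)) {x x' : V} (hx : x ∈ D i) (hx' : x' ∈ D i)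
    (hxx : h x x = h x' x') (hx0 : h x x ≠ 0) (hm : h x (x - x') ≠ 0) :
    ∃ g ∈ X, (∀ j, j ≠ i → ∀ y ∈ D j, g y = y) ∧ g x = x' := by
  have H := Y.H
  set m := h x (x - x') with hmd
  have hσm : σ m ≠ 0 := fun h0 => hm (H.inj h0)
  have e0 : h x' x = - σ (h x x') := H.skew x x'
  have e00 : σ (h x x) = - h x x := H.self x
  have e1 : h (x - x') (x - x') = m - σ m := by
    rw [hmd]
    simp only [map_sub, LinearMap.sub_apply, ← hxx, e0, e00]
    ring
  have hgd : σ (-m⁻¹) + (-m⁻¹) * σ (-m⁻¹) * h (x - x') (x - x') = -m⁻¹ := by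
    rw [e1, map_neg, map_inv₀]
    field_simp
    ring
  have h1 : rf h (x - x') (-m⁻¹) x = x' := by
    rw [rf_apply hgd, ← hmd, neg_mul, inv_mul_cancel₀ hm, neg_smul, one_smul]; abel
  have hx'0 : h x' x' ≠ 0 := by rw [← hxx]; exact hx0
  have hx'n : x' ≠ 0 := by rintro rfl; rw [map_zero] at hx'0; exact hx'0 rfl
  -- a correcting vector
  have h2 := nd_perp H (Y.U.nd i) hx' hx'0
  have h3 := finrank_perp1 H (Y.U.nd i) hx' hx'n
  obtain ⟨s, hs, hs0⟩ := exists_skew_ne H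
  obtain ⟨u, hu, huu⟩ := value_nd H h2 (by omega) hs
  have hux : h x' u = 0 := H.symm_zero (hu.2 0)
  have huu0 : h u u ≠ 0 := by rw [huu]; exact hs0
  have hl : (m * (σ m)⁻¹) * σ (m * (σ m)⁻¹) = 1 := norm_div H hm
  refine ⟨Rq h u (m * (σ m)⁻¹) * rf h (x - x') (-m⁻¹), ?_, ?_, ?_⟩
  · apply Y.mem
    · apply mem_SU_of_det ((isom h).mul_mem (Rq_mem H _ _) (rf_mem H _ _))
      rw [map_mul, Units.val_mul, Rq_det H huu0 hl, rf_det hgd, e1]
      field_simp
      ring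
    · exact Y.U.pres_mul (Y.U.pres_rf hu.1 _) (Y.U.pres_rf ((D i).sub_mem hx hx') _)
  · intro j hj y hy
    rw [LinearEquiv.mul_apply, rf_apply hgd, Y.U.orth j i hj y hy _ ((D i).sub_mem hx hx'), mul_zero, zero_smul,
      add_zero, Rq_orth H huu0 hl (Y.U.orth j i hj y hy u hu.1)]
  · rw [LinearEquiv.mul_apply, h1, Rq_orth H huu0 hl hux]

/-- transitivity inside a member -/
lemma trans1 (Y : Hyp h D p X) {i : ι} (hd : 2 ≤ finrank F (D i)) {x x' : V} (hx : x ∈ D i) (hx' : x' ∈ D i)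
    (hxx : h x x = h x' x') (hx0 : h x x ≠ 0) :
    ∃ g ∈ X, (∀ j, j ≠ i → ∀ y ∈ D j, g y = y) ∧ g x = x' := by
  have H := Y.H
  by_cases hm : h x (x - x') = 0
  · obtain ⟨l, hl, hl1⟩ := exists_norm_one H
    have e1 : h x x' = h x x := by
      rw [map_sub, sub_eq_zero] at hm; exact hm.symm
    have e2 : h (l • x) (l • x) = h x x := by
      simp only [map_smul, LinearMap.smul_apply, smul_eq_mul, map_smulₛₗ]
      rw [← mul_assoc, mul_comm (σ l), hl, one_mul]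
    have hl0 := norm_ne hl
    obtain ⟨g1, hg1, hg1', hg1''⟩ := Y.trans0 hd hx ((D i).smul_mem l hx) e2.symm hx0 (by
      rw [map_sub, map_smulₛₗ, smul_eq_mul, ← one_sub_mul]
      refine mul_ne_zero (fun h0 => hl1 ?_) hx0
      rw [sub_eq_zero] at h0
      rw [← h0, mul_one] at hl; exact hl)
    obtain ⟨g2, hg2, hg2', hg2''⟩ := Y.trans0 hd ((D i).smul_mem l hx) hx' (by rw [e2, hxx]) (by
      rw [e2]; exact hx0) (by
      rw [map_sub, e2, map_smul, LinearMap.smul_apply, smul_eq_mul, e1, ← one_sub_mul]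
      exact mul_ne_zero (fun h0 => hl1 (sub_eq_zero.1 h0).symm) hx0)
    refine ⟨g2 * g1, X.mul_mem hg2 hg1, ?_, ?_⟩
    · intro j hj y hy
      rw [LinearEquiv.mul_apply, hg1' j hj y hy, hg2' j hj y hy]
    · rw [LinearEquiv.mul_apply, hg1'', hg2'']
  · exact Y.trans0 hd hx hx' hxx hx0 hm

lemma move (Y : Hyp h D p X) {i j : ι} (hij : i ≠ j) (hd : ∀ i, 2 ≤ finrank F (D i)) {x x' y y' : V} (hx : x ∈ D i)
    (hx' : x' ∈ D i) (hy : y ∈ D j) (hy' : y' ∈ D j) (hxx : h x x = h x' x') (hyy : h y y = h y' y')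
    (hx0 : h x x ≠ 0) (hy0 : h y y ≠ 0) (hT : T h X (x + y)) : T h X (x' + y') := by
  obtain ⟨g1, hg1, hg1', hg1''⟩ := Y.trans1 (hd i) hx hx' hxx hx0
  obtain ⟨g2, hg2, hg2', hg2''⟩ := Y.trans1 (hd j) hy hy' hyy hy0
  have h1 := T_conj Y.le' hT hg1
  rw [map_add, hg1'', hg1' j hij.symm y hy] at h1
  have h2 := T_conj Y.le' h1 hg2
  rwa [map_add, hg2'', hg2' i hij x' hx'] at h2

/-- creation of vectors with two components -/
lemma create (Y : Hyp h D p X) {i j : ι} (hij : i ≠ j) (hd : ∀ i, 2 ≤ finrank F (D i)) {v : V} (hv : T h X v)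
    (hi : p i v ≠ 0) (hj : p j v ≠ 0) {m : F} (hm : m + σ m ≠ 0) : ∃ y1 ∈ D i, ∃ y2 ∈ D j,
      h y1 y1 = σ m - m ∧ h y2 y2 = m - σ m ∧ T h X (y1 + y2) := by
  have H := Y.H
  have hm0 : m ≠ 0 := by rintro rfl; rw [map_zero, add_zero] at hm; exact hm rfl
  have hσm : σ m ≠ 0 := fun h0 => hm0 (H.inj h0)
  obtain ⟨y1, hy1, hy1p, hy1n⟩ := exists_y H (Y.U.nd i) (hd i) (Y.U.mem i v) hi (g := -σ m) (b := σ m - m) (by
    rw [map_sub, H.inv]; ring) (Or.inl (neg_ne_zero.2 hσm))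
  obtain ⟨y2, hy2, hy2p, hy2n⟩ := exists_y H (Y.U.nd j) (hd j) (Y.U.mem j v) hj (g := -m) (b := m - σ m) (by
    rw [map_sub, H.inv]; ring) (Or.inl (neg_ne_zero.2 hm0))
  refine ⟨y1, hy1, y2, hy2, hy1n, hy2n, ?_⟩
  have e1 : h v y1 = m := by
    rw [Y.U.pl v hy1, H.skew y1, hy1p, map_neg, H.inv, neg_neg]
  have e2 : h v y2 = σ m := by
    rw [Y.U.pl v hy2, H.skew y2, hy2p, map_neg, neg_neg]
  have g1 : σ m⁻¹ + m⁻¹ * σ m⁻¹ * h y1 y1 = m⁻¹ := by
    rw [hy1n, map_inv₀]; field_simp; ring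
  have g2 : σ (σ m)⁻¹ + (σ m)⁻¹ * σ (σ m)⁻¹ * h y2 y2 = (σ m)⁻¹ := by
    rw [hy2n, map_inv₀, H.inv]; field_simp; ring
  have hXm : rf h y1 m⁻¹ * rf h y2 (σ m)⁻¹ ∈ X := by
    apply Y.mem
    · apply mem_SU_of_det ((isom h).mul_mem (rf_mem H _ _) (rf_mem H _ _))
      rw [map_mul, Units.val_mul, rf_det g1, rf_det g2, hy1n, hy2n]
      field_simp
      ring
    · exact Y.U.pres_mul (Y.U.pres_rf hy1 _) (Y.U.pres_rf hy2 _)
  have h1 := T_conj Y.le' hv hXm
  have e3 : (rf h y1 m⁻¹ * rf h y2 (σ m)⁻¹) v = v + (y1 + y2) := by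
    rw [LinearEquiv.mul_apply, rf_apply g2, e2, inv_mul_cancel₀ hσm, one_smul, rf_apply g1, map_add,
      LinearMap.add_apply, e1, Y.U.orth j i hij.symm y2 hy2 y1 hy1, add_zero, inv_mul_cancel₀ hm0, one_smul]
    abel
  rw [e3] at h1
  have e4 : h (v + (y1 + y2) - v) (v + (y1 + y2) - v) = 0 := by
    rw [add_sub_cancel_left]
    simp only [map_add, LinearMap.add_apply, hy1n, hy2n, Y.U.orth j i hij.symm y2 hy2 y1 hy1,
      Y.U.orth i j hij y1 hy1 y2 hy2]
    ring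
  have h2 := T_sub H Y.le' hv h1 (by
    rw [map_add, map_add, e1, e2, hv.1, zero_add]; exact hm) e4
  rwa [add_sub_cancel_left] at h2

lemma exists_m (H : IsSkew h) {b : F} (hb : σ b = -b) (hb0 : b ≠ 0) : ∃ m, σ m - m = b ∧ m + σ m ≠ 0 := by
  obtain ⟨m, hm⟩ := exists_sub_conj H (s := -b) (by rw [map_neg, hb])
  by_cases h0 : m + σ m = 0
  · have h2 : (2 : F) ≠ 0 := by
      intro h2
      apply hb0
      have : σ m = -m := by linear_combination h0
      rw [this] at hm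
      linear_combination hm - m * h2
    refine ⟨m + 1, by rw [map_add, map_one]; linear_combination -hm, ?_⟩
    rw [map_add, map_one]
    intro h3
    exact h2 (by linear_combination h3 - h0)
  · exact ⟨m, by linear_combination -hm, h0⟩

/-- the pair `i, j` is active -/
def Act (Y : Hyp h D p X) (i j : ι) : Prop := ∃ v, T h X v ∧ p i v ≠ 0 ∧ p j v ≠ 0

lemma pairD (Y : Hyp h D p X) {i j : ι} (hij : i ≠ j) (hd : ∀ i, 2 ≤ finrank F (D i)) (hA : Y.Act i j) {y1 y2 : V}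
    (hy1 : y1 ∈ D i) (hy2 : y2 ∈ D j) (hb : h y1 y1 ≠ 0) (hyy : h y1 y1 + h y2 y2 = 0) : T h X (y1 + y2) := by
  obtain ⟨v, hv, hi, hj⟩ := hA
  obtain ⟨m, hm1, hm2⟩ := exists_m Y.H (Y.H.self y1) hb
  obtain ⟨z1, hz1, z2, hz2, e1, e2, e3⟩ := Y.create hij hd hv hi hj hm2
  refine Y.move hij hd hz1 hy1 hz2 hy2 (by rw [e1, hm1]) ?_ (by rw [e1, hm1]; exact hb) ?_ e3
  · rw [e2]; linear_combination -hm1 - hyy
  · rw [e2]; intro h0; exact hb (by linear_combination -hm1 - h0)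

/-- the exceptional hypothesis -/
def Ex (Y : Hyp h D p X) : Prop := (∀ i, 3 ≤ finrank F (D i)) ∨ ∃ r : F, σ r = r ∧ r ≠ 0 ∧ r ≠ 1

lemma pair_all (Y : Hyp h D p X) {i j : ι} (hij : i ≠ j) (hd : ∀ i, 2 ≤ finrank F (D i)) (hex : Y.Ex)
    (hA : Y.Act i j) {y1 y2 : V}
    (hy1 : y1 ∈ D i) (hy2 : y2 ∈ D j) (hyy : h y1 y1 + h y2 y2 = 0) : T h X (y1 + y2) := by
  have H := Y.H
  by_cases hb : h y1 y1 = 0
  · have hb2 : h y2 y2 = 0 := by rw [hb, zero_add] at hyy; exact hyy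
    by_cases h1 : y1 = 0
    · rw [h1, zero_add]; exact Y.T_self hy2 hb2
    by_cases h2 : y2 = 0
    · rw [h2, add_zero]; exact Y.T_self hy1 hb
    obtain ⟨B, hB, hB0⟩ := exists_skew_ne H
    obtain ⟨v1, hv1, hv1p, hv1n⟩ := exists_y H (Y.U.nd i) (hd i) hy1 h1 (g := 1) hB (Or.inl one_ne_zero)
    obtain ⟨m, hmr, hm1, v2, hv2, hv2p, hv2n⟩ : ∃ m, σ m = m ∧ 1 + m ≠ 0 ∧ ∃ v2 ∈ D j, h v2 y2 = m ∧ h v2 v2 = -B := by
      rcases hex with h3 | ⟨r, hr, hr0, hr1⟩
      · obtain ⟨v2, hv2, hv2p, hv2n⟩ := exists_y H (Y.U.nd j) (hd j) hy2 h2 (g := 0) (b := -B) (by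
          rw [map_neg, hB]) (Or.inr (Or.inr (h3 j)))
        exact ⟨0, map_zero _, by rw [add_zero]; exact one_ne_zero, v2, hv2, hv2p, hv2n⟩
      · obtain ⟨v2, hv2, hv2p, hv2n⟩ := exists_y H (Y.U.nd j) (hd j) hy2 h2 (g := -r) (b := -B) (by
          rw [map_neg, hB]) (Or.inl (neg_ne_zero.2 hr0))
        refine ⟨-r, by rw [map_neg, hr], fun h0 => hr1 (by linear_combination -h0), v2, hv2, hv2p, hv2n⟩
    have e1 : h y1 v1 = -1 := by rw [H.skew v1, hv1p, map_one]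
    have e2 : h y2 v2 = -m := by rw [H.skew v2, hv2p, hmr]
    have hT1 : T h X (v1 + v2) := Y.pairD hij hd hA hv1 hv2 (by rw [hv1n]; exact hB0) (by
      rw [hv1n, hv2n]; ring)
    have n1 : h (v1 + y1) (v1 + y1) = B := by
      simp only [map_add, LinearMap.add_apply, hv1p, e1, hb, hv1n]; ring
    have n2 : h (v2 + y2) (v2 + y2) = -B := by
      simp only [map_add, LinearMap.add_apply, hv2p, e2, hb2, hv2n]; ring
    have hT2 : T h X ((v1 + y1) + (v2 + y2)) := Y.pairD hij hd hA ((D i).add_mem hv1 hy1) ((D j).add_mem hv2 hy2) (by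
      rw [n1]; exact hB0) (by rw [n1, n2]; ring)
    have e3 : (v1 + y1) + (v2 + y2) - (v1 + v2) = y1 + y2 := by abel
    have o1 := Y.U.orth i j hij v1 hv1
    have o2 := Y.U.orth j i hij.symm v2 hv2
    have o3 := Y.U.orth i j hij y1 hy1
    have o4 := Y.U.orth j i hij.symm y2 hy2
    have h5 := T_sub H Y.le' hT1 hT2 (by
      have : h (v1 + v2) ((v1 + y1) + (v2 + y2)) = 1 + m := by
        simp only [map_add, LinearMap.add_apply, o1 v2 hv2, o1 y2 hy2, o2 v1 hv1, o2 y1 hy1, hv1n, hv2n, hv1p, hv2p]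
        ring
      rw [this]; exact hm1) (by
      rw [e3]
      simp only [map_add, LinearMap.add_apply, hb, hb2, o3 y2 hy2, o4 y1 hy1]
      ring)
    rwa [e3] at h5
  · exact Y.pairD hij hd hA hy1 hy2 hb hyy

open Classical in
/-- all isotropic vectors, provided all pairs are active -/
lemma all (Y : Hyp h D p X) (hd : ∀ i, 2 ≤ finrank F (D i)) (hex : Y.Ex)
    (hA : ∀ i j, i ≠ j → Y.Act i j) : ∀ (n : ℕ) (z : V), h z z = 0 →
      (Finset.univ.filter fun i => p i z ≠ 0).card = n → T h X z := by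
  have H := Y.H
  intro n
  induction n using Nat.strong_induction_on with
  | _ n ih =>
    intro z hz hn
    by_cases hz0 : z = 0
    · rw [hz0]; exact T_zero
    obtain ⟨j, hj⟩ : ∃ j, p j z ≠ 0 := by
      by_contra hcon
      push Not at hcon
      exact hz0 (Y.U.ext fun i => by rw [hcon i, map_zero])
    by_cases hall : ∀ i, i ≠ j → p i z = 0
    · exact Y.T_self (Y.U.mem_iff.2 hall) hz
    push Not at hall
    obtain ⟨i, hij, hi⟩ := hall
    set b := h (p j z) (p j z) with hb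
    have hbs : σ b = -b := H.self _
    obtain ⟨r, hr, hr0, hcase⟩ : ∃ r : F, σ r = r ∧ r ≠ 0 ∧ (r - b ≠ 0 ∨ h (p i z) (p i z) ≠ 0 ∨ 3 ≤ finrank F (D i)) := by
      rcases hex with h3 | ⟨r, hr, hr0, hr1⟩
      · exact ⟨1, map_one _, one_ne_zero, Or.inr (Or.inr (h3 i))⟩
      · by_cases h1 : 1 - b = 0
        · refine ⟨r, hr, hr0, Or.inl fun h2 => hr1 (by linear_combination h2 - h1)⟩
        · exact ⟨1, map_one _, one_ne_zero, Or.inl h1⟩
    obtain ⟨u, hu, hup, hun⟩ := exists_y H (Y.U.nd i) (hd i) (Y.U.mem i z) hi (g := -σ (r - b)) (b := -b) (by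
      rw [map_neg, hbs]) (by
        rcases hcase with h1 | h1
        · exact Or.inl (neg_ne_zero.2 fun h0 => h1 (H.inj h0))
        · exact Or.inr h1)
    have e1 : h (p i z) u = r - b := by rw [H.skew u, hup, map_neg, H.inv, neg_neg]
    have hTv : T h X (u + p j z) := Y.pair_all hij hd hex (hA i j hij) hu (Y.U.mem j z) (by
      rw [hun, ← hb]; ring)
    have e2 : h z (u + p j z) = r := by
      rw [map_add, Y.U.pl z hu, e1, Y.U.pl z (Y.U.mem j z), ← hb]; ring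
    have hri : σ r⁻¹ = r⁻¹ := by rw [map_inv₀, hr]
    have hri' : σ (-r⁻¹) = -r⁻¹ := by rw [map_neg, hri]
    have e3 : rf h (u + p j z) (-r⁻¹) z = z - (u + p j z) := by
      rw [rf_apply (tr_good hTv.1 hri'), e2, neg_mul, inv_mul_cancel₀ hr0, neg_smul, one_smul]; abel
    have hmem := hTv.2 _ hri'
    refine T_conj' Y.le' hmem ?_
    rw [e3]
    have hiso : h (z - (u + p j z)) (z - (u + p j z)) = 0 := by rw [← e3, (rf_mem H _ _ : _)]; exact hz
    apply ih _ _ _ hiso rfl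
    rw [← hn]
    apply Finset.card_lt_card
    rw [Finset.ssubset_iff_of_subset]
    · refine ⟨j, by simp [hj], ?_⟩
      simp only [Finset.mem_filter, Finset.mem_univ, true_and, not_not]
      rw [map_sub, map_add, Y.U.other j i hij.symm u hu, Y.U.pp j j, if_pos rfl, zero_add, sub_self]
    · intro l hl
      simp only [Finset.mem_filter, Finset.mem_univ, true_and] at hl ⊢
      intro h0
      apply hl
      have hli : l ≠ i := fun h1 => hi (h1 ▸ h0)
      have hlj : l ≠ j := fun h1 => hj (h1 ▸ h0)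
      rw [map_sub, map_add, h0, Y.U.other l i hli u hu, Y.U.pp l j, if_neg hlj]
      simp

end Hyp

/-! ### Permutations of the members -/

lemma exists_ON (H : IsSkew h) (U : UD h D p) {k : ℕ} (hk : ∀ i, finrank F (D i) = k) {ζ : F} (hζ : σ ζ = -ζ)
    (hζ0 : ζ ≠ 0) : ∃ e : ι × Fin k → V, ON h ζ e ∧ ∀ a, e a ∈ D a.1 := by
  choose e0 he1 he2 he3 using fun i => exists_onb H hζ hζ0 k (D i) (U.nd i) (hk i)
  refine ⟨fun a => e0 a.1 a.2, ⟨hζ, hζ0, ?_, ?_⟩, fun a => he1 a.1 a.2⟩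
  · rintro ⟨i, s⟩ ⟨j, t⟩
    by_cases hij : i = j
    · subst hij
      show h (e0 i s) (e0 i t) = _
      rw [he2]
      simp only [Prod.mk.injEq, true_and]
    · show h (e0 i s) (e0 j t) = _
      rw [if_neg (fun h0 => hij (congrArg Prod.fst h0)), U.orth i j hij _ (he1 i s) _ (he1 j t)]
  · intro x
    rw [Fintype.sum_prod_type]
    conv_rhs => rw [← U.sum x]
    refine Finset.sum_congr rfl fun i _ => ?_
    rw [he3 i _ (U.mem i x)]
    refine Finset.sum_congr rfl fun s _ => ?_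
    show (ζ⁻¹ * h x (e0 i s)) • e0 i s = _
    rw [U.pl x (he1 i s)]

lemma exists_perm {i j i' j' : ι} (hij : i ≠ j) (hij' : i' ≠ j') : ∃ π : Equiv.Perm ι, π i = i' ∧ π j = j' := by
  refine ⟨Equiv.swap (Equiv.swap i i' j) j' * Equiv.swap i i', ?_, ?_⟩
  · rw [Equiv.Perm.mul_apply, Equiv.swap_apply_left]
    apply Equiv.swap_apply_of_ne_of_ne
    · intro h0
      have : Equiv.swap i i' i = Equiv.swap i i' j := by rw [Equiv.swap_apply_left]; exact h0
      exact hij ((Equiv.swap i i').injective this)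
    · exact hij'
  · rw [Equiv.Perm.mul_apply, Equiv.swap_apply_left]

lemma exists_pres (H : IsSkew h) (U : UD h D p) {k : ℕ} (hk : ∀ i, finrank F (D i) = k) (hk1 : 1 ≤ k)
    (π : Equiv.Perm ι) : ∃ g ∈ SU h, ∀ i, ∀ x ∈ D i, g x ∈ D (π i) := by
  obtain ⟨ζ, hζ, hζ0⟩ := exists_skew_ne H
  obtain ⟨e, E, he⟩ := exists_ON H U hk hζ hζ0
  by_cases hι : Nonempty ι
  · obtain ⟨i0⟩ := hι
    obtain ⟨g, hg, l, hl, h1, h2⟩ := E.exists_mono H (i0, ⟨0, hk1⟩) (π.prodCongr (Equiv.refl (Fin k))) (fun _ => 1)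
      (fun a => by rw [map_one, mul_one])
    refine ⟨g, hg, fun i x hx => ?_⟩
    have key : ∀ a : ι × Fin k, g (e a) ∈ D (π a.1) := by
      intro a
      have hm := he (π a.1, a.2)
      by_cases ha : a = (i0, ⟨0, hk1⟩)
      · rw [ha, h2]
        rw [ha] at hm
        exact (D _).smul_mem _ hm
      · rw [h1 a ha]
        exact (D _).smul_mem _ hm
    rw [← E.sum' x, map_sum]
    refine (D _).sum_mem fun a _ => ?_
    rw [map_smul]
    by_cases hai : a.1 = i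
    · rw [← hai]; exact (D _).smul_mem _ (key a)
    · have : co h ζ e a x = 0 := by
        show ζ⁻¹ * h x (e a) = 0
        rw [U.orth i a.1 (Ne.symm hai) x hx _ (he a), mul_zero]
      rw [this, zero_smul]; exact (D _).zero_mem
  · exact ⟨1, (SU h).one_mem, fun i => absurd ⟨i⟩ hι⟩

lemma UD.img_ne (U : UD h D p) {g : V ≃ₗ[F] V} {π : Equiv.Perm ι} (hg : ∀ i, ∀ x ∈ D i, g x ∈ D (π i)) {v : V} {i : ι}
    (hv : p i v ≠ 0) : p (π i) (g v) ≠ 0 := by
  have h1 : p (π i) (g v) = g (p i v) := by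
    conv_lhs => rw [← U.sum v]
    rw [map_sum, map_sum, Finset.sum_eq_single i]
    · exact U.self _ _ (hg i _ (U.mem i v))
    · intro j _ hj
      exact U.other _ _ (fun h0 => hj (π.injective h0).symm) _ (hg j _ (U.mem j v))
    · intro hi; exact absurd (Finset.mem_univ i) hi
  rw [h1]
  exact fun h0 => hv ((LinearEquiv.map_eq_zero_iff g).1 h0)

namespace Hyp

lemma act_all (Y : Hyp h D p X) {k : ℕ} (hk : ∀ i, finrank F (D i) = k) (hk1 : 1 ≤ k) {i j : ι} (hij : i ≠ j)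
    (hA : Y.Act i j) {i' j' : ι} (hij' : i' ≠ j') : Y.Act i' j' := by
  obtain ⟨v, hv, hi, hj⟩ := hA
  obtain ⟨π, hπ1, hπ2⟩ := exists_perm hij hij'
  obtain ⟨g, hg, hg'⟩ := exists_pres Y.H Y.U hk hk1 π
  refine ⟨g v, T_conj Y.le' hv (Y.mem g hg ⟨π, hg'⟩), ?_, ?_⟩
  · rw [← hπ1]; exact Y.U.img_ne hg' hi
  · rw [← hπ2]; exact Y.U.img_ne hg' hj

lemma pres_of (U : UD h D p) {g : V ≃ₗ[F] V} (hD : ∀ i, D i ≠ ⊥) (hg : ∀ i, ∃ j, ∀ x ∈ D i, g x ∈ D j) : Pres D g := by
  choose π hπ using hg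
  have hs : Function.Surjective π := by
    intro l
    by_contra hcon
    push Not at hcon
    obtain ⟨y, hy, hy0⟩ := Submodule.exists_mem_ne_zero_of_ne_bot (hD l)
    apply hy0
    obtain ⟨x, rfl⟩ := g.surjective y
    rw [← U.self l _ hy, ← U.sum x, map_sum, map_sum]
    exact Finset.sum_eq_zero fun i _ => U.other _ _ (hcon i).symm _ (hπ i _ (U.mem i x))
  exact ⟨Equiv.ofBijective π ⟨Finite.injective_iff_surjective.2 hs, hs⟩, hπ⟩

lemma exists_act (Y : Hyp h D p X) (hd : ∀ i, 2 ≤ finrank F (D i)) {g : V ≃ₗ[F] V} (hg : g ∈ X) (hgp : ¬ Pres D g) :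
    ∃ i j, i ≠ j ∧ Y.Act i j := by
  have H := Y.H
  by_contra hcon
  push Not at hcon
  have h1 : ∀ v, T h X v → v ≠ 0 → ∃ i, v ∈ D i := by
    intro v hv hv0
    obtain ⟨i, hi⟩ : ∃ i, p i v ≠ 0 := by
      by_contra hcon
      push Not at hcon
      exact hv0 (Y.U.ext fun i => by rw [hcon i, map_zero])
    refine ⟨i, Y.U.mem_iff.2 fun j hj => ?_⟩
    by_contra h0
    exact hcon i j hj.symm ⟨v, hv, hi, h0⟩
  have h2 : ∀ i, ∀ v ∈ D i, h v v = 0 → v ≠ 0 → ∃ j, g v ∈ D j := by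
    intro i v hv hvv hv0
    exact h1 _ (T_conj Y.le' (Y.T_self hv hvv) hg) (fun h0 => hv0 ((LinearEquiv.map_eq_zero_iff g).1 h0))
  apply hgp
  apply pres_of Y.U
  · intro i h0
    have := hd i
    rw [h0, finrank_bot] at this
    omega
  intro i
  obtain ⟨v, hv, hv0, hvv⟩ := exists_iso H (hd i)
  obtain ⟨j, hj⟩ := h2 i v hv hvv hv0
  refine ⟨j, ?_⟩
  have hle : D i ≤ (D j).comap (g : V →ₗ[F] V) := by
    apply iso_span H (Y.U.nd i) hv hv0 hvv
    intro z hz hzz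
    show g z ∈ D j
    by_cases hz0 : z = 0
    · rw [hz0, map_zero]; exact (D j).zero_mem
    obtain ⟨w, hw, hww, hvw, hzw⟩ := iso_conn H (Y.U.nd i) hv hz hv0 hz0 hvv hzz
    have hw0 : w ≠ 0 := by rintro rfl; rw [map_zero] at hvw; exact hvw rfl
    obtain ⟨l, hl⟩ := h2 i w hw hww hw0
    obtain ⟨m, hm⟩ := h2 i z hz hzz hz0
    have e1 : j = l := by
      by_contra hne
      apply hvw
      rw [← Y.le' hg v w]
      exact Y.U.orth j l hne _ hj _ hl
    have e2 : m = l := by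
      by_contra hne
      apply hzw
      rw [← Y.le' hg z w]
      exact Y.U.orth m l hne _ hm _ hl
    rw [e1, ← e2]; exact hm
  exact fun x hx => hle hx

/-- overgroups of the stabiliser of a decomposition with members of dimension at least two -/
theorem overgroup2 (Y : Hyp h D p X) {k : ℕ} (hk : ∀ i, finrank F (D i) = k) (hk2 : 2 ≤ k) (hex : Y.Ex)
    (hn : 7 ≤ finrank F V) {g : V ≃ₗ[F] V} (hg : g ∈ X) (hgp : ¬ Pres D g) : SU h ≤ X := by
  classical
  have hd : ∀ i, 2 ≤ finrank F (D i) := fun i => by rw [hk i]; exact hk2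
  obtain ⟨i, j, hij, hA⟩ := Y.exists_act hd hg hgp
  have hA' : ∀ i j, i ≠ j → Y.Act i j := fun i' j' hij' => Y.act_all hk (by omega) hij hA hij'
  apply SU_le_of_tr Y.H hn
  intro v hv c hc
  exact (Y.all hd hex hA' _ v hv rfl).2 c hc

end Hyp

/-- properness -/
theorem exists_not2 (H : IsSkew h) (U : UD h D p) (hd : ∀ i, 2 ≤ finrank F (D i)) {i j : ι} (hij : i ≠ j) :
    ∃ g ∈ SU h, ¬ Pres D g := by
  obtain ⟨B, hB, hB0⟩ := exists_skew_ne H
  obtain ⟨v1, hv1, hv1n⟩ := value_nd H (U.nd i) (by have := hd i; omega) hB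
  obtain ⟨v2, hv2, hv2n⟩ := value_nd H (U.nd j) (by have := hd j; omega) (s := -B) (by rw [map_neg, hB])
  have o1 := U.orth i j hij v1 hv1 v2 hv2
  have o2 := U.orth j i hij.symm v2 hv2 v1 hv1
  have hiso : h (v1 + v2) (v1 + v2) = 0 := by
    simp only [map_add, LinearMap.add_apply, o1, o2, hv1n, hv2n]; ring
  refine ⟨rf h (v1 + v2) 1, tr_mem_SU H hiso (map_one σ), ?_⟩
  rintro ⟨π, hπ⟩
  have hv1n0 : h v1 v1 ≠ 0 := by rw [hv1n]; exact hB0
  have hv10 : v1 ≠ 0 := by rintro rfl; rw [map_zero] at hv1n0; exact hv1n0 rfl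
  have hv20 : v2 ≠ 0 := by rintro rfl; rw [map_zero] at hv2n; exact hB0 (neg_eq_zero.1 hv2n.symm)
  have h1 := finrank_perp1 H (U.nd i) hv1 hv10
  obtain ⟨y, hy, hy0⟩ := Submodule.exists_mem_ne_zero_of_ne_bot (p := perpF h (D i) ![v1]) (by
    intro h0
    rw [h0, finrank_bot] at h1
    have := hd i
    omega)
  have hyv : h y v1 = 0 := hy.2 0
  have key : ∀ x ∈ D i, h x v1 ≠ 0 → x + h x v1 • v1 = 0 := by
    intro x hx hxv
    have h2 := hπ i x hx
    have hxv2 := U.orth i j hij x hx v2 hv2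
    have e1 : rf h (v1 + v2) 1 x = x + h x v1 • (v1 + v2) := by
      rw [rf_apply (tr_good hiso (map_one σ)), one_mul, map_add, hxv2, add_zero]
    rw [e1] at h2
    have e2 : p j (x + h x v1 • (v1 + v2)) = h x v1 • v2 := by
      rw [map_add, map_smul, map_add, U.other j i hij.symm x hx, U.other j i hij.symm v1 hv1, U.self j v2 hv2]
      simp
    have e3 : p i (x + h x v1 • (v1 + v2)) = x + h x v1 • v1 := by
      rw [map_add, map_smul, map_add, U.self i x hx, U.self i v1 hv1, U.other i j hij v2 hv2]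
      simp
    have h3 : π i = j := by
      by_contra hne
      have := U.other j (π i) (Ne.symm hne) _ h2
      rw [e2] at this
      exact smul_ne_zero hxv hv20 this
    rw [h3] at h2
    rw [← e3]
    exact U.other i j hij _ h2
  have k1 := key v1 hv1 hv1n0
  have k2 := key (v1 + y) ((D i).add_mem hv1 hy.1) (by
    rw [map_add, LinearMap.add_apply, hyv, add_zero]; exact hv1n0)
  rw [map_add, LinearMap.add_apply, hyv, add_zero] at k2
  apply hy0
  have : (v1 + y + h v1 v1 • v1) - (v1 + h v1 v1 • v1) = y := by abel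
  rw [← this, k1, k2, sub_zero]

end H95.US
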