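import Mathlib
import Cfsg.Agent.Lib.H95.US1

set_option autoImplicit false
set_option linter.unusedSectionVars false
set_option linter.unusedVariables false

/-!
Counting in the fixed field `K` of an involution `σ` of a finite field and in the group of elements
of norm one.
-/

namespace H95.US

open Module H95.UBasic
open scoped Classical

variable {F V : Type*} [Field F] [AddCommGroup V] [Module F V] {σ : F →+* F}
variable {h : V →ₗ[F] V →ₛₗ[σ] F} [Fintype F]

/-- the fixed field -/
noncomputable def Kf (σ : F →+* F) : Finset F := Finset.univ.filter fun c => σ c = c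

/-- elements of norm one -/
noncomputable def Uf (σ : F →+* F) : Finset F := Finset.univ.filter fun c => c * σ c = 1

lemma mem_Kf {c : F} : c ∈ Kf σ ↔ σ c = c := by simp [Kf]

lemma mem_Uf {c : F} : c ∈ Uf σ ↔ c * σ c = 1 := by simp [Uf]

lemma Kf_inv {a : F} (ha : σ a = a) : σ a⁻¹ = a⁻¹ := by rw [map_inv₀, ha]

lemma card_U (H : IsSkew h) : (Kf σ).card + 1 ≤ (Uf σ).card := by
  obtain ⟨w, hw⟩ := H.ne
  have hne : ∀ r, σ r = r → w + r ≠ 0 := by
    intro r hr h0
    apply hw
    have : w = -r := by linear_combination h0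
    rw [this, map_neg, hr]
  have h1 : ((Kf σ).image fun r => σ (w + r) * (w + r)⁻¹) ⊆ (Uf σ).erase 1 := by
    intro x hx
    rw [Finset.mem_image] at hx
    obtain ⟨r, hr, rfl⟩ := hx
    rw [mem_Kf] at hr
    have h2 := hne r hr
    have h3 : σ (w + r) ≠ 0 := fun h0 => h2 (H.inj h0)
    rw [Finset.mem_erase, mem_Uf]
    constructor
    · intro h4
      apply hw
      field_simp at h4
      rw [map_add, hr] at h4
      exact add_right_cancel h4
    · rw [map_mul, map_inv₀, H.inv]
      field_simp
  have h2 : ((Kf σ).image fun r => σ (w + r) * (w + r)⁻¹).card = (Kf σ).card := by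
    apply Finset.card_image_of_injOn
    intro r hr r' hr' hrr
    rw [Finset.mem_coe, mem_Kf] at hr hr'
    have e1 := hne r hr
    have e2 := hne r' hr'
    simp only at hrr
    field_simp at hrr
    rw [map_add, map_add, hr, hr'] at hrr
    have e3 : (r - r') * (w - σ w) = 0 := by linear_combination hrr
    rcases mul_eq_zero.1 e3 with e4 | e4
    · exact sub_eq_zero.1 e4
    · exact absurd (sub_eq_zero.1 e4).symm hw
  have h3 := Finset.card_le_card h1
  have h4 : (1 : F) ∈ Uf σ := by rw [mem_Uf]; simp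
  rw [h2, Finset.card_erase_of_mem h4] at h3
  have := Finset.card_pos.2 ⟨1, h4⟩
  omega

lemma card_image2 {s : Finset F} {f g : F → F} (hf : ∀ x ∈ s, ∀ y ∈ s, f y = f x → y = x ∨ y = g x) :
    s.card ≤ 2 * (s.image f).card := by
  apply Finset.card_le_mul_card_image
  intro a ha
  obtain ⟨x, hx, rfl⟩ := Finset.mem_image.1 ha
  calc (s.filter fun y => f y = f x).card ≤ ({x, g x} : Finset F).card := by
        apply Finset.card_le_card
        intro y hy
        rw [Finset.mem_filter] at hy
        rw [Finset.mem_insert, Finset.mem_singleton]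
        exact hf x hx y hy.1 hy.2
    _ ≤ 2 := Finset.card_le_two

/-- sums of two elements of large subsets -/
lemma two_sum {S S' : Finset F} (hS : S ⊆ Kf σ) (hS' : S' ⊆ Kf σ) (hc : (Kf σ).card < S.card + S'.card) {c : F}
    (hcr : σ c = c) : ∃ s ∈ S, ∃ s' ∈ S', s + s' = c := by
  have h1 : (S'.image fun s => c - s) ⊆ Kf σ := by
    intro x hx
    obtain ⟨s, hs, rfl⟩ := Finset.mem_image.1 hx
    have := mem_Kf.1 (hS' hs)
    rw [mem_Kf, map_sub, hcr, this]
  have h2 : (S'.image fun s => c - s).card = S'.card :=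
    Finset.card_image_of_injective _ (fun a b hab => by simpa using hab)
  obtain ⟨x, hx⟩ := Finset.inter_nonempty_of_card_lt_card_add_card hS h1 (by rw [h2]; exact hc)
  rw [Finset.mem_inter, Finset.mem_image] at hx
  obtain ⟨hx1, s, hs, hx2⟩ := hx
  exact ⟨x, hx1, s, hs, by rw [← hx2]; ring⟩

/-- `2 - μ - μ⁻¹` -/
def phi (m : F) : F := 2 - m - m⁻¹

lemma phi_real (H : IsSkew h) {m : F} (hm : m * σ m = 1) : σ (phi m) = phi m := by
  have h1 := norm_sigma H hm
  rw [phi, map_sub, map_sub, map_inv₀, h1, inv_inv, map_ofNat]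
  ring

lemma phi_image (H : IsSkew h) : (Kf σ).card < 2 * ((Uf σ).image phi).card := by
  have h1 := card_U H
  have h2 : (Uf σ).card ≤ 2 * ((Uf σ).image phi).card := by
    apply card_image2 (g := fun x => x⁻¹)
    intro x hx y hy hxy
    have hx0 := norm_ne (mem_Uf.1 hx)
    have hy0 := norm_ne (mem_Uf.1 hy)
    rw [phi, phi] at hxy
    have e : (y - x) * (y - x⁻¹) = 0 := by
      field_simp at hxy ⊢
      linear_combination -hxy
    rcases mul_eq_zero.1 e with e | e
    · exact Or.inl (sub_eq_zero.1 e)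
    · exact Or.inr (sub_eq_zero.1 e)
  omega

/-- `α φ(μ) + β φ(ν)` takes all real values -/
lemma phi_two (H : IsSkew h) {a b c : F} (ha : σ a = a) (hb : σ b = b) (hc : σ c = c) (ha0 : a ≠ 0) (hb0 : b ≠ 0) :
    ∃ m n : F, m * σ m = 1 ∧ n * σ n = 1 ∧ a * phi m + b * phi n = c := by
  have h1 := phi_image H
  have key : ∀ a : F, σ a = a → a ≠ 0 → (((Uf σ).image phi).image fun x => a * x) ⊆ Kf σ ∧
      (((Uf σ).image phi).image fun x => a * x).card = ((Uf σ).image phi).card := by
    intro a ha ha0
    constructor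
    · intro x hx
      obtain ⟨y, hy, rfl⟩ := Finset.mem_image.1 hx
      obtain ⟨m, hm, rfl⟩ := Finset.mem_image.1 hy
      rw [mem_Kf, map_mul, ha, phi_real H (mem_Uf.1 hm)]
    · exact Finset.card_image_of_injective _ (mul_right_injective₀ ha0)
  obtain ⟨ka1, ka2⟩ := key a ha ha0
  obtain ⟨kb1, kb2⟩ := key b hb hb0
  obtain ⟨s, hs, s', hs', hss⟩ := two_sum ka1 kb1 (by rw [ka2, kb2]; omega) hc
  obtain ⟨y, hy, rfl⟩ := Finset.mem_image.1 hs
  obtain ⟨m, hm, rfl⟩ := Finset.mem_image.1 hy
  obtain ⟨y, hy, rfl⟩ := Finset.mem_image.1 hs'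
  obtain ⟨n, hn, rfl⟩ := Finset.mem_image.1 hy
  exact ⟨m, n, mem_Uf.1 hm, mem_Uf.1 hn, hss⟩

/-- a real-closed set containing sums and more than half of the values is everything -/
lemma half_all {R : F → Prop} (hR : ∀ a b, R a → R b → R (a + b)) {S : Finset F} (hS : S ⊆ Kf σ)
    (hSR : ∀ s ∈ S, R s) (hc : (Kf σ).card < 2 * S.card) {c : F} (hcr : σ c = c) : R c := by
  obtain ⟨s, hs, s', hs', rfl⟩ := two_sum hS hS (by omega) hcr
  exact hR _ _ (hSR s hs) (hSR s' hs')

/-- quotients of the values `N(1 - μ)` -/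
lemma exists_ratio (H : IsSkew h) {ρ : F} (hρ : σ ρ = ρ) (hρ0 : ρ ≠ 0) : ∃ m n : F, m * σ m = 1 ∧ n * σ n = 1 ∧
    m ≠ 1 ∧ n ≠ 1 ∧ phi n = ρ * phi m := by
  obtain ⟨w, hw⟩ := H.ne
  have hne : ∀ r, σ r = r → w + r ≠ 0 := by
    intro r hr h0
    apply hw
    have : w = -r := by linear_combination h0
    rw [this, map_neg, hr]
  set f : F → F := fun r => (w + r) * σ (w + r) with hf
  have hf0 : ∀ r, σ r = r → f r ≠ 0 := fun r hr =>
    mul_ne_zero (hne r hr) (fun h0 => hne r hr (H.inj h0))
  have hfr : ∀ r, σ (f r) = f r := fun r => by rw [hf]; simp only [map_mul, H.inv]; ring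
  have h1 : (Kf σ).card ≤ 2 * ((Kf σ).image f).card := by
    apply card_image2 (g := fun x => -x - w - σ w)
    intro x hx y hy hxy
    rw [mem_Kf] at hx hy
    simp only [hf, map_add, hx, hy] at hxy
    have e : (y - x) * (y - (-x - w - σ w)) = 0 := by linear_combination hxy
    rcases mul_eq_zero.1 e with e | e
    · exact Or.inl (sub_eq_zero.1 e)
    · exact Or.inr (sub_eq_zero.1 e)
  have h2 : (Kf σ).image f ⊆ (Kf σ).erase 0 := by
    intro x hx
    obtain ⟨r, hr, rfl⟩ := Finset.mem_image.1 hx
    rw [Finset.mem_erase, mem_Kf]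
    exact ⟨hf0 r (mem_Kf.1 hr), hfr r⟩
  have h3 : ((Kf σ).image f).image (fun x => ρ * x) ⊆ (Kf σ).erase 0 := by
    intro x hx
    obtain ⟨y, hy, rfl⟩ := Finset.mem_image.1 hx
    have := h2 hy
    rw [Finset.mem_erase, mem_Kf] at this ⊢
    exact ⟨mul_ne_zero hρ0 this.1, by rw [map_mul, hρ, this.2]⟩
  have h4 : (((Kf σ).image f).image (fun x => ρ * x)).card = ((Kf σ).image f).card :=
    Finset.card_image_of_injective _ (mul_right_injective₀ hρ0)
  have h0K : (0 : F) ∈ Kf σ := mem_Kf.2 (map_zero σ)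
  have h5 : ((Kf σ).erase 0).card = (Kf σ).card - 1 := Finset.card_erase_of_mem h0K
  have h6 := Finset.card_pos.2 ⟨0, h0K⟩
  obtain ⟨x, hx⟩ := Finset.inter_nonempty_of_card_lt_card_add_card h2 h3 (by rw [h4, h5]; omega)
  rw [Finset.mem_inter, Finset.mem_image, Finset.mem_image] at hx
  obtain ⟨⟨r, hr, hr1⟩, y, hy, hy1⟩ := hx
  obtain ⟨s, hs, rfl⟩ := Finset.mem_image.1 hy
  rw [mem_Kf] at hr hs
  have e1 : f r = ρ * f s := by rw [hr1, hy1]
  -- m from r, n from s : φ(m_r) = - c² / f r
  have hm : ∀ t, σ t = t → (σ (w + t) * (w + t)⁻¹) * σ (σ (w + t) * (w + t)⁻¹) = 1 := by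
    intro t ht
    have h2 := hne t ht
    have h3 : σ (w + t) ≠ 0 := fun h0 => h2 (H.inj h0)
    rw [map_mul, map_inv₀, H.inv]
    field_simp
  have hm1 : ∀ t, σ t = t → σ (w + t) * (w + t)⁻¹ ≠ 1 := by
    intro t ht h4
    have h2 := hne t ht
    apply hw
    field_simp at h4
    rw [map_add, ht] at h4
    exact add_right_cancel h4
  have hphi : ∀ t, σ t = t → phi (σ (w + t) * (w + t)⁻¹) * f t = -(w - σ w) ^ 2 := by
    intro t ht
    have h2 := hne t ht
    have h3 : σ (w + t) ≠ 0 := fun h0 => h2 (H.inj h0)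
    rw [phi, hf]
    simp only
    field_simp
    rw [map_add, ht]
    ring
  refine ⟨_, _, hm r hr, hm s hs, hm1 r hr, hm1 s hs, ?_⟩
  have e2 := hphi r hr
  have e3 := hphi s hs
  have e4 := hf0 s hs
  have e5 := hf0 r hr
  rw [e1] at e2
  apply mul_right_cancel₀ e4
  rw [e3, ← e2]
  ring

lemma exists_sq (H : IsSkew h) : ∃ m : F, m * σ m = 1 ∧ m ^ 2 ≠ 1 := by
  by_contra hcon
  push Not at hcon
  have h1 : Uf σ ⊆ {1, -1} := by
    intro x hx
    have h2 := hcon x (mem_Uf.1 hx)
    rw [Finset.mem_insert, Finset.mem_singleton]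
    have : (x - 1) * (x + 1) = 0 := by linear_combination h2
    rcases mul_eq_zero.1 this with h3 | h3
    · exact Or.inl (sub_eq_zero.1 h3)
    · exact Or.inr (by linear_combination h3)
  have h2 := Finset.card_le_card h1
  have h3 := card_U H
  have h4 : ({0, 1} : Finset F) ⊆ Kf σ := by
    intro x hx
    rw [Finset.mem_insert, Finset.mem_singleton] at hx
    rw [mem_Kf]
    rcases hx with rfl | rfl
    · exact map_zero σ
    · exact map_one σ
  have h5 := Finset.card_le_card h4
  rw [Finset.card_pair (zero_ne_one)] at h5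
  have h6 : ({1, -1} : Finset F).card ≤ 2 := Finset.card_le_two
  omega

/-- an element of norm one whose square and cube are not one -/
lemma exists_cube (H : IsSkew h) (hK : 3 ≤ (Kf σ).card) : ∃ m : F, m * σ m = 1 ∧ m ^ 2 ≠ 1 ∧ m ^ 3 ≠ 1 := by
  by_contra hcon
  push Not at hcon
  have h3 := card_U H
  by_cases h30 : (3 : F) = 0
  · have h1 : Uf σ ⊆ {1, -1} := by
      intro x hx
      rw [Finset.mem_insert, Finset.mem_singleton]
      by_cases h2 : x ^ 2 = 1
      · have : (x - 1) * (x + 1) = 0 := by linear_combination h2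
        rcases mul_eq_zero.1 this with h3 | h3
        · exact Or.inl (sub_eq_zero.1 h3)
        · exact Or.inr (by linear_combination h3)
      · have h4 := hcon x (mem_Uf.1 hx) h2
        have h5 : (x - 1) ^ 3 = 0 := by linear_combination h4 + (x - x ^ 2) * h30
        exact Or.inl (sub_eq_zero.1 (pow_eq_zero_iff (by norm_num)|>.1 h5))
    have h2 := Finset.card_le_card h1
    have h6 : ({1, -1} : Finset F).card ≤ 2 := Finset.card_le_two
    omega
  · -- |K| ≥ 4
    have hK4 : 4 ≤ (Kf σ).card := by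
      by_contra hlt
      have hK3 : (Kf σ).card = 3 := by omega
      apply h30
      have h4 : ({0, 1} : Finset F) ⊆ Kf σ := by
        intro x hx
        rw [Finset.mem_insert, Finset.mem_singleton] at hx
        rw [mem_Kf]
        rcases hx with rfl | rfl
        · exact map_zero σ
        · exact map_one σ
      -- x ↦ x + 1 permutes K
      have h5 : ∑ x ∈ Kf σ, (x + 1) = ∑ x ∈ Kf σ, x := by
        apply Finset.sum_bij (fun x _ => x + 1)
        · intro x hx
          rw [mem_Kf] at hx ⊢
          rw [map_add, map_one, hx]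
        · intro a _ b _ hab
          exact add_right_cancel hab
        · intro b hb
          rw [mem_Kf] at hb
          exact ⟨b - 1, by rw [mem_Kf, map_sub, map_one, hb], by ring⟩
        · intro a _; rfl
      rw [Finset.sum_add_distrib, Finset.sum_const, hK3, add_eq_left] at h5
      simpa using h5
    have h7 : Uf σ ⊆ {-1} ∪ (Polynomial.X ^ 3 - 1 : Polynomial F).roots.toFinset := by
      intro x hx
      rw [Finset.mem_union, Finset.mem_singleton, Multiset.mem_toFinset]
      have hp0 : (Polynomial.X ^ 3 - 1 : Polynomial F) ≠ 0 := by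
        have := Polynomial.X_pow_sub_C_ne_zero (R := F) (n := 3) (by norm_num) 1
        simpa using this
      by_cases h2 : x ^ 2 = 1
      · have : (x - 1) * (x + 1) = 0 := by linear_combination h2
        rcases mul_eq_zero.1 this with h3 | h3
        · right
          rw [Polynomial.mem_roots hp0, sub_eq_zero.1 h3]
          simp
        · exact Or.inl (by linear_combination h3)
      · right
        rw [Polynomial.mem_roots hp0]
        simp [hcon x (mem_Uf.1 hx) h2]
    have h8 := Finset.card_le_card h7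
    have h9 := Finset.card_union_le {-1} (Polynomial.X ^ 3 - 1 : Polynomial F).roots.toFinset
    have h10 := Multiset.toFinset_card_le (Polynomial.X ^ 3 - 1 : Polynomial F).roots
    have h11 := Polynomial.card_roots' (Polynomial.X ^ 3 - 1 : Polynomial F)
    have h12 : (Polynomial.X ^ 3 - 1 : Polynomial F).natDegree = 3 := by
      have := Polynomial.natDegree_X_pow_sub_C (R := F) (n := 3) (r := 1)
      simpa using this
    rw [h12] at h11
    rw [Finset.card_singleton] at h9
    omega

end H95.US
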