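import Mathlib
import Cfsg.Agent.Lib.H95.US2
import Cfsg.Agent.Lib.H95.US3

set_option autoImplicit false
set_option linter.unusedSectionVars false
set_option linter.unusedVariables false

/-!
Overgroups of the monomial subgroup of `SU`: from one transvection subgroup to all.
-/

namespace H95.US

open Module H95.UBasic H95.UPair

variable {F V : Type*} [Field F] [AddCommGroup V] [Module F V] {σ : F →+* F}
variable {h : V →ₗ[F] V →ₛₗ[σ] F} [FiniteDimensional F V]
variable {κ : Type*} [Fintype κ] [DecidableEq κ] {e : κ → V} {ζ : F} {X : Subgroup (V ≃ₗ[F] V)}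

/-- monomial transformations -/
def Mon (e : κ → V) (g : V ≃ₗ[F] V) : Prop := ∃ π : Equiv.Perm κ, ∀ i, ∃ c : F, g (e i) = c • e (π i)

/-- the setting -/
structure HypF (h : V →ₗ[F] V →ₛₗ[σ] F) (ζ : F) (e : κ → V) (X : Subgroup (V ≃ₗ[F] V)) : Prop where
  H : IsSkew h
  E : ON h ζ e
  le : X ≤ SU h
  mem : ∀ g ∈ SU h, Mon e g → g ∈ X

lemma Mon.mul {a b : V ≃ₗ[F] V} (ha : Mon e a) (hb : Mon e b) : Mon e (a * b) := by
  obtain ⟨π, hπ⟩ := ha
  obtain ⟨τ, hτ⟩ := hb
  refine ⟨τ.trans π, fun i => ?_⟩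
  obtain ⟨c, hc⟩ := hτ i
  obtain ⟨d, hd⟩ := hπ (τ i)
  exact ⟨c * d, by rw [LinearEquiv.mul_apply, hc, map_smul, hd, smul_smul]; rfl⟩

lemma Mon.one : Mon e (1 : V ≃ₗ[F] V) := ⟨1, fun i => ⟨1, by rw [one_smul]; rfl⟩⟩

lemma ON.ne0 (E : ON h ζ e) (i : κ) : e i ≠ 0 := by
  intro h0
  apply E.self_ne i
  rw [h0, map_zero]

lemma Mon.inv (E : ON h ζ e) {a : V ≃ₗ[F] V} (ha : Mon e a) : Mon e a⁻¹ := by
  obtain ⟨π, hπ⟩ := ha
  refine ⟨π.symm, fun i => ?_⟩
  obtain ⟨c, hc⟩ := hπ (π.symm i)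
  rw [Equiv.apply_symm_apply] at hc
  refine ⟨c⁻¹, ?_⟩
  have h1 : a⁻¹ (a (e (π.symm i))) = e (π.symm i) := a.symm_apply_apply _
  rw [hc, map_smul] at h1
  have hc0 : c ≠ 0 := by
    rintro rfl
    rw [zero_smul] at hc
    exact E.ne0 _ ((LinearEquiv.map_eq_zero_iff a).1 hc)
  rw [← h1, smul_smul, inv_mul_cancel₀ hc0, one_smul]

/-- norms of coordinates -/
noncomputable def nn (h : V →ₗ[F] V →ₛₗ[σ] F) (ζ : F) (e : κ → V) (i : κ) (z : V) : F :=
  co h ζ e i z * σ (co h ζ e i z)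

lemma nn_real (H : IsSkew h) (i : κ) (z : V) : σ (nn h ζ e i z) = nn h ζ e i z := by
  rw [nn, map_mul, H.inv, mul_comm]

lemma nn_ne (H : IsSkew h) {i : κ} {z : V} (hz : co h ζ e i z ≠ 0) : nn h ζ e i z ≠ 0 :=
  mul_ne_zero hz fun h0 => hz (H.inj h0)

/-- diagonal elements -/
noncomputable def dl (h : V →ₗ[F] V →ₛₗ[σ] F) (e : κ → V) (i j : κ) (m : F) : V ≃ₗ[F] V :=
  Rq h (e i) m * Rq h (e j) m⁻¹

namespace ON

lemma Rq_e (E : ON h ζ e) (H : IsSkew h) (i : κ) {m : F} (hm : m * σ m = 1) (x : V) :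
    Rq h (e i) m x = x + ((m - 1) * co h ζ e i x) • e i := by
  rw [Rq_apply H (E.self_ne i) hm, E.self, E.he, mul_assoc, ← mul_assoc ζ⁻¹, inv_mul_cancel₀ E.ne, one_mul]

lemma dl_apply (E : ON h ζ e) (H : IsSkew h) {i j : κ} (hij : i ≠ j) {m : F} (hm : m * σ m = 1) (x : V) :
    dl h e i j m x = x + ((m - 1) * co h ζ e i x) • e i + ((m⁻¹ - 1) * co h ζ e j x) • e j := by
  rw [dl, LinearEquiv.mul_apply, E.Rq_e H j (norm_inv H hm), E.Rq_e H i hm, map_add, map_smul, E.co_ne hij,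
    smul_zero, add_zero]
  abel

lemma h2 (E : ON h ζ e) (z : V) (i j : κ) (a b : F) :
    h z (a • e i + b • e j) = ζ * (co h ζ e i z * σ a + co h ζ e j z * σ b) := by
  rw [map_add, map_smulₛₗ, map_smulₛₗ, E.he, E.he, smul_eq_mul, smul_eq_mul]; ring

lemma n2 (E : ON h ζ e) {i j : κ} (hij : i ≠ j) (a b : F) :
    h (a • e i + b • e j) (a • e i + b • e j) = ζ * (a * σ a + b * σ b) := by
  rw [E.h2, map_add, map_smul, map_smul, map_add, map_smul, map_smul, E.co_self, E.co_self, E.co_ne hij,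
    E.co_ne hij.symm]
  simp

lemma orth2 (E : ON h ζ e) {i j k l : κ} (h1 : i ≠ k) (h2 : i ≠ l) (h3 : j ≠ k) (h4 : j ≠ l) (a b c d : F) :
    h (a • e i + b • e j) (c • e k + d • e l) = 0 := by
  rw [E.h2, map_add, map_smul, map_smul, map_add, map_smul, map_smul, E.co_ne h1.symm, E.co_ne h3.symm,
    E.co_ne h2.symm, E.co_ne h4.symm]
  simp

end ON

lemma phi_ne {m : F} (hm : m ≠ 0) (hm1 : m ≠ 1) : phi m ≠ 0 := by
  intro h0
  apply hm1
  rw [phi] at h0
  have : (m - 1) ^ 2 = 0 := by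
    field_simp at h0
    linear_combination -h0
  exact sub_eq_zero.1 (pow_eq_zero_iff (by norm_num) |>.1 this)

lemma phi_eq (H : IsSkew h) {m : F} (hm : m * σ m = 1) : (m - 1) * σ (m - 1) = phi m := by
  have h1 := norm_sigma H hm
  have h0 := norm_ne hm
  rw [map_sub, map_one, h1, phi]
  field_simp
  ring

lemma phi_inv (m : F) : phi m⁻¹ = phi m := by rw [phi, phi, inv_inv]; ring

lemma phi_one : phi (1 : F) = 0 := by rw [phi, inv_one]; ring

namespace HypF

lemma le' (Y : HypF h ζ e X) : X ≤ isom h := Y.le.trans (SU_le h)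

lemma dl_mem (Y : HypF h ζ e X) {i j : κ} (hij : i ≠ j) {m : F} (hm : m * σ m = 1) : dl h e i j m ∈ X := by
  apply Y.mem
  · apply mem_SU_of_det ((isom h).mul_mem (Rq_mem Y.H _ _) (Rq_mem Y.H _ _))
    rw [map_mul, Units.val_mul, Rq_det Y.H (Y.E.self_ne i) hm, Rq_det Y.H (Y.E.self_ne j) (norm_inv Y.H hm),
      mul_inv_cancel₀ (norm_ne hm)]
  · refine ⟨1, fun a => ?_⟩
    rw [Equiv.Perm.one_apply, Y.E.dl_apply Y.H hij hm]
    by_cases hai : a = i
    · subst hai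
      refine ⟨m, ?_⟩
      rw [Y.E.co_self, Y.E.co_ne hij.symm, mul_zero, zero_smul, add_zero, mul_one, sub_smul, one_smul]; abel
    · by_cases haj : a = j
      · subst haj
        refine ⟨m⁻¹, ?_⟩
        rw [Y.E.co_self, Y.E.co_ne hij, mul_zero, zero_smul, add_zero, mul_one, sub_smul, one_smul]; abel
      · refine ⟨1, ?_⟩
        rw [Y.E.co_ne (Ne.symm hai), Y.E.co_ne (Ne.symm haj), mul_zero, mul_zero, zero_smul, zero_smul, add_zero,
          add_zero, one_smul]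

lemma T_diff (Y : HypF h ζ e X) {z y : V} (hz : T h X z) {d : V ≃ₗ[F] V} (hd : d ∈ X) (hy : d z = z + y)
    (h1 : h y y = 0) (h2 : h z y ≠ 0) : T h X y := by
  have h3 := T_conj Y.le' hz hd
  have h4 : d z - z = y := by rw [hy, add_sub_cancel_left]
  have h5 := T_sub Y.H Y.le' hz h3 (by rw [hy, map_add, hz.1, zero_add]; exact h2) (by rw [h4]; exact h1)
  rwa [h4] at h5

/-- first creation of vectors of weight two -/
lemma L1 (Y : HypF h ζ e X) [Fintype F] {z : V} (hz : T h X z) {i j : κ} (hij : i ≠ j) (hi : co h ζ e i z ≠ 0)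
    (hs : nn h ζ e i z + nn h ζ e j z = 0) : ∃ a b : F, a ≠ 0 ∧ b ≠ 0 ∧ T h X (a • e i + b • e j) := by
  have H := Y.H
  have E := Y.E
  obtain ⟨m, hm, hm2⟩ := exists_sq H
  have hm0 := norm_ne hm
  have hm1 : m ≠ 1 := by rintro rfl; exact hm2 (one_pow 2)
  have hmi : m⁻¹ ≠ 1 := by
    intro h0
    apply hm1
    rw [← inv_inv m, h0, inv_one]
  have hni := nn_ne H hi
  have hj : co h ζ e j z ≠ 0 := by
    intro h0
    have : nn h ζ e j z = 0 := by rw [nn, h0, zero_mul]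
    rw [this, add_zero] at hs
    exact hni hs
  refine ⟨(m - 1) * co h ζ e i z, (m⁻¹ - 1) * co h ζ e j z, mul_ne_zero (sub_ne_zero.2 hm1) hi,
    mul_ne_zero (sub_ne_zero.2 hmi) hj, ?_⟩
  have e1 := phi_eq H hm
  have e2 := phi_eq H (norm_inv H hm)
  rw [phi_inv] at e2
  have e3 := norm_sigma H hm
  apply Y.T_diff hz (Y.dl_mem hij hm) (by rw [E.dl_apply H hij hm, add_assoc])
  · rw [E.n2 hij]
    have : (m - 1) * co h ζ e i z * σ ((m - 1) * co h ζ e i z) +
      (m⁻¹ - 1) * co h ζ e j z * σ ((m⁻¹ - 1) * co h ζ e j z) = phi m * (nn h ζ e i z + nn h ζ e j z) := by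
      rw [map_mul, map_mul, nn, nn]
      linear_combination (co h ζ e i z * σ (co h ζ e i z)) * e1 + (co h ζ e j z * σ (co h ζ e j z)) * e2
    rw [this, hs, mul_zero, mul_zero]
  · rw [E.h2]
    have : co h ζ e i z * σ ((m - 1) * co h ζ e i z) + co h ζ e j z * σ ((m⁻¹ - 1) * co h ζ e j z)
      = (m⁻¹ - m) * nn h ζ e i z := by
      rw [nn] at hs ⊢
      rw [nn] at hs
      rw [map_mul, map_mul, map_sub, map_sub, map_one, map_inv₀, e3, inv_inv]
      linear_combination (m - 1) * hs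
    rw [this]
    refine mul_ne_zero E.ne (mul_ne_zero ?_ hni)
    intro h0
    apply hm2
    field_simp at h0
    linear_combination -h0

/-- second creation of vectors of weight two -/
lemma L2 (Y : HypF h ζ e X) [Fintype F] {z : V} (hz : T h X z) {i j l : κ} (hij : i ≠ j) (hil : i ≠ l) (hjl : j ≠ l)
    (hi : co h ζ e i z ≠ 0) (hj : co h ζ e j z ≠ 0) (hl : co h ζ e l z = 0) :
    ∃ a b : F, a ≠ 0 ∧ b ≠ 0 ∧ T h X (a • e i + b • e j) := by
  have H := Y.H
  have E := Y.E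
  by_cases hs : nn h ζ e i z + nn h ζ e j z = 0
  · exact Y.L1 hz hij hi hs
  have hni := nn_ne H hi
  have hnj := nn_ne H hj
  have ri := nn_real (ζ := ζ) (e := e) H i z
  have rj := nn_real (ζ := ζ) (e := e) H j z
  obtain ⟨m, n, hm, hn, hm1, hn1, hr⟩ := exists_ratio H (ρ := -(nn h ζ e i z * (nn h ζ e j z)⁻¹)) (by
    rw [map_neg, map_mul, map_inv₀, ri, rj]) (neg_ne_zero.2 (mul_ne_zero hni (inv_ne_zero hnj)))
  have hr' : phi n * nn h ζ e j z = -(phi m * nn h ζ e i z) := by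
    rw [hr]; field_simp
  have em := phi_eq H hm
  have en := phi_eq H hn
  have sm := norm_sigma H hm
  have sn := norm_sigma H hn
  refine ⟨(m - 1) * co h ζ e i z, (n - 1) * co h ζ e j z, mul_ne_zero (sub_ne_zero.2 hm1) hi,
    mul_ne_zero (sub_ne_zero.2 hn1) hj, ?_⟩
  apply Y.T_diff hz (X.mul_mem (Y.dl_mem hil hm) (Y.dl_mem hjl hn))
  · rw [LinearEquiv.mul_apply, E.dl_apply H hjl hn, hl, mul_zero, zero_smul, add_zero, E.dl_apply H hil hm, map_add,
      map_add, map_smul, map_smul, hl, E.co_ne hij, E.co_ne hjl.symm]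
    simp only [smul_zero, add_zero, mul_zero, zero_smul]
    abel
  · rw [E.n2 hij]
    have : (m - 1) * co h ζ e i z * σ ((m - 1) * co h ζ e i z) +
      (n - 1) * co h ζ e j z * σ ((n - 1) * co h ζ e j z) = phi m * nn h ζ e i z + phi n * nn h ζ e j z := by
      rw [map_mul, map_mul, nn, nn]
      linear_combination (co h ζ e i z * σ (co h ζ e i z)) * em + (co h ζ e j z * σ (co h ζ e j z)) * en
    rw [this, hr']; ring
  · rw [E.h2]
    refine mul_ne_zero E.ne ?_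
    intro h0
    have e1 : σ (m - 1) * nn h ζ e i z = -(σ (n - 1) * nn h ζ e j z) := by
      rw [nn, nn]
      rw [map_mul, map_mul] at h0
      linear_combination h0
    have e2 := congrArg σ e1
    rw [map_mul, map_neg, map_mul, H.inv, H.inv, ri, rj] at e2
    have e3 : phi m * nn h ζ e i z ^ 2 = phi n * nn h ζ e j z ^ 2 := by
      rw [← em, ← en]
      linear_combination (m - 1) * nn h ζ e i z * e1 - (σ (n - 1) * nn h ζ e j z) * e2
    have e4 : phi n * nn h ζ e j z * (nn h ζ e i z + nn h ζ e j z) = 0 := by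
      linear_combination nn h ζ e i z * hr' - e3
    exact mul_ne_zero (mul_ne_zero (phi_ne (norm_ne hn) hn1) hnj) hs e4

end HypF

lemma exists_not_mem (s : Finset κ) (hs : s.card < Fintype.card κ) : ∃ x, x ∉ s := by
  by_contra hcon
  push Not at hcon
  have : s = Finset.univ := Finset.eq_univ_iff_forall.2 hcon
  rw [this, Finset.card_univ] at hs
  exact lt_irrefl _ hs

end H95.US
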