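import Mathlib
import Cfsg.Agent.Lib.H95.US4

set_option autoImplicit false
set_option linter.unusedSectionVars false
set_option linter.unusedVariables false

/-!
Overgroups of the monomial subgroup of `SU`: from one transvection subgroup to all.
-/

namespace H95.US

open Module H95.UBasic H95.UPair

variable {F V : Type*} [Field F] [AddCommGroup V] [Module F V] {σ : F →+* F}
variable {h : V →ₗ[F] V →ₛₗ[σ] F} [FiniteDimensional F V]
variable {κ : Type*} [Fintype κ] [DecidableEq κ] {e : κ → V} {ζ : F} {X : Subgroup (V ≃ₗ[F] V)}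

namespace HypF

/-- the difference vector of a diagonal element -/
noncomputable def yv (h : V →ₗ[F] V →ₛₗ[σ] F) (ζ : F) (e : κ → V) (i j : κ) (m : F) (z : V) : V :=
  ((m - 1) * co h ζ e i z) • e i + ((m⁻¹ - 1) * co h ζ e j z) • e j

lemma dl_yv (Y : HypF h ζ e X) {i j : κ} (hij : i ≠ j) {m : F} (hm : m * σ m = 1) (z : V) :
    dl h e i j m z = z + yv h ζ e i j m z := by
  rw [Y.E.dl_apply Y.H hij hm, yv, add_assoc]

lemma yv_add (Y : HypF h ζ e X) {i j : κ} {m : F} {z y : V} (h1 : co h ζ e i y = 0) (h2 : co h ζ e j y = 0) :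
    yv h ζ e i j m (z + y) = yv h ζ e i j m z := by
  rw [yv, yv, map_add, map_add, h1, h2, add_zero, add_zero]

lemma co_yv (Y : HypF h ζ e X) {i j k : κ} (h1 : k ≠ i) (h2 : k ≠ j) (m : F) (z : V) :
    co h ζ e k (yv h ζ e i j m z) = 0 := by
  rw [yv, map_add, map_smul, map_smul, Y.E.co_ne h1, Y.E.co_ne h2, smul_zero, smul_zero, add_zero]

lemma h_yv (Y : HypF h ζ e X) {i j : κ} {m : F} (hm : m * σ m = 1) (z : V) :
    h z (yv h ζ e i j m z) = ζ * ((m⁻¹ - 1) * nn h ζ e i z + (m - 1) * nn h ζ e j z) := by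
  rw [yv, Y.E.h2, map_mul, map_mul, map_sub, map_sub, map_one, map_inv₀, norm_sigma Y.H hm, inv_inv, nn, nn]
  ring

lemma n_yv (Y : HypF h ζ e X) {i j : κ} (hij : i ≠ j) {m : F} (hm : m * σ m = 1) (z : V) :
    h (yv h ζ e i j m z) (yv h ζ e i j m z) = ζ * (phi m * (nn h ζ e i z + nn h ζ e j z)) := by
  have e1 := phi_eq Y.H hm
  have e2 := phi_eq Y.H (norm_inv Y.H hm)
  rw [phi_inv] at e2
  rw [yv, Y.E.n2 hij, map_mul, map_mul, nn, nn]
  linear_combination ζ * (co h ζ e i z * σ (co h ζ e i z)) * e1 + ζ * (co h ζ e j z * σ (co h ζ e j z)) * e2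

variable [Fintype F]

/-- from a full vector to a non-full vector, unequal norms -/
lemma L4 (Y : HypF h ζ e X) (hn : 7 ≤ Fintype.card κ) {z : V} (hz : T h X z) (hfull : ∀ i, co h ζ e i z ≠ 0)
    (hs : ∀ i j, i ≠ j → nn h ζ e i z + nn h ζ e j z ≠ 0) {i j : κ} (hne : nn h ζ e i z ≠ nn h ζ e j z) :
    ∃ y, T h X y ∧ y ≠ 0 ∧ ∃ l, co h ζ e l y = 0 := by
  have H := Y.H
  have E := Y.E
  have hij : i ≠ j := by rintro rfl; exact hne rfl
  obtain ⟨k1, hk1⟩ := exists_not_mem ({i, j} : Finset κ) (by have := Finset.card_le_two (a := i) (b := j); omega)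
  obtain ⟨k2, hk2⟩ := exists_not_mem ({i, j, k1} : Finset κ) (by
    have := Finset.card_le_three (a := i) (b := j) (c := k1); omega)
  obtain ⟨k3, hk3⟩ := exists_not_mem ({i, j, k1, k2} : Finset κ) (by
    have := Finset.card_le_four (a := i) (b := j) (c := k1) (d := k2); omega)
  obtain ⟨k4, hk4⟩ := exists_not_mem ({i, j, k1, k2, k3} : Finset κ) (by
    have := Finset.card_le_five (a := i) (b := j) (c := k1) (d := k2) (e := k3); omega)
  obtain ⟨l, hl⟩ := exists_not_mem ({i, j, k1, k2, k3, k4} : Finset κ) (by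
    have := Finset.card_le_six (a := i) (b := j) (c := k1) (d := k2) (e := k3) (f := k4); omega)
  simp only [Finset.mem_insert, Finset.mem_singleton, not_or] at hk1 hk2 hk3 hk4 hl
  obtain ⟨m, hm, hm2⟩ := exists_sq H
  have hm1 : m ≠ 1 := by rintro rfl; exact hm2 (one_pow 2)
  have hm0 := norm_ne hm
  have hreal : ∀ a b, σ (nn h ζ e a z + nn h ζ e b z) = nn h ζ e a z + nn h ζ e b z := fun a b => by
    rw [map_add, nn_real H, nn_real H]
  obtain ⟨n1, n2, hn1, hn2, hsum⟩ := phi_two H (a := nn h ζ e k1 z + nn h ζ e k2 z)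
    (b := nn h ζ e k3 z + nn h ζ e k4 z) (c := -(phi m * (nn h ζ e i z + nn h ζ e j z))) (hreal _ _) (hreal _ _) (by
      rw [map_neg, map_mul, phi_real H hm, hreal]) (hs _ _ (Ne.symm hk2.2.2)) (hs _ _ (Ne.symm hk4.2.2.2.2))
  -- the two candidates
  have key : ∀ m' : F, m' * σ m' = 1 → phi m' = phi m → m' ≠ 1 →
      h z (yv h ζ e i j m' z + yv h ζ e k1 k2 n1 z + yv h ζ e k3 k4 n2 z) ≠ 0 →
      ∃ y, T h X y ∧ y ≠ 0 ∧ ∃ l, co h ζ e l y = 0 := by
    intro m' hm' hphi hm1' hne0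
    refine ⟨yv h ζ e i j m' z + yv h ζ e k1 k2 n1 z + yv h ζ e k3 k4 n2 z, ?_, ?_, l, ?_⟩
    · apply Y.T_diff hz (X.mul_mem (X.mul_mem (Y.dl_mem hij hm') (Y.dl_mem (Ne.symm hk2.2.2) hn1))
        (Y.dl_mem (Ne.symm hk4.2.2.2.2) hn2)) ?_ ?_ hne0
      · rw [LinearEquiv.mul_apply, LinearEquiv.mul_apply, Y.dl_yv (Ne.symm hk4.2.2.2.2) hn2,
          Y.dl_yv (Ne.symm hk2.2.2) hn1, Y.dl_yv hij hm']
        rw [Y.yv_add (i := k1) (j := k2) (Y.co_yv (Ne.symm hk3.2.2.1) (Ne.symm hk4.2.2.1) _ _)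
          (Y.co_yv (Ne.symm hk3.2.2.2) (Ne.symm hk4.2.2.2.1) _ _)]
        rw [Y.yv_add (i := i) (j := j) (Y.co_yv (Ne.symm hk1.1) (Ne.symm hk2.1) _ _)
          (Y.co_yv (Ne.symm hk1.2) (Ne.symm hk2.2.1) _ _)]
        rw [Y.yv_add (i := i) (j := j) (Y.co_yv (Ne.symm hk3.1) (Ne.symm hk4.1) _ _)
          (Y.co_yv (Ne.symm hk3.2.1) (Ne.symm hk4.2.1) _ _)]
        abel
      · have o1 : ∀ a b c d : F, h (a • e i + b • e j) (c • e k1 + d • e k2) = 0 :=
          E.orth2 (Ne.symm hk1.1) (Ne.symm hk2.1) (Ne.symm hk1.2) (Ne.symm hk2.2.1)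
        have o2 : ∀ a b c d : F, h (a • e i + b • e j) (c • e k3 + d • e k4) = 0 :=
          E.orth2 (Ne.symm hk3.1) (Ne.symm hk4.1) (Ne.symm hk3.2.1) (Ne.symm hk4.2.1)
        have o3 : ∀ a b c d : F, h (a • e k1 + b • e k2) (c • e k3 + d • e k4) = 0 :=
          E.orth2 (Ne.symm hk3.2.2.1) (Ne.symm hk4.2.2.1) (Ne.symm hk3.2.2.2) (Ne.symm hk4.2.2.2.1)
        have p1 : h (yv h ζ e i j m' z) (yv h ζ e k1 k2 n1 z) = 0 := o1 _ _ _ _
        have p2 : h (yv h ζ e i j m' z) (yv h ζ e k3 k4 n2 z) = 0 := o2 _ _ _ _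
        have p3 : h (yv h ζ e k1 k2 n1 z) (yv h ζ e k3 k4 n2 z) = 0 := o3 _ _ _ _
        simp only [map_add, LinearMap.add_apply, p1, p2, p3, H.symm_zero p1, H.symm_zero p2, H.symm_zero p3,
          Y.n_yv hij hm', Y.n_yv (Ne.symm hk2.2.2) hn1, Y.n_yv (Ne.symm hk4.2.2.2.2) hn2]
        rw [hphi]
        linear_combination ζ * hsum
    · intro h0
      have h1 : co h ζ e i (yv h ζ e i j m' z + yv h ζ e k1 k2 n1 z + yv h ζ e k3 k4 n2 z) = 0 := by
        rw [h0, map_zero]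
      rw [map_add, map_add, Y.co_yv (Ne.symm hk1.1) (Ne.symm hk2.1), Y.co_yv (Ne.symm hk3.1) (Ne.symm hk4.1), yv, map_add,
        map_smul, map_smul, E.co_self, E.co_ne hij] at h1
      simp only [smul_eq_mul, mul_one, mul_zero, add_zero] at h1
      exact mul_ne_zero (sub_ne_zero.2 hm1') (hfull i) h1
    · rw [map_add, map_add, Y.co_yv hl.1 hl.2.1, Y.co_yv hl.2.2.1 hl.2.2.2.1, Y.co_yv hl.2.2.2.2.1 hl.2.2.2.2.2]
      simp
  by_cases h1 : h z (yv h ζ e i j m z + yv h ζ e k1 k2 n1 z + yv h ζ e k3 k4 n2 z) = 0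
  · by_cases h2 : h z (yv h ζ e i j m⁻¹ z + yv h ζ e k1 k2 n1 z + yv h ζ e k3 k4 n2 z) = 0
    · exfalso
      have h3 : h z (yv h ζ e i j m z) - h z (yv h ζ e i j m⁻¹ z) = 0 := by
        have e1 := h1
        have e2 := h2
        simp only [map_add] at e1 e2
        linear_combination e1 - e2
      rw [Y.h_yv hm, Y.h_yv (norm_inv H hm), inv_inv] at h3
      have h4 : ζ * ((m⁻¹ - m) * (nn h ζ e i z - nn h ζ e j z)) = 0 := by linear_combination h3
      refine mul_ne_zero E.ne (mul_ne_zero ?_ (sub_ne_zero.2 hne)) h4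
      intro h0
      apply hm2
      field_simp at h0
      linear_combination -h0
    · refine key m⁻¹ (norm_inv H hm) (phi_inv m) ?_ h2
      intro h0
      apply hm1
      rw [← inv_inv m, h0, inv_one]
  · exact key m hm rfl hm1 h1

lemma nonfull0 (Y : HypF h ζ e X) (hn : 7 ≤ Fintype.card κ) {z : V} (hz : T h X z) (hz0 : z ≠ 0) {i j : κ}
    (hne : nn h ζ e i z ≠ nn h ζ e j z) : ∃ y, T h X y ∧ y ≠ 0 ∧ ∃ l, co h ζ e l y = 0 := by
  by_cases hfull : ∀ i, co h ζ e i z ≠ 0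
  · by_cases hs : ∀ i j, i ≠ j → nn h ζ e i z + nn h ζ e j z ≠ 0
    · exact Y.L4 hn hz hfull hs hne
    · push Not at hs
      obtain ⟨i, j, hij, hs⟩ := hs
      obtain ⟨a, b, ha, hb, hT⟩ := Y.L1 hz hij (hfull i) hs
      obtain ⟨l, hl⟩ := exists_not_mem ({i, j} : Finset κ) (by have := Finset.card_le_two (a := i) (b := j); omega)
      simp only [Finset.mem_insert, Finset.mem_singleton, not_or] at hl
      refine ⟨_, hT, ?_, l, ?_⟩
      · intro h0
        have h1 : co h ζ e i (a • e i + b • e j) = 0 := by rw [h0, map_zero]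
        rw [map_add, map_smul, map_smul, Y.E.co_self, Y.E.co_ne hij] at h1
        simp at h1
        exact ha h1
      · rw [map_add, map_smul, map_smul, Y.E.co_ne hl.1, Y.E.co_ne hl.2]; simp
  · push Not at hfull
    exact ⟨z, hz, hz0, hfull⟩

lemma nonfull (Y : HypF h ζ e X) (hn : 7 ≤ Fintype.card κ) {z : V} (hz : T h X z) (hz0 : z ≠ 0) :
    ∃ y, T h X y ∧ y ≠ 0 ∧ ∃ l, co h ζ e l y = 0 := by
  have H := Y.H
  have E := Y.E
  by_cases hne : ∃ i j, nn h ζ e i z ≠ nn h ζ e j z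
  · obtain ⟨i, j, hne⟩ := hne
    exact Y.nonfull0 hn hz hz0 hne
  push Not at hne
  by_cases hfull : ∀ i, co h ζ e i z ≠ 0
  swap
  · push Not at hfull
    exact ⟨z, hz, hz0, hfull⟩
  have : Nonempty κ := Fintype.card_pos_iff.1 (by omega)
  obtain ⟨i⟩ := this
  obtain ⟨j, hj⟩ := exists_not_mem ({i} : Finset κ) (by rw [Finset.card_singleton]; omega)
  rw [Finset.mem_singleton] at hj
  have hij : i ≠ j := Ne.symm hj
  by_cases hs : nn h ζ e i z + nn h ζ e j z = 0
  · obtain ⟨a, b, ha, hb, hT⟩ := Y.L1 hz hij (hfull i) hs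
    obtain ⟨l, hl⟩ := exists_not_mem ({i, j} : Finset κ) (by have := Finset.card_le_two (a := i) (b := j); omega)
    simp only [Finset.mem_insert, Finset.mem_singleton, not_or] at hl
    refine ⟨_, hT, ?_, l, ?_⟩
    · intro h0
      have h1 : co h ζ e i (a • e i + b • e j) = 0 := by rw [h0, map_zero]
      rw [map_add, map_smul, map_smul, Y.E.co_self, Y.E.co_ne hij] at h1
      simp at h1
      exact ha h1
    · rw [map_add, map_smul, map_smul, Y.E.co_ne hl.1, Y.E.co_ne hl.2]; simp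
  -- odd characteristic, all norms equal
  set A := nn h ζ e i z with hA
  have hAj : nn h ζ e j z = A := hne j i
  have hA0 : A ≠ 0 := nn_ne H (hfull i)
  rw [hAj] at hs
  have two : (2 : F) ≠ 0 := by intro h2; apply hs; linear_combination A * h2
  obtain ⟨m, hm, hm2⟩ := exists_sq H
  have hm1 : m ≠ 1 := by rintro rfl; exact hm2 (one_pow 2)
  have hm0 := norm_ne hm
  have hT2 := T_conj Y.le' hz (Y.dl_mem hij hm)
  have e1 := Y.dl_yv hij hm z
  have e2 : h z (dl h e i j m z) = -(ζ * (phi m * A)) := by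
    rw [e1, map_add, hz.1, zero_add, Y.h_yv hm, hAj, ← hA, phi]
    ring
  have hζi : ζ⁻¹ ≠ 0 := inv_ne_zero E.ne
  have hσζ : σ ζ⁻¹ = -ζ⁻¹ := by rw [map_inv₀, E.skew, inv_neg]
  have e3 : h (dl h e i j m z) z = -(ζ * (phi m * A)) := by
    rw [H.skew z, e2, map_neg, map_mul, map_mul, E.skew, phi_real H hm, hA, nn_real H]
    ring
  have hT3 : T h X ((1 : F) • z + ζ⁻¹ • dl h e i j m z) := by
    apply T_line H Y.le' hz hT2
    · rw [e2]
      exact neg_ne_zero.2 (mul_ne_zero E.ne (mul_ne_zero (phi_ne hm0 hm1) hA0))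
    · simp only [map_add, LinearMap.add_apply, map_smul, LinearMap.smul_apply, smul_eq_mul, map_smulₛₗ, hz.1,
        hT2.1, e2, e3, hσζ, map_one]
      ring
  have ci : co h ζ e i (dl h e i j m z) = m * co h ζ e i z := by
    rw [e1, yv, map_add, map_add, map_smul, map_smul, E.co_self, E.co_ne hij]
    simp only [smul_eq_mul]
    ring
  have cj : co h ζ e j (dl h e i j m z) = m⁻¹ * co h ζ e j z := by
    rw [e1, yv, map_add, map_add, map_smul, map_smul, E.co_self, E.co_ne hij.symm]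
    simp only [smul_eq_mul]
    ring
  have sm := norm_sigma H hm
  have hne' : nn h ζ e i ((1 : F) • z + ζ⁻¹ • dl h e i j m z) ≠ nn h ζ e j ((1 : F) • z + ζ⁻¹ • dl h e i j m z) := by
    have n1 : nn h ζ e i ((1 : F) • z + ζ⁻¹ • dl h e i j m z) = (1 + (m - m⁻¹) * ζ⁻¹ - ζ⁻¹ ^ 2) * A := by
      rw [nn, map_add, map_smul, map_smul, ci, hA, nn]
      simp only [smul_eq_mul, map_add, map_mul, hσζ, map_one, sm]
      field_simp
      ring
    have n2 : nn h ζ e j ((1 : F) • z + ζ⁻¹ • dl h e i j m z) = (1 - (m - m⁻¹) * ζ⁻¹ - ζ⁻¹ ^ 2) * A := by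
      rw [nn, map_add, map_smul, map_smul, cj, ← hAj, nn]
      simp only [smul_eq_mul, map_add, map_mul, hσζ, map_one, sm, map_inv₀, inv_inv]
      field_simp
      ring
    rw [n1, n2]
    intro h0
    have h1 : 2 * ((m - m⁻¹) * ζ⁻¹ * A) = 0 := by linear_combination h0
    refine mul_ne_zero two (mul_ne_zero (mul_ne_zero ?_ hζi) hA0) h1
    intro h2
    apply hm2
    field_simp at h2
    linear_combination h2
  refine Y.nonfull0 hn hT3 ?_ hne'
  intro h0
  apply hne'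
  rw [h0]; simp [nn]

/-- an isotropic vector has at least two nonzero coordinates -/
lemma two_coord (Y : HypF h ζ e X) {y : V} (hy : h y y = 0) {i : κ} (hi : co h ζ e i y ≠ 0) :
    ∃ j, i ≠ j ∧ co h ζ e j y ≠ 0 := by
  by_contra hcon
  push Not at hcon
  rw [Y.E.form Y.H, Finset.sum_eq_single i] at hy
  · exact mul_ne_zero Y.E.ne (nn_ne Y.H hi) hy
  · intro j _ hj
    rw [hcon j (Ne.symm hj), zero_mul]
  · intro h0; exact absurd (Finset.mem_univ i) h0

lemma ex_coord (Y : HypF h ζ e X) {y : V} (hy : y ≠ 0) : ∃ i, co h ζ e i y ≠ 0 := by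
  by_contra hcon
  push Not at hcon
  exact hy (Y.E.ext fun i => by rw [hcon i, map_zero])

/-- there is a vector of weight two -/
lemma wt2 (Y : HypF h ζ e X) (hn : 7 ≤ Fintype.card κ) {z : V} (hz : T h X z) (hz0 : z ≠ 0) :
    ∃ i j, i ≠ j ∧ ∃ a b : F, a ≠ 0 ∧ b ≠ 0 ∧ T h X (a • e i + b • e j) := by
  obtain ⟨y, hy, hy0, l, hl⟩ := Y.nonfull hn hz hz0
  obtain ⟨i, hi⟩ := Y.ex_coord hy0
  obtain ⟨j, hij, hj⟩ := Y.two_coord hy.1 hi
  have hil : i ≠ l := by rintro rfl; exact hi hl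
  have hjl : j ≠ l := by rintro rfl; exact hj hl
  exact ⟨i, j, hij, Y.L2 hy hij hil hjl hi hj hl⟩

omit [Fintype F] in
/-- all vectors of weight two -/
lemma L5 (Y : HypF h ζ e X) (hn : 3 ≤ Fintype.card κ) {i0 j0 : κ} (hij0 : i0 ≠ j0) {a0 b0 : F} (ha0 : a0 ≠ 0)
    (hb0 : b0 ≠ 0) (hT : T h X (a0 • e i0 + b0 • e j0)) {i j : κ} (hij : i ≠ j) {a b : F}
    (hab : a * σ a + b * σ b = 0) : T h X (a • e i + b • e j) := by
  have H := Y.H
  have E := Y.E
  by_cases ha : a = 0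
  · subst ha
    rw [zero_mul, zero_add] at hab
    have hb : b = 0 := by
      rcases mul_eq_zero.1 hab with h1 | h1
      · exact h1
      · exact H.inj h1
    rw [hb, zero_smul, zero_smul, add_zero]; exact T_zero
  have hσa : σ a ≠ 0 := fun h0 => ha (H.inj h0)
  have hσa0 : σ a0 ≠ 0 := fun h0 => ha0 (H.inj h0)
  have hσb0 : σ b0 ≠ 0 := fun h0 => hb0 (H.inj h0)
  have hab0 : a0 * σ a0 + b0 * σ b0 = 0 := by
    have := hT.1
    rw [E.n2 hij0] at this
    exact (mul_eq_zero.1 this).resolve_left E.ne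
  set c := b * a⁻¹ * (a0 * b0⁻¹) with hc
  have hcn : c * σ c = 1 := by
    rw [hc]
    simp only [map_mul, map_inv₀]
    have e1 : b * σ b = -(a * σ a) := by linear_combination hab
    have e2 : a0 * σ a0 = -(b0 * σ b0) := by linear_combination hab0
    field_simp
    calc b * a0 * σ b * σ a0 = (b * σ b) * (a0 * σ a0) := by ring
      _ = a * b0 * σ a * σ b0 := by rw [e1, e2]; ring
  obtain ⟨π, hπ1, hπ2⟩ := exists_perm hij0 hij
  obtain ⟨k, hk⟩ := exists_not_mem ({i0, j0} : Finset κ) (by have := Finset.card_le_two (a := i0) (b := j0); omega)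
  simp only [Finset.mem_insert, Finset.mem_singleton, not_or] at hk
  obtain ⟨g, hg, l, hl, h1, h2⟩ := E.exists_mono H k π (fun x => if x = j0 then c else 1) (by
    intro x
    by_cases hx : x = j0
    · rw [if_pos hx]; exact hcn
    · rw [if_neg hx, map_one, mul_one])
  have hgm : g ∈ X := by
    apply Y.mem g hg
    refine ⟨π, fun x => ?_⟩
    by_cases hx : x = k
    · exact ⟨l, by rw [hx]; exact h2⟩
    · exact ⟨_, h1 x hx⟩
  have h3 := T_conj Y.le' hT hgm
  have e1 : g (e i0) = e i := by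
    rw [h1 i0 (Ne.symm hk.1), if_neg hij0, one_smul, hπ1]
  have e2 : g (e j0) = c • e j := by
    rw [h1 j0 (Ne.symm hk.2), if_pos rfl, hπ2]
  rw [map_add, map_smul, map_smul, e1, e2, smul_smul] at h3
  have h4 := T_smul H h3 (a * a0⁻¹)
  rw [smul_add, smul_smul, smul_smul] at h4
  have e3 : a * a0⁻¹ * a0 = a := by field_simp
  have e4 : a * a0⁻¹ * (b0 * c) = b := by rw [hc]; field_simp
  rwa [e3, e4] at h4

end HypF

/-! ### Transvections in a hyperbolic plane -/

omit [FiniteDimensional F V] in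
lemma sl2 (H : IsSkew h) (hX : X ≤ isom h) {u v : V} (hu : T h X u) (hv : T h X v) (huv : h u v = 1) {a b a' b' : F}
    (hΔ : a * σ b - b * σ a ≠ 0) (hΔ' : a' * σ b' - b' * σ a' = a * σ b - b * σ a) :
    ∃ g ∈ X, g (a • u + b • v) = a' • u + b' • v ∧ ∀ w, h w u = 0 → h w v = 0 → g w = w := by
  have hvu : h v u = -1 := by rw [H.skew u v, huv, map_one]
  -- elementary moves
  have E12 : ∀ t, σ t = t → ∃ g ∈ X, (∀ a b : F, g (a • u + b • v) = (a + t * b) • u + b • v) ∧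
      ∀ w, h w u = 0 → h w v = 0 → g w = w := by
    intro t ht
    have ht' : σ (-t) = -t := by rw [map_neg, ht]
    refine ⟨rf h u (-t), hu.2 _ ht', ?_, ?_⟩
    · intro a b
      rw [rf_apply (tr_good hu.1 ht')]
      simp only [map_add, LinearMap.add_apply, map_smul, LinearMap.smul_apply, smul_eq_mul, hu.1, hvu]
      rw [add_smul]
      have : -t * (a * 0 + b * -1) = t * b := by ring
      rw [this]; abel
    · intro w hw _
      rw [rf_apply (tr_good hu.1 ht'), hw, mul_zero, zero_smul, add_zero]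
  have E21 : ∀ t, σ t = t → ∃ g ∈ X, (∀ a b : F, g (a • u + b • v) = a • u + (b + t * a) • v) ∧
      ∀ w, h w u = 0 → h w v = 0 → g w = w := by
    intro t ht
    refine ⟨rf h v t, hv.2 _ ht, ?_, ?_⟩
    · intro a b
      rw [rf_apply (tr_good hv.1 ht)]
      simp only [map_add, LinearMap.add_apply, map_smul, LinearMap.smul_apply, smul_eq_mul, hv.1, huv]
      rw [add_smul]
      have : t * (a * 1 + b * 0) = t * a := by ring
      rw [this]; abel
    · intro w _ hw
      rw [rf_apply (tr_good hv.1 ht), hw, mul_zero, zero_smul, add_zero]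
  -- the case r ≠ 0
  have main : ∀ a b a' b' : F, a * σ b - b * σ a ≠ 0 → a' * σ b' - b' * σ a' = a * σ b - b * σ a →
      b' * σ b - b * σ b' ≠ 0 →
      ∃ g ∈ X, g (a • u + b • v) = a' • u + b' • v ∧ ∀ w, h w u = 0 → h w v = 0 → g w = w := by
    intro a b a' b' hΔ hΔ' hr
    set Δ := a * σ b - b * σ a with hΔd
    have hσΔ : σ Δ = -Δ := by rw [hΔd, map_sub, map_mul, map_mul, H.inv, H.inv]; ring
    set p := (a' * σ b - b * σ a') * Δ⁻¹ with hp
    set q := (a * σ a' - a' * σ a) * Δ⁻¹ with hq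
    set r := (b' * σ b - b * σ b') * Δ⁻¹ with hrd
    set s := (a * σ b' - b' * σ a) * Δ⁻¹ with hs
    have hpr : σ p = p := by
      rw [hp, map_mul, map_inv₀, hσΔ, map_sub, map_mul, map_mul, H.inv, H.inv, inv_neg]; ring
    have hrr : σ r = r := by
      rw [hrd, map_mul, map_inv₀, hσΔ, map_sub, map_mul, map_mul, H.inv, H.inv, inv_neg]; ring
    have hsr : σ s = s := by
      rw [hs, map_mul, map_inv₀, hσΔ, map_sub, map_mul, map_mul, H.inv, H.inv, inv_neg]; ring
    have hr0 : r ≠ 0 := mul_ne_zero hr (inv_ne_zero hΔ)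
    have e1 : p * a + q * b = a' := by
      rw [hp, hq]; field_simp; rw [hΔd]; ring
    have e2 : r * a + s * b = b' := by
      rw [hrd, hs]; field_simp; rw [hΔd]; ring
    have e3 : p * s - q * r = 1 := by
      have : (p * s - q * r) * Δ ^ 2 = Δ * (a' * σ b' - b' * σ a') := by
        rw [hp, hq, hrd, hs]; field_simp; rw [hΔd]; ring
      rw [hΔ'] at this
      have h2 : Δ ^ 2 ≠ 0 := pow_ne_zero 2 hΔ
      apply mul_right_cancel₀ h2
      rw [this]; ring
    obtain ⟨g1, hg1, hg1a, hg1w⟩ := E12 ((s - 1) * r⁻¹) (by rw [map_mul, map_inv₀, map_sub, map_one, hsr, hrr])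
    obtain ⟨g2, hg2, hg2a, hg2w⟩ := E21 r hrr
    obtain ⟨g3, hg3, hg3a, hg3w⟩ := E12 ((p - 1) * r⁻¹) (by rw [map_mul, map_inv₀, map_sub, map_one, hpr, hrr])
    refine ⟨g3 * g2 * g1, X.mul_mem (X.mul_mem hg3 hg2) hg1, ?_, ?_⟩
    · rw [LinearEquiv.mul_apply, LinearEquiv.mul_apply, hg1a, hg2a, hg3a]
      have f1 : b + r * (a + (s - 1) * r⁻¹ * b) = b' := by
        rw [← e2]; field_simp; ring
      rw [f1]
      have f2 : a + (s - 1) * r⁻¹ * b + (p - 1) * r⁻¹ * b' = a' := by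
        rw [← e2, ← e1]
        field_simp
        linear_combination b * e3
      rw [f2]
    · intro w hw1 hw2
      rw [LinearEquiv.mul_apply, LinearEquiv.mul_apply, hg1w w hw1 hw2, hg2w w hw1 hw2, hg3w w hw1 hw2]
  by_cases hr : b' * σ b - b * σ b' = 0
  · obtain ⟨g1, hg1, hg1a, hg1w⟩ := E21 1 (map_one σ)
    obtain ⟨g2, hg2, hg2a, hg2w⟩ := main a (b + 1 * a) a' b' (by
      rw [map_add, map_mul, map_one]
      intro h0; apply hΔ; linear_combination h0) (by
      rw [hΔ', map_add, map_mul, map_one]; ring) (by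
      intro h0
      rw [map_add, map_mul, map_one] at h0
      -- b' ∥ b over K, so a, b' dependent
      have h1 : b' * σ a - a * σ b' = 0 := by linear_combination h0 - hr
      -- then Δ' b = ...
      have h2 : (a * σ b - b * σ a) * b' = 0 := by
        linear_combination -b * h1 + a * hr
      have h3 := (mul_eq_zero.1 h2).resolve_left hΔ
      rw [h3, map_zero, mul_zero, zero_mul, sub_zero] at hΔ'
      exact hΔ hΔ'.symm)
    refine ⟨g2 * g1, X.mul_mem hg2 hg1, ?_, ?_⟩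
    · rw [LinearEquiv.mul_apply, hg1a, hg2a]
    · intro w hw1 hw2
      rw [LinearEquiv.mul_apply, hg1w w hw1 hw2, hg2w w hw1 hw2]
  · exact main a b a' b' hΔ hΔ' hr

/-- transitivity in a plane -/
lemma plane_trans (H : IsSkew h) (hX : X ≤ isom h) {P : Submodule F V} (hP : ∀ v ∈ P, (∀ w ∈ P, h v w = 0) → v = 0)
    (hd : finrank F P = 2) (hT : ∀ z ∈ P, h z z = 0 → T h X z) {x y : V} (hx : x ∈ P) (hy : y ∈ P)
    (hxy : h x x = h y y) (hx0 : h x x ≠ 0) :
    ∃ g ∈ X, g x = y ∧ ∀ w, (∀ u ∈ P, h w u = 0) → g w = w := by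
  obtain ⟨v, hv, hv0, hvv⟩ := exists_iso H (U := P) (by omega)
  obtain ⟨u, hu, huu, huv⟩ := iso_dual H hP hv hv0 hvv
  have hvu : h v u = -1 := by rw [H.skew u v, huv, map_one]
  have hexp : ∀ x ∈ P, x = h x v • u + (-(h x u)) • v := by
    intro x hx
    rw [← sub_eq_zero]
    set y := x - (h x v • u + (-(h x u)) • v) with hyd
    have hyP : y ∈ P := P.sub_mem hx (P.add_mem (P.smul_mem _ hu) (P.smul_mem _ hv))
    have hyu : h y u = 0 := by
      rw [hyd]; simp [huu, hvu]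
    have hyv : h y v = 0 := by
      rw [hyd]; simp [hvv, huv]
    have hli : LinearIndependent F ![u, v] := by
      apply pair_indep
      · rintro rfl; rw [map_zero, LinearMap.zero_apply] at huv; exact zero_ne_one huv
      · intro a ha
        rw [ha, map_smulₛₗ, huu, smul_zero] at huv
        exact zero_ne_one huv
    have h1 := finrank_perpF_eq H hP (x := ![u, v]) (by intro i; fin_cases i; exacts [hu, hv]) hli
    rw [Fintype.card_fin, hd] at h1
    have h2 : finrank F (perpF h P ![u, v]) = 0 := by omega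
    have h3 : perpF h P ![u, v] = ⊥ := Submodule.finrank_eq_zero.1 h2
    have h4 : y ∈ perpF h P ![u, v] := ⟨hyP, by intro i; fin_cases i; exacts [hyu, hyv]⟩
    rw [h3, Submodule.mem_bot] at h4
    exact h4
  have hn : ∀ x ∈ P, h x x = h x v * σ (-(h x u)) - (-(h x u)) * σ (h x v) := by
    intro x hx
    conv_lhs => rw [hexp x hx]
    simp only [map_add, LinearMap.add_apply, map_smul, LinearMap.smul_apply, smul_eq_mul, map_smulₛₗ, huu, hvv,
      huv, hvu]
    ring
  obtain ⟨g, hg, hg1, hg2⟩ := sl2 H hX (hT u hu huu) (hT v hv hvv) huv (a := h x v) (b := -(h x u))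
    (a' := h y v) (b' := -(h y u)) (by rw [← hn x hx]; exact hx0) (by rw [← hn x hx, ← hn y hy, hxy])
  exact ⟨g, hg, by rw [hexp x hx, hexp y hy]; simp only [← hexp x hx, ← hexp y hy]; rw [← hexp x hx, ← hexp y hy] at hg1; exact hg1,
    fun w hw => hg2 w (hw u hu) (hw v hv)⟩

end H95.US
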