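import Mathlib
import Cfsg.Agent.Lib.H95.US5

set_option autoImplicit false
set_option linter.unusedSectionVars false
set_option linter.unusedVariables false

/-!
Overgroups of the monomial subgroup of `SU`: all isotropic vectors.
-/

namespace H95.US

open Module H95.UBasic H95.UPair

variable {F V : Type*} [Field F] [AddCommGroup V] [Module F V] {σ : F →+* F}
variable {h : V →ₗ[F] V →ₛₗ[σ] F} [FiniteDimensional F V]
variable {κ : Type*} [Fintype κ] [DecidableEq κ] {e : κ → V} {ζ : F} {X : Subgroup (V ≃ₗ[F] V)}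

open Classical in
/-- weight -/
noncomputable def wt (h : V →ₗ[F] V →ₛₗ[σ] F) (ζ : F) (e : κ → V) (z : V) : ℕ :=
  (Finset.univ.filter fun i => co h ζ e i z ≠ 0).card

omit [FiniteDimensional F V] [DecidableEq κ] in
lemma wt_le {z z' : V} (h1 : ∀ i, co h ζ e i z' ≠ 0 → co h ζ e i z ≠ 0) : wt h ζ e z' ≤ wt h ζ e z := by
  classical
  apply Finset.card_le_card
  intro i hi
  rw [Finset.mem_filter] at hi ⊢
  exact ⟨Finset.mem_univ i, h1 i hi.2⟩

omit [FiniteDimensional F V] [DecidableEq κ] in
lemma wt_lt {z z' : V} (h1 : ∀ i, co h ζ e i z' ≠ 0 → co h ζ e i z ≠ 0) {j : κ} (hj : co h ζ e j z ≠ 0)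
    (hj' : co h ζ e j z' = 0) : wt h ζ e z' < wt h ζ e z := by
  classical
  apply Finset.card_lt_card
  rw [Finset.ssubset_iff_of_subset]
  · exact ⟨j, by simp [hj], by simp [hj']⟩
  · intro i hi
    rw [Finset.mem_filter] at hi ⊢
    exact ⟨Finset.mem_univ i, h1 i hi.2⟩

omit [FiniteDimensional F V] in
lemma ON.plane_nd (E : ON h ζ e) {i j : κ} (hij : i ≠ j) :
    ∀ v ∈ Submodule.span F {e i, e j}, (∀ w ∈ Submodule.span F {e i, e j}, h v w = 0) → v = 0 := by
  intro v hv h0
  obtain ⟨a, b, rfl⟩ := Submodule.mem_span_pair.1 hv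
  have h1 := h0 (e i) (Submodule.subset_span (by simp))
  have h2 := h0 (e j) (Submodule.subset_span (by simp))
  rw [E.he, map_add, map_smul, map_smul, E.co_self, E.co_ne hij] at h1
  rw [E.he, map_add, map_smul, map_smul, E.co_self, E.co_ne hij.symm] at h2
  simp only [smul_eq_mul, mul_one, mul_zero, add_zero, zero_add] at h1 h2
  rw [(mul_eq_zero.1 h1).resolve_left E.ne, (mul_eq_zero.1 h2).resolve_left E.ne, zero_smul, zero_smul, add_zero]

lemma ON.plane_finrank (E : ON h ζ e) {i j : κ} (hij : i ≠ j) : finrank F (Submodule.span F {e i, e j}) = 2 := by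
  have hli : LinearIndependent F ![e i, e j] := by
    apply pair_indep (E.ne0 i)
    intro a ha
    have := E.co_ne hij
    rw [ha, map_smul, E.co_self] at this
    have h1 := E.co_self j
    simp only [smul_eq_mul, mul_one] at this
    rw [ha, this, zero_smul, map_zero] at h1
    exact zero_ne_one h1
  have h1 := finrank_span_eq_card hli
  rw [Fintype.card_fin] at h1
  have e1 : ({e i, e j} : Set V) = Set.range ![e i, e j] := by
    ext x; simp [or_comm]
  rw [e1]; exact h1

namespace HypF

/-- reduction of the weight -/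
lemma red (Y : HypF h ζ e X) (hall : ∀ i j, i ≠ j → ∀ a b : F, a * σ a + b * σ b = 0 → T h X (a • e i + b • e j))
    {z : V} (hz : h z z = 0) {i j : κ} (hij : i ≠ j) (hi : co h ζ e i z ≠ 0) (hj : co h ζ e j z ≠ 0)
    (hs : nn h ζ e i z + nn h ζ e j z ≠ 0) (IH : ∀ z', h z' z' = 0 → wt h ζ e z' < wt h ζ e z → T h X z') :
    T h X z := by
  have H := Y.H
  have E := Y.E
  obtain ⟨c, hc⟩ := H.norm (nn h ζ e i z + nn h ζ e j z) (by rw [map_add, nn_real H, nn_real H])
  set P := Submodule.span F {e i, e j} with hP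
  have hTP : ∀ z ∈ P, h z z = 0 → T h X z := by
    intro z hz hzz
    obtain ⟨a, b, rfl⟩ := Submodule.mem_span_pair.1 hz
    rw [E.n2 hij] at hzz
    exact hall i j hij a b ((mul_eq_zero.1 hzz).resolve_left E.ne)
  set x := co h ζ e i z • e i + co h ζ e j z • e j with hx
  have hei : e i ∈ P := Submodule.subset_span (by simp)
  have hej : e j ∈ P := Submodule.subset_span (by simp)
  have hxP : x ∈ P := P.add_mem (P.smul_mem _ hei) (P.smul_mem _ hej)
  have hxx : h x x = ζ * (nn h ζ e i z + nn h ζ e j z) := by rw [hx, E.n2 hij, nn, nn]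
  have hyy : h (c • e i) (c • e i) = ζ * (nn h ζ e i z + nn h ζ e j z) := by
    rw [← hc]
    simp only [map_smul, LinearMap.smul_apply, map_smulₛₗ, smul_eq_mul, E.self]
    ring
  obtain ⟨g, hg, hgx, hgw⟩ := plane_trans H Y.le' (E.plane_nd hij) (E.plane_finrank hij) hTP hxP
    (P.smul_mem c hei) (by rw [hxx, hyy]) (by rw [hxx]; exact mul_ne_zero E.ne hs)
  have hperp : ∀ u ∈ P, h (z - x) u = 0 := by
    intro u hu
    obtain ⟨a, b, rfl⟩ := Submodule.mem_span_pair.1 hu
    have e1 : co h ζ e i x = co h ζ e i z := by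
      rw [hx, map_add, map_smul, map_smul, E.co_self, E.co_ne hij]; simp
    have e2 : co h ζ e j x = co h ζ e j z := by
      rw [hx, map_add, map_smul, map_smul, E.co_self, E.co_ne hij.symm]; simp
    rw [E.h2, map_sub, map_sub, e1, e2]; simp
  have hgz : g z = c • e i + (z - x) := by
    have : z = x + (z - x) := by abel
    conv_lhs => rw [this]
    rw [map_add, hgx, hgw _ hperp]
  refine T_conj' Y.le' hg (IH _ (by rw [Y.le' hg]; exact hz) ?_)
  rw [hgz]
  have e3 : ∀ k, k ≠ i → co h ζ e k (c • e i + (z - x)) = if k = j then 0 else co h ζ e k z := by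
    intro k hk
    rw [hx, map_add, map_sub, map_add, map_smul, map_smul, map_smul, E.co_ne hk]
    by_cases hkj : k = j
    · rw [if_pos hkj, hkj, E.co_self]; simp
    · rw [if_neg hkj, E.co_ne hkj]; simp
  apply wt_lt (j := j)
  · intro k hk
    by_cases hki : k = i
    · rw [hki]; exact hi
    · rw [e3 k hki] at hk
      by_cases hkj : k = j
      · rw [if_pos hkj] at hk; exact absurd rfl hk
      · rwa [if_neg hkj] at hk
  · exact hj
  · rw [e3 j hij.symm, if_pos rfl]

/-- all isotropic vectors -/
lemma all_of [Fintype F] (Y : HypF h ζ e X) (hall : ∀ i j, i ≠ j → ∀ a b : F, a * σ a + b * σ b = 0 → T h X (a • e i + b • e j))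
    (hex : ∃ m : F, m * σ m = 1 ∧ m ^ 2 ≠ 1) (hq : ∃ r : F, σ r = r ∧ r ≠ 0 ∧ r ≠ 1) :
    ∀ (n : ℕ) (z : V), h z z = 0 → wt h ζ e z = n → T h X z := by
  have H := Y.H
  have E := Y.E
  intro n
  induction n using Nat.strong_induction_on with
  | _ n ih =>
    intro z hz hn
    have IH : ∀ z', h z' z' = 0 → wt h ζ e z' < wt h ζ e z → T h X z' := fun z' h1 h2 =>
      ih _ (by rw [← hn]; exact h2) z' h1 rfl
    by_cases hz0 : z = 0
    · rw [hz0]; exact T_zero
    obtain ⟨i, hi⟩ := Y.ex_coord hz0
    obtain ⟨j, hij, hj⟩ := Y.two_coord hz hi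
    by_cases hs : ∃ k l, k ≠ l ∧ co h ζ e k z ≠ 0 ∧ co h ζ e l z ≠ 0 ∧ nn h ζ e k z + nn h ζ e l z ≠ 0
    · obtain ⟨k, l, hkl, hk, hl, hs⟩ := hs
      exact Y.red hall hz hkl hk hl hs IH
    push Not at hs
    by_cases h3 : ∃ k, k ≠ i ∧ k ≠ j ∧ co h ζ e k z ≠ 0
    · obtain ⟨k, hki, hkj, hk⟩ := h3
      have s1 := hs i j hij hi hj
      have s2 := hs i k hki.symm hi hk
      have s3 := hs j k hkj.symm hj hk
      have hni := nn_ne H hi
      have hnj := nn_ne H hj
      have two : (2 : F) = 0 := by
        have : 2 * nn h ζ e i z = 0 := by linear_combination s1 + s2 - s3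
        exact (mul_eq_zero.1 this).resolve_right hni
      have hii : nn h ζ e j z = nn h ζ e i z := by linear_combination s1 - nn h ζ e i z * two
      have hkk : nn h ζ e k z = nn h ζ e i z := by linear_combination s2 - nn h ζ e i z * two
      set A := nn h ζ e i z with hA
      obtain ⟨η, hη, hη2⟩ := hex
      obtain ⟨r, hr, hr0, hr1⟩ := hq
      have hη0 := norm_ne hη
      have hσζ : σ ζ = ζ := by rw [E.skew]; linear_combination -ζ * two
      have hσA : σ A = A := nn_real H i z
      have hσi : σ (co h ζ e i z) ≠ 0 := fun h0 => hi (H.inj h0)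
      -- the transvection vector
      have hTt : T h X (co h ζ e i z • e i + (η * co h ζ e j z) • e j) := by
        apply hall i j hij
        rw [map_mul]
        have e1 : co h ζ e i z * σ (co h ζ e i z) = A := rfl
        have e2 : co h ζ e j z * σ (co h ζ e j z) = A := hii
        linear_combination e1 + (co h ζ e j z * σ (co h ζ e j z)) * hη + e2 + A * two
      set t := co h ζ e i z • e i + (η * co h ζ e j z) • e j with ht
      have hzt : h z t = ζ * (A * (1 + σ η)) := by
        rw [ht, E.h2, map_mul]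
        have e1 : co h ζ e i z * σ (co h ζ e i z) = A := rfl
        have e2 : co h ζ e j z * σ (co h ζ e j z) = A := hii
        linear_combination ζ * e1 + ζ * σ η * e2
      set c := r * (ζ * A)⁻¹ with hc
      have hcr : σ c = c := by rw [hc, map_mul, map_inv₀, map_mul, hr, hσζ, hσA]
      have hA0 : A ≠ 0 := hni
      have hcc : c * (ζ * (A * (1 + σ η))) = r * (1 + σ η) := by
        have := E.ne
        rw [hc]; field_simp
      have hz' : rf h t c z = z + (r * (1 + σ η)) • t := by
        rw [rf_apply (tr_good hTt.1 hcr), hzt, hcc]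
      refine T_conj' Y.le' (hTt.2 c hcr) ?_
      have hz'iso : h (rf h t c z) (rf h t c z) = 0 := by rw [(rf_mem H t c : _)]; exact hz
      have hcok : ∀ l, l ≠ i → l ≠ j → co h ζ e l (rf h t c z) = co h ζ e l z := by
        intro l hli hlj
        rw [hz', map_add, map_smul, ht, map_add, map_smul, map_smul, E.co_ne hli, E.co_ne hlj]; simp
      have hcoi : co h ζ e i (rf h t c z) = (1 + r * (1 + σ η)) * co h ζ e i z := by
        rw [hz', map_add, map_smul, ht, map_add, map_smul, map_smul, E.co_self, E.co_ne hij]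
        simp only [smul_eq_mul]; ring
      have hle : ∀ l, co h ζ e l (rf h t c z) ≠ 0 → co h ζ e l z ≠ 0 := by
        intro l hl
        by_cases hli : l = i
        · rw [hli]; exact hi
        by_cases hlj : l = j
        · rw [hlj]; exact hj
        rwa [hcok l hli hlj] at hl
      by_cases hi' : co h ζ e i (rf h t c z) = 0
      · exact IH _ hz'iso (wt_lt hle hi hi')
      · have hk' : co h ζ e k (rf h t c z) ≠ 0 := by rw [hcok k hki hkj]; exact hk
        refine Y.red hall hz'iso (i := i) (j := k) hki.symm hi' hk' ?_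
          (fun z' h1 h2 => IH z' h1 (lt_of_lt_of_le h2 (wt_le hle)))
        have e1 : nn h ζ e k (rf h t c z) = A := by rw [nn, hcok k hki hkj]; exact hkk
        have ση := norm_sigma H hη
        have e2 : nn h ζ e i (rf h t c z) = (1 + (η + η⁻¹) * (r * (1 + r))) * A := by
          rw [nn, hcoi, map_mul, map_add, map_mul, map_add, map_one, H.inv, hr, ση, hA, nn]
          have : (1 + r * (1 + η⁻¹)) * (1 + r * (1 + η)) = 1 + (η + η⁻¹) * (r * (1 + r)) := by
            have e3 : η⁻¹ * η = 1 := inv_mul_cancel₀ hη0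
            linear_combination r ^ 2 * e3 + (r + r ^ 2) * two
          linear_combination (co h ζ e i z * σ (co h ζ e i z)) * this
        rw [e1, e2]
        have e4 : (1 + (η + η⁻¹) * (r * (1 + r))) * A + A = (η + η⁻¹) * (r * (1 + r)) * A := by
          linear_combination A * two
        rw [e4]
        refine mul_ne_zero (mul_ne_zero ?_ (mul_ne_zero hr0 ?_)) hA0
        · intro h0
          apply hη2
          field_simp at h0
          linear_combination h0 - two
        · intro h0
          apply hr1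
          linear_combination h0 - two
    · push Not at h3
      have e1 : z = co h ζ e i z • e i + co h ζ e j z • e j := by
        apply E.ext
        intro k
        rw [map_add, map_smul, map_smul]
        by_cases hki : k = i
        · subst hki; rw [E.co_self, E.co_ne hij]; simp
        · by_cases hkj : k = j
          · subst hkj; rw [E.co_self, E.co_ne hki]; simp
          · rw [h3 k hki hkj, E.co_ne hki, E.co_ne hkj]; simp
      rw [e1]
      exact hall i j hij _ _ (hs i j hij hi hj)

/-- from one transvection subgroup to all -/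
theorem fill (Y : HypF h ζ e X) [Fintype F] (hn : 7 ≤ Fintype.card κ) (hd : 7 ≤ finrank F V)
    (hq : ∃ r : F, σ r = r ∧ r ≠ 0 ∧ r ≠ 1) {z : V} (hz : T h X z) (hz0 : z ≠ 0) : SU h ≤ X := by
  obtain ⟨i, j, hij, a, b, ha, hb, hT⟩ := Y.wt2 hn hz hz0
  have hall : ∀ i j, i ≠ j → ∀ a b : F, a * σ a + b * σ b = 0 → T h X (a • e i + b • e j) :=
    fun i' j' hij' a' b' hab => Y.L5 (by omega) hij ha hb hT hij' hab
  apply SU_le_of_tr Y.H hd
  intro v hv c hc
  exact (Y.all_of hall (exists_sq Y.H) hq _ v hv rfl).2 c hc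

end HypF

end H95.US
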