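import Mathlib
import Cfsg.Agent.Lib.H95.US6

set_option autoImplicit false
set_option linter.unusedSectionVars false
set_option linter.unusedVariables false

/-!
Overgroups of the monomial subgroup of `SU`: the field of four elements.
-/

namespace H95.US

open Module H95.UBasic H95.UPair

variable {F V : Type*} [Field F] [AddCommGroup V] [Module F V] {σ : F →+* F}
variable {h : V →ₗ[F] V →ₛₗ[σ] F} [FiniteDimensional F V]
variable {κ : Type*} [Fintype κ] [DecidableEq κ] {e : κ → V} {ζ : F} {X : Subgroup (V ≃ₗ[F] V)}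

/-- an isometry taking members of the frame to members of the frame is monomial -/
lemma mon_of (E : ON h ζ e) {g : V ≃ₗ[F] V} (hg : g ∈ isom h) (h1 : ∀ i, ∃ j, ∃ c : F, g (e i) = c • e j) : Mon e g := by
  choose τ c hc using h1
  have hc0 : ∀ i, c i ≠ 0 := by
    intro i h0
    have := hc i
    rw [h0, zero_smul] at this
    exact E.ne0 i ((LinearEquiv.map_eq_zero_iff g).1 this)
  have hinj : Function.Injective τ := by
    intro i j hij
    by_contra hne
    have h2 := E.orth hne
    rw [← hg (e i) (e j), hc, hc, hij, LinearMap.map_smul, LinearMap.smul_apply, map_smulₛₗ, E.self] at h2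
    rcases smul_eq_zero.1 h2 with h3 | h3
    · exact hc0 i h3
    · rcases smul_eq_zero.1 h3 with h4 | h4
      · have := (map_eq_zero σ).1 h4
        exact hc0 j this
      · exact E.ne h4
  exact ⟨Equiv.ofBijective τ ⟨hinj, Finite.surjective_of_injective hinj⟩, fun i => ⟨c i, hc i⟩⟩

/-- `K` has two elements -/
def Two (σ : F →+* F) : Prop := ∀ c, σ c = c → c = 0 ∨ c = 1

omit [FiniteDimensional F V] in
lemma two_zero (hK : Two σ) : (2 : F) = 0 := by
  rcases hK 2 (map_ofNat σ 2) with h1 | h1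
  · exact h1
  · exfalso
    have : (1 : F) = 0 := by linear_combination h1
    exact one_ne_zero this

omit [FiniteDimensional F V] in
lemma norm_all (H : IsSkew h) (hK : Two σ) {x : F} (hx : x ≠ 0) : x * σ x = 1 := by
  rcases hK (x * σ x) (by rw [map_mul, H.inv, mul_comm]) with h1 | h1
  · exfalso
    rcases mul_eq_zero.1 h1 with h2 | h2
    · exact hx h2
    · exact hx (H.inj h2)
  · exact h1

omit [FiniteDimensional F V] in
lemma cast_parity (h2 : (2 : F) = 0) (n : ℕ) : ((n : F) = 0 ↔ Even n) ∧ ((n : F) = 1 ↔ Odd n) := by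
  rcases Nat.even_or_odd' n with ⟨m, hm | hm⟩
  · have : (n : F) = 0 := by rw [hm]; push_cast; rw [h2, zero_mul]
    constructor
    · exact ⟨fun _ => ⟨m, by omega⟩, fun _ => this⟩
    · constructor
      · intro h1; rw [this] at h1; exact absurd h1 zero_ne_one
      · rintro ⟨k, hk⟩; omega
  · have : (n : F) = 1 := by rw [hm]; push_cast; rw [h2, zero_mul, zero_add]
    constructor
    · constructor
      · intro h1; rw [this] at h1; exact absurd h1 one_ne_zero
      · rintro ⟨k, hk⟩; omega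
    · exact ⟨fun _ => ⟨m, by omega⟩, fun _ => this⟩

namespace HypF

lemma h_wt (Y : HypF h ζ e X) (hK : Two σ) (z : V) : h z z = ζ * (wt h ζ e z : F) := by
  classical
  rw [Y.E.form Y.H]
  congr 1
  rw [wt, Finset.card_filter]
  push_cast
  refine Finset.sum_congr rfl fun i _ => ?_
  by_cases hi : co h ζ e i z = 0
  · rw [hi, zero_mul, if_neg (not_not.2 rfl)]
  · rw [if_pos hi, norm_all Y.H hK hi]

lemma iso_even (Y : HypF h ζ e X) (hK : Two σ) {z : V} (hz : h z z = 0) : Even (wt h ζ e z) := by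
  rw [Y.h_wt hK] at hz
  exact (cast_parity (two_zero hK) _).1.1 ((mul_eq_zero.1 hz).resolve_left Y.E.ne)

lemma unit_odd (Y : HypF h ζ e X) (hK : Two σ) {z : V} (hz : h z z = ζ) : Odd (wt h ζ e z) := by
  rw [Y.h_wt hK] at hz
  exact (cast_parity (two_zero hK) _).2.1 (mul_left_cancel₀ Y.E.ne (by rw [hz, mul_one]))

/-- vectors of weight two -/
lemma T2 (Y : HypF h ζ e X) (hK : Two σ) {i j : κ} (hij : i ≠ j) {a b : F} (hab : a * σ a + b * σ b = 0) :
    T h X (a • e i + b • e j) := by
  have H := Y.H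
  have E := Y.E
  have two := two_zero hK
  by_cases ha : a = 0
  · subst ha
    rw [zero_mul, zero_add] at hab
    have hb : b = 0 := by
      rcases mul_eq_zero.1 hab with h1 | h1
      · exact h1
      · exact H.inj h1
    rw [hb, zero_smul, zero_smul, add_zero]; exact T_zero
  have hna := norm_all H hK ha
  have hb : b ≠ 0 := by rintro rfl; rw [zero_mul, add_zero, hna] at hab; exact one_ne_zero hab
  have hnb := norm_all H hK hb
  have hiso : h (a • e i + b • e j) (a • e i + b • e j) = 0 := by rw [E.n2 hij, hab, mul_zero]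
  refine ⟨hiso, fun c hc => ?_⟩
  apply Y.mem _ (tr_mem_SU H hiso hc)
  rcases hK c hc with rfl | rfl
  · rw [rf_zero]; exact Mon.one
  apply mon_of E (rf_mem H _ _)
  have hσζ : σ ζ = ζ := by rw [E.skew]; linear_combination -ζ * two
  have hζ1 : ζ = 1 := by
    rcases hK ζ hσζ with h1 | h1
    · exact absurd h1 E.ne
    · exact h1
  intro k
  rw [rf_apply (tr_good hiso hc), one_mul, E.h2, hζ1, one_mul]
  by_cases hki : k = i
  · subst hki
    refine ⟨j, b * σ a, ?_⟩
    rw [← hζ1, E.co_self, E.co_ne hij.symm, one_mul, zero_mul, add_zero, smul_add, smul_smul, smul_smul]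
    have e1 : e k + (σ a * a) • e k = (0 : F) • e k := by
      rw [mul_comm, hna]
      have : (0 : F) • e k = (2 : F) • e k := by rw [two]
      rw [this, two_smul, one_smul]
    rw [← add_assoc, e1, zero_smul, zero_add, mul_comm]
  · by_cases hkj : k = j
    · subst hkj
      refine ⟨i, a * σ b, ?_⟩
      rw [← hζ1, E.co_self, E.co_ne hij, one_mul, zero_mul, zero_add, smul_add, smul_smul, smul_smul]
      have e1 : e k + (σ b * b) • e k = (0 : F) • e k := by
        rw [mul_comm, hnb]
        have : (0 : F) • e k = (2 : F) • e k := by rw [two]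
        rw [this, two_smul, one_smul]
      rw [add_comm ((σ b * a) • e i), ← add_assoc, e1, zero_smul, zero_add, mul_comm]
    · refine ⟨k, 1, ?_⟩
      rw [← hζ1, E.co_ne (Ne.symm hki), E.co_ne (Ne.symm hkj), zero_mul, zero_mul, add_zero, zero_smul, add_zero, hζ1, one_smul]

/-- a primitive cube root of unity -/
lemma exists_omega (Y : HypF h ζ e X) [Fintype F] (hK : Two σ) : ∃ w : F, w * σ w = 1 ∧ w ≠ 1 ∧ w + w⁻¹ = 1 := by
  have H := Y.H
  have two := two_zero hK
  obtain ⟨w, hw, hw2⟩ := exists_sq H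
  have hw1 : w ≠ 1 := by rintro rfl; exact hw2 (one_pow 2)
  have sw := norm_sigma H hw
  refine ⟨w, hw, hw1, ?_⟩
  rcases hK (w + w⁻¹) (by rw [map_add, map_inv₀, sw, inv_inv]; ring) with h1 | h1
  · exfalso
    apply hw2
    have := norm_ne hw
    field_simp at h1
    linear_combination h1 - two
  · exact h1

/-- linear combinations of four vectors of the frame -/
noncomputable def w4 (e : κ → V) (f : Fin 4 ↪ κ) (a : Fin 4 → F) : V := ∑ s, a s • e (f s)

lemma co_w4 (Y : HypF h ζ e X) (f : Fin 4 ↪ κ) (a : Fin 4 → F) (s : Fin 4) : co h ζ e (f s) (w4 e f a) = a s := by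
  rw [w4, map_sum, Finset.sum_eq_single s]
  · rw [map_smul, Y.E.co_self, smul_eq_mul, mul_one]
  · intro t _ ht
    rw [map_smul, Y.E.co_ne (fun h0 => ht (f.injective h0).symm), smul_zero]
  · intro h0; exact absurd (Finset.mem_univ s) h0

lemma co_w4' (Y : HypF h ζ e X) (f : Fin 4 ↪ κ) (a : Fin 4 → F) {k : κ} (hk : ∀ s, k ≠ f s) :
    co h ζ e k (w4 e f a) = 0 := by
  rw [w4, map_sum]
  exact Finset.sum_eq_zero fun t _ => by rw [map_smul, Y.E.co_ne (hk t), smul_zero]

lemma h_w4 (Y : HypF h ζ e X) (z : V) (f : Fin 4 ↪ κ) (a : Fin 4 → F) :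
    h z (w4 e f a) = ζ * ∑ s, co h ζ e (f s) z * σ (a s) := by
  rw [w4, map_sum, Finset.mul_sum]
  refine Finset.sum_congr rfl fun s _ => ?_
  rw [map_smulₛₗ, Y.E.he, smul_eq_mul]; ring

lemma dl_one (Y : HypF h ζ e X) {i l : κ} (hil : i ≠ l) {m : F} (hm : m * σ m = 1) {z : V} (hl : co h ζ e l z = 0) :
    dl h e i l m z = z + ((m - 1) * co h ζ e i z) • e i := by
  rw [Y.E.dl_apply Y.H hil hm, hl, mul_zero, zero_smul, add_zero]

/-- from a non-full vector with four nonzero coordinates to weight four -/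
lemma Q3 (Y : HypF h ζ e X) [Fintype F] (hK : Two σ) {z : V} (hz : T h X z) (f : Fin 4 ↪ κ)
    (hf : ∀ s, co h ζ e (f s) z ≠ 0) {l : κ} (hl : co h ζ e l z = 0) :
    ∃ a : Fin 4 → F, (∀ s, a s ≠ 0) ∧ T h X (w4 e f a) := by
  have H := Y.H
  have E := Y.E
  have two := two_zero hK
  obtain ⟨w, hw, hw1, hws⟩ := Y.exists_omega hK
  have hw0 := norm_ne hw
  have hwi := norm_inv H hw
  have hwi1 : w⁻¹ ≠ 1 := fun h0 => hw1 (by rw [← inv_inv w, h0, inv_one])
  have hfl : ∀ s, f s ≠ l := fun s h0 => hf s (by rw [h0]; exact hl)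
  have hff : ∀ s t, s ≠ t → f s ≠ f t := fun s t hst h0 => hst (f.injective h0)
  refine ⟨![(w - 1) * co h ζ e (f 0) z, (w⁻¹ - 1) * co h ζ e (f 1) z, (w⁻¹ - 1) * co h ζ e (f 2) z,
    (w⁻¹ - 1) * co h ζ e (f 3) z], ?_, ?_⟩
  · intro s
    fin_cases s
    · exact mul_ne_zero (sub_ne_zero.2 hw1) (hf 0)
    · exact mul_ne_zero (sub_ne_zero.2 hwi1) (hf 1)
    · exact mul_ne_zero (sub_ne_zero.2 hwi1) (hf 2)
    · exact mul_ne_zero (sub_ne_zero.2 hwi1) (hf 3)
  have hn : ∀ s, co h ζ e (f s) z * σ (co h ζ e (f s) z) = 1 := fun s => norm_all H hK (hf s)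
  apply Y.T_diff hz (X.mul_mem (X.mul_mem (X.mul_mem (Y.dl_mem (hfl 0) hw) (Y.dl_mem (hfl 1) hwi))
    (Y.dl_mem (hfl 2) hwi)) (Y.dl_mem (hfl 3) hwi))
  · have c3 : ∀ (s : Fin 4) (c : F) (x : V), co h ζ e l x = 0 → co h ζ e l (x + c • e (f s)) = 0 := by
      intro s c x hx
      rw [map_add, map_smul, hx, E.co_ne (Ne.symm (hfl s)), smul_zero, add_zero]
    have c4 : ∀ (s t : Fin 4) (c : F) (x : V), t ≠ s → co h ζ e (f t) (x + c • e (f s)) = co h ζ e (f t) x := by
      intro s t c x hst
      rw [map_add, map_smul, E.co_ne (hff t s hst), smul_zero, add_zero]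
    rw [LinearEquiv.mul_apply, LinearEquiv.mul_apply, LinearEquiv.mul_apply, Y.dl_one (hfl 3) hwi hl]
    have l3 := c3 3 ((w⁻¹ - 1) * co h ζ e (f 3) z) z hl
    rw [Y.dl_one (hfl 2) hwi l3, c4 3 2 _ _ (by decide)]
    have l2 := c3 2 ((w⁻¹ - 1) * co h ζ e (f 2) z) _ l3
    rw [Y.dl_one (hfl 1) hwi l2, c4 2 1 _ _ (by decide), c4 3 1 _ _ (by decide)]
    have l1 := c3 1 ((w⁻¹ - 1) * co h ζ e (f 1) z) _ l2
    rw [Y.dl_one (hfl 0) hw l1, c4 1 0 _ _ (by decide), c4 2 0 _ _ (by decide), c4 3 0 _ _ (by decide), w4,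
      Fin.sum_univ_four]
    simp only [Matrix.cons_val_zero, Matrix.cons_val_one, Matrix.cons_val]
    abel
  · rw [Y.h_w4, Fin.sum_univ_four, Y.co_w4, Y.co_w4, Y.co_w4, Y.co_w4]
    simp only [Matrix.cons_val_zero, Matrix.cons_val_one, Matrix.cons_val]
    have hN : ∀ c : F, c ≠ 0 → c * σ c = 1 := fun c hc => norm_all H hK hc
    rw [hN _ (mul_ne_zero (sub_ne_zero.2 hw1) (hf 0)), hN _ (mul_ne_zero (sub_ne_zero.2 hwi1) (hf 1)),
      hN _ (mul_ne_zero (sub_ne_zero.2 hwi1) (hf 2)), hN _ (mul_ne_zero (sub_ne_zero.2 hwi1) (hf 3))]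
    linear_combination (2 * ζ) * two
  · rw [Y.h_w4, Fin.sum_univ_four]
    simp only [Matrix.cons_val_zero, Matrix.cons_val_one, Matrix.cons_val, map_mul, map_sub, map_one, map_inv₀,
      norm_sigma H hw, inv_inv]
    have : co h ζ e (f 0) z * ((w⁻¹ - 1) * σ (co h ζ e (f 0) z)) + co h ζ e (f 1) z * ((w - 1) * σ (co h ζ e (f 1) z)) +
      co h ζ e (f 2) z * ((w - 1) * σ (co h ζ e (f 2) z)) + co h ζ e (f 3) z * ((w - 1) * σ (co h ζ e (f 3) z)) = 1 := by
      linear_combination (w⁻¹ - 1) * hn 0 + (w - 1) * hn 1 + (w - 1) * hn 2 + (w - 1) * hn 3 + hws + (w - 2) * two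
    rw [this, mul_one]; exact E.ne

/-- from any vector with four nonzero coordinates to weight four -/
lemma Q3' (Y : HypF h ζ e X) [Fintype F] (hn : 7 ≤ Fintype.card κ) (hK : Two σ) {z : V} (hz : T h X z)
    (f : Fin 4 ↪ κ) (hf : ∀ s, co h ζ e (f s) z ≠ 0) :
    ∃ (f : Fin 4 ↪ κ) (a : Fin 4 → F), (∀ s, a s ≠ 0) ∧ T h X (w4 e f a) := by
  have H := Y.H
  have E := Y.E
  have two := two_zero hK
  by_cases hfull : ∀ i, co h ζ e i z ≠ 0
  · obtain ⟨w, hw, hw1, hws⟩ := Y.exists_omega hK
    have hwi1 : w⁻¹ ≠ 1 := fun h0 => hw1 (by rw [← inv_inv w, h0, inv_one])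
    obtain ⟨r⟩ : Nonempty (Fin 7 ↪ κ) := Function.Embedding.nonempty_of_card_le (by rw [Fintype.card_fin]; exact hn)
    have hr : ∀ s t, s ≠ t → r s ≠ r t := fun s t hst h0 => hst (r.injective h0)
    set y := yv h ζ e (r 0) (r 1) w z + yv h ζ e (r 2) (r 3) w z + yv h ζ e (r 4) (r 5) w z with hy
    have n01 := hr 0 1 (by decide)
    have n23 := hr 2 3 (by decide)
    have n45 := hr 4 5 (by decide)
    have hN : ∀ i, nn h ζ e i z = 1 := fun i => norm_all H hK (hfull i)
    have hTy : T h X y := by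
      apply Y.T_diff hz (X.mul_mem (X.mul_mem (Y.dl_mem n01 hw) (Y.dl_mem n23 hw)) (Y.dl_mem n45 hw))
      · rw [LinearEquiv.mul_apply, LinearEquiv.mul_apply, Y.dl_yv n45 hw, Y.dl_yv n23 hw, Y.dl_yv n01 hw]
        rw [Y.yv_add (i := r 2) (j := r 3) (Y.co_yv (hr 2 4 (by decide)) (hr 2 5 (by decide)) _ _)
          (Y.co_yv (hr 3 4 (by decide)) (hr 3 5 (by decide)) _ _)]
        rw [Y.yv_add (i := r 0) (j := r 1) (Y.co_yv (hr 0 2 (by decide)) (hr 0 3 (by decide)) _ _)
          (Y.co_yv (hr 1 2 (by decide)) (hr 1 3 (by decide)) _ _)]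
        rw [Y.yv_add (i := r 0) (j := r 1) (Y.co_yv (hr 0 4 (by decide)) (hr 0 5 (by decide)) _ _)
          (Y.co_yv (hr 1 4 (by decide)) (hr 1 5 (by decide)) _ _)]
        rw [hy]; abel
      · have o1 : ∀ a b c d : F, h (a • e (r 0) + b • e (r 1)) (c • e (r 2) + d • e (r 3)) = 0 :=
          E.orth2 (hr 0 2 (by decide)) (hr 0 3 (by decide)) (hr 1 2 (by decide)) (hr 1 3 (by decide))
        have o2 : ∀ a b c d : F, h (a • e (r 0) + b • e (r 1)) (c • e (r 4) + d • e (r 5)) = 0 :=
          E.orth2 (hr 0 4 (by decide)) (hr 0 5 (by decide)) (hr 1 4 (by decide)) (hr 1 5 (by decide))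
        have o3 : ∀ a b c d : F, h (a • e (r 2) + b • e (r 3)) (c • e (r 4) + d • e (r 5)) = 0 :=
          E.orth2 (hr 2 4 (by decide)) (hr 2 5 (by decide)) (hr 3 4 (by decide)) (hr 3 5 (by decide))
        have p1 : h (yv h ζ e (r 0) (r 1) w z) (yv h ζ e (r 2) (r 3) w z) = 0 := o1 _ _ _ _
        have p2 : h (yv h ζ e (r 0) (r 1) w z) (yv h ζ e (r 4) (r 5) w z) = 0 := o2 _ _ _ _
        have p3 : h (yv h ζ e (r 2) (r 3) w z) (yv h ζ e (r 4) (r 5) w z) = 0 := o3 _ _ _ _
        rw [hy]
        simp only [map_add, LinearMap.add_apply, p1, p2, p3, H.symm_zero p1, H.symm_zero p2, H.symm_zero p3,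
          Y.n_yv n01 hw, Y.n_yv n23 hw, Y.n_yv n45 hw, hN]
        linear_combination (3 * ζ * phi w) * two
      · rw [hy, map_add, map_add, Y.h_yv hw, Y.h_yv hw, Y.h_yv hw]
        simp only [hN]
        have : ζ * ((w⁻¹ - 1) * 1 + (w - 1) * 1) + ζ * ((w⁻¹ - 1) * 1 + (w - 1) * 1) +
          ζ * ((w⁻¹ - 1) * 1 + (w - 1) * 1) = ζ := by
          linear_combination (3 * ζ) * hws - (2 * ζ) * two
        rw [this]; exact E.ne
    let f' : Fin 4 ↪ κ := ⟨fun s => r (Fin.castLE (by omega) s), fun s t hst => by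
      have := r.injective hst
      exact Fin.castLE_injective _ this⟩
    have hl : co h ζ e (r 6) y = 0 := by
      rw [hy, map_add, map_add, Y.co_yv (hr 6 0 (by decide)) (hr 6 1 (by decide)),
        Y.co_yv (hr 6 2 (by decide)) (hr 6 3 (by decide)), Y.co_yv (hr 6 4 (by decide)) (hr 6 5 (by decide))]
      simp
    obtain ⟨a, ha, hT⟩ := Y.Q3 hK hTy f' (by
      have c0 : co h ζ e (r 0) y = (w - 1) * co h ζ e (r 0) z := by
        rw [hy, map_add, map_add, Y.co_yv (hr 0 2 (by decide)) (hr 0 3 (by decide)),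
          Y.co_yv (hr 0 4 (by decide)) (hr 0 5 (by decide)), yv, map_add, map_smul, map_smul, E.co_self, E.co_ne n01]
        simp
      have c1 : co h ζ e (r 1) y = (w⁻¹ - 1) * co h ζ e (r 1) z := by
        rw [hy, map_add, map_add, Y.co_yv (hr 1 2 (by decide)) (hr 1 3 (by decide)),
          Y.co_yv (hr 1 4 (by decide)) (hr 1 5 (by decide)), yv, map_add, map_smul, map_smul, E.co_self, E.co_ne n01.symm]
        simp
      have c2 : co h ζ e (r 2) y = (w - 1) * co h ζ e (r 2) z := by
        rw [hy, map_add, map_add, Y.co_yv (hr 2 0 (by decide)) (hr 2 1 (by decide)),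
          Y.co_yv (hr 2 4 (by decide)) (hr 2 5 (by decide)), yv, map_add, map_smul, map_smul, E.co_self, E.co_ne n23]
        simp
      have c3 : co h ζ e (r 3) y = (w⁻¹ - 1) * co h ζ e (r 3) z := by
        rw [hy, map_add, map_add, Y.co_yv (hr 3 0 (by decide)) (hr 3 1 (by decide)),
          Y.co_yv (hr 3 4 (by decide)) (hr 3 5 (by decide)), yv, map_add, map_smul, map_smul, E.co_self, E.co_ne n23.symm]
        simp
      intro s
      fin_cases s
      · show co h ζ e (r 0) y ≠ 0
        rw [c0]; exact mul_ne_zero (sub_ne_zero.2 hw1) (hfull _)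
      · show co h ζ e (r 1) y ≠ 0
        rw [c1]; exact mul_ne_zero (sub_ne_zero.2 hwi1) (hfull _)
      · show co h ζ e (r 2) y ≠ 0
        rw [c2]; exact mul_ne_zero (sub_ne_zero.2 hw1) (hfull _)
      · show co h ζ e (r 3) y ≠ 0
        rw [c3]; exact mul_ne_zero (sub_ne_zero.2 hwi1) (hfull _)) hl
    exact ⟨f', a, ha, hT⟩
  · push Not at hfull
    obtain ⟨l, hl⟩ := hfull
    obtain ⟨a, ha, hT⟩ := Y.Q3 hK hz f hf hl
    exact ⟨f, a, ha, hT⟩

/-- all vectors of weight four -/
lemma Q4 (Y : HypF h ζ e X) (hn : 5 ≤ Fintype.card κ) (hK : Two σ) {f : Fin 4 ↪ κ} {a : Fin 4 → F}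
    (ha : ∀ s, a s ≠ 0) (hT : T h X (w4 e f a)) {f' : Fin 4 ↪ κ} {a' : Fin 4 → F}
    (ha' : ∀ s, a' s ≠ 0) : T h X (w4 e f' a') := by
  have H := Y.H
  have E := Y.E
  have hpre := (Equiv.Perm.isMultiplyPretransitive κ 4).exists_smul_eq f f'
  obtain ⟨π, hπ⟩ := hpre
  have hπ' : ∀ s, π (f s) = f' s := fun s => by
    have := DFunLike.congr_fun hπ s
    exact this
  obtain ⟨k, hk⟩ := exists_not_mem (Finset.univ.map f) (by rw [Finset.card_map, Finset.card_univ, Fintype.card_fin]; omega)
  have hk' : ∀ s, f s ≠ k := fun s h0 => hk (by rw [← h0]; exact Finset.mem_map_of_mem f (Finset.mem_univ s))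
  classical
  obtain ⟨g, hg, l, hl, h1, h2⟩ := E.exists_mono H k π (fun x => if hx : ∃ s, f s = x then a' hx.choose * (a hx.choose)⁻¹ else 1) (by
    intro x
    by_cases hx : ∃ s, f s = x
    · rw [dif_pos hx]
      exact norm_all H hK (mul_ne_zero (ha' _) (inv_ne_zero (ha _)))
    · rw [dif_neg hx, map_one, mul_one])
  have hgm : g ∈ X := by
    apply Y.mem g hg
    refine ⟨π, fun x => ?_⟩
    by_cases hx : x = k
    · exact ⟨l, by rw [hx]; exact h2⟩
    · exact ⟨_, h1 x hx⟩
  have h3 := T_conj Y.le' hT hgm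
  have e1 : g (w4 e f a) = w4 e f' a' := by
    rw [w4, w4, map_sum]
    refine Finset.sum_congr rfl fun s _ => ?_
    have hx : ∃ t, f t = f s := ⟨s, rfl⟩
    have hc : hx.choose = s := f.injective hx.choose_spec
    rw [map_smul, h1 (f s) (hk' s), dif_pos hx, hc, hπ', smul_smul]
    congr 1
    have := ha s
    field_simp
  rwa [e1] at h3

/-- four nonzero coordinates -/
lemma emb_of_wt {z : V} (hz : 4 ≤ wt h ζ e z) : ∃ f : Fin 4 ↪ κ, ∀ s, co h ζ e (f s) z ≠ 0 := by
  classical
  rw [wt] at hz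
  obtain ⟨r⟩ : Nonempty (Fin 4 ↪ {x // x ∈ Finset.univ.filter fun i => co h ζ e i z ≠ 0}) :=
    Function.Embedding.nonempty_of_card_le (by rw [Fintype.card_fin, Fintype.card_coe]; exact hz)
  refine ⟨r.trans (Function.Embedding.subtype _), fun s => ?_⟩
  exact (Finset.mem_filter.1 (r s).2).2

/-- all isotropic vectors -/
lemma Q5 (Y : HypF h ζ e X) [Fintype F] (hK : Two σ)
    (hall : ∀ (f : Fin 4 ↪ κ) (a : Fin 4 → F), (∀ s, a s ≠ 0) → T h X (w4 e f a)) :
    ∀ (n : ℕ) (z : V), h z z = 0 → wt h ζ e z = n → T h X z := by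
  have H := Y.H
  have E := Y.E
  have two := two_zero hK
  intro n
  induction n using Nat.strong_induction_on with
  | _ n ih =>
    intro z hz hn
    by_cases hz0 : z = 0
    · rw [hz0]; exact T_zero
    have hev := Y.iso_even hK hz
    by_cases h4 : 4 ≤ wt h ζ e z
    · obtain ⟨f, hf⟩ := emb_of_wt h4
      obtain ⟨w, hw, hw1, hws⟩ := Y.exists_omega hK
      have hw0 := norm_ne hw
      have hwi1 : w⁻¹ ≠ 1 := fun h0 => hw1 (by rw [← inv_inv w, h0, inv_one])
      set a := w4 e f ![w * co h ζ e (f 0) z, w⁻¹ * co h ζ e (f 1) z, co h ζ e (f 2) z, co h ζ e (f 3) z] with ha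
      have hTa : T h X a := by
        apply hall
        intro s
        fin_cases s
        · exact mul_ne_zero hw0 (hf 0)
        · exact mul_ne_zero (inv_ne_zero hw0) (hf 1)
        · exact hf 2
        · exact hf 3
      have hn' : ∀ s, co h ζ e (f s) z * σ (co h ζ e (f s) z) = 1 := fun s => norm_all H hK (hf s)
      have hza : h z a = ζ := by
        rw [ha, Y.h_w4, Fin.sum_univ_four]
        simp only [Matrix.cons_val_zero, Matrix.cons_val_one, Matrix.cons_val, map_mul, map_inv₀,
          norm_sigma H hw, inv_inv]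
        have : co h ζ e (f 0) z * (w⁻¹ * σ (co h ζ e (f 0) z)) + co h ζ e (f 1) z * (w * σ (co h ζ e (f 1) z)) +
          co h ζ e (f 2) z * σ (co h ζ e (f 2) z) + co h ζ e (f 3) z * σ (co h ζ e (f 3) z) = 1 := by
          linear_combination w⁻¹ * hn' 0 + w * hn' 1 + hn' 2 + hn' 3 + hws + two
        rw [this, mul_one]
      have hσζ : σ ζ = ζ := by rw [E.skew]; linear_combination -ζ * two
      have haz : h a z = ζ := by rw [H.skew z a, hza, hσζ]; linear_combination -ζ * two
      have hb : h (z - a) (z - a) = 0 := by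
        simp only [map_sub, LinearMap.sub_apply, hz, hza, haz, hTa.1]
        linear_combination -ζ * two
      have hcb : ∀ s, co h ζ e (f s) (z - a) = co h ζ e (f s) z -
          (![w * co h ζ e (f 0) z, w⁻¹ * co h ζ e (f 1) z, co h ζ e (f 2) z, co h ζ e (f 3) z] : Fin 4 → F) s := by
        intro s
        rw [map_sub, ha, Y.co_w4]
      have hTb : T h X (z - a) := by
        apply ih (wt h ζ e (z - a)) _ _ hb rfl
        rw [← hn]
        apply wt_lt (j := f 2)
        · intro k hk
          by_cases hkf : ∃ s, k = f s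
          · obtain ⟨s, rfl⟩ := hkf
            exact hf s
          · push Not at hkf
            rwa [map_sub, ha, Y.co_w4' f _ hkf, sub_zero] at hk
        · exact hf 2
        · rw [hcb 2]; simp
      have e1 : z = (1 : F) • a + (1 : F) • (z - a) := by rw [one_smul, one_smul]; abel
      have e2 : h a (z - a) ≠ 0 := by
        rw [map_sub, haz, hTa.1, sub_zero]; exact E.ne
      rw [e1]
      apply T_line H Y.le' hTa hTb e2
      rw [← e1]; exact hz
    · obtain ⟨i, hi⟩ := Y.ex_coord hz0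
      obtain ⟨j, hij, hj⟩ := Y.two_coord hz hi
      have h2 : wt h ζ e z ≤ 2 := by
        rcases hev with ⟨m, hm⟩
        omega
      have h3 : ∀ k, k ≠ i → k ≠ j → co h ζ e k z = 0 := by
        intro k hki hkj
        by_contra hk
        classical
        rw [wt] at h2
        have : ({i, j, k} : Finset κ) ⊆ Finset.univ.filter fun i => co h ζ e i z ≠ 0 := by
          intro x hx
          simp only [Finset.mem_insert, Finset.mem_singleton] at hx
          rw [Finset.mem_filter]
          refine ⟨Finset.mem_univ x, ?_⟩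
          rcases hx with rfl | rfl | rfl
          · exact hi
          · exact hj
          · exact hk
        have h5 := Finset.card_le_card this
        rw [Finset.card_eq_three.2 ⟨i, j, k, hij, hki.symm, hkj.symm, rfl⟩] at h5
        omega
      have e1 : z = co h ζ e i z • e i + co h ζ e j z • e j := by
        apply E.ext
        intro k
        rw [map_add, map_smul, map_smul]
        by_cases hki : k = i
        · subst hki; rw [E.co_self, E.co_ne hij]; simp
        · by_cases hkj : k = j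
          · subst hkj; rw [E.co_self, E.co_ne hki]; simp
          · rw [h3 k hki hkj, E.co_ne hki, E.co_ne hkj]; simp
      have hz' := hz
      rw [e1, E.n2 hij] at hz'
      rw [e1]
      exact Y.T2 hK hij ((mul_eq_zero.1 hz').resolve_left E.ne)

/-- creation of vectors of weight at least four -/
lemma Q2 (Y : HypF h ζ e X) [Fintype F] (hn : 4 ≤ Fintype.card κ) (hK : Two σ) {g : V ≃ₗ[F] V} (hg : g ∈ X)
    (hgm : ¬ Mon e g) : ∃ z, T h X z ∧ 4 ≤ wt h ζ e z := by
  classical
  have H := Y.H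
  have E := Y.E
  by_contra hcon
  push Not at hcon
  have hle2 : ∀ z, T h X z → wt h ζ e z ≤ 2 := by
    intro z hz
    have h1 := hcon z hz
    rcases Y.iso_even hK hz.1 with ⟨m, hm⟩
    omega
  have hgi := Y.le' hg
  set S : κ → Finset κ := fun i => Finset.univ.filter fun k => co h ζ e k (g (e i)) ≠ 0 with hS
  have hwt : ∀ i, wt h ζ e (g (e i)) = (S i).card := fun i => by rw [wt, hS]
  have hodd : ∀ i, Odd (S i).card := fun i => by
    rw [← hwt]; exact Y.unit_odd hK (by rw [hgi, E.self])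
  -- the union of two supports
  have hun : ∀ i j, i ≠ j → (S i ∪ S j).card ≤ 3 := by
    intro i j hij
    have h1 : ∀ η ∈ Uf σ, (Finset.univ.filter fun k => co h ζ e k (g (e i)) + η * co h ζ e k (g (e j)) ≠ 0).card ≤ 2 := by
      intro η hη
      rw [mem_Uf] at hη
      have hT : T h X (g ((1 : F) • e i + η • e j)) := T_conj Y.le' (Y.T2 hK hij (by
        rw [hη, map_one, mul_one]; linear_combination two_zero hK)) hg
      have h2 := hle2 _ hT
      rw [wt] at h2
      refine le_trans (le_of_eq ?_) h2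
      congr 1
      apply Finset.filter_congr
      intro k _
      rw [map_add, map_smul, map_smul, one_smul, map_add, map_smul, smul_eq_mul]
    have h2 : ∑ η ∈ Uf σ, (Finset.univ.filter fun k => co h ζ e k (g (e i)) + η * co h ζ e k (g (e j)) ≠ 0).card
        ≤ (Uf σ).card * 2 := by
      rw [← smul_eq_mul]
      exact Finset.sum_le_card_nsmul _ _ _ h1
    have h3 : ∑ η ∈ Uf σ, (Finset.univ.filter fun k => co h ζ e k (g (e i)) + η * co h ζ e k (g (e j)) ≠ 0).card =
        ∑ k, ((Uf σ).filter fun η => co h ζ e k (g (e i)) + η * co h ζ e k (g (e j)) ≠ 0).card := by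
      simp only [Finset.card_filter]
      exact Finset.sum_comm
    have h4 : ∀ k ∈ S i ∪ S j, (Uf σ).card - 1 ≤
        ((Uf σ).filter fun η => co h ζ e k (g (e i)) + η * co h ζ e k (g (e j)) ≠ 0).card := by
      intro k hk
      have h5 := Finset.card_filter_add_card_filter_not (s := Uf σ) (fun η => co h ζ e k (g (e i)) + η * co h ζ e k (g (e j)) ≠ 0)
      have h6 : ((Uf σ).filter fun η => ¬ (co h ζ e k (g (e i)) + η * co h ζ e k (g (e j)) ≠ 0)).card ≤ 1 := by
        rw [Finset.card_le_one]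
        intro x hx y hy
        rw [Finset.mem_filter, not_not] at hx hy
        have h7 : (x - y) * co h ζ e k (g (e j)) = 0 := by linear_combination hx.2 - hy.2
        rcases mul_eq_zero.1 h7 with h8 | h8
        · exact sub_eq_zero.1 h8
        · exfalso
          have h9 := hx.2
          rw [h8, mul_zero, add_zero] at h9
          rw [Finset.mem_union, hS, Finset.mem_filter, Finset.mem_filter] at hk
          rcases hk with hk | hk
          · exact hk.2 h9
          · exact hk.2 h8
      omega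
    have h5 : (S i ∪ S j).card * ((Uf σ).card - 1) ≤
        ∑ k, ((Uf σ).filter fun η => co h ζ e k (g (e i)) + η * co h ζ e k (g (e j)) ≠ 0).card := by
      calc (S i ∪ S j).card * ((Uf σ).card - 1) = (S i ∪ S j).card • ((Uf σ).card - 1) := by rw [smul_eq_mul]
        _ ≤ ∑ k ∈ S i ∪ S j, ((Uf σ).filter fun η => co h ζ e k (g (e i)) + η * co h ζ e k (g (e j)) ≠ 0).card :=
          Finset.card_nsmul_le_sum _ _ _ h4
        _ ≤ _ := Finset.sum_le_sum_of_subset (Finset.subset_univ _)
    have h6 := card_U H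
    have h7 : 2 ≤ (Kf σ).card := by
      have h8 : ({0, 1} : Finset F) ⊆ Kf σ := by
        intro x hx
        rw [Finset.mem_insert, Finset.mem_singleton] at hx
        rw [mem_Kf]
        rcases hx with rfl | rfl
        · exact map_zero σ
        · exact map_one σ
      have h9 := Finset.card_le_card h8
      rwa [Finset.card_pair (zero_ne_one)] at h9
    rw [← h3] at h5
    have h8 := h5.trans h2
    obtain ⟨u, hu⟩ : ∃ u, (Uf σ).card = u + 1 := ⟨(Uf σ).card - 1, by omega⟩
    rw [hu] at h8 h6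
    rw [Nat.add_sub_cancel] at h8
    by_contra hlt
    push Not at hlt
    have h9 : 4 * u ≤ (S i ∪ S j).card * u := Nat.mul_le_mul_right u hlt
    omega
  have : Nontrivial κ := Fintype.one_lt_card_iff_nontrivial.1 (by omega)
  -- all supports have one element
  have hone : ∀ i, (S i).card = 1 := by
    intro i
    obtain ⟨j, hj⟩ := exists_ne i
    have h1 := hun i j hj.symm
    have h2 := Finset.card_le_card (Finset.subset_union_left (s₁ := S i) (s₂ := S j))
    have h3 : (S i).card = 1 ∨ (S i).card = 3 := by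
      rcases hodd i with ⟨m, hm⟩
      omega
    rcases h3 with h3 | h3
    · exact h3
    · exfalso
      obtain ⟨l, hl⟩ := exists_not_mem (S i) (by omega)
      have h4 : ∀ j, co h ζ e l (g (e j)) = 0 := by
        intro j
        by_contra hne
        by_cases hij : j = i
        · subst hij
          exact hl (Finset.mem_filter.2 ⟨Finset.mem_univ _, hne⟩)
        · have h5 := hun i j (Ne.symm hij)
          have h6 : insert l (S i) ⊆ S i ∪ S j := by
            intro x hx
            rw [Finset.mem_insert] at hx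
            rcases hx with rfl | hx
            · exact Finset.mem_union_right _ (Finset.mem_filter.2 ⟨Finset.mem_univ _, hne⟩)
            · exact Finset.mem_union_left _ hx
          have h7 := Finset.card_le_card h6
          rw [Finset.card_insert_of_notMem hl] at h7
          omega
      obtain ⟨x, hx⟩ := g.surjective (e l)
      have h5 := E.co_self l
      rw [← hx, ← E.sum' x, map_sum, map_sum] at h5
      rw [Finset.sum_eq_zero (fun a _ => by rw [map_smul, map_smul, h4, smul_zero])] at h5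
      exact zero_ne_one h5
  apply hgm
  apply mon_of E hgi
  intro i
  obtain ⟨j, hj⟩ := Finset.card_eq_one.1 (hone i)
  refine ⟨j, co h ζ e j (g (e i)), ?_⟩
  apply E.ext
  intro k
  rw [map_smul]
  by_cases hkj : k = j
  · rw [hkj, E.co_self, smul_eq_mul, mul_one]
  · rw [E.co_ne hkj, smul_zero]
    by_contra hne
    have : k ∈ S i := Finset.mem_filter.2 ⟨Finset.mem_univ _, hne⟩
    rw [hj, Finset.mem_singleton] at this
    exact hkj this

/-- overgroups of the monomial group over the field of four elements -/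
theorem overgroup_two (Y : HypF h ζ e X) [Fintype F] (hn : 7 ≤ Fintype.card κ) (hd : 7 ≤ finrank F V) (hK : Two σ)
    {g : V ≃ₗ[F] V} (hg : g ∈ X) (hgm : ¬ Mon e g) : SU h ≤ X := by
  obtain ⟨z, hz, hz4⟩ := Y.Q2 (by omega) hK hg hgm
  obtain ⟨f, hf⟩ := emb_of_wt hz4
  obtain ⟨f', a, ha, hT⟩ := Y.Q3' hn hK hz f hf
  apply SU_le_of_tr Y.H hd
  intro v hv c hc
  exact (Y.Q5 hK (fun f'' a' ha' => Y.Q4 (by omega) hK ha hT ha') _ v hv rfl).2 c hc

end HypF

end H95.US
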