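import Mathlib
import Cfsg.Agent.Lib.H95.US6

set_option autoImplicit false
set_option linter.unusedSectionVars false
set_option linter.unusedVariables false

/-!
Pairs of vectors whose quasi-reflections agree modulo a subgroup: creation of transvections.
-/

namespace H95.US

open Module H95.UBasic H95.UPair

variable {F V : Type*} [Field F] [AddCommGroup V] [Module F V] {σ : F →+* F}
variable {h : V →ₗ[F] V →ₛₗ[σ] F} {X : Subgroup (V ≃ₗ[F] V)}

lemma Rq_mul (H : IsSkew h) {u : V} (hu : h u u ≠ 0) {l m : F} (hl : l * σ l = 1) (hm : m * σ m = 1) :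
    Rq h u l * Rq h u m = Rq h u (l * m) := by
  have h1 := rf_mul (Rq_good H hu hl) (Rq_good H hu hm) (H.self u)
  rw [Rq, Rq, h1.2, Rq]
  congr 1
  field_simp
  ring

lemma Rq_one (H : IsSkew h) (u : V) : Rq h u 1 = 1 := by rw [Rq, sub_self, zero_mul, rf_zero]

lemma Rq_inv (H : IsSkew h) {u : V} (hu : h u u ≠ 0) {l : F} (hl : l * σ l = 1) : (Rq h u l)⁻¹ = Rq h u l⁻¹ := by
  rw [inv_eq_iff_mul_eq_one, Rq_mul H hu hl (norm_inv H hl), mul_inv_cancel₀ (norm_ne hl), Rq_one H]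

lemma Rq_smul (H : IsSkew h) (u : V) {c : F} (hc : c ≠ 0) (l : F) : Rq h (c • u) l = Rq h u l := by
  have hσc : σ c ≠ 0 := fun h0 => hc (H.inj h0)
  rw [Rq, Rq, rf_smul H]
  congr 1
  simp only [map_smul, LinearMap.smul_apply, map_smulₛₗ, smul_eq_mul]
  rw [mul_inv, mul_inv]
  field_simp

/-- the quasi-reflections agree modulo `X` -/
def Cl (h : V →ₗ[F] V →ₛₗ[σ] F) (X : Subgroup (V ≃ₗ[F] V)) (a b : V) : Prop :=
  ∀ l : F, l * σ l = 1 → Rq h a l * (Rq h b l)⁻¹ ∈ X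

lemma Cl.symm {a b : V} (hab : Cl h X a b) : Cl h X b a := by
  intro l hl
  have := X.inv_mem (hab l hl)
  rwa [mul_inv_rev, inv_inv] at this

lemma Cl.trans {a b c : V} (hab : Cl h X a b) (hbc : Cl h X b c) : Cl h X a c := by
  intro l hl
  have := X.mul_mem (hab l hl) (hbc l hl)
  rwa [mul_assoc, inv_mul_cancel_left] at this

lemma Cl.conj (hX : X ≤ isom h) {a b : V} (hab : Cl h X a b) (H : IsSkew h) {g : V ≃ₗ[F] V} (hg : g ∈ X) :
    Cl h X (g a) (g b) := by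
  intro l hl
  have h1 := X.mul_mem (X.mul_mem hg (hab l hl)) (X.inv_mem hg)
  have h2 : g * (Rq h a l * (Rq h b l)⁻¹) * g⁻¹ = (g * Rq h a l * g⁻¹) * (g * Rq h b l * g⁻¹)⁻¹ := by group
  rwa [h2, Rq_conj H a l (hX hg), Rq_conj H b l (hX hg)] at h1

lemma Cl.smul (H : IsSkew h) {a b : V} (hab : Cl h X a b) {c : F} (hc : c ≠ 0) : Cl h X (c • a) b := by
  intro l hl
  rw [Rq_smul H a hc]; exact hab l hl

/-! ### The degenerate case -/

/-- `λ - λ⁻¹` -/
def Sv (l : F) : F := l - l⁻¹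

theorem thmQ [Fintype F] (H : IsSkew h) {a z : V} (ha : h a a ≠ 0) (hz : h z z = 0) (hza : h z a = 0)
    (hC : Cl h X (a + z) a) : T h X z := by
  classical
  set s := h a a with hs
  have hss : σ s = -s := H.self a
  have haz : h a z = 0 := H.symm_zero hza
  have hbb : h (a + z) (a + z) = s := by simp [hza, haz, hz, hs]
  have hb : h (a + z) (a + z) ≠ 0 := by rw [hbb]; exact ha
  -- the elements
  have kf : ∀ l : F, l * σ l = 1 → ∃ k ∈ X, ∀ x, k x = x + (s⁻¹ * (l - 1) * h x z) • a +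
      (s⁻¹ * ((1 - l⁻¹) * h x a + (l - 1) * h x z)) • z := by
    intro l hl
    have hl0 := norm_ne hl
    refine ⟨_, hC l hl, fun x => ?_⟩
    rw [Rq_inv H ha hl, LinearEquiv.mul_apply, Rq_apply H ha (norm_inv H hl), Rq_apply H hb hl, hbb, ← hs]
    simp only [map_add, LinearMap.add_apply, map_smul, LinearMap.smul_apply, smul_eq_mul, haz, ← hs]
    have e1 : (l - 1) * s⁻¹ * (h x a + (l⁻¹ - 1) * s⁻¹ * h x a * s + (h x z + (l⁻¹ - 1) * s⁻¹ * h x a * 0)) =
        s⁻¹ * ((1 - l⁻¹) * h x a + (l - 1) * h x z) := by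
      field_simp
      ring
    rw [e1, smul_add]
    have e2 : ((l⁻¹ - 1) * s⁻¹ * h x a) • a + (s⁻¹ * ((1 - l⁻¹) * h x a + (l - 1) * h x z)) • a =
        (s⁻¹ * (l - 1) * h x z) • a := by
      rw [← add_smul]; congr 1; ring
    rw [← e2]; abel
  -- the set of parameters
  let R : F → Prop := fun c => σ c = c ∧ rf h z c ∈ X
  have hRadd : ∀ c d, R c → R d → R (c + d) := by
    intro c d hc hd
    refine ⟨by rw [map_add, hc.1, hd.1], ?_⟩
    have h1 := rf_mul (tr_good hz hc.1) (tr_good hz hd.1) (H.self z)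
    rw [hz, mul_zero, add_zero] at h1
    rw [← h1.2]
    exact X.mul_mem hc.2 hd.2
  have hR0 : R 0 := ⟨map_zero σ, by rw [rf_zero]; exact X.one_mem⟩
  have hRneg : ∀ c, R c → R (-c) := by
    intro c hc
    have hr : σ (-c) = -c := by rw [map_neg, hc.1]
    refine ⟨hr, ?_⟩
    have h1 := rf_mul (tr_good hz hc.1) (tr_good hz hr) (H.self z)
    rw [hz, mul_zero, add_zero, add_neg_cancel, rf_zero] at h1
    rw [← inv_eq_of_mul_eq_one_right h1.2]
    exact X.inv_mem hc.2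
  have hSreal : ∀ l : F, l * σ l = 1 → σ (s⁻¹ * Sv l) = s⁻¹ * Sv l := by
    intro l hl
    rw [map_mul, map_inv₀, hss, Sv, map_sub, map_inv₀, norm_sigma H hl, inv_inv, inv_neg]; ring
  have hcomm : ∀ l n : F, l * σ l = 1 → n * σ n = 1 → R (s⁻¹ * Sv n - s⁻¹ * Sv l + s⁻¹ * Sv (l * n⁻¹)) := by
    intro l n hl hn
    have hl0 := norm_ne hl
    have hn0 := norm_ne hn
    obtain ⟨k1, hk1, hk1'⟩ := kf l hl
    obtain ⟨k2, hk2, hk2'⟩ := kf n hn
    have hr : σ (s⁻¹ * Sv n - s⁻¹ * Sv l + s⁻¹ * Sv (l * n⁻¹)) = s⁻¹ * Sv n - s⁻¹ * Sv l + s⁻¹ * Sv (l * n⁻¹) := by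
      rw [map_add, map_sub, hSreal l hl, hSreal n hn, hSreal _ (norm_mul hl (norm_inv H hn))]
    refine ⟨hr, ?_⟩
    have e1 : rf h z (s⁻¹ * Sv n - s⁻¹ * Sv l + s⁻¹ * Sv (l * n⁻¹)) * (k2 * k1) = k1 * k2 := by
      apply LinearEquiv.ext
      intro x
      have hz1 : ∀ x, h (k1 x) z = h x z := by
        intro x; rw [hk1']; simp [haz, hz]
      have hz2 : ∀ x, h (k2 x) z = h x z := by
        intro x; rw [hk2']; simp [haz, hz]
      have ha1 : ∀ x, h (k1 x) a = h x a + (l - 1) * h x z := by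
        intro x; rw [hk1']
        simp only [map_add, LinearMap.add_apply, map_smul, LinearMap.smul_apply, smul_eq_mul, hza, mul_zero, add_zero,
          ← hs]
        field_simp
      have ha2 : ∀ x, h (k2 x) a = h x a + (n - 1) * h x z := by
        intro x; rw [hk2']
        simp only [map_add, LinearMap.add_apply, map_smul, LinearMap.smul_apply, smul_eq_mul, hza, mul_zero, add_zero,
          ← hs]
        field_simp
      rw [LinearEquiv.mul_apply, LinearEquiv.mul_apply, LinearEquiv.mul_apply, rf_apply (tr_good hz hr), hz2, hz1,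
        hk2', hk1' (k2 x), ha1, ha2, hz1, hz2, hk1', hk2' x, ← sub_eq_zero, Sv, Sv, Sv]
      have key : ∀ (p q r t u v w : F), p + r = u + t → q + v + w = q + v + w → True := fun _ _ _ _ _ _ _ _ _ => trivial
      have e2 : x + (s⁻¹ * (l - 1) * h x z) • a + (s⁻¹ * ((1 - l⁻¹) * h x a + (l - 1) * h x z)) • z +
          (s⁻¹ * (n - 1) * h x z) • a +
          (s⁻¹ * ((1 - n⁻¹) * (h x a + (l - 1) * h x z) + (n - 1) * h x z)) • z +
          ((s⁻¹ * (n - n⁻¹) - s⁻¹ * (l - l⁻¹) + s⁻¹ * (l * n⁻¹ - (l * n⁻¹)⁻¹)) * h x z) • z -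
          (x + (s⁻¹ * (n - 1) * h x z) • a + (s⁻¹ * ((1 - n⁻¹) * h x a + (n - 1) * h x z)) • z +
          (s⁻¹ * (l - 1) * h x z) • a +
          (s⁻¹ * ((1 - l⁻¹) * (h x a + (n - 1) * h x z) + (l - 1) * h x z)) • z) =
          (s⁻¹ * ((1 - n⁻¹) * (l - 1) + (n - n⁻¹) - (l - l⁻¹) + (l * n⁻¹ - (l * n⁻¹)⁻¹) - (1 - l⁻¹) * (n - 1)) * h x z) • z := by
        module
      rw [e2]
      have e3 : (1 - n⁻¹) * (l - 1) + (n - n⁻¹) - (l - l⁻¹) + (l * n⁻¹ - (l * n⁻¹)⁻¹) - (1 - l⁻¹) * (n - 1) = 0 := by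
        field_simp
        ring
      rw [e3, mul_zero, zero_mul, zero_smul]
    have e2 : rf h z (s⁻¹ * Sv n - s⁻¹ * Sv l + s⁻¹ * Sv (l * n⁻¹)) = (k1 * k2) * (k2 * k1)⁻¹ := by
      rw [← e1]; group
    rw [e2]
    exact X.mul_mem (X.mul_mem hk1 hk2) (X.inv_mem (X.mul_mem hk2 hk1))
  -- the map is a homomorphism modulo the parameters
  have hpow : ∀ (l : F), l * σ l = 1 → ∀ n : ℕ, R (s⁻¹ * Sv (l ^ n) - n * (s⁻¹ * Sv l)) := by
    intro l hl n
    have hln : ∀ n : ℕ, (l ^ n) * σ (l ^ n) = 1 := fun n => by rw [map_pow, ← mul_pow, hl, one_pow]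
    induction n with
    | zero =>
      have : s⁻¹ * Sv (l ^ 0) - (0 : ℕ) * (s⁻¹ * Sv l) = 0 := by rw [Sv, pow_zero, inv_one]; simp
      rw [this]; exact hR0
    | succ n ih =>
      have h1 := hcomm (l ^ (n + 1)) l (hln _) hl
      have e1 : l ^ (n + 1) * l⁻¹ = l ^ n := by
        rw [pow_succ, mul_assoc, mul_inv_cancel₀ (norm_ne hl), mul_one]
      rw [e1] at h1
      have h2 := hRadd _ _ ih (hRneg _ h1)
      have e2 : s⁻¹ * Sv (l ^ n) - n * (s⁻¹ * Sv l) + -(s⁻¹ * Sv l - s⁻¹ * Sv (l ^ (n + 1)) + s⁻¹ * Sv (l ^ n)) =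
          s⁻¹ * Sv (l ^ (n + 1)) - (n + 1 : ℕ) * (s⁻¹ * Sv l) := by
        push_cast; ring
      rwa [e2] at h2
  have hall : ∀ l : F, l * σ l = 1 → R (s⁻¹ * Sv l) := by
    intro l hl
    have h1 := hpow l hl (Fintype.card F - 1)
    rw [FiniteField.pow_card_sub_one_eq_one l (norm_ne hl)] at h1
    have h2 : ((Fintype.card F - 1 : ℕ) : F) = -1 := by
      rw [Nat.cast_sub Fintype.card_pos, FiniteField.cast_card_eq_zero]; simp
    rw [h2] at h1
    have e1 : s⁻¹ * Sv (1 : F) - -1 * (s⁻¹ * Sv l) = s⁻¹ * Sv l := by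
      rw [Sv, inv_one, sub_self]; ring
    rwa [e1] at h1
  refine ⟨hz, fun c hc => ?_⟩
  have hS : (Uf σ).image (fun l => s⁻¹ * Sv l) ⊆ Kf σ := by
    intro x hx
    obtain ⟨l, hl, rfl⟩ := Finset.mem_image.1 hx
    rw [mem_Kf]; exact hSreal l (mem_Uf.1 hl)
  have hcard : (Uf σ).card ≤ 2 * ((Uf σ).image (fun l => s⁻¹ * Sv l)).card := by
    apply card_image2 (g := fun x => -x⁻¹)
    intro x hx y hy hxy
    have hx0 := norm_ne (mem_Uf.1 hx)
    have hy0 := norm_ne (mem_Uf.1 hy)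
    have h1 := mul_left_cancel₀ (inv_ne_zero ha) hxy
    rw [Sv, Sv] at h1
    have e : (y - x) * (y - (-x⁻¹)) = 0 := by
      field_simp at h1 ⊢
      linear_combination h1
    rcases mul_eq_zero.1 e with e | e
    · exact Or.inl (sub_eq_zero.1 e)
    · exact Or.inr (sub_eq_zero.1 e)
  have h1 := card_U H
  exact (half_all (R := R) hRadd hS (fun x hx => by
    obtain ⟨l, hl, rfl⟩ := Finset.mem_image.1 hx
    exact hall l (mem_Uf.1 hl)) (by omega) hc).2

end H95.US
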