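import Mathlib
import Cfsg.Agent.Lib.H95.US8

set_option autoImplicit false
set_option linter.unusedSectionVars false
set_option linter.unusedVariables false

/-!
Pairs of vectors whose quasi-reflections agree modulo a subgroup, the non-degenerate case.
-/

namespace H95.US

open Module H95.UBasic H95.UPair

variable {F V : Type*} [Field F] [AddCommGroup V] [Module F V] {σ : F →+* F}
variable {h : V →ₗ[F] V →ₛₗ[σ] F} {X : Subgroup (V ≃ₗ[F] V)}

/-- products of elements normalised by the quasi-reflections with quasi-reflections -/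
def GaP (H : IsSkew h) (X : Subgroup (V ≃ₗ[F] V)) {a : V} (ha : h a a ≠ 0) (P : Submodule F V) : Subgroup (V ≃ₗ[F] V) where
  carrier := {g | (g ∈ isom h ∧ ∀ x, g x - x ∈ P) ∧ ∃ d : F, d * σ d = 1 ∧ ∃ k : V ≃ₗ[F] V,
    (∀ m : F, m * σ m = 1 → Rq h a m * k * (Rq h a m)⁻¹ ∈ X) ∧ g = k * Rq h a d}
  mul_mem' := by
    rintro g1 g2 ⟨⟨i1, p1⟩, d1, hd1, k1, hk1, rfl⟩ ⟨⟨i2, p2⟩, d2, hd2, k2, hk2, rfl⟩
    refine ⟨⟨(isom h).mul_mem i1 i2, fun x => ?_⟩, d1 * d2, norm_mul hd1 hd2, k1 * (Rq h a d1 * k2 * (Rq h a d1)⁻¹), ?_, ?_⟩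
    · have e1 := p1 ((k2 * Rq h a d2) x)
      have e2 := P.add_mem e1 (p2 x)
      rwa [sub_add_sub_cancel] at e2
    · intro m hm
      have h1 := X.mul_mem (hk1 m hm) (hk2 (m * d1) (norm_mul hm hd1))
      rw [← Rq_mul H ha hm hd1] at h1
      have e : Rq h a m * (k1 * (Rq h a d1 * k2 * (Rq h a d1)⁻¹)) * (Rq h a m)⁻¹ =
        Rq h a m * k1 * (Rq h a m)⁻¹ * (Rq h a m * Rq h a d1 * k2 * (Rq h a m * Rq h a d1)⁻¹) := by group
      rw [e]; exact h1
    · rw [← Rq_mul H ha hd1 hd2]; group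
  one_mem' := by
    refine ⟨⟨(isom h).one_mem, fun x => ?_⟩, 1, by rw [map_one, mul_one], 1, ?_, ?_⟩
    · show x - x ∈ P
      rw [sub_self]; exact P.zero_mem
    · intro m _
      rw [mul_one, mul_inv_cancel]; exact X.one_mem
    · rw [Rq_one H, mul_one]
  inv_mem' := by
    rintro g ⟨⟨i1, p1⟩, d, hd, k, hk, rfl⟩
    refine ⟨⟨(isom h).inv_mem i1, fun x => ?_⟩, d⁻¹, norm_inv H hd, Rq h a d⁻¹ * k⁻¹ * (Rq h a d⁻¹)⁻¹, ?_, ?_⟩
    · have e1 := p1 ((k * Rq h a d)⁻¹ x)
      have e2 : (k * Rq h a d) ((k * Rq h a d)⁻¹ x) = x := (k * Rq h a d).apply_symm_apply x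
      rw [e2] at e1
      rw [← neg_sub]; exact P.neg_mem e1
    · intro m hm
      have h1 := X.inv_mem (hk (m * d⁻¹) (norm_mul hm (norm_inv H hd)))
      rw [← Rq_mul H ha hm (norm_inv H hd)] at h1
      have e : Rq h a m * (Rq h a d⁻¹ * k⁻¹ * (Rq h a d⁻¹)⁻¹) * (Rq h a m)⁻¹ =
        (Rq h a m * Rq h a d⁻¹ * k * (Rq h a m * Rq h a d⁻¹)⁻¹)⁻¹ := by group
      rw [e]; exact h1
    · rw [← Rq_inv H ha hd]; group

lemma GaP.isom (H : IsSkew h) {a : V} (ha : h a a ≠ 0) {P : Submodule F V} {g : V ≃ₗ[F] V} (hg : g ∈ GaP H X ha P) :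
    g ∈ isom h := hg.1.1

lemma GaP.sub (H : IsSkew h) {a : V} (ha : h a a ≠ 0) {P : Submodule F V} {g : V ≃ₗ[F] V} (hg : g ∈ GaP H X ha P)
    (x : V) : g x - x ∈ P := hg.1.2 x

lemma GaP.a_mem (H : IsSkew h) {a : V} (ha : h a a ≠ 0) {P : Submodule F V} (haP : a ∈ P) {l : F} (hl : l * σ l = 1) :
    Rq h a l ∈ GaP H X ha P := by
  refine ⟨⟨Rq_mem H _ _, fun x => ?_⟩, l, hl, 1, ?_, by rw [one_mul]⟩
  · rw [Rq_apply H ha hl, add_sub_cancel_left]; exact P.smul_mem _ haP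
  · intro m _
    rw [mul_one, mul_inv_cancel]; exact X.one_mem

lemma GaP.b_mem (H : IsSkew h) {a b : V} (ha : h a a ≠ 0) (hb : h b b ≠ 0) {P : Submodule F V} (haP : a ∈ P) (hbP : b ∈ P)
    (hC : Cl h X a b) {l : F} (hl : l * σ l = 1) : Rq h b l ∈ GaP H X ha P := by
  refine ⟨⟨Rq_mem H _ _, fun x => ?_⟩, l, hl, Rq h b l * (Rq h a l)⁻¹, ?_, by group⟩
  · rw [Rq_apply H hb hl, add_sub_cancel_left]; exact P.smul_mem _ hbP
  · intro m hm
    -- Ra m Rb l Ra l⁻¹ Ra m⁻¹ = (Ra m Rb m⁻¹) (Rb (ml) Ra (ml)⁻¹)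
    have h1 := X.mul_mem (hC m hm) (hC.symm (m * l) (norm_mul hm hl))
    rw [← Rq_mul H hb hm hl, ← Rq_mul H ha hm hl] at h1
    have e : Rq h a m * (Rq h b l * (Rq h a l)⁻¹) * (Rq h a m)⁻¹ =
      Rq h a m * (Rq h b m)⁻¹ * (Rq h b m * Rq h b l * (Rq h a m * Rq h a l)⁻¹) := by
      have hcomm : (Rq h a l)⁻¹ * (Rq h a m)⁻¹ = (Rq h a m * Rq h a l)⁻¹ := by rw [mul_inv_rev]
      rw [← hcomm]; group
    rw [e]; exact h1

lemma GaP.le [FiniteDimensional F V] (H : IsSkew h) (hX : X ≤ SU h) {a : V} (ha : h a a ≠ 0) {P : Submodule F V}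
    {g : V ≃ₗ[F] V} (hg : g ∈ GaP H X ha P) (hd : ((LinearEquiv.det g : Fˣ) : F) = 1) : g ∈ X := by
  obtain ⟨-, d, hdn, k, hk, rfl⟩ := hg
  have h1 := hk 1 (by rw [map_one, mul_one])
  rw [Rq_one H, one_mul, inv_one, mul_one] at h1
  have h2 := SU_det (hX h1)
  rw [map_mul, Units.val_mul, h2, one_mul, Rq_det H ha hdn] at hd
  rw [hd, Rq_one H, mul_one]; exact h1

/-- recognition of transvections -/
lemma is_tr (H : IsSkew h) {z : V} (hz : h z z = 0) {P : Submodule F V} (hP : ∀ x ∈ P, h x z = 0 → ∃ c : F, x = c • z)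
    {y0 : V} (hy0 : h y0 z = 1) {g : V ≃ₗ[F] V} (hg : g ∈ isom h) (hgP : ∀ x, g x - x ∈ P) (hgz : g z = z) :
    ∃ c : F, σ c = c ∧ g = rf h z c := by
  have hz0 : z ≠ 0 := by rintro rfl; rw [map_zero] at hy0; exact zero_ne_one hy0
  have h1 : ∀ x, ∃ c : F, g x = x + c • z := by
    intro x
    obtain ⟨c, hc⟩ := hP _ (hgP x) (by
      rw [map_sub, LinearMap.sub_apply]
      have := hg x z
      rw [hgz] at this
      rw [this, sub_self])
    exact ⟨c, by rw [← hc]; abel⟩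
  choose φ hφ using h1
  have hzy : h z y0 = -1 := by rw [H.skew y0 z, hy0, map_one]
  have h2 : ∀ x, φ x = σ (φ y0) * h x z := by
    intro x
    have h3 := hg x y0
    rw [hφ x, hφ y0] at h3
    simp only [map_add, LinearMap.add_apply, map_smul, LinearMap.smul_apply, smul_eq_mul, map_smulₛₗ, hz, hzy] at h3
    linear_combination -h3
  have h3 : σ (φ y0) = φ y0 := by
    have := h2 y0
    rw [hy0, mul_one] at this
    exact this.symm
  refine ⟨φ y0, h3, ?_⟩
  apply LinearEquiv.ext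
  intro x
  rw [hφ x, rf_apply (tr_good hz h3), h2 x, h3]

open Classical in
/-- the norms `N(1 + (μ - 1) w)` take many values -/
lemma kappa_image [Fintype F] (H : IsSkew h) {w : F} (hw0 : w ≠ 0) (hw1 : w ≠ 1) :
    (Uf σ).card ≤ 2 * ((Uf σ).image (fun m => (1 + (m - 1) * w) * σ (1 + (m - 1) * w))).card := by
  set B := w * (1 - σ w) with hB
  have hσw1 : 1 - σ w ≠ 0 := by
    intro h0
    apply hw1
    have : σ (σ w) = σ 1 := by congr 1; linear_combination -h0
    rwa [H.inv, map_one] at this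
  have hB0 : B ≠ 0 := mul_ne_zero hw0 hσw1
  have hσB : σ B = σ w * (1 - w) := by rw [hB, map_mul, map_sub, map_one, H.inv]
  apply card_image2 (g := fun x => σ B * (B * x)⁻¹)
  intro x hx y hy hxy
  have hx0 := norm_ne (mem_Uf.1 hx)
  have hy0 := norm_ne (mem_Uf.1 hy)
  simp only [map_add, map_mul, map_sub, map_one, norm_sigma H (mem_Uf.1 hx), norm_sigma H (mem_Uf.1 hy)] at hxy
  have e : (y - x) * (y - σ B * (B * x)⁻¹) = 0 := by
    rw [hσB, hB]
    field_simp at hxy ⊢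
    linear_combination hxy
  rcases mul_eq_zero.1 e with e | e
  · exact Or.inl (sub_eq_zero.1 e)
  · exact Or.inr (sub_eq_zero.1 e)

theorem thmP [Fintype F] [FiniteDimensional F V] (H : IsSkew h) (hX : X ≤ SU h) (hK : 3 ≤ (Kf σ).card) {a b : V}
    (ha : h a a ≠ 0) (hab : h b b = h a a) {m : F} (hm0 : m ≠ 0) (hm : h b a = m * h a a) (hnd : m * σ m ≠ 1)
    (hC : Cl h X a b) : ∃ z, z ≠ 0 ∧ T h X z := by
  classical
  set s := h a a with hs
  have hss : σ s = -s := H.self a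
  have hσs : σ s⁻¹ = -s⁻¹ := by rw [map_inv₀, hss, inv_neg]
  have hb : h b b ≠ 0 := by rw [hab]; exact ha
  have hab' : h a b = σ m * s := by rw [H.skew b a, hm, map_mul, hss]; ring
  obtain ⟨a', ha'⟩ : ∃ a', a' = b - m • a := ⟨_, rfl⟩
  have haa1 : h a' a = 0 := by
    rw [ha', map_sub, LinearMap.sub_apply, map_smul, LinearMap.smul_apply, smul_eq_mul, hm, ← hs, sub_self]
  have haa2 : h a a' = 0 := H.symm_zero haa1
  have hbeq : b = m • a + a' := by rw [ha']; abel
  obtain ⟨s', hs'⟩ : ∃ s', s' = s * (1 - m * σ m) := ⟨_, rfl⟩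
  have hs'0 : s' ≠ 0 := by
    rw [hs']; exact mul_ne_zero ha (sub_ne_zero.2 (Ne.symm hnd))
  have haa' : h a' a' = s' := by
    rw [hs', ha']
    simp only [map_sub, LinearMap.sub_apply, map_smul, LinearMap.smul_apply, smul_eq_mul, map_smulₛₗ, hab, hm, hab',
      ← hs]
    ring
  have hba' : h b a' = s' := by rw [hbeq, map_add, LinearMap.add_apply, map_smul, LinearMap.smul_apply, haa2, haa']; simp
  have ha'b : h a' b = s' := by rw [hbeq, map_add, map_smulₛₗ, haa1, haa']; simp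
  set P := Submodule.span F {a, a'} with hP
  have haP : a ∈ P := Submodule.subset_span (by simp)
  have ha'P : a' ∈ P := Submodule.subset_span (by simp)
  have hbP : b ∈ P := by rw [hbeq]; exact P.add_mem (P.smul_mem _ haP) ha'P
  set G := GaP H X ha P with hG
  have hGi : ∀ {g}, g ∈ G → g ∈ isom h := fun hg => GaP.isom H ha hg
  have hGP : ∀ {g}, g ∈ G → ∀ x, g x - x ∈ P := fun hg x => GaP.sub H ha hg x
  have hGP' : ∀ {g}, g ∈ G → ∀ x ∈ P, g x ∈ P := fun hg x hx => by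
    have := P.add_mem (hGP hg x) hx
    rwa [sub_add_cancel] at this
  -- the isotropic vector
  obtain ⟨ξ, hξ⟩ := H.norm (m * σ m - 1) (by rw [map_sub, map_mul, H.inv, map_one]; ring)
  have hξ0 : ξ ≠ 0 := by
    rintro rfl
    rw [zero_mul] at hξ
    exact hnd (sub_eq_zero.1 hξ.symm)
  have hσξ0 : σ ξ ≠ 0 := fun h0 => hξ0 (H.inj h0)
  have hξs : ξ * σ ξ * s = -s' := by rw [hξ, hs']; ring
  obtain ⟨z, hz⟩ : ∃ z, z = ξ • a + a' := ⟨_, rfl⟩
  have hzP : z ∈ P := by rw [hz]; exact P.add_mem (P.smul_mem _ haP) ha'P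
  have hzz : h z z = 0 := by
    rw [hz]
    simp only [map_add, LinearMap.add_apply, map_smul, LinearMap.smul_apply, smul_eq_mul, map_smulₛₗ, haa1, haa2, haa',
      ← hs]
    linear_combination hξs
  have hza' : h z a' = s' := by rw [hz]; simp [haa2, haa']
  have hz0 : z ≠ 0 := by
    intro h0
    rw [h0, map_zero, LinearMap.zero_apply] at hza'
    exact hs'0 hza'.symm
  obtain ⟨w, hw⟩ : ∃ w, w = ξ * σ m + (1 - m * σ m) := ⟨_, rfl⟩
  have hzb : s⁻¹ * h z b = w := by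
    rw [hz, map_add, LinearMap.add_apply, map_smul, LinearMap.smul_apply, hab', ha'b, hs', hw, smul_eq_mul]
    field_simp
  have hξm : ξ ≠ m := by
    rintro rfl
    have : (1 : F) = 0 := by linear_combination hξ
    exact one_ne_zero this
  have hw0 : w ≠ 0 := by
    intro h0
    apply hξm
    have h1 : ξ * (σ m - σ ξ) = 0 := by linear_combination h0 - hξ - hw
    have h2 := (mul_eq_zero.1 h1).resolve_left hξ0
    have h3 : σ (m - ξ) = 0 := by rw [map_sub]; exact h2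
    exact (sub_eq_zero.1 (H.inj h3)).symm
  have hw1 : w ≠ 1 := by
    intro h0
    apply hξm
    have h1 : (ξ - m) * σ m = 0 := by linear_combination h0 - hw
    exact sub_eq_zero.1 ((mul_eq_zero.1 h1).resolve_right (fun h2 => hm0 (H.inj h2)))
  have hσw1 : 1 - σ w ≠ 0 := by
    intro h0
    apply hw1
    have : σ (σ w) = σ 1 := by congr 1; linear_combination -h0
    rwa [H.inv, map_one] at this
  -- the elements fixing the line of z
  have hgex : ∀ l : F, l * σ l = 1 → ∃ g ∈ G, g z = (1 + (l - 1) * w) • z ∧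
      ∀ x, h (g x) a' = h x a' + (l - 1) * (s⁻¹ * s' * h x b) := by
    intro l hl
    obtain ⟨k, hk⟩ : ∃ k, k = 1 + (l - 1) * w := ⟨_, rfl⟩
    obtain ⟨ξ1, hξ1⟩ : ∃ ξ1, ξ1 = ξ + (l - 1) * w * m := ⟨_, rfl⟩
    have hbz : Rq h b l z = ξ1 • a + k • a' := by
      rw [Rq_apply H hb hl, hab, mul_assoc, hzb, hξ1, hk]
      conv_lhs => rw [hbeq, hz]
      module
    have hiso : ξ1 * σ ξ1 * s + k * σ k * s' = 0 := by
      have h1 := Rq_mem H b l z z
      rw [hbz, hzz] at h1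
      simp only [map_add, LinearMap.add_apply, map_smul, LinearMap.smul_apply, smul_eq_mul, map_smulₛₗ, haa1, haa2, haa',
        ← hs] at h1
      linear_combination h1
    have hk0 : k ≠ 0 := by
      intro h0
      rw [h0, zero_mul, zero_mul, add_zero] at hiso
      have h1 : ξ1 = 0 := by
        rcases mul_eq_zero.1 hiso with h2 | h2
        · rcases mul_eq_zero.1 h2 with h3 | h3
          · exact h3
          · exact H.inj h3
        · exact absurd h2 ha
      rw [h0, h1, zero_smul, zero_smul, add_zero] at hbz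
      exact hz0 ((LinearEquiv.map_eq_zero_iff _).1 hbz)
    have hσk0 : σ k ≠ 0 := fun h0 => hk0 (H.inj h0)
    have hξ10 : ξ1 ≠ 0 := by
      intro h0
      rw [h0, zero_mul, zero_mul, zero_add] at hiso
      exact mul_ne_zero (mul_ne_zero hk0 hσk0) hs'0 hiso
    have hσξ10 : σ ξ1 ≠ 0 := fun h0 => hξ10 (H.inj h0)
    have hθ : (k * ξ * ξ1⁻¹) * σ (k * ξ * ξ1⁻¹) = 1 := by
      simp only [map_mul, map_inv₀]
      field_simp
      apply mul_right_cancel₀ ha
      linear_combination (k * σ k) * hξs - hiso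
    refine ⟨Rq h a (k * ξ * ξ1⁻¹) * Rq h b l, G.mul_mem (GaP.a_mem H ha haP hθ) (GaP.b_mem H ha hb haP hbP hC hl), ?_, ?_⟩
    · rw [LinearEquiv.mul_apply, hbz, map_add, map_smul, map_smul, Rq_self H ha hθ, Rq_orth H ha hθ haa1, smul_smul, ← hk, hz,
        smul_add, smul_smul]
      congr 2
      field_simp
    · intro x
      rw [LinearEquiv.mul_apply, Rq_apply H ha hθ, map_add, LinearMap.add_apply, map_smul, LinearMap.smul_apply, haa2,
        smul_zero, add_zero, Rq_apply H hb hl, map_add, LinearMap.add_apply, map_smul, LinearMap.smul_apply, hba', hab,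
        smul_eq_mul]
      ring
  -- P ∩ z^⊥
  have hPz : ∀ x ∈ P, h x z = 0 → ∃ c : F, x = c • z := by
    intro x hx hxz
    obtain ⟨α, β, rfl⟩ := Submodule.mem_span_pair.1 hx
    refine ⟨β, ?_⟩
    rw [hz] at hxz
    simp only [map_add, LinearMap.add_apply, map_smul, LinearMap.smul_apply, smul_eq_mul, map_smulₛₗ, haa1, haa2, haa',
      ← hs] at hxz
    have h1 : (α - β * ξ) * (σ ξ * s) = 0 := by linear_combination hxz - β * hξs
    have h2 := sub_eq_zero.1 ((mul_eq_zero.1 h1).resolve_right (mul_ne_zero hσξ0 ha))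
    rw [hz, h2, smul_add, smul_smul]
  have hy0 : h (s'⁻¹ • a') z = 1 := by
    rw [map_smul, LinearMap.smul_apply, hz, map_add, map_smulₛₗ, haa1, haa', smul_zero, zero_add, smul_eq_mul,
      inv_mul_cancel₀ hs'0]
  -- a second isotropic vector
  obtain ⟨η, hη, hη1⟩ := exists_norm_one H
  obtain ⟨z2, hz2⟩ : ∃ z2, z2 = (ξ * η) • a + a' := ⟨_, rfl⟩
  have hz2P : z2 ∈ P := by rw [hz2]; exact P.add_mem (P.smul_mem _ haP) ha'P
  have ht : h z2 z ≠ 0 := by
    have : h z2 z = s' * (1 - η) := by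
      rw [hz2, hz]
      simp only [map_add, LinearMap.add_apply, map_smul, LinearMap.smul_apply, smul_eq_mul, map_smulₛₗ, haa1, haa2, haa',
        ← hs]
      linear_combination η * hξs
    rw [this]
    exact mul_ne_zero hs'0 (sub_ne_zero.2 (Ne.symm hη1))
  -- a transvection
  have hcU := card_U H
  have hki := kappa_image (σ := σ) H hw0 hw1
  obtain ⟨l0, hl0, hN0⟩ : ∃ l0, l0 * σ l0 = 1 ∧ (1 + (l0 - 1) * w) * σ (1 + (l0 - 1) * w) ≠ 1 := by
    by_contra hcon
    push Not at hcon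
    have h1 : (Uf σ).image (fun m => (1 + (m - 1) * w) * σ (1 + (m - 1) * w)) ⊆ {1} := by
      intro x hx
      obtain ⟨l, hl, rfl⟩ := Finset.mem_image.1 hx
      rw [Finset.mem_singleton]
      exact hcon l (mem_Uf.1 hl)
    have h2 := Finset.card_le_card h1
    rw [Finset.card_singleton] at h2
    omega
  have hl01 : l0 ≠ 1 := by
    rintro rfl
    apply hN0
    rw [sub_self, zero_mul, add_zero, map_one, mul_one]
  obtain ⟨l2, hl2, hl21, hl20⟩ : ∃ l2, l2 * σ l2 = 1 ∧ l2 ≠ 1 ∧ l2 ≠ l0 := by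
    by_contra hcon
    push Not at hcon
    have h1 : Uf σ ⊆ {1, l0} := by
      intro x hx
      rw [Finset.mem_insert, Finset.mem_singleton]
      by_cases hx1 : x = 1
      · exact Or.inl hx1
      · exact Or.inr (hcon x (mem_Uf.1 hx) hx1)
    have h2 := Finset.card_le_card h1
    have h3 : ({1, l0} : Finset F).card ≤ 2 := Finset.card_le_two
    omega
  obtain ⟨g0, hg0, hg0z, hg0a⟩ := hgex l0 hl0
  obtain ⟨g2, hg2, hg2z, hg2a⟩ := hgex l2 hl2
  obtain ⟨k0, hk0⟩ : ∃ k0, k0 = 1 + (l0 - 1) * w := ⟨_, rfl⟩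
  obtain ⟨k2, hk2⟩ : ∃ k2, k2 = 1 + (l2 - 1) * w := ⟨_, rfl⟩
  rw [← hk0] at hg0z hN0
  rw [← hk2] at hg2z
  have hk00 : k0 ≠ 0 := by
    intro h0
    rw [h0, zero_smul] at hg0z
    exact hz0 ((LinearEquiv.map_eq_zero_iff _).1 hg0z)
  have hk20 : k2 ≠ 0 := by
    intro h0
    rw [h0, zero_smul] at hg2z
    exact hz0 ((LinearEquiv.map_eq_zero_iff _).1 hg2z)
  have hσk0 : σ k0 ≠ 0 := fun h0 => hk00 (H.inj h0)
  have hσk2 : σ k2 ≠ 0 := fun h0 => hk20 (H.inj h0)
  have hcomm : g0 * g2 ≠ g2 * g0 := by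
    intro hcomm
    -- decomposition of vectors of P
    have hdec : ∀ u ∈ P, h u z ≠ 0 → ∀ x ∈ P, ∃ c : F, x = c • z + (h x z * (h u z)⁻¹) • u := by
      intro u hu huz x hx
      obtain ⟨c, hc⟩ := hPz (x - (h x z * (h u z)⁻¹) • u) (P.sub_mem hx (P.smul_mem _ hu)) (by
        rw [map_sub, LinearMap.sub_apply, map_smul, LinearMap.smul_apply, smul_eq_mul, mul_assoc, inv_mul_cancel₀ huz,
          mul_one, sub_self])
      exact ⟨c, by rw [← hc]; abel⟩
    have hval : ∀ (g : V ≃ₗ[F] V), g ∈ G → ∀ k : F, g z = k • z → σ k ≠ 0 → ∀ u, h (g u) z = h u z * (σ k)⁻¹ := by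
      intro g hg k hgk hk u
      have h1 := hGi hg u z
      rw [hgk, map_smulₛₗ, smul_eq_mul] at h1
      field_simp
      linear_combination h1
    obtain ⟨α, hα⟩ := hdec z2 hz2P ht (g0 z2) (hGP' hg0 _ hz2P)
    rw [hval g0 hg0 k0 hg0z hσk0] at hα
    have e0 : h z2 z * (σ k0)⁻¹ * (h z2 z)⁻¹ = (σ k0)⁻¹ := by field_simp
    rw [e0] at hα
    obtain ⟨β, hβ⟩ : ∃ β, β = (σ k0)⁻¹ := ⟨_, rfl⟩
    rw [← hβ] at hα
    have hβk : β - k0 ≠ 0 := by
      intro h0
      apply hN0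
      have : β * σ k0 = 1 := by rw [hβ, inv_mul_cancel₀ hσk0]
      linear_combination this - σ k0 * h0
    obtain ⟨z', hz'⟩ : ∃ z', z' = z2 + (α * (β - k0)⁻¹) • z := ⟨_, rfl⟩
    have hg0z' : g0 z' = β • z' := by
      rw [hz', map_add, map_smul, hα, hg0z, smul_add, smul_smul, smul_smul]
      have e1 : α + α * (β - k0)⁻¹ * k0 = β * (α * (β - k0)⁻¹) := by
        field_simp
        ring
      rw [← e1, add_smul]; abel
    have hz'P : z' ∈ P := by rw [hz']; exact P.add_mem hz2P (P.smul_mem _ hzP)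
    have hz'z : h z' z = h z2 z := by
      rw [hz', map_add, LinearMap.add_apply, map_smul, LinearMap.smul_apply, hzz, smul_zero, add_zero]
    have hz'z0 : h z' z ≠ 0 := by rw [hz'z]; exact ht
    have hz'iso : h z' z' = 0 := by
      have h1 := hGi hg0 z' z'
      rw [hg0z'] at h1
      simp only [map_smul, LinearMap.smul_apply, map_smulₛₗ, smul_eq_mul] at h1
      have h2 : (β * σ β - 1) * h z' z' = 0 := by linear_combination h1
      refine (mul_eq_zero.1 h2).resolve_left ?_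
      intro h3
      apply hN0
      rw [hβ, map_inv₀, H.inv] at h3
      field_simp at h3
      linear_combination -h3
    have hz'a : h z' a' ≠ 0 := by
      intro h0
      obtain ⟨x, y, hxy⟩ := Submodule.mem_span_pair.1 hz'P
      rw [← hxy] at h0 hz'iso hz'z0
      simp only [map_add, LinearMap.add_apply, map_smul, LinearMap.smul_apply, smul_eq_mul, haa2, haa', mul_zero,
        zero_add] at h0
      have hy := (mul_eq_zero.1 h0).resolve_right hs'0
      rw [hy, zero_smul, add_zero] at hz'iso hz'z0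
      simp only [map_smul, LinearMap.smul_apply, map_smulₛₗ, smul_eq_mul, ← hs] at hz'iso hz'z0
      have hx : x = 0 := by
        have h0 : x * (σ x * s) = 0 := by linear_combination hz'iso
        rcases mul_eq_zero.1 h0 with h1 | h1
        · exact h1
        · rcases mul_eq_zero.1 h1 with h2 | h2
          · exact H.inj h2
          · exact absurd h2 ha
      rw [hx, zero_mul] at hz'z0
      exact hz'z0 rfl
    obtain ⟨x, hx⟩ := hdec z' hz'P hz'z0 (g2 z') (hGP' hg2 _ hz'P)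
    rw [hval g2 hg2 k2 hg2z hσk2] at hx
    have e2 : h z' z * (σ k2)⁻¹ * (h z' z)⁻¹ = (σ k2)⁻¹ := by field_simp
    rw [e2] at hx
    obtain ⟨β2, hβ2⟩ : ∃ β2, β2 = (σ k2)⁻¹ := ⟨_, rfl⟩
    rw [← hβ2] at hx
    have hx0 : x = 0 := by
      have h1 : g0 (g2 z') = g2 (g0 z') := by
        rw [← LinearEquiv.mul_apply, hcomm, LinearEquiv.mul_apply]
      rw [hg0z', map_smul, hx, map_add, map_smul, map_smul, hg0z, hg0z', smul_add, smul_smul, smul_smul, smul_smul,
        smul_smul, mul_comm β β2] at h1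
      have h2 := add_right_cancel h1
      have h3 : (x * k0 - β * x) • z = 0 := by rw [sub_smul, h2, sub_self]
      have h4 := (smul_eq_zero.1 h3).resolve_right hz0
      have h5 : x * (β - k0) = 0 := by linear_combination -h4
      exact (mul_eq_zero.1 h5).resolve_right hβk
    rw [hx0, zero_smul, zero_add] at hx
    obtain ⟨w', hw'⟩ : ∃ w', w' = s⁻¹ * s' * h z' b * (h z' a')⁻¹ := ⟨_, rfl⟩
    have hw'1 : w' * h z' a' = s⁻¹ * s' * h z' b := by rw [hw']; field_simp
    have q0 : β = 1 + (l0 - 1) * w' := by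
      have h1 := hg0a z'
      rw [hg0z', map_smul, LinearMap.smul_apply, smul_eq_mul, ← hw'1] at h1
      apply mul_right_cancel₀ hz'a
      linear_combination h1
    have q2 : β2 = 1 + (l2 - 1) * w' := by
      have h1 := hg2a z'
      rw [hx, map_smul, LinearMap.smul_apply, smul_eq_mul, ← hw'1] at h1
      apply mul_right_cancel₀ hz'a
      linear_combination h1
    have r0 : β * σ k0 = 1 := by rw [hβ, inv_mul_cancel₀ hσk0]
    have r2 : β2 * σ k2 = 1 := by rw [hβ2, inv_mul_cancel₀ hσk2]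
    have rel : ∀ l : F, l * σ l = 1 → l ≠ 1 → (1 + (l - 1) * w') * σ (1 + (l - 1) * w) = 1 →
        l * (w' * (1 - σ w)) = σ w * (1 - w') := by
      intro l hl hl1 h1
      have hl0' := norm_ne hl
      rw [map_add, map_one, map_mul, map_sub, map_one, norm_sigma H hl] at h1
      have h2 : (l - 1) * (l * (w' * (1 - σ w)) - σ w * (1 - w')) = 0 := by
        field_simp at h1
        linear_combination h1
      exact sub_eq_zero.1 ((mul_eq_zero.1 h2).resolve_left (sub_ne_zero.2 hl1))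
    rw [q0, hk0] at r0
    rw [q2, hk2] at r2
    have f0 := rel l0 hl0 hl01 r0
    have f2 := rel l2 hl2 hl21 r2
    have f3 : (l0 - l2) * (w' * (1 - σ w)) = 0 := by linear_combination f0 - f2
    have f4 := (mul_eq_zero.1 f3).resolve_left (sub_ne_zero.2 (Ne.symm hl20))
    rw [f4, mul_zero] at f0
    have f5 := (mul_eq_zero.1 f4).resolve_right hσw1
    rw [f5, sub_zero, mul_one] at f0
    exact hw0 (H.inj f0.symm)
  obtain ⟨c0, hc0r, hc0⟩ := is_tr H hzz hPz hy0 (g := g0 * g2 * g0⁻¹ * g2⁻¹)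
    ((isom h).mul_mem ((isom h).mul_mem ((isom h).mul_mem (hGi hg0) (hGi hg2)) ((isom h).inv_mem (hGi hg0)))
      ((isom h).inv_mem (hGi hg2)))
    (fun x => hGP (G.mul_mem (G.mul_mem (G.mul_mem hg0 hg2) (G.inv_mem hg0)) (G.inv_mem hg2)) x) (by
      have i0 : g0⁻¹ z = k0⁻¹ • z := by
        have : g0⁻¹ (g0 z) = z := g0.symm_apply_apply z
        rw [hg0z, map_smul] at this
        conv_rhs => rw [← this]
        rw [smul_smul, inv_mul_cancel₀ hk00, one_smul]
      have i2 : g2⁻¹ z = k2⁻¹ • z := by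
        have : g2⁻¹ (g2 z) = z := g2.symm_apply_apply z
        rw [hg2z, map_smul] at this
        conv_rhs => rw [← this]
        rw [smul_smul, inv_mul_cancel₀ hk20, one_smul]
      simp only [LinearEquiv.mul_apply, i2, map_smul, i0, hg2z, hg0z, smul_smul]
      have : k2⁻¹ * (k0⁻¹ * (k2 * k0)) = 1 := by field_simp
      rw [this, one_smul])
  have hc0G : rf h z c0 ∈ G := by
    rw [← hc0]
    exact G.mul_mem (G.mul_mem (G.mul_mem hg0 hg2) (G.inv_mem hg0)) (G.inv_mem hg2)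
  have hc00 : c0 ≠ 0 := by
    rintro rfl
    rw [rf_zero] at hc0
    apply hcomm
    have : g0 * g2 = (g0 * g2 * g0⁻¹ * g2⁻¹) * (g2 * g0) := by group
    rw [this, hc0, one_mul]
  refine ⟨z, hz0, hzz, fun c hc => ?_⟩
  -- all parameters
  let R : F → Prop := fun t => σ t = t ∧ ∀ c, σ c = c → rf h z c ∈ G → rf h z (t * c) ∈ G
  have hRadd : ∀ t u, R t → R u → R (t + u) := by
    intro t u ht hu
    refine ⟨by rw [map_add, ht.1, hu.1], fun c hc hcG => ?_⟩
    have r1 : σ (t * c) = t * c := by rw [map_mul, ht.1, hc]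
    have r2 : σ (u * c) = u * c := by rw [map_mul, hu.1, hc]
    have h1 := rf_mul (tr_good hzz r1) (tr_good hzz r2) (H.self z)
    rw [hzz, mul_zero, add_zero, ← add_mul] at h1
    rw [← h1.2]
    exact G.mul_mem (ht.2 c hc hcG) (hu.2 c hc hcG)
  have hRk : ∀ l : F, l * σ l = 1 → R ((1 + (l - 1) * w) * σ (1 + (l - 1) * w)) := by
    intro l hl
    obtain ⟨g, hg, hgz, -⟩ := hgex l hl
    refine ⟨by rw [map_mul, H.inv, mul_comm], fun c hc hcG => ?_⟩
    have h1 := G.mul_mem (G.mul_mem hg hcG) (G.inv_mem hg)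
    rw [rf_conj z c g (hGi hg), hgz, rf_smul H, mul_comm] at h1
    exact h1
  have hRc := half_all (R := R) hRadd (S := (Uf σ).image (fun m => (1 + (m - 1) * w) * σ (1 + (m - 1) * w))) (by
    intro x hx
    obtain ⟨l, hl, rfl⟩ := Finset.mem_image.1 hx
    rw [mem_Kf, map_mul, H.inv, mul_comm]) (by
    intro x hx
    obtain ⟨l, hl, rfl⟩ := Finset.mem_image.1 hx
    exact hRk l (mem_Uf.1 hl)) (by omega) (c := c * c0⁻¹) (by rw [map_mul, map_inv₀, hc, hc0r])
  have h1 := hRc.2 c0 hc0r hc0G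
  rw [mul_assoc, inv_mul_cancel₀ hc00, mul_one] at h1
  apply GaP.le H hX ha h1
  rw [rf_det (tr_good hzz hc), hzz, mul_zero, add_zero]

end H95.US
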