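import Mathlib
import Cfsg.Agent.Lib.H95.US7
import Cfsg.Agent.Lib.H95.US9
import Cfsg.Agent.Lib.H96.StFus

set_option autoImplicit false
set_option linter.unusedSectionVars false
set_option linter.unusedVariables false

/-!
Overgroups of the monomial subgroup of `SU`, containing no transvections: contradiction.
-/

namespace H95.US

open Module H95.UBasic H95.UPair

variable {F V : Type*} [Field F] [AddCommGroup V] [Module F V] {σ : F →+* F}
variable {h : V →ₗ[F] V →ₛₗ[σ] F} [FiniteDimensional F V]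
variable {κ : Type*} [Fintype κ] [DecidableEq κ] {e : κ → V} {ζ : F} {X : Subgroup (V ≃ₗ[F] V)} [Fintype F]

/-- the setting of the contradiction -/
structure NoT (h : V →ₗ[F] V →ₛₗ[σ] F) (ζ : F) (e : κ → V) (X : Subgroup (V ≃ₗ[F] V)) : Prop where
  Y : HypF h ζ e X
  K : 3 ≤ (Kf σ).card
  n : 9 ≤ Fintype.card κ
  no : ∀ z, T h X z → z = 0

omit [FiniteDimensional F V] [Fintype F] in
lemma two_not_mem {S : Finset κ} (hS : S.card + 2 ≤ Fintype.card κ) : ∃ i j, i ≠ j ∧ i ∉ S ∧ j ∉ S := by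
  obtain ⟨i, hi⟩ := exists_not_mem S (by omega)
  obtain ⟨j, hj⟩ := exists_not_mem (insert i S) (by rw [Finset.card_insert_of_notMem hi]; omega)
  rw [Finset.mem_insert, not_or] at hj
  exact ⟨i, j, Ne.symm hj.1, hi, hj.2⟩

namespace NoT

lemma cl_e (N : NoT h ζ e X) (i j : κ) : Cl h X (e i) (e j) := by
  intro l hl
  by_cases hij : i = j
  · rw [hij, mul_inv_cancel]; exact X.one_mem
  · have := N.Y.dl_mem hij hl
    rw [dl] at this
    rwa [Rq_inv N.Y.H (N.Y.E.self_ne j) hl]

/-- elements of `X` taking a member to a member are monomial -/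
lemma star (N : NoT h ζ e X) {g : V ≃ₗ[F] V} (hg : g ∈ X) {i j : κ} {c : F} (hc : g (e i) = c • e j) : Mon e g := by
  have H := N.Y.H
  have E := N.Y.E
  have hgi := N.Y.le' hg
  have hc0 : c ≠ 0 := by
    rintro rfl
    rw [zero_smul] at hc
    exact E.ne0 i ((LinearEquiv.map_eq_zero_iff g).1 hc)
  apply mon_of E hgi
  intro l
  by_contra hcon
  push Not at hcon
  obtain ⟨a, ha⟩ : ∃ a, a = g (e l) := ⟨_, rfl⟩
  have haa : h a a = ζ := by rw [ha, hgi, E.self]
  have ha0 : a ≠ 0 := by rw [ha]; exact fun h0 => E.ne0 l ((LinearEquiv.map_eq_zero_iff g).1 h0)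
  obtain ⟨m, hm⟩ := N.Y.ex_coord ha0
  have hCl : Cl h X a (e m) := by
    have h1 : Cl h X a (c • e j) := by
      rw [ha, ← hc]; exact (N.cl_e l i).conj N.Y.le' H hg
    have h2 : Cl h X (c • e j) (e m) := (N.cl_e j m).smul H hc0
    exact h1.trans h2
  have haz : h a a ≠ 0 := by rw [haa]; exact E.ne
  have hba : h (e m) a ≠ 0 := by
    intro h0
    have := H.symm_zero h0
    rw [E.he] at this
    exact hm ((mul_eq_zero.1 this).resolve_left E.ne)
  obtain ⟨μ, hμ⟩ : ∃ μ, μ = h (e m) a * (h a a)⁻¹ := ⟨_, rfl⟩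
  have hμa : h (e m) a = μ * h a a := by rw [hμ, mul_assoc, inv_mul_cancel₀ haz, mul_one]
  have hμ0 : μ ≠ 0 := by rw [hμ]; exact mul_ne_zero hba (inv_ne_zero haz)
  by_cases hn : μ * σ μ = 1
  · have ham : h a (e m) = σ μ * h a a := by rw [H.skew (e m) a, hμa, map_mul, H.self]; ring
    have hz0 : e m - μ • a = 0 := by
      apply N.no
      apply thmQ H (a := μ • a)
      · simp only [map_smul, LinearMap.smul_apply, map_smulₛₗ, smul_eq_mul]
        exact mul_ne_zero (fun h0 => hμ0 (H.inj h0)) (mul_ne_zero hμ0 haz)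
      · simp only [map_sub, LinearMap.sub_apply, map_smul, LinearMap.smul_apply, map_smulₛₗ, smul_eq_mul, hμa, ham, haa,
          E.self]
        linear_combination (-ζ) * hn
      · simp only [map_sub, LinearMap.sub_apply, map_smul, LinearMap.smul_apply, map_smulₛₗ, smul_eq_mul, hμa]
        ring
      · have e1 : μ • a + (e m - μ • a) = e m := by abel
        rw [e1]
        exact (hCl.smul H hμ0).symm
    apply hcon m μ⁻¹
    rw [← ha, sub_eq_zero.1 hz0, smul_smul, inv_mul_cancel₀ hμ0, one_smul]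
  · obtain ⟨z, hz0, hz⟩ := thmP H N.Y.le N.K haz (b := e m) (by rw [haa, E.self]) hμ0 hμa hn hCl
    exact hz0 (N.no z hz)

lemma not_par (N : NoT h ζ e X) {x : V ≃ₗ[F] V} (hx : x ∈ X) (hxm : ¬ Mon e x) (l m : κ) (c : F) :
    x (e l) ≠ c • e m := fun h0 => hxm (N.star hx h0)

/-- conjugates of diagonal elements acting monomially -/
lemma member (N : NoT h ζ e X) {x : V ≃ₗ[F] V} (hx : x ∈ X) (hxm : ¬ Mon e x) {i j : κ} (hij : i ≠ j) {a : κ}
    (h1 : co h ζ e i (x (e a)) = 0) (h2 : co h ζ e j (x (e a)) = 0) :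
    ∃ l, (∀ k, k ≠ i → k ≠ j → co h ζ e k (x (e l)) = 0) ∧ co h ζ e i (x (e l)) ≠ 0 ∧ co h ζ e j (x (e l)) ≠ 0 := by
  have H := N.Y.H
  have E := N.Y.E
  obtain ⟨μ, hμ, hμ2, hμ3⟩ := exists_cube H N.K
  have hμ0 := norm_ne hμ
  have hμ1 : μ ≠ 1 := by rintro rfl; exact hμ2 (one_pow 2)
  have hdX := N.Y.dl_mem hij hμ
  set δ := dl h e i j μ with hδ
  have ci : ∀ v, co h ζ e i (δ v) = μ * co h ζ e i v := by
    intro v
    rw [hδ, E.dl_apply H hij hμ, map_add, map_add, map_smul, map_smul, E.co_self, E.co_ne hij]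
    simp only [smul_eq_mul]; ring
  have cj : ∀ v, co h ζ e j (δ v) = μ⁻¹ * co h ζ e j v := by
    intro v
    rw [hδ, E.dl_apply H hij hμ, map_add, map_add, map_smul, map_smul, E.co_self, E.co_ne hij.symm]
    simp only [smul_eq_mul]; ring
  have ck : ∀ k, k ≠ i → k ≠ j → ∀ v, co h ζ e k (δ v) = co h ζ e k v := by
    intro k hki hkj v
    rw [hδ, E.dl_apply H hij hμ, map_add, map_add, map_smul, map_smul, E.co_ne hki, E.co_ne hkj]
    simp
  have hfix : δ (x (e a)) = x (e a) := by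
    apply E.ext
    intro k
    by_cases hki : k = i
    · rw [hki, ci, h1, mul_zero]
    by_cases hkj : k = j
    · rw [hkj, cj, h2, mul_zero]
    exact ck k hki hkj _
  have xx : ∀ v, x (x⁻¹ v) = v := fun v => x.apply_symm_apply v
  have xx' : ∀ v, x⁻¹ (x v) = v := fun v => x.symm_apply_apply v
  have hy : Mon e (x⁻¹ * δ * x) := by
    apply N.star (X.mul_mem (X.mul_mem (X.inv_mem hx) hdX) hx) (i := a) (j := a) (c := 1)
    rw [LinearEquiv.mul_apply, LinearEquiv.mul_apply, hfix, xx', one_smul]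
  obtain ⟨π, hπ⟩ := hy
  have hπ' : ∀ l, ∃ c : F, c ≠ 0 ∧ δ (x (e l)) = c • x (e (π l)) := by
    intro l
    obtain ⟨c, hc⟩ := hπ l
    have h3 : x ((x⁻¹ * δ * x) (e l)) = δ (x (e l)) := by
      rw [LinearEquiv.mul_apply, LinearEquiv.mul_apply, xx]
    rw [hc, map_smul] at h3
    refine ⟨c, ?_, h3.symm⟩
    rintro rfl
    rw [zero_smul] at h3
    exact E.ne0 l ((LinearEquiv.map_eq_zero_iff x).1 ((LinearEquiv.map_eq_zero_iff δ).1 h3.symm))
  -- a member with nonzero coordinate at `i`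
  obtain ⟨l, hl⟩ : ∃ l, co h ζ e i (x (e l)) ≠ 0 := by
    by_contra hcon
    push Not at hcon
    obtain ⟨v, hv⟩ := x.surjective (e i)
    have h5 := E.co_self i
    rw [← hv, ← E.sum' v, map_sum, map_sum] at h5
    rw [Finset.sum_eq_zero (fun a _ => by rw [map_smul, map_smul, hcon, smul_zero])] at h5
    exact zero_ne_one h5
  have fin : (∀ k, k ≠ i → k ≠ j → co h ζ e k (x (e l)) = 0) →
      ∃ l, (∀ k, k ≠ i → k ≠ j → co h ζ e k (x (e l)) = 0) ∧ co h ζ e i (x (e l)) ≠ 0 ∧ co h ζ e j (x (e l)) ≠ 0 := by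
    intro hk
    refine ⟨l, hk, hl, ?_⟩
    intro hj
    apply N.not_par hx hxm l i (co h ζ e i (x (e l)))
    apply E.ext
    intro k
    rw [map_smul]
    by_cases hki : k = i
    · rw [hki, E.co_self, smul_eq_mul, mul_one]
    · rw [E.co_ne hki, smul_zero]
      by_cases hkj : k = j
      · rw [hkj]; exact hj
      · exact hk k hki hkj
  obtain ⟨c, hc0, hc⟩ := hπ' l
  by_cases hl1 : π l = l
  · rw [hl1] at hc
    have e1 : μ = c := by
      have := ci (x (e l))
      rw [hc, map_smul, smul_eq_mul] at this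
      exact (mul_right_cancel₀ hl this).symm
    apply fin
    intro k hki hkj
    have := ck k hki hkj (x (e l))
    rw [hc, map_smul, smul_eq_mul, ← e1] at this
    have h3 : (μ - 1) * co h ζ e k (x (e l)) = 0 := by linear_combination this
    exact (mul_eq_zero.1 h3).resolve_left (sub_ne_zero.2 hμ1)
  obtain ⟨c', hc'0, hc'⟩ := hπ' (π l)
  by_cases hl2 : π (π l) = l
  · rw [hl2] at hc'
    have hdd : δ (δ (x (e l))) = (c * c') • x (e l) := by rw [hc, map_smul, hc', smul_smul]
    by_cases hcc : c * c' = 1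
    · exfalso
      have h3 := ci (δ (x (e l)))
      rw [hdd, ci, hcc, one_smul] at h3
      apply hμ2
      apply mul_right_cancel₀ hl
      rw [one_mul]
      linear_combination -h3
    · apply fin
      intro k hki hkj
      have h3 := ck k hki hkj (δ (x (e l)))
      rw [hdd, ck k hki hkj, map_smul, smul_eq_mul] at h3
      have h4 : (c * c' - 1) * co h ζ e k (x (e l)) = 0 := by linear_combination h3
      exact (mul_eq_zero.1 h4).resolve_left (sub_ne_zero.2 hcc)
  exfalso
  obtain ⟨c'', hc''0, hc''⟩ := hπ' (π (π l))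
  have hchar : δ (δ (δ (x (e l)))) = (1 + (μ + μ⁻¹)) • δ (δ (x (e l))) - (1 + (μ + μ⁻¹)) • δ (x (e l)) + x (e l) := by
    apply E.ext
    intro k
    rw [map_add, map_sub, map_smul, map_smul]
    by_cases hki : k = i
    · rw [hki, ci, ci, ci]
      simp only [smul_eq_mul]
      field_simp
      ring
    by_cases hkj : k = j
    · rw [hkj, cj, cj, cj]
      simp only [smul_eq_mul]
      field_simp
      ring
    rw [ck k hki hkj, ck k hki hkj, ck k hki hkj]
    simp only [smul_eq_mul]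
    ring
  have horth : ∀ p q : κ, p ≠ q → h (x (e p)) (x (e q)) = 0 := by
    intro p q hpq
    rw [N.Y.le' hx, E.orth hpq]
  have h5 := congrArg (fun v => h v (x (e (π l)))) hchar
  simp only [hc, hc', hc'', map_smul, map_add, map_sub, LinearMap.add_apply, LinearMap.sub_apply, LinearMap.smul_apply,
    smul_eq_mul] at h5
  have n1 : π (π (π l)) ≠ π l := fun h0 => hl2 (π.injective h0)
  have n2 : π (π l) ≠ π l := fun h0 => hl1 (π.injective h0)
  have hself : h (x (e (π l))) (x (e (π l))) = ζ := by rw [N.Y.le' hx, E.self]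
  rw [horth _ _ n1, horth _ _ n2, horth _ _ (Ne.symm hl1), hself] at h5
  have h6 : (1 + (μ + μ⁻¹)) * (c * ζ) = 0 := by linear_combination h5
  have h7 := (mul_eq_zero.1 h6).resolve_right (mul_ne_zero hc0 E.ne)
  apply hμ3
  field_simp at h7
  linear_combination (μ - 1) * h7

/-- columns have at most one zero -/
lemma twozero (N : NoT h ζ e X) {x : V ≃ₗ[F] V} (hx : x ∈ X) (hxm : ¬ Mon e x) {i j : κ} (hij : i ≠ j) {a : κ}
    (h1 : co h ζ e i (x (e a)) = 0) (h2 : co h ζ e j (x (e a)) = 0) : False := by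
  have H := N.Y.H
  have E := N.Y.E
  obtain ⟨l, hl, hli, hlj⟩ := N.member hx hxm hij h1 h2
  have hn := N.n
  obtain ⟨k1, hk1⟩ := exists_not_mem ({i, j} : Finset κ) (by have := Finset.card_le_two (a := i) (b := j); omega)
  obtain ⟨k2, hk2⟩ := exists_not_mem ({i, j, k1} : Finset κ) (by
    have := Finset.card_le_three (a := i) (b := j) (c := k1); omega)
  obtain ⟨k3, hk3⟩ := exists_not_mem ({i, j, k1, k2} : Finset κ) (by
    have := Finset.card_le_four (a := i) (b := j) (c := k1) (d := k2); omega)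
  simp only [Finset.mem_insert, Finset.mem_singleton, not_or] at hk1 hk2 hk3
  obtain ⟨p, hp, hp1, hp2⟩ := N.member hx hxm (Ne.symm hk2.2.2) (hl k1 hk1.1 hk1.2) (hl k2 hk2.1 hk2.2.1)
  obtain ⟨q, hq, hq1, hq3⟩ := N.member hx hxm (Ne.symm hk3.2.2.1) (hl k1 hk1.1 hk1.2) (hl k3 hk3.1 hk3.2.1)
  have hpq : p ≠ q := by
    rintro rfl
    exact hp2 (hq k2 hk2.2.2 (Ne.symm hk3.2.2.2))
  have h3 : h (x (e p)) (x (e q)) = 0 := by rw [N.Y.le' hx, E.orth hpq]
  rw [E.form H, Finset.sum_eq_single k1] at h3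
  · exact mul_ne_zero E.ne (mul_ne_zero hp1 (fun h0 => hq1 (H.inj h0))) h3
  · intro k _ hk
    by_cases hk2' : k = k2
    · rw [hk2', hq k2 hk2.2.2 (Ne.symm hk3.2.2.2), map_zero, mul_zero]
    · rw [hp k hk hk2', zero_mul]
  · intro h0; exact absurd (Finset.mem_univ k1) h0

lemma zeros (N : NoT h ζ e X) {x : V ≃ₗ[F] V} (hx : x ∈ X) (hxm : ¬ Mon e x) {S : Finset κ}
    (hS : S.card + 2 ≤ Fintype.card κ) {a : κ} (h1 : ∀ k, k ∉ S → co h ζ e k (x (e a)) = 0) : False := by
  obtain ⟨i, j, hij, hi, hj⟩ := two_not_mem hS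
  exact N.twozero hx hxm hij (h1 i hi) (h1 j hj)

/-- the diagonal elements are good -/
lemma good (N : NoT h ζ e X) {x : V ≃ₗ[F] V} (hx : x ∈ X) {k l : κ} (hkl : k ≠ l) {μ : F} (hμ : μ * σ μ = 1)
    (hμ1 : μ ≠ 1) (hm : Mon e (x⁻¹ * dl h e k l μ * x)) : Mon e x := by
  have H := N.Y.H
  have E := N.Y.E
  by_contra hxm
  set δ := dl h e k l μ with hδ
  have hμ0 := norm_ne hμ
  have hμi1 : μ⁻¹ ≠ 1 := fun h0 => hμ1 (by rw [← inv_inv μ, h0, inv_one])
  have ck : ∀ v, co h ζ e k (δ v) = μ * co h ζ e k v := by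
    intro v
    rw [hδ, E.dl_apply H hkl hμ, map_add, map_add, map_smul, map_smul, E.co_self, E.co_ne hkl]
    simp only [smul_eq_mul]; ring
  have cl : ∀ v, co h ζ e l (δ v) = μ⁻¹ * co h ζ e l v := by
    intro v
    rw [hδ, E.dl_apply H hkl hμ, map_add, map_add, map_smul, map_smul, E.co_self, E.co_ne hkl.symm]
    simp only [smul_eq_mul]; ring
  have cs : ∀ s, s ≠ k → s ≠ l → ∀ v, co h ζ e s (δ v) = co h ζ e s v := by
    intro s hsk hsl v
    rw [hδ, E.dl_apply H hkl hμ, map_add, map_add, map_smul, map_smul, E.co_ne hsk, E.co_ne hsl]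
    simp
  have xx : ∀ v, x (x⁻¹ v) = v := fun v => x.apply_symm_apply v
  obtain ⟨π, hπ⟩ := hm
  have hπ' : ∀ m, ∃ c : F, δ (x (e m)) = c • x (e (π m)) := by
    intro m
    obtain ⟨c, hc⟩ := hπ m
    have h3 : x ((x⁻¹ * δ * x) (e m)) = δ (x (e m)) := by
      rw [LinearEquiv.mul_apply, LinearEquiv.mul_apply, xx]
    rw [hc, map_smul] at h3
    exact ⟨c, h3.symm⟩
  -- no fixed points
  have hfix : ∀ m, π m ≠ m := by
    intro m h0
    obtain ⟨c, hc⟩ := hπ' m
    rw [h0] at hc
    by_cases hc1 : c = 1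
    · rw [hc1, one_smul] at hc
      apply N.twozero hx hxm hkl (a := m)
      · have h1 := ck (x (e m))
        rw [hc] at h1
        have h2 : (μ - 1) * co h ζ e k (x (e m)) = 0 := by linear_combination -h1
        exact (mul_eq_zero.1 h2).resolve_left (sub_ne_zero.2 hμ1)
      · have h1 := cl (x (e m))
        rw [hc] at h1
        have h2 : (μ⁻¹ - 1) * co h ζ e l (x (e m)) = 0 := by linear_combination -h1
        exact (mul_eq_zero.1 h2).resolve_left (sub_ne_zero.2 hμi1)
    · apply N.zeros hx hxm (S := {k, l}) (by have := Finset.card_le_two (a := k) (b := l); have := N.n; omega) (a := m)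
      intro s hs
      simp only [Finset.mem_insert, Finset.mem_singleton, not_or] at hs
      have h1 := cs s hs.1 hs.2 (x (e m))
      rw [hc, map_smul, smul_eq_mul] at h1
      have h2 : (c - 1) * co h ζ e s (x (e m)) = 0 := by linear_combination h1
      exact (mul_eq_zero.1 h2).resolve_left (sub_ne_zero.2 hc1)
  -- three independent differences
  have hn := N.n
  have hne : Nonempty κ := Fintype.card_pos_iff.1 (by omega)
  obtain ⟨m1⟩ := hne
  obtain ⟨m2, hm2⟩ := exists_not_mem ({m1, π m1, π.symm m1} : Finset κ) (by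
    have := Finset.card_le_three (a := m1) (b := π m1) (c := π.symm m1); omega)
  obtain ⟨m3, hm3⟩ := exists_not_mem ({m1, π m1, π.symm m1, m2, π m2, π.symm m2} : Finset κ) (by
    have := Finset.card_le_six (a := m1) (b := π m1) (c := π.symm m1) (d := m2) (e := π m2) (f := π.symm m2); omega)
  simp only [Finset.mem_insert, Finset.mem_singleton, not_or] at hm2 hm3
  have hsym : ∀ a b, a ≠ π.symm b → b ≠ π a := by
    intro a b hab h0
    apply hab
    rw [h0, Equiv.symm_apply_apply]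
  have hf : ∀ p q : κ, p ≠ q → h (x (e p)) (x (e q)) = 0 := by
    intro p q hpq
    rw [N.Y.le' hx, E.orth hpq]
  have hself : ∀ p : κ, h (x (e p)) (x (e p)) = ζ := by
    intro p
    rw [N.Y.le' hx, E.self]
  -- the products of the differences with the members
  have hd : ∀ m m' : κ, m ≠ m' → m' ≠ π m → h (δ (x (e m)) - x (e m)) (x (e m')) = 0 := by
    intro m m' h1 h2
    obtain ⟨c, hc⟩ := hπ' m
    rw [hc, map_sub, LinearMap.sub_apply, map_smul, LinearMap.smul_apply, hf _ _ h1, hf _ _ (Ne.symm h2)]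
    simp
  have hd' : ∀ m : κ, h (δ (x (e m)) - x (e m)) (x (e m)) = -ζ := by
    intro m
    obtain ⟨c, hc⟩ := hπ' m
    rw [hc, map_sub, LinearMap.sub_apply, map_smul, LinearMap.smul_apply, hf _ _ (hfix m), hself]
    simp
  have hP : ∀ v, δ v - v ∈ Submodule.span F {e k, e l} := by
    intro v
    rw [hδ, E.dl_apply H hkl hμ, Submodule.mem_span_pair]
    exact ⟨_, _, by abel⟩
  have hli : LinearIndependent F ![δ (x (e m1)) - x (e m1), δ (x (e m2)) - x (e m2), δ (x (e m3)) - x (e m3)] := by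
    rw [Fintype.linearIndependent_iff]
    intro g hg
    rw [Fin.sum_univ_three] at hg
    simp only [Matrix.cons_val_zero, Matrix.cons_val_one, Matrix.cons_val] at hg
    have r1 := congrArg (fun v => h v (x (e m1))) hg
    have r2 := congrArg (fun v => h v (x (e m2))) hg
    have r3 := congrArg (fun v => h v (x (e m3))) hg
    simp only [map_add, map_smul, LinearMap.add_apply, LinearMap.smul_apply, map_zero, LinearMap.zero_apply, hd',
      smul_eq_mul] at r1 r2 r3
    rw [hd m2 m1 hm2.1 (hsym _ _ hm2.2.2), hd m3 m1 hm3.1 (hsym _ _ hm3.2.2.1)] at r1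
    rw [hd m1 m2 (Ne.symm hm2.1) hm2.2.1, hd m3 m2 hm3.2.2.2.1 (hsym _ _ hm3.2.2.2.2.2)] at r2
    rw [hd m1 m3 (Ne.symm hm3.1) hm3.2.1, hd m2 m3 (Ne.symm hm3.2.2.2.1) hm3.2.2.2.2.1] at r3
    simp only [mul_zero, add_zero, zero_add, mul_neg, neg_eq_zero] at r1 r2 r3
    intro s
    fin_cases s
    · exact (mul_eq_zero.1 r1).resolve_right E.ne
    · exact (mul_eq_zero.1 r2).resolve_right E.ne
    · exact (mul_eq_zero.1 r3).resolve_right E.ne
  have h1 := finrank_span_eq_card hli
  rw [Fintype.card_fin] at h1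
  have h2 : Submodule.span F (Set.range ![δ (x (e m1)) - x (e m1), δ (x (e m2)) - x (e m2), δ (x (e m3)) - x (e m3)]) ≤
      Submodule.span F {e k, e l} := by
    rw [Submodule.span_le]
    rintro _ ⟨s, rfl⟩
    fin_cases s
    · exact hP _
    · exact hP _
    · exact hP _
  have h3 := Submodule.finrank_mono h2
  rw [h1, E.plane_finrank hkl] at h3
  omega

end NoT

end H95.US
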