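import Mathlib
import Cfsg.Agent.Lib.H95.US10

set_option autoImplicit false
set_option linter.unusedSectionVars false
set_option linter.unusedVariables false

/-!
Overgroups of the monomial subgroup of `SU`: fusion and the final contradiction.
-/

namespace H95.US

open Module H95.UBasic H95.UPair H96.StFus

variable {F V : Type*} [Field F] [AddCommGroup V] [Module F V] {σ : F →+* F}
variable {h : V →ₗ[F] V →ₛₗ[σ] F} [FiniteDimensional F V]
variable {κ : Type*} [Fintype κ] [DecidableEq κ] {e : κ → V} {ζ : F} {X : Subgroup (V ≃ₗ[F] V)} [Fintype F]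

/-- an element of norm one of prime order -/
lemma exists_prime_norm (H : IsSkew h) : ∃ r : ℕ, r.Prime ∧ ∃ l : F, l * σ l = 1 ∧ l ≠ 1 ∧ l ^ r = 1 := by
  obtain ⟨l, hl, hl1⟩ := exists_norm_one H
  have hl0 := norm_ne hl
  have hpow : ∀ n : ℕ, (l ^ n) * σ (l ^ n) = 1 := fun n => by rw [map_pow, ← mul_pow, hl, one_pow]
  have hfin : IsOfFinOrder l := by
    rw [isOfFinOrder_iff_pow_eq_one]
    refine ⟨Fintype.card F - 1, ?_, FiniteField.pow_card_sub_one_eq_one l hl0⟩
    have := Fintype.one_lt_card (α := F)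
    omega
  have hpos : 0 < orderOf l := orderOf_pos_iff.2 hfin
  have hne : orderOf l ≠ 1 := fun h0 => hl1 (orderOf_eq_one_iff.1 h0)
  obtain ⟨r, hr, m, hm⟩ := Nat.exists_prime_and_dvd hne
  refine ⟨r, hr, l ^ m, hpow m, ?_, ?_⟩
  · intro h0
    have h1 := orderOf_dvd_of_pow_eq_one h0
    have hm0 : 0 < m := by
      rcases Nat.eq_zero_or_pos m with h2 | h2
      · rw [h2, mul_zero] at hm; omega
      · exact h2
    have h2 := Nat.le_of_dvd hm0 h1
    have h3 := hr.two_le
    nlinarith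
  · rw [← pow_mul, mul_comm, ← hm, pow_orderOf_eq_one]

/-- the monomial elements of `X` -/
def MonX (E : ON h ζ e) (X : Subgroup (V ≃ₗ[F] V)) : Subgroup X where
  carrier := {g | Mon e (g : V ≃ₗ[F] V)}
  mul_mem' ha hb := Mon.mul ha hb
  one_mem' := Mon.one
  inv_mem' ha := Mon.inv E ha

/-- elements acting trivially modulo a subspace -/
def TrW (X : Subgroup (V ≃ₗ[F] V)) (W : Submodule F V) : Subgroup X where
  carrier := {g | ∀ v, (g : V ≃ₗ[F] V) v - v ∈ W}
  mul_mem' {a b} ha hb v := by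
    have h1 := ha ((b : V ≃ₗ[F] V) v)
    have h2 := W.add_mem h1 (hb v)
    rwa [sub_add_sub_cancel] at h2
  one_mem' v := by
    show v - v ∈ W
    rw [sub_self]; exact W.zero_mem
  inv_mem' {a} ha v := by
    have h1 := ha ((a : V ≃ₗ[F] V)⁻¹ v)
    have h2 : (a : V ≃ₗ[F] V) ((a : V ≃ₗ[F] V)⁻¹ v) = v := (a : V ≃ₗ[F] V).apply_symm_apply v
    rw [h2] at h1
    rw [← neg_sub]; exact W.neg_mem h1

namespace NoT

lemma dl_sub (N : NoT h ζ e X) {i j : κ} (hij : i ≠ j) {μ : F} (hμ : μ * σ μ = 1) (v : V) :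
    dl h e i j μ v - v ∈ Submodule.span F {e i, e j} := by
  rw [N.Y.E.dl_apply N.Y.H hij hμ, Submodule.mem_span_pair]
  exact ⟨_, _, by abel⟩

lemma dl_pow (N : NoT h ζ e X) {i j : κ} (hij : i ≠ j) {μ : F} (hμ : μ * σ μ = 1) {r : ℕ} (hr : μ ^ r = 1) :
    dl h e i j μ ^ r = 1 := by
  have H := N.Y.H
  have E := N.Y.E
  have hμ0 := norm_ne hμ
  have key : ∀ n : ℕ, ∀ v : V, (co h ζ e i ((dl h e i j μ ^ n) v) = μ ^ n * co h ζ e i v) ∧
      (co h ζ e j ((dl h e i j μ ^ n) v) = (μ⁻¹) ^ n * co h ζ e j v) ∧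
      ∀ k, k ≠ i → k ≠ j → co h ζ e k ((dl h e i j μ ^ n) v) = co h ζ e k v := by
    intro n
    induction n with
    | zero => intro v; simp
    | succ n ih =>
      intro v
      obtain ⟨h1, h2, h3⟩ := ih v
      rw [pow_succ', LinearEquiv.mul_apply, E.dl_apply H hij hμ]
      refine ⟨?_, ?_, fun k hki hkj => ?_⟩
      · rw [map_add, map_add, map_smul, map_smul, E.co_self, E.co_ne hij, h1]
        simp only [smul_eq_mul]; ring
      · rw [map_add, map_add, map_smul, map_smul, E.co_self, E.co_ne hij.symm, h2]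
        simp only [smul_eq_mul]; ring
      · rw [map_add, map_add, map_smul, map_smul, E.co_ne hki, E.co_ne hkj, h3 k hki hkj]
        simp
  apply LinearEquiv.ext
  intro v
  apply E.ext
  intro k
  obtain ⟨h1, h2, h3⟩ := key r v
  by_cases hki : k = i
  · rw [hki, h1, hr, one_mul]; rfl
  by_cases hkj : k = j
  · rw [hkj, h2, inv_pow, hr, inv_one, one_mul]; rfl
  exact h3 k hki hkj

/-- fusion -/
lemma fus (N : NoT h ζ e X) {g : V ≃ₗ[F] V} (hg : g ∈ X) {i j k l : κ} (hij : i ≠ j) (hkl : k ≠ l) (m : κ) :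
    ∃ c1 c2 : F, ∃ m' : κ, ∀ s, s ≠ k → s ≠ l → s ≠ m' → co h ζ e s (g (e m + c1 • e i + c2 • e j)) = 0 := by
  have H := N.Y.H
  have E := N.Y.E
  obtain ⟨r, hr, μ, hμ, hμ1, hμr⟩ := exists_prime_norm H
  have : Fact r.Prime := ⟨hr⟩
  have hfin : Finite (V ≃ₗ[F] V) := by
    have : Finite V := Module.finite_of_finite F
    exact Finite.of_injective (fun e : V ≃ₗ[F] V => (e : V → V)) DFunLike.coe_injective
  have hfinX : Finite X := inferInstance
  have hgood : ∀ i j (hij : i ≠ j), Good (MonX E X) r ⟨dl h e i j μ, N.Y.dl_mem hij hμ⟩ := by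
    intro i j hij
    refine ⟨?_, ?_, ?_⟩
    · show Mon e (dl h e i j μ)
      refine ⟨1, fun a => ?_⟩
      rw [Equiv.Perm.one_apply, E.dl_apply H hij hμ]
      by_cases hai : a = i
      · subst hai
        refine ⟨μ, ?_⟩
        rw [E.co_self, E.co_ne hij.symm, mul_zero, zero_smul, add_zero, mul_one, sub_smul, one_smul]; abel
      · by_cases haj : a = j
        · subst haj
          refine ⟨μ⁻¹, ?_⟩
          rw [E.co_self, E.co_ne hij, mul_zero, zero_smul, add_zero, mul_one, sub_smul, one_smul]; abel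
        · refine ⟨1, ?_⟩
          rw [E.co_ne (Ne.symm hai), E.co_ne (Ne.symm haj), mul_zero, mul_zero, zero_smul, zero_smul, add_zero,
            add_zero, one_smul]
    · rintro ⟨x, hx⟩
      obtain ⟨n, rfl⟩ := Subgroup.mem_zpowers_iff.mp hx
      refine ⟨1, Subtype.ext ?_⟩
      show ((⟨dl h e i j μ, N.Y.dl_mem hij hμ⟩ : X) ^ n) ^ r ^ 1 = 1
      rw [pow_one, ← zpow_natCast, ← zpow_mul, mul_comm, zpow_mul, zpow_natCast]
      have : (⟨dl h e i j μ, N.Y.dl_mem hij hμ⟩ : X) ^ r = 1 := Subtype.ext (N.dl_pow hij hμ hμr)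
      rw [this, one_zpow]
    · rintro ⟨x, hx⟩ hxm
      exact N.good hx hij hμ hμ1 hxm
  set W := Submodule.span F {e k, e l} ⊔ (Submodule.span F {e i, e j}).map (g : V →ₗ[F] V) with hW
  obtain ⟨c, hc, hcg⟩ := fusion (C := TrW X W) (g := ⟨g, hg⟩) (hgood k l hkl) (hgood i j hij) (by
    intro v
    exact Submodule.mem_sup_left (N.dl_sub hkl hμ v)) (by
    intro v
    show g (dl h e i j μ (g⁻¹ v)) - v ∈ W
    have h1 : g (g⁻¹ v) = v := g.apply_symm_apply v
    have h2 : g (dl h e i j μ (g⁻¹ v)) - v = g (dl h e i j μ (g⁻¹ v) - g⁻¹ v) := by rw [map_sub, h1]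
    rw [h2]
    exact Submodule.mem_sup_right ⟨_, N.dl_sub hij hμ _, rfl⟩)
  obtain ⟨π, hπ⟩ := (hcg : Mon e ((c : V ≃ₗ[F] V) * g))
  obtain ⟨α, hα⟩ := hπ m
  have hc' := (TrW X W).inv_mem hc ((c : V ≃ₗ[F] V) (g (e m)))
  have h1 : ((c⁻¹ : X) : V ≃ₗ[F] V) ((c : V ≃ₗ[F] V) (g (e m))) = g (e m) := by
    show (c : V ≃ₗ[F] V)⁻¹ ((c : V ≃ₗ[F] V) (g (e m))) = g (e m)
    exact (c : V ≃ₗ[F] V).symm_apply_apply _
  rw [h1] at hc'
  have hα' : (c : V ≃ₗ[F] V) (g (e m)) = α • e (π m) := hα
  rw [hα'] at hc'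
  obtain ⟨y, hy, w, hw, hyw⟩ := Submodule.mem_sup.1 hc'
  obtain ⟨u, hu, rfl⟩ := hw
  obtain ⟨a, b, rfl⟩ := Submodule.mem_span_pair.1 hy
  obtain ⟨a', b', rfl⟩ := Submodule.mem_span_pair.1 hu
  refine ⟨-a', -b', π m, fun s hsk hsl hsm => ?_⟩
  have h2 : g (e m + (-a') • e i + (-b') • e j) = α • e (π m) + (a • e k + b • e l) := by
    have h3 : g (e m) = α • e (π m) + (a • e k + b • e l) + g (a' • e i + b' • e j) := by
      have : (a • e k + b • e l) + g (a' • e i + b' • e j) = g (e m) - α • e (π m) := hyw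
      rw [add_assoc, this]; abel
    rw [map_add, map_add, h3, map_add, map_smul, map_smul, map_smul, map_smul, neg_smul, neg_smul]
    abel
  rw [h2, map_add, map_smul, map_add, map_smul, map_smul, E.co_ne hsm, E.co_ne hsk, E.co_ne hsl]
  simp

omit [Fintype F] [FiniteDimensional F V] [DecidableEq κ] in
/-- supports in spans -/
lemma supp_span {ι' : Type*} {x : ι' → V} {S : Finset κ} (hx : ∀ a, ∀ k, k ∉ S → co h ζ e k (x a) = 0) :
    ∀ v ∈ Submodule.span F (Set.range x), ∀ k, k ∉ S → co h ζ e k v = 0 := by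
  intro v hv k hk
  have : Submodule.span F (Set.range x) ≤ LinearMap.ker (co h ζ e k) := by
    rw [Submodule.span_le]
    rintro _ ⟨a, rfl⟩
    exact hx a k hk
  exact this hv

/-- a subspace of a span of three vectors, of dimension at least three, or with a small support -/
lemma alt (N : NoT h ζ e X) {g : V ≃ₗ[F] V} (i1 i2 i3 : κ) {ι' : Type*} {x : ι' → V}
    (hx : ∀ a, x a ∈ Submodule.span F {g (e i1), g (e i2), g (e i3)}) :
    ∃ (r : ℕ) (f : Fin r → ι'), r ≤ 3 ∧ (∀ a, x a ∈ Submodule.span F (Set.range (x ∘ f))) ∧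
      (r = 3 → g (e i1) ∈ Submodule.span F (Set.range (x ∘ f))) := by
  obtain ⟨f0, hf0, hf1, hf2⟩ := Submodule.exists_fun_fin_finrank_span_eq F (Set.range x)
  choose f hf using hf0
  have hle : Submodule.span F (Set.range x) ≤ Submodule.span F {g (e i1), g (e i2), g (e i3)} := by
    rw [Submodule.span_le]
    rintro _ ⟨a, rfl⟩
    exact hx a
  have h3 : finrank F (Submodule.span F {g (e i1), g (e i2), g (e i3)}) ≤ 3 := by
    classical
    have h1 := finrank_span_finset_le_card (R := F) ({g (e i1), g (e i2), g (e i3)} : Finset V)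
    have h2 := Finset.card_le_three (a := g (e i1)) (b := g (e i2)) (c := g (e i3))
    have e1 : ((({g (e i1), g (e i2), g (e i3)} : Finset V)) : Set V) = {g (e i1), g (e i2), g (e i3)} := by
      simp
    rw [e1] at h1
    exact h1.trans h2
  have hff : x ∘ f = f0 := by
    funext i; exact hf i
  refine ⟨_, f, ?_, ?_, ?_⟩
  · exact (Submodule.finrank_mono hle).trans h3
  · intro a
    rw [hff, hf1]
    exact Submodule.subset_span ⟨a, rfl⟩
  · intro hr
    rw [hff, hf1]
    have h4 := Submodule.eq_of_le_of_finrank_le hle (by rw [hr]; exact h3)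
    rw [h4]
    exact Submodule.subset_span (by simp)

theorem final (N : NoT h ζ e X) {g : V ≃ₗ[F] V} (hg : g ∈ X) (hgm : ¬ Mon e g) : False := by
  have H := N.Y.H
  have E := N.Y.E
  have hn := N.n
  have hne : Nonempty κ := Fintype.card_pos_iff.1 (by omega)
  obtain ⟨i1⟩ := hne
  obtain ⟨i2, hi2⟩ := exists_not_mem ({i1} : Finset κ) (by rw [Finset.card_singleton]; omega)
  obtain ⟨i3, hi3⟩ := exists_not_mem ({i1, i2} : Finset κ) (by have := Finset.card_le_two (a := i1) (b := i2); omega)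
  simp only [Finset.mem_insert, Finset.mem_singleton, not_or] at hi2 hi3
  -- step one
  have step1 : ∀ j : κ, ∃ c1 c2 : F, ∃ m : κ, ∀ s, s ≠ j → s ≠ m → co h ζ e s (g (e i3 + c1 • e i1 + c2 • e i2)) = 0 := by
    intro j
    have h1 : ∀ l : {l : κ // l ≠ j}, ∃ c1 c2 : F, ∃ m' : κ, ∀ s, s ≠ j → s ≠ l.1 → s ≠ m' →
        co h ζ e s (g (e i3 + c1 • e i1 + c2 • e i2)) = 0 := fun l =>
      N.fus hg (Ne.symm hi2) (Ne.symm l.2) i3
    choose c1 c2 m' hm' using h1
    obtain ⟨r, f, hr, hf1, hf2⟩ := N.alt (g := g) i1 i2 i3 (x := fun l : {l : κ // l ≠ j} =>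
      g (e i3 + c1 l • e i1 + c2 l • e i2)) (by
        intro l
        simp only [map_add, map_smul]
        have s1 : g (e i1) ∈ Submodule.span F {g (e i1), g (e i2), g (e i3)} := Submodule.subset_span (by simp)
        have s2 : g (e i2) ∈ Submodule.span F {g (e i1), g (e i2), g (e i3)} := Submodule.subset_span (by simp)
        have s3 : g (e i3) ∈ Submodule.span F {g (e i1), g (e i2), g (e i3)} := Submodule.subset_span (by simp)
        exact Submodule.add_mem _ (Submodule.add_mem _ s3 (Submodule.smul_mem _ _ s1)) (Submodule.smul_mem _ _ s2))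
    set S : Finset κ := insert j (Finset.univ.biUnion fun a : Fin r => {(f a).1, m' (f a)}) with hS
    have hScard : S.card ≤ 1 + r * 2 := by
      refine (Finset.card_insert_le _ _).trans ?_
      have h2 := Finset.card_biUnion_le_card_mul (Finset.univ : Finset (Fin r))
        (fun a : Fin r => ({(f a).1, m' (f a)} : Finset κ)) 2 (fun a _ => Finset.card_le_two)
      rw [Finset.card_univ, Fintype.card_fin] at h2
      omega
    have hSx : ∀ a : Fin r, ∀ k, k ∉ S → co h ζ e k (g (e i3 + c1 (f a) • e i1 + c2 (f a) • e i2)) = 0 := by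
      intro a k hk
      rw [hS, Finset.mem_insert, not_or, Finset.mem_biUnion] at hk
      apply hm' (f a) k hk.1
      · intro h0
        exact hk.2 ⟨a, Finset.mem_univ a, by rw [h0]; simp⟩
      · intro h0
        exact hk.2 ⟨a, Finset.mem_univ a, by rw [h0]; simp⟩
    have hSv := supp_span (x := (fun l : {l : κ // l ≠ j} => g (e i3 + c1 l • e i1 + c2 l • e i2)) ∘ f) hSx
    by_cases hr3 : r = 3
    · exfalso
      exact N.zeros hg hgm (S := S) (by omega) (hSv _ (hf2 hr3))
    · obtain ⟨l, hl⟩ := exists_not_mem S (by omega)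
      have hlj : l ≠ j := fun h0 => hl (by rw [h0, hS]; exact Finset.mem_insert_self _ _)
      refine ⟨c1 ⟨l, hlj⟩, c2 ⟨l, hlj⟩, m' ⟨l, hlj⟩, fun s hsj hsm => ?_⟩
      by_cases hsl : s = l
      · rw [hsl]
        exact hSv _ (hf1 ⟨l, hlj⟩) l hl
      · exact hm' ⟨l, hlj⟩ s hsj hsl hsm
  choose c1 c2 m' hm' using step1
  obtain ⟨r, f, hr, hf1, hf2⟩ := N.alt (g := g) i1 i2 i3 (x := fun j : κ =>
    g (e i3 + c1 j • e i1 + c2 j • e i2)) (by
      intro l
      simp only [map_add, map_smul]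
      have s1 : g (e i1) ∈ Submodule.span F {g (e i1), g (e i2), g (e i3)} := Submodule.subset_span (by simp)
      have s2 : g (e i2) ∈ Submodule.span F {g (e i1), g (e i2), g (e i3)} := Submodule.subset_span (by simp)
      have s3 : g (e i3) ∈ Submodule.span F {g (e i1), g (e i2), g (e i3)} := Submodule.subset_span (by simp)
      exact Submodule.add_mem _ (Submodule.add_mem _ s3 (Submodule.smul_mem _ _ s1)) (Submodule.smul_mem _ _ s2))
  set S : Finset κ := Finset.univ.biUnion fun a : Fin r => {f a, m' (f a)} with hS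
  have hScard : S.card ≤ r * 2 := by
    have h2 := Finset.card_biUnion_le_card_mul (Finset.univ : Finset (Fin r))
      (fun a : Fin r => ({f a, m' (f a)} : Finset κ)) 2 (fun a _ => Finset.card_le_two)
    rw [Finset.card_univ, Fintype.card_fin] at h2
    exact h2
  have hSx : ∀ a : Fin r, ∀ k, k ∉ S → co h ζ e k (g (e i3 + c1 (f a) • e i1 + c2 (f a) • e i2)) = 0 := by
    intro a k hk
    rw [hS, Finset.mem_biUnion] at hk
    apply hm' (f a) k
    · intro h0
      exact hk ⟨a, Finset.mem_univ a, by rw [h0]; simp⟩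
    · intro h0
      exact hk ⟨a, Finset.mem_univ a, by rw [h0]; simp⟩
  have hSv := supp_span (x := (fun j : κ => g (e i3 + c1 j • e i1 + c2 j • e i2)) ∘ f) hSx
  by_cases hr3 : r = 3
  · exact N.zeros hg hgm (S := S) (by omega) (hSv _ (hf2 hr3))
  · obtain ⟨j, hj⟩ := exists_not_mem S (by omega)
    -- the vector of `j` is a multiple of a member
    obtain ⟨v, hv⟩ : ∃ v, v = e i3 + c1 j • e i1 + c2 j • e i2 := ⟨_, rfl⟩
    have h1 : ∀ s, s ≠ m' j → co h ζ e s (g v) = 0 := by
      intro s hs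
      rw [hv]
      by_cases hsj : s = j
      · rw [hsj]; exact hSv _ (hf1 j) j hj
      · exact hm' j s hsj hs
    have h2 : g v = co h ζ e (m' j) (g v) • e (m' j) := by
      apply E.ext
      intro k
      rw [map_smul]
      by_cases hk : k = m' j
      · rw [hk, E.co_self, smul_eq_mul, mul_one]
      · rw [E.co_ne hk, smul_zero, h1 k hk]
    have hv0 : v ≠ 0 := by
      intro h0
      have h3 : co h ζ e i3 v = 0 := by rw [h0, map_zero]
      rw [hv, map_add, map_add, map_smul, map_smul, E.co_self, E.co_ne hi3.1, E.co_ne hi3.2] at h3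
      simp at h3
    obtain ⟨γ, hγ⟩ : ∃ γ, γ = co h ζ e (m' j) (g v) := ⟨_, rfl⟩
    rw [← hγ] at h2
    have hc0 : γ ≠ 0 := by
      intro h0
      rw [h0, zero_smul] at h2
      exact hv0 ((LinearEquiv.map_eq_zero_iff g).1 h2)
    have h3 : g⁻¹ (e (m' j)) = γ⁻¹ • v := by
      have h4 : g⁻¹ (g v) = v := g.symm_apply_apply v
      rw [h2, map_smul] at h4
      rw [← h4, smul_smul, inv_mul_cancel₀ hc0, one_smul]
    apply N.zeros (X.inv_mem hg) (fun h0 => hgm (by have := Mon.inv E h0; rwa [inv_inv] at this))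
      (S := {i1, i2, i3}) (by have := Finset.card_le_three (a := i1) (b := i2) (c := i3); omega) (a := m' j)
    intro k hk
    simp only [Finset.mem_insert, Finset.mem_singleton, not_or] at hk
    rw [h3, map_smul, hv, map_add, map_add, map_smul, map_smul, E.co_ne hk.1, E.co_ne hk.2.1, E.co_ne hk.2.2]
    simp

end NoT

/-- overgroups of the monomial group, `q ≥ 3` -/
theorem HypF.overgroup_q (Y : HypF h ζ e X) (hK : 3 ≤ (Kf σ).card) (hn : 9 ≤ Fintype.card κ) (hd : 7 ≤ finrank F V)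
    {g : V ≃ₗ[F] V} (hg : g ∈ X) (hgm : ¬ Mon e g) : SU h ≤ X := by
  classical
  by_cases hno : ∀ z, T h X z → z = 0
  · exact absurd (NoT.final ⟨Y, hK, hn, hno⟩ hg hgm) id
  · push Not at hno
    obtain ⟨z, hz, hz0⟩ := hno
    refine Y.fill (by omega) hd ?_ hz hz0
    by_contra hcon
    push Not at hcon
    have h1 : Kf σ ⊆ {0, 1} := by
      intro x hx
      rw [Finset.mem_insert, Finset.mem_singleton]
      by_cases hx0 : x = 0
      · exact Or.inl hx0
      · exact Or.inr (hcon x (mem_Kf.1 hx) hx0)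
    have h2 := Finset.card_le_card h1
    have h3 : ({0, 1} : Finset F).card ≤ 2 := Finset.card_le_two
    omega

/-- overgroups of the monomial group -/
theorem HypF.overgroup (Y : HypF h ζ e X) (hn : 9 ≤ Fintype.card κ) (hd : 7 ≤ finrank F V)
    {g : V ≃ₗ[F] V} (hg : g ∈ X) (hgm : ¬ Mon e g) : SU h ≤ X := by
  classical
  by_cases hK : 3 ≤ (Kf σ).card
  · exact Y.overgroup_q hK hn hd hg hgm
  · refine Y.overgroup_two (by omega) hd ?_ hg hgm
    intro c hc
    by_contra hcon
    push Not at hcon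
    apply hK
    have h1 : ({0, 1, c} : Finset F) ⊆ Kf σ := by
      intro x hx
      simp only [Finset.mem_insert, Finset.mem_singleton] at hx
      rw [mem_Kf]
      rcases hx with rfl | rfl | rfl
      · exact map_zero σ
      · exact map_one σ
      · exact hc
    have h2 := Finset.card_le_card h1
    rw [Finset.card_eq_three.2 ⟨0, 1, c, zero_ne_one, Ne.symm hcon.1, Ne.symm hcon.2, rfl⟩] at h2
    exact h2

end H95.US
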