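import Mathlib
import Cfsg.Agent.Lib.H95.US11
import Cfsg.Agent.Lib.H95.UBridge
import Cfsg.Agent.Lib.H95.OImpB

set_option autoImplicit false
set_option linter.unusedSectionVars false
set_option linter.unusedVariables false

/-!
Stabilisers of non-degenerate decompositions of unitary spaces are maximal.
-/

namespace H95.US

open Module H95.UBasic H95.UPair H95.Bridge H95.UBridge Cfsg Cfsg.Geo

section frames

variable {F V : Type*} [Field F] [AddCommGroup V] [Module F V] {σ : F →+* F}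
variable {h : V →ₗ[F] V →ₛₗ[σ] F} [FiniteDimensional F V]
variable {ι : Type*} [Fintype ι] [DecidableEq ι] {D : ι → Submodule F V} {p : ι → V →ₗ[F] V}

lemma exists_frame (H : IsSkew h) (U : UD h D p) (hk : ∀ i, finrank F (D i) = 1) :
    ∃ (ζ : F) (e : ι → V), ON h ζ e ∧ (∀ i, e i ∈ D i) ∧ ∀ i, ∀ x ∈ D i, ∃ c : F, x = c • e i := by
  obtain ⟨ζ, hζ, hζ0⟩ := exists_skew_ne H
  choose e he hee using fun i => value_nd H (U.nd i) (by rw [hk i]) hζ
  have hne : ∀ i, e i ≠ 0 := by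
    intro i h0
    have := hee i
    rw [h0, map_zero] at this
    exact hζ0 this.symm
  have hsp : ∀ i, ∀ x ∈ D i, ∃ c : F, x = c • e i := by
    intro i x hx
    have h1 : Submodule.span F {e i} ≤ D i := by
      rw [Submodule.span_le, Set.singleton_subset_iff]; exact he i
    have h2 : Submodule.span F {e i} = D i := by
      apply Submodule.eq_of_le_of_finrank_eq h1
      rw [hk i, finrank_span_singleton (hne i)]
    rw [← h2] at hx
    obtain ⟨c, hc⟩ := Submodule.mem_span_singleton.1 hx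
    exact ⟨c, hc.symm⟩
  refine ⟨ζ, e, ⟨hζ, hζ0, ?_, ?_⟩, he, hsp⟩
  · intro a b
    by_cases hab : a = b
    · rw [if_pos hab, ← hab]; exact hee a
    · rw [if_neg hab]; exact U.orth a b hab _ (he a) _ (he b)
  · intro x
    conv_rhs => rw [← U.sum x]
    refine Finset.sum_congr rfl fun i _ => ?_
    obtain ⟨c, hc⟩ := hsp i _ (U.mem i x)
    rw [U.pl x (he i), hc, map_smul, LinearMap.smul_apply, hee, smul_eq_mul]
    congr 1
    field_simp

lemma pres_iff_mon {ζ : F} {e : ι → V} (E : ON h ζ e) (he : ∀ i, e i ∈ D i)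
    (hsp : ∀ i, ∀ x ∈ D i, ∃ c : F, x = c • e i) (g : V ≃ₗ[F] V) : Pres D g ↔ Mon e g := by
  constructor
  · rintro ⟨π, hπ⟩
    exact ⟨π, fun i => hsp (π i) _ (hπ i _ (he i))⟩
  · rintro ⟨π, hπ⟩
    refine ⟨π, fun i x hx => ?_⟩
    obtain ⟨c, rfl⟩ := hsp i x hx
    obtain ⟨d, hd⟩ := hπ i
    rw [map_smul, hd]
    exact (D (π i)).smul_mem _ ((D (π i)).smul_mem _ (he _))

theorem Hyp.overgroup1 [Fintype F] {X : Subgroup (V ≃ₗ[F] V)} (Y : Hyp h D p X) (hk : ∀ i, finrank F (D i) = 1)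
    (hι : 9 ≤ Fintype.card ι) (hn : 7 ≤ finrank F V) {g : V ≃ₗ[F] V} (hg : g ∈ X) (hgp : ¬ Pres D g) : SU h ≤ X := by
  obtain ⟨ζ, e, E, he, hsp⟩ := exists_frame Y.H Y.U hk
  have hiff := pres_iff_mon E he hsp
  have Y' : HypF h ζ e X := ⟨Y.H, E, Y.le, fun g hg hm => Y.mem g hg ((hiff g).2 hm)⟩
  exact Y'.overgroup hι hn hg (fun hm => hgp ((hiff g).2 hm))

theorem exists_not1 (H : IsSkew h) (U : UD h D p) (hk : ∀ i, finrank F (D i) = 1) (hι : 4 ≤ Fintype.card ι) :
    ∃ g ∈ SU h, ¬ Pres D g := by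
  obtain ⟨ζ, e, E, he, hsp⟩ := exists_frame H U hk
  have hiff := pres_iff_mon E he hsp
  obtain ⟨f⟩ : Nonempty (Fin 4 ↪ ι) := Function.Embedding.nonempty_of_card_le (by rw [Fintype.card_fin]; exact hι)
  have hf : ∀ s t, s ≠ t → f s ≠ f t := fun s t hst h0 => hst (f.injective h0)
  obtain ⟨μ, hμ⟩ := H.norm (-1) (by rw [map_neg, map_one])
  have hμ0 : μ ≠ 0 := by
    rintro rfl
    rw [zero_mul] at hμ
    exact one_ne_zero (neg_eq_zero.1 hμ.symm)
  obtain ⟨v, hv⟩ : ∃ v, v = ((1 : F) • e (f 0) + μ • e (f 1)) + ((1 : F) • e (f 2) + μ • e (f 3)) := ⟨_, rfl⟩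
  have h01 := hf 0 1 (by decide)
  have h23 := hf 2 3 (by decide)
  have o1 := E.orth2 (hf 0 2 (by decide)) (hf 0 3 (by decide)) (hf 1 2 (by decide)) (hf 1 3 (by decide)) 1 μ 1 μ
  have hiso : h v v = 0 := by
    have key : ∀ A B : V, h A B = 0 → h A A + h B B = 0 → h (A + B) (A + B) = 0 := by
      intro A B h1 h2
      have h3 := H.symm_zero h1
      have h4 : h (A + B) (A + B) = h A A + h A B + (h B A + h B B) := by
        simp only [map_add, LinearMap.add_apply]
        abel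
      rw [h4, h1, h3, add_zero, zero_add, h2]
    rw [hv]
    apply key _ _ o1
    rw [E.n2 h01, E.n2 h23, map_one, hμ]
    ring
  have hev : h (e (f 0)) v = ζ := by
    rw [hv, map_add, E.h2, E.h2, E.co_self, E.co_ne h01.symm, E.co_ne (hf 2 0 (by decide)), E.co_ne (hf 3 0 (by decide))]
    simp
  refine ⟨rf h v 1, tr_mem_SU H hiso (map_one σ), fun hp => ?_⟩
  obtain ⟨π, hπ⟩ := (hiff _).1 hp
  obtain ⟨c, hc⟩ := hπ (f 0)
  rw [rf_apply (tr_good hiso (map_one σ)), one_mul, hev] at hc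
  have c2 : co h ζ e (f 2) (e (f 0) + ζ • v) = ζ := by
    rw [hv]
    simp only [map_add, map_smul, E.co_self, E.co_ne (hf 2 0 (by decide)), E.co_ne (hf 2 1 (by decide)), E.co_ne h23]
    simp
  have c3 : co h ζ e (f 3) (e (f 0) + ζ • v) = ζ * μ := by
    rw [hv]
    simp only [map_add, map_smul, E.co_self, E.co_ne (hf 3 0 (by decide)), E.co_ne (hf 3 1 (by decide)), E.co_ne h23.symm]
    simp
  rw [hc, map_smul] at c2 c3
  by_cases h2 : f 2 = π (f 0)
  · have h3 : f 3 ≠ π (f 0) := fun h0 => h23 (h2.trans h0.symm)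
    rw [E.co_ne h3, smul_zero] at c3
    exact mul_ne_zero E.ne hμ0 c3.symm
  · rw [E.co_ne h2, smul_zero] at c2
    exact E.ne c2.symm

end frames

variable {F : Type*} [Field F] [Fintype F]

lemma exists_real {q : ℕ} (hF : Fintype.card F = q ^ 2) (hq : q ≠ 2) {σ : F →+* F} (hσ : ∀ a, σ a = a ^ q) :
    ∃ r : F, σ r = r ∧ r ≠ 0 ∧ r ≠ 1 := by
  by_contra hcon
  push Not at hcon
  have h1 : ∀ x : Fˣ, x ^ (q + 1) = 1 := by
    intro x
    rw [← Units.val_inj, Units.val_pow_eq_pow_val, Units.val_one]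
    have hx : (x : F) ^ (q + 1) = x * σ x := by rw [hσ, pow_succ, mul_comm]
    rw [hx]
    apply hcon
    · rw [map_mul, sigma_inv hF hσ, mul_comm]
    · rw [← hx]; exact pow_ne_zero _ x.ne_zero
  have h2 := (FiniteField.forall_pow_eq_one_iff F (q + 1)).1 h1
  have h3 := Nat.le_of_dvd (by omega) h2
  have h4 := one_lt_q hF
  rw [hF] at h3
  have h5 : 3 ≤ q := by omega
  have h6 : q ^ 2 ≥ 3 * q := by nlinarith
  omega

theorem decomp_max (n q : ℕ) (hF : Fintype.card F = q ^ 2) (hn : 9 ≤ n) {t : ℕ} (k : ℕ)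
    (D : Fin t → Submodule F (Fin n → F)) (hD : IsNondegenerateMDecomposition (hermForm n F q) k D)
    (hex : ¬ (k = 2 ∧ q = 2)) :
    IsMaximalIn (GU n F q ⊓ specialLinear (Fin n) F) (decompositionStabilizer D ⊓ (GU n F q ⊓ specialLinear (Fin n) F)) := by
  obtain ⟨σ, h, ζ, H, hζ, hσ, hζσ, hh⟩ := exists_form n hF
  have hmem := mem_SUn hζ hh
  have hfr : finrank F (Fin n → F) = n := by rw [Module.finrank_fintype_fun_eq_card, Fintype.card_fin]
  have hk := hD.decomp.finrank_eq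
  have ht := hD.decomp.two_le
  have hpos := hD.decomp.pos
  have hcard := H95.OImpB.card_eq hD.decomp
  rw [Fintype.card_fin] at hcard
  have hnt : Nontrivial (Fin t) := Fin.nontrivial_iff_two_le.2 ht
  obtain ⟨p, U⟩ := exists_UD H D (fun i v hv h0 => by
      by_contra hne
      obtain ⟨x, hx, hx'⟩ := (hD.nondegenerate i v hv hne).2
      have := h0 x hx
      rw [hh] at this
      exact hx' ((mul_eq_zero.1 this).resolve_left hζ))
    (fun i j hij u hu v hv => by rw [hh, hD.orthogonal i j hij u hu v hv, mul_zero]) hD.decomp.iSup_eq_top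
  have hstab : ∀ {g : GL (Fin n) F}, g ∈ decompositionStabilizer D ↔ Pres D (toEq (Fin n) F g) :=
    fun {g} => H95.OImpB.mem_stab_iff hk
  apply isMaximalIn_of
  · obtain ⟨g, hg, hgp⟩ : ∃ g ∈ SU h, ¬ Pres D g := by
      by_cases hk1 : k = 1
      · exact exists_not1 H U (fun i => by rw [hk, hk1]) (by
          rw [Fintype.card_fin]
          rw [hk1, mul_one] at hcard
          omega)
      · obtain ⟨i, j, hij⟩ := exists_pair_ne (Fin t)
        exact exists_not2 H U (fun i => by rw [hk]; omega) hij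
    refine ⟨(toEq _ F).symm g, ?_, ?_⟩
    · rw [hmem, MulEquiv.apply_symm_apply]; exact hg
    · rw [hstab, MulEquiv.apply_symm_apply]; exact hgp
  · intro M hHM hMK ⟨g, hg, hgS⟩
    apply le_of_map hmem
    have Y : Hyp h D p (M.map (toEq _ F).toMonoidHom) := by
      refine ⟨H, U, ?_, ?_⟩
      · rintro _ ⟨x, hx, rfl⟩
        exact (hmem x).1 (hMK hx)
      · intro x hx hp
        rw [mem_map_toEq]
        refine hHM ⟨?_, ?_⟩
        · exact hstab.2 (by rw [MulEquiv.apply_symm_apply]; exact hp)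
        · exact (hmem _).2 (by rw [MulEquiv.apply_symm_apply]; exact hx)
    have hgM : toEq _ F g ∈ M.map (toEq _ F).toMonoidHom := ⟨g, hg, rfl⟩
    have hgp : ¬ Pres D (toEq _ F g) := fun hp => hgS (hstab.2 hp)
    by_cases hk1 : k = 1
    · rw [hk1, mul_one] at hcard
      exact Y.overgroup1 (fun i => by rw [hk, hk1]) (by rw [Fintype.card_fin]; omega) (by omega) hgM hgp
    · refine Y.overgroup2 hk (by omega) ?_ (by omega) hgM hgp
      by_cases hk3 : 3 ≤ k
      · exact Or.inl fun i => by rw [hk]; exact hk3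
      · have hk2 : k = 2 := by omega
        exact Or.inr (exists_real hF (fun h0 => hex ⟨hk2, h0⟩) hσ)

end H95.US
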